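import Mathlib
import Cfsg.Prelude.Def_Sporadic_a
import Cfsg.Prelude.Def_Spor_Conway
import Cfsg.Agent.Helper28.CoAut
import Cfsg.Agent.S5553

/-!
A quadratic form on the rank-24 lattice modulo twice the lattice that is invariant under the
monomial automorphisms vanishes on the vectors all of whose coordinates are congruent modulo 4
to one even number.
-/

set_option autoImplicit false

namespace Cfsg.Agent.Helper28.QuadA

open Cfsg Cfsg.Agent.Helper28.Code Cfsg.Agent.Helper28.Leech

/-- pair vectors `4 s e_i + 4 t e_j` -/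
def pv (i j : GolayPt) (s t : ℤ) : GolayPt → ℤ :=
  fun k => (if k = i then 4 * s else 0) + (if k = j then 4 * t else 0)

theorem mem_of_mod4 (x : GolayPt → ℤ) (h4 : ∀ i, x i % 4 = 0) (hs : (∑ i, x i) % 8 = 0) :
    x ∈ leechLattice := by
  rw [mem_leechLattice_iff]
  exact Cfsg.Spor.mem_leechSet_of_const_mod_four x 0 0 (Int.ModEq.refl _)
    (fun i => by unfold Int.ModEq; rw [h4 i]; rfl) (by unfold Int.ModEq; rw [hs]; rfl)

theorem pv_sum (i j : GolayPt) (s t : ℤ) : ∑ k, pv i j s t k = 4 * s + 4 * t := by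
  unfold pv
  rw [Finset.sum_add_distrib, Finset.sum_ite_eq', Finset.sum_ite_eq']
  simp

theorem pv_mod4 (i j : GolayPt) (s t : ℤ) (k : GolayPt) : pv i j s t k % 4 = 0 := by
  unfold pv; split_ifs <;> omega

theorem pv_mem (i j : GolayPt) {s t : ℤ} (hs : s = 1 ∨ s = -1) (ht : t = 1 ∨ t = -1) :
    pv i j s t ∈ leechLattice := by
  apply mem_of_mod4
  · exact pv_mod4 i j s t
  · rw [pv_sum]; rcases hs with rfl | rfl <;> rcases ht with rfl | rfl <;> norm_num

theorem pv_comm (i j : GolayPt) (s t : ℤ) : pv i j s t = pv j i t s := by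
  funext k; unfold pv; ring

theorem pv_neg (i j : GolayPt) (s t : ℤ) : -pv i j s t = pv i j (-s) (-t) := by
  funext k; simp only [pv, Pi.neg_apply]; split_ifs <;> ring

theorem pv_add_chain (i j k : GolayPt) (s t t' : ℤ) :
    pv i j s t + pv j k (-t) t' = pv i k s t' := by
  funext l; simp only [pv, Pi.add_apply]; split_ifs <;> ring

theorem pv_sub_chain (i j k : GolayPt) (s t t' : ℤ) :
    pv i j s t - pv j k t t' = pv i k s (-t') := by
  funext l; simp only [pv, Pi.sub_apply]; split_ifs <;> ring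

theorem neg_sign {t : ℤ} (ht : t = 1 ∨ t = -1) : -t = 1 ∨ -t = -1 := by
  rcases ht with rfl | rfl <;> simp

/-- the hypotheses on the form -/
structure Hyp (Qr : (GolayPt → ℤ) → ZMod 2) : Prop where
  hc : ∀ x ∈ leechLattice, ∀ w ∈ leechLattice, Qr (x + (w + w)) = Qr x
  hq : ∀ u ∈ leechLattice, ∀ v ∈ leechLattice, ∀ w ∈ leechLattice,
    Qr (u + v + w) + Qr u + Qr v + Qr w = Qr (u + v) + Qr (u + w) + Qr (v + w)
  hperm : ∀ σ ∈ M24, ∀ x ∈ leechLattice, Qr (fun i => x (σ i)) = Qr x
  hsign : ∀ c : Finset GolayPt, ofSet c ∈ golayCode → ∀ x ∈ leechLattice,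
    Qr (fun i => if i ∈ c then -x i else x i) = Qr x

theorem two_zero : (2 : ZMod 2) = 0 := by decide

section
variable (Qr : (GolayPt → ℤ) → ZMod 2)

theorem q_zero (H : Hyp Qr) : Qr 0 = 0 := by
  have h := H.hq 0 (zero_mem _) 0 (zero_mem _) 0 (zero_mem _)
  simp only [add_zero] at h
  linear_combination h

theorem q_neg (H : Hyp Qr) {x : GolayPt → ℤ} (hx : x ∈ leechLattice) : Qr (-x) = Qr x := by
  have h := H.hc (-x) (neg_mem hx) x hx
  have e : -x + (x + x) = x := by abel
  rw [e] at h; exact h.symm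

theorem q_sub (H : Hyp Qr) {x y : GolayPt → ℤ} (hx : x ∈ leechLattice) (hy : y ∈ leechLattice) :
    Qr (x - y) = Qr (x + y) := by
  have h := H.hc (x - y) (sub_mem hx hy) y hy
  have e : x - y + (y + y) = x + y := by abel
  rw [e] at h; exact h.symm

/-- the polar form -/
def Br (x y : GolayPt → ℤ) : ZMod 2 := Qr (x + y) + Qr x + Qr y

theorem br_add (H : Hyp Qr) {x y z : GolayPt → ℤ} (hx : x ∈ leechLattice)
    (hy : y ∈ leechLattice) (hz : z ∈ leechLattice) :
    Br Qr x (y + z) = Br Qr x y + Br Qr x z := by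
  unfold Br
  have h := H.hq x hx y hy z hz
  rw [← add_assoc]
  linear_combination h + (Qr (y + z) - Qr x - Qr y - Qr z) * two_zero

theorem br_comm (x y : GolayPt → ℤ) : Br Qr x y = Br Qr y x := by
  unfold Br; rw [add_comm x y]; ring

theorem br_neg (H : Hyp Qr) {x y : GolayPt → ℤ} (hx : x ∈ leechLattice)
    (hy : y ∈ leechLattice) : Br Qr x (-y) = Br Qr x y := by
  unfold Br
  rw [← sub_eq_add_neg, q_sub Qr H hx hy, q_neg Qr H hy]

theorem br_sub' (H : Hyp Qr) {x y : GolayPt → ℤ} (hx : x ∈ leechLattice)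
    (hy : y ∈ leechLattice) : Br Qr x y = Qr (x - y) + Qr x + Qr y := by
  unfold Br; rw [q_sub Qr H hx hy]

theorem br_zero (H : Hyp Qr) (x : GolayPt → ℤ) : Br Qr x 0 = 0 := by
  unfold Br
  rw [add_zero, q_zero Qr H]
  linear_combination (Qr x) * two_zero

theorem br_double (H : Hyp Qr) {x h : GolayPt → ℤ} (hx : x ∈ leechLattice)
    (hh : h ∈ leechLattice) : Br Qr x (h + h) = 0 := by
  unfold Br
  have h1 := H.hc x hx h hh
  have h2 := H.hc 0 (zero_mem _) h hh
  rw [zero_add, q_zero Qr H] at h2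
  rw [h1, h2]
  linear_combination (Qr x) * two_zero

/-- sign changes at one coordinate of a pair vector -/
theorem q_pv_sign (H : Hyp Qr) {i j : GolayPt} (hij : i ≠ j) {s t : ℤ}
    (hs : s = 1 ∨ s = -1) (ht : t = 1 ∨ t = -1) : Qr (pv i j s (-t)) = Qr (pv i j s t) := by
  obtain ⟨o, hoC, -, hjo, hio⟩ := exists_octad_sep i j hij
  have h := H.hsign o hoC (pv i j s t) (pv_mem i j hs ht)
  have e : (fun k => if k ∈ o then -(pv i j s t k) else pv i j s t k) = pv i j s (-t) := by
    funext k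
    unfold pv
    by_cases hki : k = i
    · subst hki
      rw [if_neg hio]
      simp [hij]
    · by_cases hkj : k = j
      · subst hkj
        rw [if_pos hjo]
        simp [hki]
      · simp [hki, hkj]
  rw [e] at h; exact h

/-- all pair vectors have the same value -/
theorem q_pv (H : Hyp Qr) {i j : GolayPt} (hij : i ≠ j) {s t : ℤ}
    (hs : s = 1 ∨ s = -1) (ht : t = 1 ∨ t = -1) :
    Qr (pv i j s t) = Qr (pv none (some 0) 1 1) := by
  have h11 : Qr (pv i j 1 1) = Qr (pv none (some 0) 1 1) := by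
    obtain ⟨σ, hσ, h1, h2⟩ := exists_M24_pair i j hij
    have h := H.hperm σ hσ (pv i j 1 1) (pv_mem i j (Or.inl rfl) (Or.inl rfl))
    have e : (fun k => pv i j 1 1 (σ k)) = pv none (some 0) 1 1 := by
      funext k
      unfold pv
      have e1 : (σ k = i) ↔ (k = none) := by rw [← h1]; exact σ.injective.eq_iff
      have e2 : (σ k = j) ↔ (k = some 0) := by rw [← h2]; exact σ.injective.eq_iff
      simp only [e1, e2]
    rw [e] at h; exact h.symm
  have h1m : Qr (pv i j 1 (-1)) = Qr (pv i j 1 1) :=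
    q_pv_sign Qr H hij (Or.inl rfl) (Or.inl rfl)
  rcases hs with rfl | rfl <;> rcases ht with rfl | rfl
  · exact h11
  · rw [h1m, h11]
  · have e : pv i j (-1) 1 = -pv i j 1 (-1) := by rw [pv_neg]; simp
    rw [e, q_neg Qr H (pv_mem i j (Or.inl rfl) (Or.inr rfl)), h1m, h11]
  · have e : pv i j (-1) (-1) = -pv i j 1 1 := by rw [pv_neg]
    rw [e, q_neg Qr H (pv_mem i j (Or.inl rfl) (Or.inl rfl)), h11]

/-- pair vectors with exactly one common index, in standard position -/
theorem br_chain (H : Hyp Qr) {i j k : GolayPt} (hij : i ≠ j) (hjk : j ≠ k) (hik : i ≠ k)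
    {s t s' t' : ℤ} (hs : s = 1 ∨ s = -1) (ht : t = 1 ∨ t = -1) (hs' : s' = 1 ∨ s' = -1)
    (ht' : t' = 1 ∨ t' = -1) :
    Br Qr (pv i j s t) (pv j k s' t') = Qr (pv none (some 0) 1 1) := by
  have a1 := q_pv Qr H hij hs ht
  have a2 := q_pv Qr H hjk hs' ht'
  have hcase : s' = -t ∨ s' = t := by
    rcases ht with rfl | rfl <;> rcases hs' with rfl | rfl <;> simp
  rcases hcase with rfl | rfl
  · unfold Br
    rw [pv_add_chain, a1, a2, q_pv Qr H hik hs ht']
    linear_combination (Qr (pv none (some 0) 1 1)) * two_zero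
  · rw [br_sub' Qr H (pv_mem i j hs ht) (pv_mem j k hs' ht'), pv_sub_chain, a1, a2,
      q_pv Qr H hik hs (neg_sign ht')]
    linear_combination (Qr (pv none (some 0) 1 1)) * two_zero

theorem exists_third : ∀ i j : GolayPt, ∃ k, k ≠ i ∧ k ≠ j := by decide

/-- pair vectors with the same support -/
theorem br_same (H : Hyp Qr) {i j : GolayPt} (hij : i ≠ j)
    {s t s' t' : ℤ} (hs : s = 1 ∨ s = -1) (ht : t = 1 ∨ t = -1) (hs' : s' = 1 ∨ s' = -1)
    (ht' : t' = 1 ∨ t' = -1) : Br Qr (pv i j s t) (pv i j s' t') = 0 := by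
  obtain ⟨k, hki, hkj⟩ := exists_third i j
  have e : pv i j s' t' = pv i k s' 1 + pv k j (-1) t' := (pv_add_chain i k j s' 1 t').symm
  rw [e, br_add Qr H (pv_mem i j hs ht) (pv_mem i k hs' (Or.inl rfl))
    (pv_mem k j (Or.inr rfl) ht')]
  have b1 : Br Qr (pv i j s t) (pv i k s' 1) = Qr (pv none (some 0) 1 1) := by
    rw [pv_comm i j s t]
    exact br_chain Qr H (Ne.symm hij) (Ne.symm hki) (Ne.symm hkj) ht hs hs' (Or.inl rfl)
  have b2 : Br Qr (pv i j s t) (pv k j (-1) t') = Qr (pv none (some 0) 1 1) := by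
    rw [pv_comm k j (-1) t']
    exact br_chain Qr H hij (Ne.symm hkj) (Ne.symm hki) hs ht ht' (Or.inr rfl)
  rw [b1, b2]
  linear_combination (Qr (pv none (some 0) 1 1)) * two_zero

/-- pair vectors with disjoint supports -/
theorem br_disj (H : Hyp Qr) {i j k l : GolayPt} (hij : i ≠ j) (hki : k ≠ i) (hkj : k ≠ j)
    (hli : l ≠ i) (hlj : l ≠ j)
    {s t s' t' : ℤ} (hs : s = 1 ∨ s = -1) (ht : t = 1 ∨ t = -1) (hs' : s' = 1 ∨ s' = -1)
    (ht' : t' = 1 ∨ t' = -1) : Br Qr (pv i j s t) (pv k l s' t') = 0 := by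
  have e : pv k l s' t' = pv k i s' 1 + pv i l (-1) t' := (pv_add_chain k i l s' 1 t').symm
  rw [e, br_add Qr H (pv_mem i j hs ht) (pv_mem k i hs' (Or.inl rfl))
    (pv_mem i l (Or.inr rfl) ht')]
  have b1 : Br Qr (pv i j s t) (pv k i s' 1) = Qr (pv none (some 0) 1 1) := by
    rw [pv_comm i j s t, pv_comm k i s' 1]
    exact br_chain Qr H (Ne.symm hij) (Ne.symm hki) (Ne.symm hkj) ht hs (Or.inl rfl) hs'
  have b2 : Br Qr (pv i j s t) (pv i l (-1) t') = Qr (pv none (some 0) 1 1) := by
    rw [pv_comm i j s t]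
    exact br_chain Qr H (Ne.symm hij) (Ne.symm hli) (Ne.symm hlj) ht hs (Or.inr rfl) ht'
  rw [b1, b2]
  linear_combination (Qr (pv none (some 0) 1 1)) * two_zero

/-- the number of common indices, modulo 2 -/
def cnt (i j k l : GolayPt) : ZMod 2 :=
  (if k = i ∨ k = j then 1 else 0) + (if l = i ∨ l = j then 1 else 0)

/-- the polar form on two pair vectors -/
theorem br_pv (H : Hyp Qr) {i j k l : GolayPt} (hij : i ≠ j) (hkl : k ≠ l)
    {s t s' t' : ℤ} (hs : s = 1 ∨ s = -1) (ht : t = 1 ∨ t = -1) (hs' : s' = 1 ∨ s' = -1)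
    (ht' : t' = 1 ∨ t' = -1) :
    Br Qr (pv i j s t) (pv k l s' t') = Qr (pv none (some 0) 1 1) * cnt i j k l := by
  unfold cnt
  by_cases hki : k = i
  · subst hki
    by_cases hlj : l = j
    · subst hlj
      rw [br_same Qr H hij hs ht hs' ht']
      simp only [true_or, or_true, if_true]
      linear_combination (-Qr (pv none (some 0) 1 1)) * two_zero
    · have hlk : l ≠ k := Ne.symm hkl
      rw [pv_comm k j s t, br_chain Qr H (Ne.symm hij) hkl (Ne.symm hlj) ht hs hs' ht']
      simp [hlk, hlj]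
  · by_cases hkj : k = j
    · subst hkj
      by_cases hli : l = i
      · subst hli
        rw [pv_comm k l s' t', br_same Qr H hij hs ht ht' hs']
        simp only [true_or, or_true, if_true]
        linear_combination (-Qr (pv none (some 0) 1 1)) * two_zero
      · have hlk : l ≠ k := Ne.symm hkl
        rw [br_chain Qr H hij hkl (Ne.symm hli) hs ht hs' ht']
        simp [hli, hlk]
    · by_cases hli : l = i
      · subst hli
        rw [pv_comm l j s t, pv_comm k l s' t',
          br_chain Qr H (Ne.symm hij) (Ne.symm hki) (Ne.symm hkj) ht hs ht' hs']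
        simp [hki, hkj]
      · by_cases hlj : l = j
        · subst hlj
          rw [pv_comm k l s' t', br_chain Qr H hij (Ne.symm hkj) (Ne.symm hki) hs ht ht' hs']
          simp [hki, hkj]
        · rw [br_disj Qr H hij hki hkj hli hlj hs ht hs' ht']
          simp [hki, hkj, hli, hlj]

/-- the generating set of pair vectors -/
def PV : Set (GolayPt → ℤ) :=
  {p | ∃ i j : GolayPt, ∃ s t : ℤ, i ≠ j ∧ (s = 1 ∨ s = -1) ∧ (t = 1 ∨ t = -1) ∧ p = pv i j s t}

theorem clo_le : AddSubgroup.closure PV ≤ leechLattice := by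
  rw [AddSubgroup.closure_le]
  rintro p ⟨i, j, s, t, -, hs, ht, rfl⟩
  exact pv_mem i j hs ht

theorem sign_cast {s : ℤ} (hs : s = 1 ∨ s = -1) : ((s : ℤ) : ZMod 2) = 1 := by
  rcases hs with rfl | rfl
  · simp
  · decide

theorem cnt_eq {i j k l : GolayPt} (hij : i ≠ j) {s' t' : ℤ}
    (hs' : s' = 1 ∨ s' = -1) (ht' : t' = 1 ∨ t' = -1) :
    cnt i j k l = (((pv k l s' t' i + pv k l s' t' j) / 4 : ℤ) : ZMod 2) := by
  have e : (pv k l s' t' i + pv k l s' t' j) / 4
      = ((if i = k then 1 else 0) + (if j = k then 1 else 0)) * s'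
        + ((if i = l then 1 else 0) + (if j = l then 1 else 0)) * t' := by
    unfold pv
    split_ifs <;> omega
  rw [e]
  push_cast
  rw [sign_cast hs', sign_cast ht']
  unfold cnt
  by_cases hki : k = i
  · subst hki
    have hjk : ¬ (j = k) := fun h => hij h.symm
    by_cases hli : l = k
    · subst hli; simp [hjk]
    · by_cases hlj : l = j
      · subst hlj; simp [hjk, Ne.symm hli]
      · simp [hjk, hli, hlj, Ne.symm hli, Ne.symm hlj]
  · by_cases hkj : k = j
    · subst hkj
      by_cases hli : l = i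
      · subst hli; simp [hij, Ne.symm hij]
      · by_cases hlk : l = k
        · subst hlk; simp [hij, Ne.symm hij]
        · simp [hij, Ne.symm hij, hli, hlk, Ne.symm hli, Ne.symm hlk]
    · by_cases hli : l = i
      · subst hli; simp [hki, hkj, Ne.symm hki, Ne.symm hkj, hij, Ne.symm hij]
      · by_cases hlj : l = j
        · subst hlj; simp [hki, hkj, Ne.symm hki, Ne.symm hkj, hij, Ne.symm hij]
        · simp [hki, hkj, Ne.symm hki, Ne.symm hkj, hli, hlj, Ne.symm hli, Ne.symm hlj]

/-- the polar form with a pair vector, on the span of the pair vectors -/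
theorem br_closure (H : Hyp Qr) {i j : GolayPt} (hij : i ≠ j) {s t : ℤ}
    (hs : s = 1 ∨ s = -1) (ht : t = 1 ∨ t = -1) (v : GolayPt → ℤ)
    (hv : v ∈ AddSubgroup.closure PV) :
    (∀ k, v k % 4 = 0) ∧ Br Qr (pv i j s t) v
      = Qr (pv none (some 0) 1 1) * (((v i + v j) / 4 : ℤ) : ZMod 2) := by
  induction hv using AddSubgroup.closure_induction with
  | mem p hp =>
    obtain ⟨k, l, s', t', hkl, hs', ht', rfl⟩ := hp
    exact ⟨pv_mod4 k l s' t', by rw [br_pv Qr H hij hkl hs ht hs' ht', cnt_eq hij hs' ht']⟩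
  | zero =>
    refine ⟨fun k => rfl, ?_⟩
    rw [br_zero Qr H]
    simp
  | add v w hv hw ihv ihw =>
    refine ⟨fun k => ?_, ?_⟩
    · have h1 := ihv.1 k
      have h2 := ihw.1 k
      rw [Pi.add_apply]; omega
    · rw [br_add Qr H (pv_mem i j hs ht) (clo_le hv) (clo_le hw), ihv.2, ihw.2, ← mul_add,
        ← Int.cast_add]
      congr 2
      have h1 := ihv.1 i
      have h2 := ihw.1 i
      have h3 := ihv.1 j
      have h4 := ihw.1 j
      simp only [Pi.add_apply]
      omega
  | neg v hv ihv =>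
    refine ⟨fun k => ?_, ?_⟩
    · have h1 := ihv.1 k
      rw [Pi.neg_apply]; omega
    · rw [br_neg Qr H (pv_mem i j hs ht) (clo_le hv), ihv.2]
      have h1 := ihv.1 i
      have h3 := ihv.1 j
      have e : (-v i + -v j) / 4 = -((v i + v j) / 4) := by omega
      simp only [Pi.neg_apply]
      rw [e, Int.cast_neg, ZMod.neg_eq_self_mod_two]

/-- vectors with all coordinates divisible by 4 are sums of pair vectors -/
theorem mem_closure_PV (v : GolayPt → ℤ) (h4 : ∀ k, v k % 4 = 0) (hs : (∑ k, v k) % 8 = 0) :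
    v ∈ AddSubgroup.closure PV := by
  have hsum : ∑ k, v k = v none + ∑ a : ZMod 23, v (some a) := Fintype.sum_option _
  have h40 := h4 none
  obtain ⟨m, hm⟩ : ∃ m : ℤ, 8 * m = v none - ∑ a : ZMod 23, v (some a) :=
    ⟨(v none - ∑ a : ZMod 23, v (some a)) / 8, by omega⟩
  have hdiv : ∀ a : ZMod 23, v (some a) / 4 * 4 = v (some a) := by
    intro a
    have := h4 (some a)
    omega
  have e : v = ∑ a : ZMod 23, (v (some a) / 4) • pv (some a) none 1 1
      + m • (pv none (some 0) 1 1 + pv none (some 0) 1 (-1)) := by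
    funext k
    rw [Pi.add_apply, Finset.sum_apply]
    cases k with
    | none =>
      have e1 : ∀ a : ZMod 23, ((v (some a) / 4) • pv (some a) none 1 1) none = v (some a) := by
        intro a
        simp only [Pi.smul_apply, pv, smul_eq_mul]
        simp only [reduceCtorEq, if_false, if_true, zero_add, mul_one]
        exact hdiv a
      rw [Finset.sum_congr rfl (fun a _ => e1 a)]
      simp only [Pi.smul_apply, Pi.add_apply, pv, smul_eq_mul]
      simp only [reduceCtorEq, if_false, if_true, add_zero, mul_one]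
      omega
    | some b =>
      have e1 : ∀ a : ZMod 23, ((v (some a) / 4) • pv (some a) none 1 1) (some b)
          = if b = a then v (some a) else 0 := by
        intro a
        simp only [Pi.smul_apply, pv, smul_eq_mul, Option.some.injEq]
        simp only [reduceCtorEq, if_false, add_zero, mul_one]
        split_ifs
        · exact hdiv a
        · simp
      rw [Finset.sum_congr rfl (fun a _ => e1 a), Finset.sum_ite_eq]
      simp only [Finset.mem_univ, if_true, Pi.smul_apply, Pi.add_apply, pv, smul_eq_mul,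
        Option.some.injEq]
      simp only [reduceCtorEq, if_false, zero_add]
      split_ifs <;> ring
  rw [e]
  have g1 : ∀ a : ZMod 23, pv (some a) none 1 1 ∈ AddSubgroup.closure PV := fun a =>
    AddSubgroup.subset_closure ⟨some a, none, 1, 1, by simp, Or.inl rfl, Or.inl rfl, rfl⟩
  have g2 : pv none (some 0) 1 1 ∈ AddSubgroup.closure PV :=
    AddSubgroup.subset_closure ⟨none, some 0, 1, 1, by simp, Or.inl rfl, Or.inl rfl, rfl⟩
  have g3 : pv none (some 0) 1 (-1) ∈ AddSubgroup.closure PV :=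
    AddSubgroup.subset_closure ⟨none, some 0, 1, -1, by simp, Or.inl rfl, Or.inr rfl, rfl⟩
  exact (AddSubgroup.closure PV).add_mem
    (sum_mem (fun a _ => (AddSubgroup.closure PV).zsmul_mem (g1 a) _))
    ((AddSubgroup.closure PV).zsmul_mem ((AddSubgroup.closure PV).add_mem g2 g3) _)

/-- the common value on pair vectors is zero -/
theorem q_pv_zero (H : Hyp Qr) : Qr (pv none (some 0) 1 1) = 0 := by
  obtain ⟨o, hoC, ho8, hjo, hio⟩ := exists_octad_sep none (some 0) (by simp)
  have hh : Cfsg.Agent.S5553.dbl (ofSet o) ∈ leechLattice := Cfsg.Agent.S5553.dbl_mem _ hoC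
  have hv : Cfsg.Agent.S5553.dbl (ofSet o) + Cfsg.Agent.S5553.dbl (ofSet o)
      ∈ AddSubgroup.closure PV := by
    apply mem_closure_PV
    · intro k
      simp only [Pi.add_apply, Cfsg.Agent.S5553.dbl]
      split_ifs <;> rfl
    · have e : ∑ k, (Cfsg.Agent.S5553.dbl (ofSet o) + Cfsg.Agent.S5553.dbl (ofSet o)) k
          = 4 * (o.card : ℤ) := by
        simp only [Pi.add_apply, Cfsg.Agent.S5553.dbl, supp_ofSet]
        rw [Finset.sum_add_distrib, Finset.sum_ite_mem, Finset.univ_inter, Finset.sum_const,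
          nsmul_eq_mul]
        ring
      rw [e, ho8]; rfl
  have h1 := (br_closure Qr H (i := none) (j := some 0) (by simp) (Or.inl rfl) (Or.inl rfl)
    _ hv).2
  rw [br_double Qr H (pv_mem _ _ (Or.inl rfl) (Or.inl rfl)) hh] at h1
  have e : ((Cfsg.Agent.S5553.dbl (ofSet o) + Cfsg.Agent.S5553.dbl (ofSet o)) none
      + (Cfsg.Agent.S5553.dbl (ofSet o) + Cfsg.Agent.S5553.dbl (ofSet o)) (some 0)) / 4 = 1 := by
    simp only [Pi.add_apply, Cfsg.Agent.S5553.dbl, supp_ofSet, if_neg hio, if_pos hjo]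
    rfl
  rw [e] at h1
  simpa using h1.symm

/-- the form vanishes on the span of the pair vectors -/
theorem q_closure (H : Hyp Qr) (v : GolayPt → ℤ) (hv : v ∈ AddSubgroup.closure PV) :
    Qr v = 0 ∧ ∀ w ∈ AddSubgroup.closure PV, Br Qr v w = 0 := by
  have ha := q_pv_zero Qr H
  induction hv using AddSubgroup.closure_induction with
  | mem p hp =>
    obtain ⟨k, l, s', t', hkl, hs', ht', rfl⟩ := hp
    refine ⟨by rw [q_pv Qr H hkl hs' ht', ha], fun w hw => ?_⟩
    rw [(br_closure Qr H hkl hs' ht' w hw).2, ha, zero_mul]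
  | zero =>
    refine ⟨q_zero Qr H, fun w hw => ?_⟩
    rw [br_comm, br_zero Qr H]
  | add v w hv hw ihv ihw =>
    refine ⟨?_, fun u hu => ?_⟩
    · have h := ihv.2 w hw
      unfold Br at h
      rw [ihv.1, ihw.1] at h
      simpa using h
    · rw [br_comm, br_add Qr H (clo_le hu) (clo_le hv) (clo_le hw), br_comm Qr u v,
        br_comm Qr u w, ihv.2 u hu, ihw.2 u hu, add_zero]
  | neg v hv ihv =>
    refine ⟨by rw [q_neg Qr H (clo_le hv), ihv.1], fun u hu => ?_⟩
    rw [br_comm, br_neg Qr H (clo_le hu) (clo_le hv), br_comm, ihv.2 u hu]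

theorem sum_mod8 {x : GolayPt → ℤ} (hx : x ∈ leechLattice) (h : x none % 2 = 0) :
    (∑ i, x i) % 8 = 0 := by
  obtain ⟨m, hm1, hm2, -⟩ := (mem_leechLattice_iff _).mp hx
  have hmn := hm1 none
  unfold Int.ModEq at hmn hm2
  omega

/-- the form vanishes on the lattice vectors congruent modulo 4 to an even constant vector -/
theorem q_even (H : Hyp Qr) (x : GolayPt → ℤ) (hx : x ∈ leechLattice) (h2 : x none % 2 = 0)
    (hall : ∀ i, x i % 4 = x none % 4) : Qr x = 0 := by
  have h4 : x none % 4 = 0 ∨ x none % 4 = 2 := by omega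
  rcases h4 with h4 | h4
  · exact (q_closure Qr H x (mem_closure_PV x (fun k => by rw [hall k]; exact h4)
      (sum_mod8 hx h2))).1
  · have hw := Cfsg.Agent.S5553.wOdd_mem
    have hx' : x - (Cfsg.Agent.S5553.wOdd + Cfsg.Agent.S5553.wOdd) ∈ leechLattice :=
      sub_mem hx (add_mem hw hw)
    have hk : ∀ k, (x - (Cfsg.Agent.S5553.wOdd + Cfsg.Agent.S5553.wOdd)) k % 4 = 0 := by
      intro k
      have := hall k
      simp only [Pi.sub_apply, Pi.add_apply, Cfsg.Agent.S5553.wOdd]
      split_ifs <;> omega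
    have h0 := (q_closure Qr H _ (mem_closure_PV _ hk
      (sum_mod8 hx' (by have := hk none; omega)))).1
    have h1 := H.hc _ hx' _ hw
    rw [sub_add_cancel] at h1
    rw [h1, h0]

end

end Cfsg.Agent.Helper28.QuadA
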