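import Mathlib
import Cfsg.Prelude.Def_Sporadic_a
import Cfsg.Prelude.Def_Spor_Conway
import Cfsg.Prelude.Def_Transfer
import Cfsg.Agent.Helper28.Basic
import Cfsg.Agent.Helper28.QuadA

/-!
A group of order `2 ^ 25` with centre of order 2 whose central quotient is identified, compatibly
with the lattice automorphisms, with the rank-24 lattice modulo twice itself has an elementary
abelian subgroup of order `2 ^ 13`.
-/

set_option autoImplicit false

namespace Cfsg.Agent.Helper28.MonsterQ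

open Cfsg Cfsg.Agent.Helper28.Code Cfsg.Agent.Helper28.Leech Cfsg.Agent.Helper28.QuadA

section
variable {P : Type*} [Group P]

/-- indicator of being nontrivial -/
noncomputable def iota (c : P) : ZMod 2 := by
  classical exact if c = 1 then 0 else 1

/-- indicator of having a nontrivial square -/
noncomputable def sqf (q : P) : ZMod 2 := iota (q * q)

theorem iota_one : iota (1 : P) = 0 := by
  classical
  unfold iota; rw [if_pos rfl]

theorem iota_mul (hZ : Nat.card (Subgroup.center P) = 2) {c d : P}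
    (hc : c ∈ Subgroup.center P) (hd : d ∈ Subgroup.center P) :
    iota (c * d) = iota c + iota d := by
  classical
  by_cases h1 : c = 1
  · subst h1; rw [one_mul, iota_one, zero_add]
  · by_cases h2 : d = 1
    · subst h2; rw [mul_one, iota_one, add_zero]
    · have hcd : c = d := Cfsg.Agent.Helper28.eq_of_card_two hZ hc hd h1 h2
      subst hcd
      have hsq : c * c = 1 := by
        have h := pow_card_eq_one' (G := Subgroup.center P) (x := ⟨c, hc⟩)
        rw [hZ] at h
        have h' := congrArg Subtype.val h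
        simpa [pow_two] using h'
      rw [hsq, iota_one]
      unfold iota
      rw [if_neg h1]
      decide

theorem sq_central (hZ : Nat.card (Subgroup.center P) = 2) {c : P}
    (hc : c ∈ Subgroup.center P) : c * c = 1 := by
  have h := pow_card_eq_one' (G := Subgroup.center P) (x := ⟨c, hc⟩)
  rw [hZ] at h
  have h' := congrArg Subtype.val h
  simpa [pow_two] using h'

theorem sqf_mul (hZ : Nat.card (Subgroup.center P) = 2)
    (hsq : ∀ q : P, q * q ∈ Subgroup.center P)
    (hcomm : ∀ a b : P, b * a * b⁻¹ * a⁻¹ ∈ Subgroup.center P) (x y : P) :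
    sqf (x * y) = sqf x + sqf y + iota (y * x * y⁻¹ * x⁻¹) := by
  have hk : ∀ g : P, g * (y * x * y⁻¹ * x⁻¹) = (y * x * y⁻¹ * x⁻¹) * g :=
    Subgroup.mem_center_iff.mp (hcomm x y)
  have e : (x * y) * (x * y) = (y * x * y⁻¹ * x⁻¹) * (x * x) * (y * y) := by
    calc (x * y) * (x * y) = x * (y * x * y⁻¹ * x⁻¹) * x * y * y := by group
      _ = (y * x * y⁻¹ * x⁻¹) * x * x * y * y := by rw [hk x]
      _ = (y * x * y⁻¹ * x⁻¹) * (x * x) * (y * y) := by group
  unfold sqf
  rw [e, iota_mul hZ (Subgroup.mul_mem _ (hcomm x y) (hsq x)) (hsq y),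
    iota_mul hZ (hcomm x y) (hsq x)]
  ring

theorem iota_comm_mul (hZ : Nat.card (Subgroup.center P) = 2)
    (hcomm : ∀ a b : P, b * a * b⁻¹ * a⁻¹ ∈ Subgroup.center P) (a b c : P) :
    iota ((b * c) * a * (b * c)⁻¹ * a⁻¹)
      = iota (b * a * b⁻¹ * a⁻¹) + iota (c * a * c⁻¹ * a⁻¹) := by
  have hk : ∀ g : P, g * (c * a * c⁻¹ * a⁻¹) = (c * a * c⁻¹ * a⁻¹) * g :=
    Subgroup.mem_center_iff.mp (hcomm a c)
  have e : (b * c) * a * (b * c)⁻¹ * a⁻¹ = (c * a * c⁻¹ * a⁻¹) * (b * a * b⁻¹ * a⁻¹) := by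
    calc (b * c) * a * (b * c)⁻¹ * a⁻¹ = b * (c * a * c⁻¹ * a⁻¹) * a * b⁻¹ * a⁻¹ := by group
      _ = (c * a * c⁻¹ * a⁻¹) * b * a * b⁻¹ * a⁻¹ := by rw [hk b]
      _ = (c * a * c⁻¹ * a⁻¹) * (b * a * b⁻¹ * a⁻¹) := by group
  rw [e, iota_mul hZ (hcomm a c) (hcomm a b)]
  ring

theorem sqf_quad (hZ : Nat.card (Subgroup.center P) = 2)
    (hsq : ∀ q : P, q * q ∈ Subgroup.center P)
    (hcomm : ∀ a b : P, b * a * b⁻¹ * a⁻¹ ∈ Subgroup.center P) (a b c : P) :
    sqf (a * b * c) + sqf a + sqf b + sqf c = sqf (a * b) + sqf (a * c) + sqf (b * c) := by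
  rw [mul_assoc, sqf_mul hZ hsq hcomm a (b * c), sqf_mul hZ hsq hcomm a b,
    sqf_mul hZ hsq hcomm a c, iota_comm_mul hZ hcomm a b c]
  ring

theorem sqf_mul_central (hZ : Nat.card (Subgroup.center P) = 2) (q : P) {c : P}
    (hc : c ∈ Subgroup.center P) : sqf (q * c) = sqf q := by
  have hk : ∀ g : P, g * c = c * g := Subgroup.mem_center_iff.mp hc
  have e : (q * c) * (q * c) = q * q := by
    calc (q * c) * (q * c) = q * (c * q) * c := by group
      _ = q * (q * c) * c := by rw [hk q]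
      _ = (q * q) * (c * c) := by group
      _ = q * q := by rw [sq_central hZ hc, mul_one]
  unfold sqf
  rw [e]

theorem sqf_congr (hZ : Nat.card (Subgroup.center P) = 2) {q q' : P}
    (h : (QuotientGroup.mk q : P ⧸ Subgroup.center P) = QuotientGroup.mk q') :
    sqf q = sqf q' := by
  have hc : q⁻¹ * q' ∈ Subgroup.center P := QuotientGroup.eq.mp h
  have e : q' = q * (q⁻¹ * q') := by group
  rw [e, sqf_mul_central hZ q hc]

theorem sqf_eq_zero {q : P} (h : sqf q = 0) : q * q = 1 := by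
  classical
  unfold sqf iota at h
  by_contra hne
  rw [if_neg hne] at h
  exact one_ne_zero h

/-- the main lemma -/
theorem exists_elementary (hZ : Nat.card (Subgroup.center P) = 2)
    (hP : Nat.card P = 2 ^ 25)
    (ψ : leechLattice → P ⧸ Subgroup.center P)
    (hmul : ∀ v w : leechLattice, ψ (v + w) = ψ v * ψ w)
    (hsurj : Function.Surjective ψ)
    (hker : ∀ v : leechLattice, ψ v = 1 ↔ ∃ w : leechLattice, v = w + w)
    (hinv : ∀ g ∈ Co0, ∃ α : P → P, (∀ q, α q * α q = 1 ↔ q * q = 1) ∧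
      ∀ (v : leechLattice) (q : P), ψ v = QuotientGroup.mk q →
        ψ (g v) = QuotientGroup.mk (α q)) :
    ∃ E : Subgroup P, IsElementaryAbelian 2 E ∧ Nat.card E = 2 ^ 13 := by
  classical
  have hdbl : ∀ w : leechLattice, ψ (w + w) = 1 := fun w => (hker _).mpr ⟨w, rfl⟩
  -- squares and commutators are central
  have hsq : ∀ q : P, q * q ∈ Subgroup.center P := by
    intro q
    obtain ⟨v, hv⟩ := hsurj (QuotientGroup.mk q)
    rw [← QuotientGroup.eq_one_iff, QuotientGroup.mk_mul, ← hv, ← hmul]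
    exact hdbl v
  have hcomm : ∀ a b : P, b * a * b⁻¹ * a⁻¹ ∈ Subgroup.center P := by
    intro a b
    obtain ⟨u, hu⟩ := hsurj (QuotientGroup.mk a)
    obtain ⟨v, hv⟩ := hsurj (QuotientGroup.mk b)
    rw [← QuotientGroup.eq_one_iff]
    simp only [QuotientGroup.mk_mul, QuotientGroup.mk_inv]
    rw [← hu, ← hv, ← hmul, add_comm, hmul]
    group
  -- lifts
  have hex : ∀ v : leechLattice, ∃ q : P, QuotientGroup.mk q = ψ v :=
    fun v => QuotientGroup.mk_surjective (ψ v)
  choose L hL using hex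
  have qcoset : ∀ v w : leechLattice, sqf (L (v + (w + w))) = sqf (L v) := by
    intro v w
    apply sqf_congr hZ
    rw [hL, hL, hmul, hdbl, mul_one]
  have qquad : ∀ u v w : leechLattice,
      sqf (L (u + v + w)) + sqf (L u) + sqf (L v) + sqf (L w)
        = sqf (L (u + v)) + sqf (L (u + w)) + sqf (L (v + w)) := by
    intro u v w
    have e1 : sqf (L (u + v + w)) = sqf (L u * L v * L w) := by
      apply sqf_congr hZ
      rw [hL, hmul, hmul]
      simp only [QuotientGroup.mk_mul, hL]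
    have e2 : ∀ a b : leechLattice, sqf (L (a + b)) = sqf (L a * L b) := by
      intro a b
      apply sqf_congr hZ
      rw [hL, hmul]
      simp only [QuotientGroup.mk_mul, hL]
    rw [e1, e2 u v, e2 u w, e2 v w]
    exact sqf_quad hZ hsq hcomm (L u) (L v) (L w)
  have qinv : ∀ g ∈ Co0, ∀ v : leechLattice, sqf (L (g v)) = sqf (L v) := by
    intro g hg v
    obtain ⟨α, hα1, hα2⟩ := hinv g hg
    have h1 := hα2 v (L v) (hL v).symm
    have h2 : sqf (L (g v)) = sqf (α (L v)) := by
      apply sqf_congr hZ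
      rw [hL, h1]
    rw [h2]
    unfold sqf iota
    simp only [hα1]
  -- the form on raw vectors
  let Qr : (GolayPt → ℤ) → ZMod 2 := fun x =>
    if h : x ∈ leechLattice then sqf (L ⟨x, h⟩) else 0
  have hQr : ∀ (x : GolayPt → ℤ) (h : x ∈ leechLattice), Qr x = sqf (L ⟨x, h⟩) := by
    intro x h
    show (if h : x ∈ leechLattice then sqf (L ⟨x, h⟩) else 0) = _
    rw [dif_pos h]
  have H : Hyp Qr := by
    refine ⟨?_, ?_, ?_, ?_⟩
    · intro x hx w hw
      rw [hQr _ (add_mem hx (add_mem hw hw)), hQr _ hx]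
      exact qcoset ⟨x, hx⟩ ⟨w, hw⟩
    · intro u hu v hv w hw
      rw [hQr _ (add_mem (add_mem hu hv) hw), hQr _ hu, hQr _ hv, hQr _ hw,
        hQr _ (add_mem hu hv), hQr _ (add_mem hu hw), hQr _ (add_mem hv hw)]
      exact qquad ⟨u, hu⟩ ⟨v, hv⟩ ⟨w, hw⟩
    · intro σ hσ x hx
      rw [hQr _ (Cfsg.Agent.S0432.result σ hσ x hx), hQr _ hx]
      exact qinv (permAut σ hσ) (permAut_mem σ hσ) ⟨x, hx⟩
    · intro c hc x hx
      have hm : (fun i => if i ∈ c then -x i else x i) ∈ leechLattice :=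
        (signFun c hc ⟨x, hx⟩).2
      rw [hQr _ hm, hQr _ hx]
      exact qinv (signAut c hc) (signAut_mem c hc) ⟨x, hx⟩
  -- the subgroup of the lattice
  have hA0 : ∀ v ∈ Cfsg.Agent.S5553.F.ker, sqf (L v) = 0 := by
    intro v hv
    rw [AddMonoidHom.mem_ker, Cfsg.Agent.S5553.F_apply] at hv
    obtain ⟨hn, hall⟩ := Cfsg.Agent.S5553.fval_zero (Cfsg.Agent.S5553.par v.2) hv
    have h := q_even Qr H (v : GolayPt → ℤ) v.2 hn hall
    rw [hQr _ v.2] at h
    exact h
  have hAidx : (Cfsg.Agent.S5553.F.ker).index = 2 ^ 12 := by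
    rw [AddSubgroup.index_ker]
    have h2 : Nat.card Cfsg.Agent.S5553.F.range = Nat.card golayCode :=
      Nat.card_congr (Equiv.subtypeEquivRight Cfsg.Agent.S5553.range_F)
    rw [h2, Cfsg.Agent.Helper3.golayCode_natCard]
    norm_num
  -- transport to the group
  let ψ' : Multiplicative leechLattice →* P ⧸ Subgroup.center P :=
    MonoidHom.mk' (fun v => ψ (Multiplicative.toAdd v)) (fun a b => hmul _ _)
  have hψ' : ∀ v : Multiplicative leechLattice, ψ' v = ψ (Multiplicative.toAdd v) := fun v => rfl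
  have hkerle : ψ'.ker ≤ AddSubgroup.toSubgroup (Cfsg.Agent.S5553.F.ker) := by
    intro v hv
    rw [MonoidHom.mem_ker, hψ', hker] at hv
    obtain ⟨w, hw⟩ := hv
    show Multiplicative.toAdd v ∈ Cfsg.Agent.S5553.F.ker
    rw [hw, AddMonoidHom.mem_ker, map_add, Cfsg.Agent.Helper28.Code.add_self]
  have hsurj' : Function.Surjective ψ' := by
    intro y
    obtain ⟨v, hv⟩ := hsurj y
    exact ⟨Multiplicative.ofAdd v, hv⟩
  have hidx1 : ((AddSubgroup.toSubgroup (Cfsg.Agent.S5553.F.ker)).map ψ').index = 2 ^ 12 := by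
    rw [Subgroup.index_map, sup_eq_left.mpr hkerle, MonoidHom.range_eq_top.mpr hsurj',
      Subgroup.index_top, mul_one, AddSubgroup.index_toSubgroup, hAidx]
  refine ⟨((AddSubgroup.toSubgroup (Cfsg.Agent.S5553.F.ker)).map ψ').comap
    (QuotientGroup.mk' (Subgroup.center P)), ?_, ?_⟩
  · have hmem : ∀ x : P, x ∈ ((AddSubgroup.toSubgroup (Cfsg.Agent.S5553.F.ker)).map ψ').comap
        (QuotientGroup.mk' (Subgroup.center P)) → x * x = 1 := by
      intro x hx
      rw [Subgroup.mem_comap, Subgroup.mem_map] at hx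
      obtain ⟨v, hv, hvx⟩ := hx
      have hv' : Multiplicative.toAdd v ∈ Cfsg.Agent.S5553.F.ker := hv
      have h0 := hA0 _ hv'
      have hx0 : sqf x = 0 := by
        rw [← h0]
        apply sqf_congr hZ
        rw [hL, ← hψ', hvx]
        rfl
      exact sqf_eq_zero hx0
    refine ⟨⟨⟨fun a b => ?_⟩⟩, fun a ha => ?_⟩
    · apply Subtype.ext
      have ha := hmem a.1 a.2
      have hb := hmem b.1 b.2
      have hab := hmem (a.1 * b.1) (Subgroup.mul_mem _ a.2 b.2)
      have ia : (a.1)⁻¹ = a.1 := inv_eq_of_mul_eq_one_left ha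
      have ib : (b.1)⁻¹ = b.1 := inv_eq_of_mul_eq_one_left hb
      have iab : (a.1 * b.1)⁻¹ = a.1 * b.1 := inv_eq_of_mul_eq_one_left hab
      show a.1 * b.1 = b.1 * a.1
      rw [← iab, mul_inv_rev, ia, ib]
    · rw [pow_two]; exact hmem a ha
  · have h1 := Subgroup.card_mul_index (((AddSubgroup.toSubgroup (Cfsg.Agent.S5553.F.ker)).map
      ψ').comap (QuotientGroup.mk' (Subgroup.center P)))
    rw [Subgroup.index_comap_of_surjective _ (QuotientGroup.mk'_surjective _), hidx1, hP] at h1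
    have h2 : (2 : ℕ) ^ 25 = 2 ^ 13 * 2 ^ 12 := by norm_num
    rw [h2] at h1
    exact Nat.eq_of_mul_eq_mul_right (by norm_num) h1

end

end Cfsg.Agent.Helper28.MonsterQ
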