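import Mathlib
import Cfsg.Prelude.Def_Sporadic_a
import Cfsg.Agent.Helper12.GolayStab2
import Cfsg.Agent.Helper3.M12Core
import Cfsg.Agent.Helper3.M24Trans
import Cfsg.Agent.Helper28.OctData

/-!
The stabilizer of an octad acting on the octads: three nontrivial orbits, of sizes 280, 448, 30
(octads meeting the given one in 4, 2, 0 points); orders of joint stabilizers.
-/

set_option autoImplicit false

namespace Cfsg.Agent.Helper28.OctOrbits

open Cfsg Cfsg.Agent.Helper12 Cfsg.Agent.Helper28.OctData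
open scoped Pointwise

theorem o_cert : certOK (sysAct O8G) 3 OA oPA oTA oRT oRK 759 = true := by decide +kernel

/-- the root of the orbit of octads meeting the first octad in `c` points -/
def rootOf (c : ℕ) : ℕ :=
  bif Nat.beq c 8 then 0 else bif Nat.beq c 4 then 1 else bif Nat.beq c 2 then 5 else 129

theorem o_root : allB 759 (fun k => Nat.beq (get24 oRT k)
    (rootOf (popc (Nat.land (get24 OA 0) (get24 OA k))))) = true := by decide +kernel

/-- the first octad -/
abbrev O0 : Finset GolayPt := ofMask (get24 OA 0)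

theorem O0_mem : O0 ∈ octads := OA_mem (by norm_num : 0 < 759)

/-- the stabilizer of the first octad is transitive on the octads meeting it in a given number
of points -/
theorem O8_trans_octads {o' o'' : Finset GolayPt} (ho' : o' ∈ octads) (ho'' : o'' ∈ octads)
    (h : (O0 ∩ o').card = (O0 ∩ o'').card) : ∃ g ∈ M24, g • O0 = O0 ∧ g • o' = o'' := by
  obtain ⟨k, hk, rfl⟩ := (mem_octads_iff o').mp ho'
  obtain ⟨l, hl, rfl⟩ := (mem_octads_iff o'').mp ho''
  let H : Subgroup (Equiv.Perm GolayPt) := M24 ⊓ MulAction.stabilizer (Equiv.Perm GolayPt) O0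
  have hH : ∀ j, j < 3 → genOf O8G O8Q 3 O8_sys j ∈ H := fun j _ =>
    ⟨genOf_mem_M24 O8G O8Q 3 O8_sys O8_m24 j,
      MulAction.mem_stabilizer_iff.mpr (genOf_fix O8G O8Q 3 O8_sys O8_fix j)⟩
  have hrk := allB_spec o_root k hk
  have hrl := allB_spec o_root l hl
  rw [Nat.beq_eq] at hrk hrl
  rw [card_inter_ofMask, card_inter_ofMask] at h
  obtain ⟨g, ⟨hg1, hg2⟩, e⟩ := golay_orbit O8G O8Q 3 O8_sys H hH OA oPA oTA oRT oRK 759 o_cert
    k l hk hl (by rw [hrk, hrl, h])
  exact ⟨g, hg1, MulAction.mem_stabilizer_iff.mp hg2, e⟩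

/-- the stabilizer of an octad is transitive on the octads meeting it in a given number of
points -/
theorem stab_trans_octads {o o' o'' : Finset GolayPt} (ho : o ∈ octads) (ho' : o' ∈ octads)
    (ho'' : o'' ∈ octads) (h : (o ∩ o').card = (o ∩ o'').card) :
    ∃ g ∈ M24, g • o = o ∧ g • o' = o'' := by
  obtain ⟨g0, hg0, rfl⟩ := M24_trans_octads O0_mem ho
  rw [card_smul_inter_left, card_smul_inter_left] at h
  obtain ⟨g, hg, hgO, hgo⟩ := O8_trans_octads ((smul_mem_octads (inv_mem hg0)).mpr ho')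
    ((smul_mem_octads (inv_mem hg0)).mpr ho'') h
  refine ⟨g0 * g * g0⁻¹, mul_mem (mul_mem hg0 hg) (inv_mem hg0), ?_, ?_⟩
  · rw [mul_smul, inv_smul_smul, mul_smul, hgO]
  · rw [mul_smul, mul_smul, hgo, smul_inv_smul]

theorem cnt4 : cntB 759 (fun k => Nat.beq (popc (Nat.land (get24 OA 0) (get24 OA k))) 4) = 280 := by
  decide +kernel

theorem cnt2 : cntB 759 (fun k => Nat.beq (popc (Nat.land (get24 OA 0) (get24 OA k))) 2) = 448 := by
  decide +kernel

theorem cnt0 : cntB 759 (fun k => Nat.beq (popc (Nat.land (get24 OA 0) (get24 OA k))) 0) = 30 := by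
  decide +kernel

theorem count_aux (c : ℕ) :
    {o' : Finset GolayPt | o' ∈ octads ∧ (O0 ∩ o').card = c}.ncard
      = cntB 759 (fun k => Nat.beq (popc (Nat.land (get24 OA 0) (get24 OA k))) c) := by
  apply ncard_eq_cntB OA_strictMono
  intro s
  constructor
  · rintro ⟨hs, hc⟩
    obtain ⟨k, hk, rfl⟩ := (mem_octads_iff s).mp hs
    rw [card_inter_ofMask] at hc
    exact ⟨k, hk, by rw [Nat.beq_eq]; exact hc, rfl⟩
  · rintro ⟨k, hk, hf, rfl⟩
    rw [Nat.beq_eq] at hf
    exact ⟨OA_mem hk, by rw [card_inter_ofMask]; exact hf⟩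

/-- the number of octads meeting a given octad in `c` points does not depend on the octad -/
theorem count_transport {o : Finset GolayPt} (ho : o ∈ octads) (c : ℕ) :
    {o' : Finset GolayPt | o' ∈ octads ∧ (o ∩ o').card = c}.ncard
      = {o' : Finset GolayPt | o' ∈ octads ∧ (O0 ∩ o').card = c}.ncard := by
  obtain ⟨g0, hg0, rfl⟩ := M24_trans_octads O0_mem ho
  apply ncard_transport g0
  intro b
  show (b ∈ octads ∧ (g0 • O0 ∩ b).card = c) ↔ (g0⁻¹ • b ∈ octads ∧ (O0 ∩ g0⁻¹ • b).card = c)
  rw [smul_mem_octads (inv_mem hg0), card_smul_inter_left]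

theorem count_octads_inter {o : Finset GolayPt} (ho : o ∈ octads) :
    {o' : Finset GolayPt | o' ∈ octads ∧ (o ∩ o').card = 4}.ncard = 280 ∧
    {o' : Finset GolayPt | o' ∈ octads ∧ (o ∩ o').card = 2}.ncard = 448 ∧
    {o' : Finset GolayPt | o' ∈ octads ∧ (o ∩ o').card = 0}.ncard = 30 := by
  refine ⟨?_, ?_, ?_⟩
  · rw [count_transport ho, count_aux, cnt4]
  · rw [count_transport ho, count_aux, cnt2]
  · rw [count_transport ho, count_aux, cnt0]

/-- the orbit of `M24` on an octad is the set of all octads -/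
theorem orbit_octad {o : Finset GolayPt} (ho : o ∈ octads) : MulAction.orbit M24 o = octads := by
  ext s
  constructor
  · rintro ⟨g, rfl⟩
    exact (smul_mem_octads g.2).mpr ho
  · intro hs
    obtain ⟨g, hg, rfl⟩ := M24_trans_octads ho hs
    exact ⟨⟨g, hg⟩, rfl⟩

/-- the stabilizer of an octad has order 322560 -/
theorem card_stab_octad {o : Finset GolayPt} (ho : o ∈ octads) :
    Nat.card (MulAction.stabilizer M24 o) = 322560 := by
  have h1 := Subgroup.card_mul_index (MulAction.stabilizer M24 o)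
  rw [MulAction.index_stabilizer, orbit_octad ho, ncard_octads, Cfsg.Agent.Helper3.M24_card] at h1
  omega

/-- the orbit of an octad under the stabilizer of another -/
theorem orbit_stab {o o' : Finset GolayPt} (ho : o ∈ octads) (ho' : o' ∈ octads) :
    MulAction.orbit (MulAction.stabilizer M24 o) o'
      = {o'' : Finset GolayPt | o'' ∈ octads ∧ (o ∩ o'').card = (o ∩ o').card} := by
  ext s
  constructor
  · rintro ⟨g, rfl⟩
    have hg : ((g : M24) : Equiv.Perm GolayPt) • o = o := g.2
    refine ⟨(smul_mem_octads (g : M24).2).mpr ho', ?_⟩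
    show (o ∩ ((g : M24) : Equiv.Perm GolayPt) • o').card = _
    generalize ((g : M24) : Equiv.Perm GolayPt) = σ at hg ⊢
    conv_lhs => rw [← hg]
    exact card_smul_inter _ _ _
  · rintro ⟨hs, hc⟩
    obtain ⟨g, hg, hgo, hgs⟩ := stab_trans_octads ho ho' hs hc.symm
    exact ⟨⟨⟨g, hg⟩, hgo⟩, hgs⟩

/-- orders of the joint stabilizers of two octads -/
theorem card_stab_two_octads {o o' : Finset GolayPt} (ho : o ∈ octads) (ho' : o' ∈ octads) :
    ((o ∩ o').card = 0 →
      Nat.card ↥(MulAction.stabilizer M24 o ⊓ MulAction.stabilizer M24 o') = 10752) ∧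
    ((o ∩ o').card = 4 →
      Nat.card ↥(MulAction.stabilizer M24 o ⊓ MulAction.stabilizer M24 o') = 1152) ∧
    ((o ∩ o').card = 2 →
      Nat.card ↥(MulAction.stabilizer M24 o ⊓ MulAction.stabilizer M24 o') = 720) := by
  have h := Cfsg.Agent.Helper3.card_eq_orbit_mul' (G := M24) (β := Finset GolayPt)
    (MulAction.stabilizer M24 o) o'
  rw [card_stab_octad ho, orbit_stab ho ho'] at h
  obtain ⟨c4, c2, c0⟩ := count_octads_inter ho
  refine ⟨fun hc => ?_, fun hc => ?_, fun hc => ?_⟩
  · rw [hc, c0] at h; omega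
  · rw [hc, c4] at h; omega
  · rw [hc, c2] at h; omega

end Cfsg.Agent.Helper28.OctOrbits
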