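import Mathlib
import Cfsg.Prelude.Def_SporadicCombinatorics
import Cfsg.Agent.Helper12.GolayMore
import Cfsg.Agent.Helper28.Trio
import Cfsg.Agent.Helper28.OctOrbits
import Cfsg.Agent.Helper28.SxTransData
import Cfsg.Agent.Helper28.SxStabData

/-!
Transitivity of the group of the length-24 code on sextets and on trios; the stabilizer of the
first sextet and its orbits on octads, trios and sextets.
-/

set_option autoImplicit false

namespace Cfsg.Agent.Helper28.SxStab

open Cfsg Cfsg.Agent.Helper12 Cfsg.Agent.Helper28.Sext Cfsg.Agent.Helper28.Trio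
open Cfsg.Agent.Helper28.OctOrbits
open scoped Pointwise

def w7 (c : ℕ) : ℕ := Nat.pow 7 c
def wid (v : ℕ) : ℕ := v
def wsq (v : ℕ) : ℕ := Nat.mul v v

theorem or3 {a b c : Bool} (h : (a || b || c) = true) : a = true ∨ b = true ∨ c = true := by
  cases a <;> cases b <;> cases c <;> simp_all

theorem or4 {a b c d : Bool} (h : (a || b || c || d) = true) :
    a = true ∨ b = true ∨ c = true ∨ d = true := by
  cases a <;> cases b <;> cases c <;> cases d <;> simp_all

/-! ## Transitivity on sextets and trios -/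

section trans
open Cfsg.Agent.Helper28.SxTransData

theorem m_img : sxImgOK MG mIM 4 = true := by decide +kernel
theorem m_cert : certI (sxAct mIM) 4 mPA mTA mRT mRK 1771 = true := by decide +kernel
theorem m_root : allB 1771 (fun k => Nat.beq (get24 mRT k) 0) = true := by decide +kernel

theorem M24_trans_sx {k : ℕ} (hk : k < 1771) : ∃ g ∈ M24, g • sx 0 = sx k := by
  have h := orbit_certI M24 sx (genOf MG MQ 4 MG_ok) (sxAct mIM) 4
    (fun j _ => genOf_mem_M24 MG MQ 4 MG_ok MG_m24 j) 1771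
    (fun j hj m hm => (sx_smul MG MQ 4 MG_ok MG_m24 mIM m_img hj hm).1) mPA mTA mRT mRK m_cert k hk
  rw [Nat.eq_of_beq_eq_true (allB_spec m_root k hk)] at h
  exact h

theorem M24_trans_sextets {S S' : Finset (Finset GolayPt)} (hS : S ∈ sextets)
    (hS' : S' ∈ sextets) : ∃ g ∈ M24, g • S = S' := by
  obtain ⟨k, hk, rfl⟩ := sx_complete hS
  obtain ⟨l, hl, rfl⟩ := sx_complete hS'
  obtain ⟨g1, hg1, e1⟩ := M24_trans_sx hk
  obtain ⟨g2, hg2, e2⟩ := M24_trans_sx hl
  refine ⟨g2 * g1⁻¹, mul_mem hg2 (inv_mem hg1), ?_⟩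
  rw [mul_smul, ← e1, inv_smul_smul, e2]

theorem M24_trans_trios {T T' : Finset (Finset GolayPt)} (hT : T ∈ trios)
    (hT' : T' ∈ trios) : ∃ g ∈ M24, g • T = T' := by
  have h1 : 1 < T.card := by rw [hT.1]; norm_num
  obtain ⟨o1, ho1, o2, ho2, hne⟩ := Finset.one_lt_card.1 h1
  have h1' : 1 < T'.card := by rw [hT'.1]; norm_num
  obtain ⟨o1', ho1', o2', ho2', hne'⟩ := Finset.one_lt_card.1 h1'
  obtain ⟨g1, hg1, e1⟩ := M24_trans_octads (hT.2.1 o1 ho1) (hT'.2.1 o1' ho1')
  have hd : Disjoint o1' (g1 • o2) := by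
    rw [← e1, disjoint_smul_iff]; exact hT.2.2 o1 ho1 o2 ho2 hne
  have hd' : Disjoint o1' o2' := hT'.2.2 o1' ho1' o2' ho2' hne'
  obtain ⟨g2, hg2, e2, f2⟩ := stab_trans_octads (hT'.2.1 o1' ho1')
    ((smul_mem_octads hg1).2 (hT.2.1 o2 ho2)) (hT'.2.1 o2' ho2')
    (by rw [Finset.disjoint_iff_inter_eq_empty.1 hd, Finset.disjoint_iff_inter_eq_empty.1 hd'])
  refine ⟨g2 * g1, mul_mem hg2 hg1, ?_⟩
  apply trio_unique (smul_trio (mul_mem hg2 hg1) hT) hT' (o := o1') (o' := o2') _ _ ho1' ho2' hne'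
  · rw [← e2, ← e1, ← mul_smul]; exact Finset.smul_mem_smul_finset ho1
  · rw [← f2, ← mul_smul]; exact Finset.smul_mem_smul_finset ho2

end trans

/-! ## The stabilizer of the first sextet -/

open Cfsg.Agent.Helper28.SxStabData

theorem sg_sys : sysOK sgG sgQ 2 = true := by decide +kernel
theorem sg_m24 : sysM24 sgG 2 = true := by decide +kernel
theorem sg_fix : allB 2 (fun j => anyB 6 (fun i => Nat.beq (sxm 0 i) (sysAct sgG j (sxm 0 0))))
    = true := by decide +kernel

/-- the generators of the stabilizer of the first sextet, as elements of the group -/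
def sgen (j : ℕ) : ↥M24 := ⟨genOf sgG sgQ 2 sg_sys j, genOf_mem_M24 sgG sgQ 2 sg_sys sg_m24 j⟩

theorem sgen_mem (j : ℕ) : sgen j ∈ MulAction.stabilizer ↥M24 (sx 0) :=
  sx_fix sgG sgQ 2 sg_sys sg_m24 0 (by norm_num) sg_fix j

theorem o_img : ocImgOK sgG oIM 2 = true := by decide +kernel
theorem o_cert : certI (ocAct oIM) 2 oPA oTA oRT oRK 759 = true := by decide +kernel
def oRoot (c : ℕ) : ℕ := bif Nat.beq c 4806 then 0 else bif Nat.beq c 378 then 1 else 3
theorem o_root : allB 759 (fun k => Nat.beq (get24 oRT k)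
    (oRoot (inv2c w7 wid 1 (fun _ => get24 OA k) 6 (sxm 0)))) = true := by decide +kernel
theorem o_cnt : cntB 759 (fun k => Nat.beq (get24 oRT k) 0) = 15 ∧
    cntB 759 (fun k => Nat.beq (get24 oRT k) 3) = 360 ∧
    cntB 759 (fun k => Nat.beq (get24 oRT k) 1) = 384 := by decide +kernel
theorem o_all : allB 759 (fun k => Nat.beq (get24 oRT k) 0 || Nat.beq (get24 oRT k) 3 ||
    Nat.beq (get24 oRT k) 1) = true := by decide +kernel

theorem octads_S0 : ∃ X₁ ∈ octads, ∃ X₂ ∈ octads, ∃ X₃ ∈ octads,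
    (MulAction.orbit ↥(MulAction.stabilizer ↥M24 (sx 0)) X₁).ncard = 15 ∧
    (MulAction.orbit ↥(MulAction.stabilizer ↥M24 (sx 0)) X₂).ncard = 360 ∧
    (MulAction.orbit ↥(MulAction.stabilizer ↥M24 (sx 0)) X₃).ncard = 384 ∧
    octads = MulAction.orbit ↥(MulAction.stabilizer ↥M24 (sx 0)) X₁ ∪
      MulAction.orbit ↥(MulAction.stabilizer ↥M24 (sx 0)) X₂ ∪
      MulAction.orbit ↥(MulAction.stabilizer ↥M24 (sx 0)) X₃ := by
  have hcert := orbit_certI (MulAction.stabilizer ↥M24 (sx 0)) oc sgen (ocAct oIM) 2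
    (fun j _ => sgen_mem j) 759
    (fun j hj m hm => (oc_smul sgG sgQ 2 sg_sys oIM o_img hj hm).1) oPA oTA oRT oRK o_cert
  have hsep := sep_of_inv (MulAction.stabilizer ↥M24 (sx 0)) oc 759 octads
    (fun g _ x hx => (smul_mem_octads g.2).2 hx)
    (fun k hk => OA_mem hk) (fun x hx => (mem_octads_iff x).1 hx)
    (fun o => inv2 w7 wid {o} (sx 0))
    (fun g hg x _ => by
      have := inv2_left (B := sx 0) (g := (g : Equiv.Perm GolayPt)) hg w7 wid {x}
      rw [Finset.smul_finset_singleton] at this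
      exact this)
    (fun k => inv2c w7 wid 1 (fun _ => get24 OA k) 6 (sxm 0))
    (fun k hk => by
      rw [oc, ← fam_one]; exact inv2_fam w7 wid (injOn_one _) (sx_injOn (by norm_num)))
    (fun k => get24 oRT k) oRoot (fun k hk => Nat.eq_of_beq_eq_true (allB_spec o_root k hk))
  exact three_orbits (MulAction.stabilizer ↥M24 (sx 0)) oc 759 octads (fun k hk => OA_mem hk)
    (fun x hx => (mem_octads_iff x).1 hx) oc_inj (fun k => get24 oRT k) hcert hsep 0 3 1 15 360 384
    (by norm_num) (by norm_num) (by norm_num) (by decide +kernel) (by decide +kernel)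
    (by decide +kernel) o_cnt.1 o_cnt.2.1 o_cnt.2.2
    (fun k hk => by
      have := or3 (allB_spec o_all k hk)
      simpa only [Nat.beq_eq] using this)

theorem t_img : trImgOK sgG tIM 2 = true := by decide +kernel
theorem t_cert : certI (trAct tIM) 2 tPA tTA tRT tRK 3795 = true := by decide +kernel
def tRoot (c : ℕ) : ℕ := bif Nat.beq c 23176044 then 0 else bif Nat.beq c 69292908 then 6 else
  bif Nat.beq c 324972 then 15 else 32
theorem t_root : allB 3795 (fun k => Nat.beq (get24 tRT k)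
    (tRoot (inv2c w7 wsq 3 (trm k) 6 (sxm 0)))) = true := by decide +kernel
theorem t_cnt : cntB 3795 (fun k => Nat.beq (get24 tRT k) 6) = 15 ∧
    cntB 3795 (fun k => Nat.beq (get24 tRT k) 0) = 180 ∧
    cntB 3795 (fun k => Nat.beq (get24 tRT k) 32) = 720 ∧
    cntB 3795 (fun k => Nat.beq (get24 tRT k) 15) = 2880 := by decide +kernel
theorem t_all : allB 3795 (fun k => Nat.beq (get24 tRT k) 6 || Nat.beq (get24 tRT k) 0 ||
    Nat.beq (get24 tRT k) 32 || Nat.beq (get24 tRT k) 15) = true := by decide +kernel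

theorem trios_S0 : ∃ X₁ ∈ trios, ∃ X₂ ∈ trios, ∃ X₃ ∈ trios, ∃ X₄ ∈ trios,
    (MulAction.orbit ↥(MulAction.stabilizer ↥M24 (sx 0)) X₁).ncard = 15 ∧
    (MulAction.orbit ↥(MulAction.stabilizer ↥M24 (sx 0)) X₂).ncard = 180 ∧
    (MulAction.orbit ↥(MulAction.stabilizer ↥M24 (sx 0)) X₃).ncard = 720 ∧
    (MulAction.orbit ↥(MulAction.stabilizer ↥M24 (sx 0)) X₄).ncard = 2880 ∧
    trios = MulAction.orbit ↥(MulAction.stabilizer ↥M24 (sx 0)) X₁ ∪
      MulAction.orbit ↥(MulAction.stabilizer ↥M24 (sx 0)) X₂ ∪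
      MulAction.orbit ↥(MulAction.stabilizer ↥M24 (sx 0)) X₃ ∪
      MulAction.orbit ↥(MulAction.stabilizer ↥M24 (sx 0)) X₄ := by
  have hcert := orbit_certI (MulAction.stabilizer ↥M24 (sx 0)) tr sgen (trAct tIM) 2
    (fun j _ => sgen_mem j) 3795
    (fun j hj m hm => (tr_smul sgG sgQ 2 sg_sys sg_m24 tIM t_img hj hm).1) tPA tTA tRT tRK t_cert
  have hsep := sep_of_inv (MulAction.stabilizer ↥M24 (sx 0)) tr 3795 trios
    (fun g _ x hx => smul_trio g.2 hx)
    (fun k hk => tr_mem hk) (fun x hx => tr_complete hx)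
    (fun T => inv2 w7 wsq T (sx 0))
    (fun g hg x _ => inv2_left (B := sx 0) (g := (g : Equiv.Perm GolayPt)) hg w7 wsq x)
    (fun k => inv2c w7 wsq 3 (trm k) 6 (sxm 0))
    (fun k hk => inv2_fam w7 wsq (tr_injOn hk) (sx_injOn (by norm_num)))
    (fun k => get24 tRT k) tRoot (fun k hk => Nat.eq_of_beq_eq_true (allB_spec t_root k hk))
  exact four_orbits (MulAction.stabilizer ↥M24 (sx 0)) tr 3795 trios (fun k hk => tr_mem hk)
    (fun x hx => tr_complete hx) tr_inj (fun k => get24 tRT k) hcert hsep 6 0 32 15 15 180 720 2880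
    (by norm_num) (by norm_num) (by norm_num) (by norm_num) (by decide +kernel)
    (by decide +kernel) (by decide +kernel) (by decide +kernel)
    t_cnt.1 t_cnt.2.1 t_cnt.2.2.1 t_cnt.2.2.2
    (fun k hk => by
      have := or4 (allB_spec t_all k hk)
      simpa only [Nat.beq_eq] using this)

theorem s_img : sxImgOK sgG sIM 2 = true := by decide +kernel
theorem s_cert : certI (sxAct sIM) 2 sPA sTA sRT sRK 1771 = true := by decide +kernel
def sRoot (c : ℕ) : ℕ := bif Nat.beq c 14436 then 0 else bif Nat.beq c 828 then 1 else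
  bif Nat.beq c 324 then 7 else 23
theorem s_root : allB 1771 (fun k => Nat.beq (get24 sRT k)
    (sRoot (inv2c w7 wid 6 (sxm k) 6 (sxm 0)))) = true := by decide +kernel
theorem s_cnt : cntB 1771 (fun k => Nat.beq (get24 sRT k) 0) = 1 ∧
    cntB 1771 (fun k => Nat.beq (get24 sRT k) 23) = 90 ∧
    cntB 1771 (fun k => Nat.beq (get24 sRT k) 1) = 240 ∧
    cntB 1771 (fun k => Nat.beq (get24 sRT k) 7) = 1440 := by decide +kernel
theorem s_all : allB 1771 (fun k => Nat.beq (get24 sRT k) 0 || Nat.beq (get24 sRT k) 23 ||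
    Nat.beq (get24 sRT k) 1 || Nat.beq (get24 sRT k) 7) = true := by decide +kernel

theorem sextets_S0 : ∃ X₁ ∈ sextets, ∃ X₂ ∈ sextets, ∃ X₃ ∈ sextets, ∃ X₄ ∈ sextets,
    (MulAction.orbit ↥(MulAction.stabilizer ↥M24 (sx 0)) X₁).ncard = 1 ∧
    (MulAction.orbit ↥(MulAction.stabilizer ↥M24 (sx 0)) X₂).ncard = 90 ∧
    (MulAction.orbit ↥(MulAction.stabilizer ↥M24 (sx 0)) X₃).ncard = 240 ∧
    (MulAction.orbit ↥(MulAction.stabilizer ↥M24 (sx 0)) X₄).ncard = 1440 ∧
    sextets = MulAction.orbit ↥(MulAction.stabilizer ↥M24 (sx 0)) X₁ ∪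
      MulAction.orbit ↥(MulAction.stabilizer ↥M24 (sx 0)) X₂ ∪
      MulAction.orbit ↥(MulAction.stabilizer ↥M24 (sx 0)) X₃ ∪
      MulAction.orbit ↥(MulAction.stabilizer ↥M24 (sx 0)) X₄ := by
  have hcert := orbit_certI (MulAction.stabilizer ↥M24 (sx 0)) sx sgen (sxAct sIM) 2
    (fun j _ => sgen_mem j) 1771
    (fun j hj m hm => (sx_smul sgG sgQ 2 sg_sys sg_m24 sIM s_img hj hm).1) sPA sTA sRT sRK s_cert
  have hsep := sep_of_inv (MulAction.stabilizer ↥M24 (sx 0)) sx 1771 sextets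
    (fun g _ x hx => smul_sextet g.2 hx)
    (fun k hk => sx_mem hk) (fun x hx => sx_complete hx)
    (fun T => inv2 w7 wid T (sx 0))
    (fun g hg x _ => inv2_left (B := sx 0) (g := (g : Equiv.Perm GolayPt)) hg w7 wid x)
    (fun k => inv2c w7 wid 6 (sxm k) 6 (sxm 0))
    (fun k hk => inv2_fam w7 wid (sx_injOn hk) (sx_injOn (by norm_num)))
    (fun k => get24 sRT k) sRoot (fun k hk => Nat.eq_of_beq_eq_true (allB_spec s_root k hk))
  exact four_orbits (MulAction.stabilizer ↥M24 (sx 0)) sx 1771 sextets (fun k hk => sx_mem hk)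
    (fun x hx => sx_complete hx) sx_inj (fun k => get24 sRT k) hcert hsep 0 23 1 7 1 90 240 1440
    (by norm_num) (by norm_num) (by norm_num) (by norm_num) (by decide +kernel)
    (by decide +kernel) (by decide +kernel) (by decide +kernel)
    s_cnt.1 s_cnt.2.1 s_cnt.2.2.1 s_cnt.2.2.2
    (fun k hk => by
      have := or4 (allB_spec s_all k hk)
      simpa only [Nat.beq_eq] using this)

end Cfsg.Agent.Helper28.SxStab
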