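import Cfsg.Agent.Helper28.A5PresData

/-!
# The presentation `⟨x, y | x³, y⁵, (xy)²⟩` of the alternating group of degree 5: the isomorphism (helper28)
-/

set_option autoImplicit false

namespace Cfsg.Agent.Helper28.A5Pres

theorem x_inv : x⁻¹ = x * x := inv_eq_of_mul_eq_one_right x3

theorem y_inv : y⁻¹ = y * (y * (y * y)) := inv_eq_of_mul_eq_one_right y5

theorem closed_x2 (i : ℕ) (hi : i < 60) : ∃ j, j < 60 ∧ W i * x⁻¹ = W j := by
  obtain ⟨j, hj, e⟩ := closed_x i hi
  obtain ⟨k, hk, e'⟩ := closed_x j hj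
  exact ⟨k, hk, by rw [x_inv, ← mul_assoc, e, e']⟩

theorem closed_y2 (i : ℕ) (hi : i < 60) : ∃ j, j < 60 ∧ W i * y⁻¹ = W j := by
  obtain ⟨j, hj, e⟩ := closed_y i hi
  obtain ⟨k, hk, e'⟩ := closed_y j hj
  obtain ⟨l, hl, e''⟩ := closed_y k hk
  obtain ⟨m, hm, e'''⟩ := closed_y l hl
  exact ⟨m, hm, by rw [y_inv, ← mul_assoc, ← mul_assoc, ← mul_assoc, e, e', e'', e''']⟩

/-- Every element of the presented group is one of the 60 words. -/
theorem exists_W (p : P) : ∃ i, i < 60 ∧ p = W i := by
  have hp : p ∈ Subgroup.closure (Set.range (PresentedGroup.of : Fin 2 → P)) := by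
    rw [PresentedGroup.closure_range_of]; trivial
  induction hp using Subgroup.closure_induction_right with
  | one => exact ⟨0, by norm_num, rfl⟩
  | mul_right q _ g hg ih =>
    obtain ⟨i, hi, rfl⟩ := ih
    obtain ⟨k, rfl⟩ := hg
    fin_cases k
    · obtain ⟨j, hj, e⟩ := closed_x i hi
      exact ⟨j, hj, e⟩
    · obtain ⟨j, hj, e⟩ := closed_y i hi
      exact ⟨j, hj, e⟩
  | mul_inv_cancel q _ g hg ih =>
    obtain ⟨i, hi, rfl⟩ := ih
    obtain ⟨k, rfl⟩ := hg
    fin_cases k
    · obtain ⟨j, hj, e⟩ := closed_x2 i hi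
      exact ⟨j, hj, e⟩
    · obtain ⟨j, hj, e⟩ := closed_y2 i hi
      exact ⟨j, hj, e⟩

/-- The image of a generator. -/
def genA : Bool → Equiv.Perm (Fin 5)
  | false => pa
  | true => pb

/-- The value of a word in the symmetric group. -/
def evA (l : List Bool) : Equiv.Perm (Fin 5) := l.foldl (fun acc c => acc * genA c) 1

theorem pa_mem : pa ∈ alternatingGroup (Fin 5) := Equiv.Perm.mem_alternatingGroup.mpr (by decide)

theorem pb_mem : pb ∈ alternatingGroup (Fin 5) := Equiv.Perm.mem_alternatingGroup.mpr (by decide)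

/-- The images of the generators. -/
def img : Fin 2 → alternatingGroup (Fin 5) := ![⟨pa, pa_mem⟩, ⟨pb, pb_mem⟩]

theorem img_rels : ∀ r ∈ rels, FreeGroup.lift img r = 1 := by
  intro r hr
  simp only [rels, Set.mem_insert_iff, Set.mem_singleton_iff] at hr
  rcases hr with rfl | rfl | rfl
  · simp only [map_pow, FreeGroup.lift_apply_of]
    apply Subtype.ext
    show pa ^ 3 = 1
    decide
  · simp only [map_pow, FreeGroup.lift_apply_of]
    apply Subtype.ext
    show pb ^ 5 = 1
    decide
  · simp only [map_pow, map_mul, FreeGroup.lift_apply_of]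
    apply Subtype.ext
    show (pa * pb) ^ 2 = 1
    decide

/-- The homomorphism onto the alternating group. -/
def f : P →* alternatingGroup (Fin 5) := PresentedGroup.toGroup img_rels

theorem f_gen (c : Bool) : ((f (gen c) : alternatingGroup (Fin 5)) : Equiv.Perm (Fin 5)) = genA c := by
  cases c
  · show ((f (PresentedGroup.of 0) : alternatingGroup (Fin 5)) : Equiv.Perm (Fin 5)) = pa
    rw [f, PresentedGroup.toGroup.of]; rfl
  · show ((f (PresentedGroup.of 1) : alternatingGroup (Fin 5)) : Equiv.Perm (Fin 5)) = pb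
    rw [f, PresentedGroup.toGroup.of]; rfl

theorem f_foldl (l : List Bool) : ∀ acc : P,
    ((f (l.foldl (fun acc c => acc * gen c) acc) : alternatingGroup (Fin 5)) : Equiv.Perm (Fin 5))
      = l.foldl (fun acc c => acc * genA c) ((f acc : alternatingGroup (Fin 5)) : Equiv.Perm (Fin 5)) := by
  induction l with
  | nil => intro acc; rfl
  | cons c l ih =>
    intro acc
    rw [List.foldl_cons, List.foldl_cons, ih, map_mul, Subgroup.coe_mul, f_gen]

theorem f_ev (l : List Bool) : ((f (ev l) : alternatingGroup (Fin 5)) : Equiv.Perm (Fin 5)) = evA l := by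
  rw [ev, f_foldl, map_one]; rfl

theorem evA_inj : ∀ i, i < 60 → ∀ j, j < 60 → evA (paths.getD i []) = evA (paths.getD j []) → i = j := by
  decide +kernel

theorem f_W_inj (i j : ℕ) (hi : i < 60) (hj : j < 60) (h : f (W i) = f (W j)) : i = j := by
  apply evA_inj i hi j hj
  rw [← f_ev, ← f_ev]
  exact congrArg Subtype.val h

theorem f_inj : Function.Injective f := by
  intro p q h
  obtain ⟨i, hi, rfl⟩ := exists_W p
  obtain ⟨j, hj, rfl⟩ := exists_W q
  rw [f_W_inj i j hi hj h]

theorem f_surj : Function.Surjective f := by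
  have hinj : Function.Injective (fun i : Fin 60 => f (W i)) := by
    intro i j h
    exact Fin.ext (f_W_inj i j i.2 j.2 h)
  have hcard : Fintype.card (Fin 60) = Fintype.card (alternatingGroup (Fin 5)) := by
    rw [Fintype.card_fin, card_alternatingGroup, Fintype.card_fin]; rfl
  have hb := (Fintype.bijective_iff_injective_and_card _).2 ⟨hinj, hcard⟩
  intro g
  obtain ⟨i, hi⟩ := hb.2 g
  exact ⟨W i, hi⟩

/-- The presented group is the alternating group of degree 5. -/
theorem main : Nonempty (PresentedGroup ({FreeGroup.of (0 : Fin 2) ^ 3, FreeGroup.of (1 : Fin 2) ^ 5,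
    (FreeGroup.of (0 : Fin 2) * FreeGroup.of 1) ^ 2} : Set (FreeGroup (Fin 2))) ≃* alternatingGroup (Fin 5)) :=
  ⟨MulEquiv.ofBijective f ⟨f_inj, f_surj⟩⟩

end Cfsg.Agent.Helper28.A5Pres
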