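import Cfsg.Agent.Helper28.OctA
import Cfsg.Agent.S0363
import Cfsg.Agent.S0364
import Cfsg.Agent.S0365
import Cfsg.Agent.S0366
import Cfsg.Agent.S0369
import Cfsg.Prelude.Def_Sporadic

set_option autoImplicit false
set_option linter.unusedSectionVars false
set_option linter.unusedVariables false

namespace Cfsg.Agent.Helper28.Hyp

section

variable {α : Type*} [Fintype α] [DecidableEq α] {β : Type*} [Fintype β] [DecidableEq β]

theorem permCongr_symm_self (e : α ≃ β) (g' : Equiv.Perm β) :
    e.permCongr (e.symm.permCongr g') = g' := by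
  ext x
  simp [Equiv.permCongr_apply]

/-- conjugating by an isomorphism of set systems -/
theorem aut_conj {B : Set (Finset α)} {B' : Set (Finset β)} (e : α ≃ β)
    (he : (fun b => b.image e) '' B = B') (g : Equiv.Perm α) :
    g ∈ Cfsg.setSystemAut B ↔ e.permCongr g ∈ Cfsg.setSystemAut B' := by
  rw [mem_aut_iff, mem_aut_iff, ← he]
  have h1 : (fun b => b.image (e.permCongr g)) '' ((fun b => b.image e) '' B)
      = (fun b => b.image e) '' ((fun b => b.image g) '' B) := by
    rw [Set.image_image, Set.image_image]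
    apply Set.image_congr
    intro b _
    simp only [Finset.image_image]
    congr 1
    ext x
    simp [Equiv.permCongr_apply]
  rw [h1]
  constructor
  · intro h
    rw [h]
  · intro h
    exact (Set.image_injective.mpr (Finset.image_injective e.injective)) h

/-- the automorphism groups of isomorphic set systems are isomorphic -/
theorem aut_equiv {B : Set (Finset α)} {B' : Set (Finset β)} (e : α ≃ β)
    (he : (fun b => b.image e) '' B = B') :
    ∃ φ : Cfsg.setSystemAut B ≃* Cfsg.setSystemAut B', ∀ g : Cfsg.setSystemAut B, ∀ x : α,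
      ((φ g : Equiv.Perm β)) (e x) = e ((g : Equiv.Perm α) x) := by
  have hmap : (Cfsg.setSystemAut B).map e.permCongrHom.toMonoidHom = Cfsg.setSystemAut B' := by
    ext g'
    rw [Subgroup.mem_map]
    constructor
    · rintro ⟨g, hg, rfl⟩
      exact (aut_conj e he g).mp hg
    · intro hg'
      refine ⟨e.symm.permCongr g', ?_, permCongr_symm_self e g'⟩
      rw [aut_conj e he, permCongr_symm_self]
      exact hg'
  refine ⟨(e.permCongrHom.subgroupMap (Cfsg.setSystemAut B)).trans
    (MulEquiv.subgroupCongr hmap), ?_⟩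
  intro g x
  show (e.permCongr (g : Equiv.Perm α)) (e x) = e ((g : Equiv.Perm α) x)
  rw [Equiv.permCongr_apply, Equiv.symm_apply_apply]

theorem aut_trans_of_equiv {B : Set (Finset α)} {B' : Set (Finset β)} (e : α ≃ β)
    (he : (fun b => b.image e) '' B = B') (n : ℕ)
    (h : MulAction.IsMultiplyPretransitive (Cfsg.setSystemAut B') β n) :
    MulAction.IsMultiplyPretransitive (Cfsg.setSystemAut B) α n := by
  rw [MulAction.isMultiplyPretransitive_iff] at h ⊢
  intro x y
  obtain ⟨g', hg'⟩ := h (x.trans e.toEmbedding) (y.trans e.toEmbedding)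
  have hmem : e.symm.permCongr (g' : Equiv.Perm β) ∈ Cfsg.setSystemAut B := by
    rw [aut_conj e he, permCongr_symm_self]
    exact g'.2
  refine ⟨⟨_, hmem⟩, ?_⟩
  ext i
  have h1 := congrArg (fun z => z i) hg'
  have h2 : (g' : Equiv.Perm β) (e (x i)) = e (y i) := h1
  show e.symm ((g' : Equiv.Perm β) (e (x i))) = y i
  rw [h2, Equiv.symm_apply_apply]

end

/-- the automorphism group of an S(5, 8, 24) -/
theorem aut5824 {α : Type*} [Fintype α] [DecidableEq α] (hα : Fintype.card α = 24)
    {B : Set (Finset α)} (hB : Cfsg.IsSteinerSystem 5 8 B) :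
    Cfsg.IsM24 (Cfsg.setSystemAut B) ∧
      MulAction.IsMultiplyPretransitive (Cfsg.setSystemAut B) α 5 := by
  have hβ : Fintype.card Cfsg.GolayPt = 24 := by decide
  obtain ⟨e, he⟩ := s5824_iso hα hβ hB Cfsg.Agent.S0363.result
  obtain ⟨φ, -⟩ := aut_equiv e he
  have hM : Cfsg.M24 = Cfsg.setSystemAut Cfsg.octads := Cfsg.Agent.S0369.result
  have hs : IsSimpleGroup (Cfsg.setSystemAut Cfsg.octads) := hM ▸ Cfsg.Agent.S0365.result
  have hc : Nat.card (Cfsg.setSystemAut Cfsg.octads) = 244823040 :=
    hM ▸ Cfsg.Agent.S0364.result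
  have ht : MulAction.IsMultiplyPretransitive (Cfsg.setSystemAut Cfsg.octads) Cfsg.GolayPt 5 :=
    hM ▸ Cfsg.Agent.S0366.result
  refine ⟨⟨φ.isSimpleGroup_congr.mpr hs, ?_⟩, aut_trans_of_equiv e he 5 ht⟩
  rw [Nat.card_congr φ.toEquiv, hc]

end Cfsg.Agent.Helper28.Hyp
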