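import Cfsg.Agent.Helper28.AutT
import Cfsg.Agent.S0376
import Cfsg.Agent.S0377

set_option autoImplicit false
set_option linter.unusedSectionVars false
set_option linter.unusedVariables false

namespace Cfsg.Agent.Helper28.Hyp

section

variable {α : Type*} [Fintype α] [DecidableEq α]
variable {β : Type*} [Fintype β] [DecidableEq β]

/-- an isomorphism between the derived designs of two S(5, 8, 24) extends -/
theorem ext58 (hα : Fintype.card α = 24) (hβ : Fintype.card β = 24)
    {W : Set (Finset α)} {W' : Set (Finset β)} (hW : Cfsg.IsSteinerSystem 5 8 W)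
    (hW' : Cfsg.IsSteinerSystem 5 8 W') {q : α} {q' : β}
    {e : {a : α // a ≠ q} ≃ {b : β // b ≠ q'}}
    (heB : (fun b => b.image e) '' dLines W q = dLines W' q') (f : α ≃ β) (hfp : f q = q')
    (hfe : ∀ a (ha : a ≠ q), f a = (e ⟨a, ha⟩ : β)) :
    (fun b => b.image f) '' W = W' := by
  have f_inj : Function.Injective f := f.injective
  have hsubimg : ∀ b : Finset α, Finset.subtype (fun a => a ≠ q') (b.image f)
      = (Finset.subtype (fun a => a ≠ q) b).image e := by
    intro b
    ext y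
    rw [Finset.mem_subtype, Finset.mem_image, Finset.mem_image]
    constructor
    · rintro ⟨x, hx, hxy⟩
      have hxp : x ≠ q := by
        intro h
        rw [h, hfp] at hxy
        exact y.2 hxy.symm
      refine ⟨⟨x, hxp⟩, Finset.mem_subtype.mpr hx, ?_⟩
      apply Subtype.ext
      rw [← hfe x hxp]
      exact hxy
    · rintro ⟨x, hx, rfl⟩
      exact ⟨x.1, Finset.mem_subtype.mp hx, hfe x.1 x.2⟩
  have hpimg : ∀ b : Finset α, q' ∈ b.image f ↔ q ∈ b := by
    intro b
    rw [Finset.mem_image]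
    constructor
    · rintro ⟨x, hx, hxy⟩
      have hxp : x = q := f_inj (hxy.trans hfp.symm)
      rw [← hxp]
      exact hx
    · intro h
      exact ⟨q, h, hfp⟩
  have hblocks : ∀ b ∈ W, b.image f ∈ W' := by
    intro b hb
    by_cases hqb : q ∈ b
    · have hl : Finset.subtype (fun a => a ≠ q) b ∈ dLines W q := ⟨b, hb, hqb, rfl⟩
      have hl' : (Finset.subtype (fun a => a ≠ q) b).image e ∈ dLines W' q' := by
        rw [← heB]
        exact ⟨_, hl, rfl⟩
      obtain ⟨c, hc, hqc, hceq⟩ := hl'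
      have hbc : b.image f = c :=
        sub_ext q' (by rw [hpimg]; exact ⟨fun _ => hqc, fun _ => hqb⟩)
          (by rw [hsubimg]; exact hceq)
      rw [hbc]
      exact hc
    · have hoct := off_oct hα hW hb hqb
      have hoct' := oct_image heB hoct
      rw [← off_eq_oct hβ hW' q'] at hoct'
      unfold offBlocks at hoct'
      rw [Finset.mem_image] at hoct'
      obtain ⟨c, hc, hceq⟩ := hoct'
      rw [Finset.mem_filter, mem_blocksF] at hc
      have hbc : b.image f = c :=
        sub_ext q' (by rw [hpimg]; exact ⟨fun h => absurd h hqb, fun h => absurd h hc.2⟩)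
          (by rw [hsubimg]; exact hceq.symm)
      rw [hbc]
      exact hc.1
  exact iso5 hW hW' hblocks

theorem restrict_aut {W : Set (Finset α)} {q : α} {g : Equiv.Perm α}
    (hgW : ∀ b ∈ W, b.image g ∈ W) (hgq : g q = q) (ĝ : Equiv.Perm {a : α // a ≠ q})
    (hĝ : ∀ x : {a : α // a ≠ q}, (ĝ x : α) = g x.1) :
    ∀ l ∈ dLines W q, l.image ĝ ∈ dLines W q := by
  rintro l ⟨b, hb, hqb, rfl⟩
  refine ⟨b.image g, hgW b hb, ?_, ?_⟩
  · rw [Finset.mem_image]
    exact ⟨q, hqb, hgq⟩
  · ext y
    rw [Finset.mem_image, Finset.mem_subtype, Finset.mem_image]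
    constructor
    · rintro ⟨x, hx, rfl⟩
      exact ⟨x.1, Finset.mem_subtype.mp hx, (hĝ x).symm⟩
    · rintro ⟨a, ha, hay⟩
      have hap : a ≠ q := by
        intro h
        rw [h, hgq] at hay
        exact y.2 hay.symm
      refine ⟨⟨a, hap⟩, Finset.mem_subtype.mpr ha, ?_⟩
      apply Subtype.ext
      rw [hĝ]
      exact hay

/-- the automorphism group of the derived design of an S(5, 8, 24) is the point stabiliser -/
theorem aut_derived58 (hα : Fintype.card α = 24) {W : Set (Finset α)}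
    (hW : Cfsg.IsSteinerSystem 5 8 W) (q : α) :
    ∃ φ : Cfsg.setSystemAut (dLines W q) ≃* MulAction.stabilizer (Cfsg.setSystemAut W) q,
      ∀ (h : Cfsg.setSystemAut (dLines W q)) (x : {a : α // a ≠ q}),
        (((φ h : Cfsg.setSystemAut W) : Equiv.Perm α) x.1)
          = ((h : Equiv.Perm {a : α // a ≠ q}) x : α) := by
  classical
  have hD := dLines58 hW q
  have hnq : ¬ (fun a => a ≠ q) q := fun h => h rfl
  have hext : ∀ h ∈ Cfsg.setSystemAut (dLines W q),
      Equiv.Perm.ofSubtype h ∈ Cfsg.setSystemAut W := by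
    intro h hh
    rw [mem_aut_iff]
    exact ext58 hα hα hW hW (mem_aut_iff.mp hh) (Equiv.Perm.ofSubtype h)
      (Equiv.Perm.ofSubtype_apply_of_not_mem h hnq)
      (fun a ha => Equiv.Perm.ofSubtype_apply_of_mem h ha)
  let f1 : Cfsg.setSystemAut (dLines W q) →* Cfsg.setSystemAut W :=
    (Equiv.Perm.ofSubtype.comp (Subgroup.subtype _)).codRestrict _ (fun h => hext h.1 h.2)
  have hfix : ∀ h, f1 h ∈ MulAction.stabilizer (Cfsg.setSystemAut W) q := by
    intro h
    rw [MulAction.mem_stabilizer_iff]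
    show (Equiv.Perm.ofSubtype (h : Equiv.Perm {a : α // a ≠ q})) q = q
    exact Equiv.Perm.ofSubtype_apply_of_not_mem _ hnq
  let f2 : Cfsg.setSystemAut (dLines W q) →* MulAction.stabilizer (Cfsg.setSystemAut W) q :=
    f1.codRestrict _ hfix
  have hinj : Function.Injective f2 := by
    intro h1 h2 h12
    have h3 : Equiv.Perm.ofSubtype (h1 : Equiv.Perm {a : α // a ≠ q})
        = Equiv.Perm.ofSubtype (h2 : Equiv.Perm {a : α // a ≠ q}) :=
      congrArg (fun z : MulAction.stabilizer (Cfsg.setSystemAut W) q =>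
        ((z : Cfsg.setSystemAut W) : Equiv.Perm α)) h12
    exact Subtype.ext (Equiv.Perm.ofSubtype_injective h3)
  have hsurj : Function.Surjective f2 := by
    rintro ⟨⟨g, hg⟩, hgq⟩
    have hgq' : g q = q := hgq
    have hne : ∀ x, (fun a => a ≠ q) (g x) ↔ (fun a => a ≠ q) x := by
      intro x
      constructor
      · intro h hx
        exact h (by rw [hx, hgq'])
      · intro h hx
        exact h (g.injective (hx.trans hgq'.symm))
    have hmem : g.subtypePerm hne ∈ Cfsg.setSystemAut (dLines W q) := by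
      rw [mem_aut_iff]
      exact iso4 hD hD (restrict_aut (fun b hb => aut_image hg hb) hgq' _ (fun x => rfl))
    refine ⟨⟨_, hmem⟩, ?_⟩
    apply Subtype.ext
    apply Subtype.ext
    show Equiv.Perm.ofSubtype (g.subtypePerm hne) = g
    apply Equiv.Perm.ofSubtype_subtypePerm
    intro x hx hxq
    exact hx (by rw [hxq, hgq'])
  refine ⟨MulEquiv.ofBijective f2 ⟨hinj, hsurj⟩, ?_⟩
  intro h x
  show Equiv.Perm.ofSubtype (h : Equiv.Perm {a : α // a ≠ q}) x.1 = _
  exact Equiv.Perm.ofSubtype_apply_coe _ x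

theorem cons_emb_exists {γ : Type*} (q : γ) (x : Fin 4 ↪ {a : γ // a ≠ q}) :
    ∃ x' : Fin 5 ↪ γ, x' 0 = q ∧ ∀ i : Fin 4, x' i.succ = (x i).1 := by
  refine ⟨⟨Fin.cons q (fun j => (x j).1), ?_⟩, rfl, fun i => rfl⟩
  intro i j h
  induction i using Fin.cases with
  | zero =>
    induction j using Fin.cases with
    | zero => rfl
    | succ j =>
      exfalso
      simp only [Fin.cons_zero, Fin.cons_succ] at h
      exact (x j).2 h.symm
  | succ i =>
    induction j using Fin.cases with
    | zero =>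
      exfalso
      simp only [Fin.cons_zero, Fin.cons_succ] at h
      exact (x i).2 h
    | succ j =>
      simp only [Fin.cons_succ] at h
      rw [x.injective (Subtype.ext h)]

end

/-- the automorphism group of an S(4, 7, 23) -/
theorem aut4723 {α : Type*} [Fintype α] [DecidableEq α] (hα : Fintype.card α = 23)
    {B : Set (Finset α)} (hB : Cfsg.IsSteinerSystem 4 7 B) :
    Cfsg.IsM23 (Cfsg.setSystemAut B) ∧
      MulAction.IsMultiplyPretransitive (Cfsg.setSystemAut B) α 4 := by
  have hβ : Fintype.card Cfsg.GolayPt = 24 := by decide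
  have hOct := Cfsg.Agent.S0363.result
  have hD := dLines58 hOct (none : Cfsg.GolayPt)
  have hcP := card_sub24 hβ (none : Cfsg.GolayPt)
  obtain ⟨e, he⟩ := s4723_iso hα hcP hB hD
  obtain ⟨φ, -⟩ := aut_equiv e he
  obtain ⟨φ2, hφ2⟩ := aut_derived58 hβ hOct (none : Cfsg.GolayPt)
  have hM : Cfsg.M24 = Cfsg.setSystemAut Cfsg.octads := Cfsg.Agent.S0369.result
  have hs : IsSimpleGroup (MulAction.stabilizer (Cfsg.setSystemAut Cfsg.octads)
      (none : Cfsg.GolayPt)) := hM ▸ Cfsg.Agent.S0377.result none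
  have hc : Nat.card (MulAction.stabilizer (Cfsg.setSystemAut Cfsg.octads)
      (none : Cfsg.GolayPt)) = 10200960 := hM ▸ Cfsg.Agent.S0376.result none
  have ht5 : MulAction.IsMultiplyPretransitive (Cfsg.setSystemAut Cfsg.octads) Cfsg.GolayPt 5 :=
    hM ▸ Cfsg.Agent.S0366.result
  have ht4 : MulAction.IsMultiplyPretransitive
      (Cfsg.setSystemAut (dLines Cfsg.octads (none : Cfsg.GolayPt)))
      {a : Cfsg.GolayPt // a ≠ none} 4 := by
    rw [MulAction.isMultiplyPretransitive_iff] at ht5 ⊢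
    intro x y
    obtain ⟨x', hx0, hxs⟩ := cons_emb_exists (none : Cfsg.GolayPt) x
    obtain ⟨y', hy0, hys⟩ := cons_emb_exists (none : Cfsg.GolayPt) y
    obtain ⟨g, hg⟩ := ht5 x' y'
    have hg0 : (g : Equiv.Perm Cfsg.GolayPt) none = none := by
      have h1 := congrArg (fun z => z 0) hg
      have h2 : (g : Equiv.Perm Cfsg.GolayPt) (x' 0) = y' 0 := h1
      rw [hx0, hy0] at h2
      exact h2
    have hgs : ∀ i : Fin 4, (g : Equiv.Perm Cfsg.GolayPt) (x i).1 = (y i).1 := by
      intro i
      have h1 := congrArg (fun z => z i.succ) hg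
      have h2 : (g : Equiv.Perm Cfsg.GolayPt) (x' i.succ) = y' i.succ := h1
      rw [hxs, hys] at h2
      exact h2
    have hgmem : g ∈ MulAction.stabilizer (Cfsg.setSystemAut Cfsg.octads)
        (none : Cfsg.GolayPt) := MulAction.mem_stabilizer_iff.mpr hg0
    refine ⟨φ2.symm ⟨g, hgmem⟩, ?_⟩
    apply DFunLike.ext
    intro i
    apply Subtype.ext
    have h3 := hφ2 (φ2.symm ⟨g, hgmem⟩) (x i)
    rw [MulEquiv.apply_symm_apply] at h3
    show (((φ2.symm ⟨g, hgmem⟩ : Cfsg.setSystemAut (dLines Cfsg.octads (none : Cfsg.GolayPt)))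
      : Equiv.Perm {a : Cfsg.GolayPt // a ≠ none}) (x i) : Cfsg.GolayPt) = (y i).1
    rw [← h3]
    exact hgs i
  refine ⟨⟨(φ.trans φ2).isSimpleGroup_congr.mpr hs, ?_⟩, aut_trans_of_equiv e he 4 ht4⟩
  rw [Nat.card_congr (φ.trans φ2).toEquiv, hc]

end Cfsg.Agent.Helper28.Hyp
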