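import Cfsg.Agent.Helper28.SrgD

set_option autoImplicit false
set_option linter.unusedSectionVars false

namespace Cfsg.Agent.Helper28.Srg

variable {V : Type*} [Fintype V] [DecidableEq V] {G : SimpleGraph V} [DecidableRel G.Adj]

/-- an automorphism fixing a frame is the identity -/
theorem frame_free (hG : Srg100 G) {o p O : V} {τ : Fin 6 → V} (hf : IsFrame G o p O τ)
    (g : G ≃g G) (ho : g o = o) (hp : g p = p) (hO : g O = O) (hτ : ∀ i, g (τ i) = τ i) :
    ∀ x, g x = x := by
  have hadj : ∀ a b, G.Adj (g a) (g b) ↔ G.Adj a b := fun a b => g.map_rel_iff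
  have hadjo : ∀ a, G.Adj o (g a) ↔ G.Adj o a := by
    intro a
    have h1 := hadj o a
    rw [ho] at h1
    exact h1
  have hnb : ∀ a : V, a ∈ nb G o ↔ g a ∈ nb G o := by
    intro a
    rw [mem_nb, mem_nb]
    exact (hadjo a).symm
  obtain ⟨ĝ, hĝval⟩ : ∃ ĝ : {x // x ∈ nb G o} ≃ {x // x ∈ nb G o},
      ∀ x : {x // x ∈ nb G o}, (ĝ x : V) = g x.1 :=
    ⟨g.toEquiv.subtypeEquiv hnb, fun x => rfl⟩
  have hQ : ∀ w, w ∈ Qs G o → g w ∈ Qs G o := by
    intro w hw
    rw [mem_Qs] at hw ⊢
    constructor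
    · intro h
      exact hw.1 (g.injective (h.trans ho.symm))
    · intro h
      exact hw.2 ((hadjo w).mp h)
  have hblk : ∀ w, (blkS G o w).image ĝ = blkS G o (g w) := by
    intro w
    ext y
    rw [Finset.mem_image, mem_blkS, mem_blk]
    constructor
    · rintro ⟨x, hx, rfl⟩
      rw [mem_blkS, mem_blk] at hx
      rw [hĝval]
      exact ⟨(hadj w x.1).mpr hx.1, (hadjo x.1).mpr hx.2⟩
    · rintro ⟨h1, h2⟩
      refine ⟨ĝ.symm y, ?_, ĝ.apply_symm_apply y⟩
      rw [mem_blkS, mem_blk]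
      have hy : g (ĝ.symm y).1 = y.1 := by
        rw [← hĝval, ĝ.apply_symm_apply]
      rw [← hy] at h1 h2
      exact ⟨(hadj w _).mp h1, (hadjo _).mp h2⟩
  have hĝB : ∀ b ∈ locB G o, b.image ĝ ∈ locB G o := by
    rintro b ⟨w, hw, rfl⟩
    exact ⟨g w, hQ w hw, hblk w⟩
  have hpm : p ∈ nb G o := (mem_nb G).mpr hf.1
  have hOB : blkS G o O ∈ locB G o := ⟨O, hf.2.1, rfl⟩
  have hpO : (⟨p, hpm⟩ : {x // x ∈ nb G o}) ∉ blkS G o O := by
    rw [← adj_pt_blk hpm]
    exact hf.2.2.1
  have hĝp : ĝ ⟨p, hpm⟩ = ⟨p, hpm⟩ := by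
    apply Subtype.ext
    rw [hĝval]
    exact hp
  have hĝO : ∀ a ∈ blkS G o O, ĝ a = a := by
    intro a ha
    obtain ⟨i, hi⟩ := frame_surj hG hf a.1 (mem_blkS.mp ha)
    apply Subtype.ext
    rw [hĝval, ← hi]
    exact hτ i
  have hid := Hyp.s3622_unique (card_pts hG o) (locB_steiner hG o) hOB hpO hĝp hĝO hĝB
  intro x
  rcases tri G o x with hx | hx | hx
  · rw [hx]
    exact ho
  · have h1 := hĝval ⟨x, hx⟩
    rw [hid ⟨x, hx⟩] at h1
    exact h1.symm
  · have h1 : blkS G o (g x) = blkS G o x := by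
      rw [← hblk x]
      ext y
      rw [Finset.mem_image]
      constructor
      · rintro ⟨a, ha, hay⟩
        rw [hid a] at hay
        rw [← hay]
        exact ha
      · intro hy
        exact ⟨y, hy, hid y⟩
    exact blkS_inj hG (hQ x hx) hx h1

/-- the injective enumerations of a set by `Fin 6` -/
noncomputable def enumSet (S : Finset V) : Finset (Fin 6 → V) :=
  open Classical in Finset.univ.filter (fun τ => Function.Injective τ ∧ ∀ i, τ i ∈ S)

theorem mem_enumSet {S : Finset V} {τ : Fin 6 → V} :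
    τ ∈ enumSet S ↔ Function.Injective τ ∧ ∀ i, τ i ∈ S := by
  unfold enumSet
  simp

theorem card_enumSet {S : Finset V} (hS : S.card = 6) : (enumSet S).card = 720 := by
  classical
  have h1 : enumSet S = (Finset.univ : Finset (Fin 6 ↪ {x // x ∈ S})).image
      (fun ε => fun i => (ε i : V)) := by
    ext τ
    rw [mem_enumSet, Finset.mem_image]
    constructor
    · rintro ⟨hinj, hmem⟩
      refine ⟨⟨fun i => ⟨τ i, hmem i⟩, ?_⟩, Finset.mem_univ _, rfl⟩
      intro i j hij
      exact hinj (congrArg Subtype.val hij)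
    · rintro ⟨ε, -, rfl⟩
      refine ⟨?_, fun i => (ε i).2⟩
      intro i j hij
      exact ε.injective (Subtype.ext hij)
  have hinj : Function.Injective
      (fun (ε : Fin 6 ↪ {x // x ∈ S}) => fun i => (ε i : V)) := by
    intro ε ε' h
    apply Function.Embedding.ext
    intro i
    exact Subtype.ext (congrFun h i)
  rw [h1, Finset.card_image_of_injective _ hinj, Finset.card_univ, Fintype.card_embedding_eq,
    Fintype.card_coe, hS, Fintype.card_fin]
  rfl

/-- all frames, as a finset -/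
noncomputable def Frames (G : SimpleGraph V) [DecidableRel G.Adj] :
    Finset (Σ _ : V, Σ _ : V, Σ _ : V, (Fin 6 → V)) :=
  (Finset.univ : Finset V).sigma (fun o => (nb G o).sigma (fun p =>
    ((Qs G o).filter (fun w => ¬ G.Adj p w)).sigma (fun O => enumSet (blk G o O))))

theorem mem_Frames {f : Σ _ : V, Σ _ : V, Σ _ : V, (Fin 6 → V)} :
    f ∈ Frames G ↔ IsFrame G f.1 f.2.1 f.2.2.1 f.2.2.2 := by
  unfold Frames IsFrame
  rw [Finset.mem_sigma, Finset.mem_sigma, Finset.mem_sigma, Finset.mem_filter, mem_nb,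
    mem_enumSet]
  constructor
  · rintro ⟨-, h1, ⟨h2, h3⟩, h4, h5⟩
    exact ⟨h1, h2, h3, h4, h5⟩
  · rintro ⟨h1, h2, h3, h4, h5⟩
    exact ⟨Finset.mem_univ _, h1, ⟨h2, h3⟩, h4, h5⟩

theorem card_Frames (h : Srg100 G) : (Frames G).card = 88704000 := by
  unfold Frames
  rw [Finset.card_sigma]
  have h1 : ∀ o ∈ (Finset.univ : Finset V), ((nb G o).sigma (fun p =>
      ((Qs G o).filter (fun w => ¬ G.Adj p w)).sigma
        (fun O => enumSet (blk G o O)))).card = 22 * (56 * 720) := by
    intro o _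
    rw [Finset.card_sigma]
    have h2 : ∀ p ∈ nb G o, (((Qs G o).filter (fun w => ¬ G.Adj p w)).sigma
        (fun O => enumSet (blk G o O))).card = 56 * 720 := by
      intro p hp
      rw [Finset.card_sigma]
      have h3 : ∀ O ∈ (Qs G o).filter (fun w => ¬ G.Adj p w),
          (enumSet (blk G o O)).card = 720 := by
        intro O hO
        exact card_enumSet (card_blk h (Finset.mem_filter.mp hO).1)
      have h4 : ((Qs G o).filter (fun w => ¬ G.Adj p w)).card = 56 := by
        have h5 := Finset.card_filter_add_card_filter_not (s := Qs G o) (fun w => G.Adj p w)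
        rw [card_Q_adj_pt h ((mem_nb G).mp hp), card_Qs h o] at h5
        omega
      rw [Finset.sum_congr rfl h3, Finset.sum_const, smul_eq_mul, h4]
    rw [Finset.sum_congr rfl h2, Finset.sum_const, smul_eq_mul, h.deg o]
  rw [Finset.sum_congr rfl h1, Finset.sum_const, smul_eq_mul, Finset.card_univ, h.card]

theorem srg_aut_card (hG : Srg100 G) : Nat.card (G ≃g G) = 88704000 := by
  have hne : (Frames G).Nonempty := by
    rw [← Finset.card_pos, card_Frames hG]
    norm_num
  obtain ⟨f0, hf0⟩ := hne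
  have hfr0 := mem_Frames.mp hf0
  obtain ⟨Ψ, hΨ⟩ : ∃ Ψ : (G ≃g G) → (Σ _ : V, Σ _ : V, Σ _ : V, (Fin 6 → V)),
      ∀ g, Ψ g = ⟨g f0.1, g f0.2.1, g f0.2.2.1, fun i => g (f0.2.2.2 i)⟩ :=
    ⟨_, fun g => rfl⟩
  have hinj : Function.Injective Ψ := by
    intro g g' hgg
    rw [hΨ, hΨ] at hgg
    have h1 : g f0.1 = g' f0.1 := congrArg (fun f => f.1) hgg
    have h2 : g f0.2.1 = g' f0.2.1 := congrArg (fun f => f.2.1) hgg
    have h3 : g f0.2.2.1 = g' f0.2.2.1 := congrArg (fun f => f.2.2.1) hgg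
    have h4 : ∀ i, g (f0.2.2.2 i) = g' (f0.2.2.2 i) :=
      fun i => congrFun (congrArg (fun f => f.2.2.2) hgg) i
    have hk := frame_free hG hfr0 (g.trans g'.symm)
      (by rw [RelIso.trans_apply, h1, RelIso.symm_apply_apply])
      (by rw [RelIso.trans_apply, h2, RelIso.symm_apply_apply])
      (by rw [RelIso.trans_apply, h3, RelIso.symm_apply_apply])
      (fun i => by rw [RelIso.trans_apply, h4 i, RelIso.symm_apply_apply])
    apply RelIso.ext
    intro x
    have h5 : g'.symm (g x) = x := by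
      rw [← RelIso.trans_apply]
      exact hk x
    calc g x = g' (g'.symm (g x)) := (g'.apply_symm_apply (g x)).symm
      _ = g' x := by rw [h5]
  have hrange : Set.range Ψ = ↑(Frames G) := by
    ext f
    rw [Set.mem_range, Finset.mem_coe, mem_Frames]
    constructor
    · rintro ⟨g, rfl⟩
      rw [hΨ]
      obtain ⟨a1, a2, a3, a4, a5⟩ := hfr0
      have hadj : ∀ a b, G.Adj (g a) (g b) ↔ G.Adj a b := fun a b => g.map_rel_iff
      refine ⟨(hadj _ _).mpr a1, ?_, fun hh => a3 ((hadj _ _).mp hh),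
        g.injective.comp a4, ?_⟩
      · rw [mem_Qs] at a2 ⊢
        exact ⟨fun hh => a2.1 (g.injective hh), fun hh => a2.2 ((hadj _ _).mp hh)⟩
      · intro i
        have h6 := a5 i
        rw [mem_blk] at h6 ⊢
        exact ⟨(hadj _ _).mpr h6.1, (hadj _ _).mpr h6.2⟩
    · intro hf
      obtain ⟨g, h1, h2, h3, h4⟩ := frame_trans hG hG hfr0 hf
      refine ⟨g, ?_⟩
      rw [hΨ, h1, h2, h3, funext h4]
  rw [Nat.card_congr (Equiv.ofInjective Ψ hinj), Nat.card_coe_set_eq, hrange,
    Set.ncard_coe_finset, card_Frames hG]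

/-- a strongly regular graph with parameters (100, 22, 0, 6) has exactly 88704000
automorphisms -/
theorem srg_aut_card_of {V : Type*} [Fintype V] {G : SimpleGraph V} [DecidableRel G.Adj]
    (hG : G.IsSRGWith 100 22 0 6) : Nat.card (G ≃g G) = 88704000 := by
  classical
  exact srg_aut_card (srg100_of G hG)

end Cfsg.Agent.Helper28.Srg
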