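import Cfsg.Agent.Helper28.AutU
import Cfsg.Agent.Helper28.SrgE
import Cfsg.Agent.S0378
import Cfsg.Agent.S0379

set_option autoImplicit false
set_option linter.unusedSectionVars false
set_option linter.unusedVariables false

namespace Cfsg.Agent.Helper28.Hyp

section

variable {α : Type*} [Fintype α] [DecidableEq α]

/-- frames of an S(3, 6, 22): a point, a block missing it, and an enumeration of the block -/
noncomputable def Frames22 (B : Set (Finset α)) :
    Finset (Σ _ : α, Σ _ : Finset α, (Fin 6 → α)) :=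
  (Finset.univ : Finset α).sigma (fun p =>
    ((blocksF B).filter (fun b => p ∉ b)).sigma (fun O => Srg.enumSet O))

theorem mem_Frames22 {B : Set (Finset α)} {f : Σ _ : α, Σ _ : Finset α, (Fin 6 → α)} :
    f ∈ Frames22 B ↔ f.2.1 ∈ B ∧ f.1 ∉ f.2.1 ∧ Function.Injective f.2.2 ∧
      ∀ i, f.2.2 i ∈ f.2.1 := by
  unfold Frames22
  rw [Finset.mem_sigma, Finset.mem_sigma, Finset.mem_filter, mem_blocksF, Srg.mem_enumSet]
  constructor
  · rintro ⟨-, ⟨h1, h2⟩, h3, h4⟩
    exact ⟨h1, h2, h3, h4⟩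
  · rintro ⟨h1, h2, h3, h4⟩
    exact ⟨Finset.mem_univ _, ⟨h1, h2⟩, h3, h4⟩

theorem card_Frames22 (hα : Fintype.card α = 22) {B : Set (Finset α)}
    (hB : Cfsg.IsSteinerSystem 3 6 B) : (Frames22 B).card = 887040 := by
  unfold Frames22
  rw [Finset.card_sigma]
  have h1 : ∀ p ∈ (Finset.univ : Finset α), (((blocksF B).filter (fun b => p ∉ b)).sigma
      (fun O => Srg.enumSet O)).card = 56 * 720 := by
    intro p _
    rw [Finset.card_sigma]
    have h3 : ∀ O ∈ (blocksF B).filter (fun b => p ∉ b), (Srg.enumSet O).card = 720 := by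
      intro O hO
      exact Srg.card_enumSet (hB.1 O (mem_blocksF.mp (Finset.mem_filter.mp hO).1))
    rw [Finset.sum_congr rfl h3, Finset.sum_const, smul_eq_mul, card_blocks_off hα hB p]
  rw [Finset.sum_congr rfl h1, Finset.sum_const, smul_eq_mul, Finset.card_univ, hα]

theorem enum_surj {O : Finset α} (hO : O.card = 6) {τ : Fin 6 → α}
    (hinj : Function.Injective τ) (hmem : ∀ i, τ i ∈ O) : ∀ a ∈ O, ∃ i, τ i = a := by
  have h1 : (Finset.univ : Finset (Fin 6)).image τ = O := by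
    apply Finset.eq_of_subset_of_card_le
    · intro y hy
      rw [Finset.mem_image] at hy
      obtain ⟨i, -, rfl⟩ := hy
      exact hmem i
    · rw [Finset.card_image_of_injective _ hinj, Finset.card_univ, Fintype.card_fin, hO]
  intro a ha
  rw [← h1, Finset.mem_image] at ha
  obtain ⟨i, -, hi⟩ := ha
  exact ⟨i, hi⟩

/-- an S(3, 6, 22) has exactly 887040 automorphisms -/
theorem aut3622_card (hα : Fintype.card α = 22) {B : Set (Finset α)}
    (hB : Cfsg.IsSteinerSystem 3 6 B) : Nat.card (Cfsg.setSystemAut B) = 887040 := by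
  classical
  have hne : (Frames22 B).Nonempty := by
    rw [← Finset.card_pos, card_Frames22 hα hB]
    norm_num
  obtain ⟨f0, hf0⟩ := hne
  obtain ⟨hO0, hpO0, hτ0inj, hτ0mem⟩ := mem_Frames22.mp hf0
  obtain ⟨Ψ, hΨ⟩ : ∃ Ψ : Cfsg.setSystemAut B → (Σ _ : α, Σ _ : Finset α, (Fin 6 → α)),
      ∀ g, Ψ g = ⟨(g : Equiv.Perm α) f0.1, f0.2.1.image (g : Equiv.Perm α),
        fun i => (g : Equiv.Perm α) (f0.2.2 i)⟩ := ⟨_, fun g => rfl⟩
  have hinj : Function.Injective Ψ := by
    intro g g' hgg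
    rw [hΨ, hΨ] at hgg
    have h1 : (g : Equiv.Perm α) f0.1 = (g' : Equiv.Perm α) f0.1 :=
      congrArg (fun f => f.1) hgg
    have h4 : ∀ i, (g : Equiv.Perm α) (f0.2.2 i) = (g' : Equiv.Perm α) (f0.2.2 i) :=
      fun i => congrFun (congrArg (fun f => f.2.2) hgg) i
    have hk : ∀ x, ((g' : Equiv.Perm α)⁻¹ * (g : Equiv.Perm α)) x = x := by
      apply s3622_unique hα hB hO0 hpO0
      · rw [Equiv.Perm.mul_apply, h1, Equiv.Perm.inv_eq_iff_eq]
      · intro a ha
        obtain ⟨i, rfl⟩ := enum_surj (hB.1 _ hO0) hτ0inj hτ0mem a ha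
        rw [Equiv.Perm.mul_apply, h4 i, Equiv.Perm.inv_eq_iff_eq]
      · intro b hb
        exact aut_image ((Cfsg.setSystemAut B).mul_mem ((Cfsg.setSystemAut B).inv_mem g'.2) g.2)
          hb
    apply Subtype.ext
    ext x
    have h5 := hk x
    rw [Equiv.Perm.mul_apply, Equiv.Perm.inv_eq_iff_eq] at h5
    exact h5
  have hrange : Set.range Ψ = ↑(Frames22 B) := by
    ext f
    rw [Set.mem_range, Finset.mem_coe, mem_Frames22]
    constructor
    · rintro ⟨g, rfl⟩
      rw [hΨ]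
      refine ⟨aut_image g.2 hO0, ?_, (g : Equiv.Perm α).injective.comp hτ0inj,
        fun i => Finset.mem_image_of_mem _ (hτ0mem i)⟩
      intro h
      rw [Finset.mem_image] at h
      obtain ⟨a, ha, hag⟩ := h
      rw [(g : Equiv.Perm α).injective hag] at ha
      exact hpO0 ha
    · rintro ⟨hO, hpO, hτinj, hτmem⟩
      obtain ⟨ψ, hψ⟩ : ∃ ψ : α → α, ∀ i, ψ (f0.2.2 i) = f.2.2 i := by
        refine ⟨fun a => if h : ∃ i, f0.2.2 i = a then f.2.2 h.choose else f.1, ?_⟩
        intro i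
        have hex : ∃ j, f0.2.2 j = f0.2.2 i := ⟨i, rfl⟩
        simp only [dif_pos hex]
        rw [hτ0inj hex.choose_spec]
      have hψO : ∀ a ∈ f0.2.1, ψ a ∈ f.2.1 := by
        intro a ha
        obtain ⟨i, rfl⟩ := enum_surj (hB.1 _ hO0) hτ0inj hτ0mem a ha
        rw [hψ]
        exact hτmem i
      have hψinj : ∀ a ∈ f0.2.1, ∀ b ∈ f0.2.1, ψ a = ψ b → a = b := by
        intro a ha b hb hab
        obtain ⟨i, rfl⟩ := enum_surj (hB.1 _ hO0) hτ0inj hτ0mem a ha
        obtain ⟨j, rfl⟩ := enum_surj (hB.1 _ hO0) hτ0inj hτ0mem b hb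
        rw [hψ, hψ] at hab
        rw [hτinj hab]
      obtain ⟨e, hep, heO, heB⟩ := s3622_ext hα hα hB hB hO0 hpO0 hO hpO hψO hψinj
      refine ⟨⟨e, mem_aut_iff.mpr heB⟩, ?_⟩
      rw [hΨ]
      have h1 : f0.2.1.image e = f.2.1 := by
        apply Finset.eq_of_subset_of_card_le
        · intro y hy
          rw [Finset.mem_image] at hy
          obtain ⟨a, ha, rfl⟩ := hy
          rw [heO a ha]
          exact hψO a ha
        · rw [Finset.card_image_of_injective _ e.injective, hB.1 _ hO0, hB.1 _ hO]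
      have h2 : (fun i => e (f0.2.2 i)) = f.2.2 := by
        funext i
        rw [heO _ (hτ0mem i), hψ]
      show (⟨e f0.1, f0.2.1.image e, fun i => e (f0.2.2 i)⟩ :
        Σ _ : α, Σ _ : Finset α, (Fin 6 → α)) = f
      rw [hep, h1, h2]
  rw [Nat.card_congr (Equiv.ofInjective Ψ hinj), Nat.card_coe_set_eq, hrange,
    Set.ncard_coe_finset, card_Frames22 hα hB]

theorem tri_block (hα : Fintype.card α = 22) {B : Set (Finset α)}
    (hB : Cfsg.IsSteinerSystem 3 6 B) {a0 a1 a2 : α} (h01 : a0 ≠ a1) (h02 : a0 ≠ a2)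
    (h12 : a1 ≠ a2) : ∃ O ∈ B, a0 ∉ O ∧ a1 ∈ O ∧ a2 ∈ O := by
  have h3 : ({a0, a1, a2} : Finset α).card = 3 :=
    Finset.card_eq_three.mpr ⟨a0, a1, a2, h01, h02, h12, rfl⟩
  obtain ⟨b0, ⟨hb0, hsub0⟩, hb0u⟩ := hB.2 _ h3
  have m0 : a0 ∈ ({a0, a1, a2} : Finset α) := by simp
  have m1 : a1 ∈ ({a0, a1, a2} : Finset α) := by simp
  have m2 : a2 ∈ ({a0, a1, a2} : Finset α) := by simp
  obtain ⟨z, hz⟩ : (b0ᶜ).Nonempty := by
    rw [← Finset.card_pos, Finset.card_compl, hα, hB.1 b0 hb0]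
    norm_num
  rw [Finset.mem_compl] at hz
  have hz1 : a1 ≠ z := fun h => hz (h ▸ hsub0 m1)
  have hz2 : a2 ≠ z := fun h => hz (h ▸ hsub0 m2)
  have h3' : ({a1, a2, z} : Finset α).card = 3 :=
    Finset.card_eq_three.mpr ⟨a1, a2, z, h12, hz1, hz2, rfl⟩
  obtain ⟨O, ⟨hO, hsubO⟩, -⟩ := hB.2 _ h3'
  have n1 : a1 ∈ ({a1, a2, z} : Finset α) := by simp
  have n2 : a2 ∈ ({a1, a2, z} : Finset α) := by simp
  have nz : z ∈ ({a1, a2, z} : Finset α) := by simp
  refine ⟨O, hO, ?_, hsubO n1, hsubO n2⟩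
  intro h0
  have hsub : ({a0, a1, a2} : Finset α) ⊆ O := by
    intro t ht
    rw [Finset.mem_insert, Finset.mem_insert, Finset.mem_singleton] at ht
    rcases ht with h | h | h <;> rw [h]
    · exact h0
    · exact hsubO n1
    · exact hsubO n2
  have hOb : O = b0 := hb0u O ⟨hO, hsub⟩
  exact hz (hOb ▸ hsubO nz)

/-- the automorphism group of an S(3, 6, 22) is 3-transitive -/
theorem aut3622_trans (hα : Fintype.card α = 22) {B : Set (Finset α)}
    (hB : Cfsg.IsSteinerSystem 3 6 B) :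
    MulAction.IsMultiplyPretransitive (Cfsg.setSystemAut B) α 3 := by
  classical
  rw [MulAction.isMultiplyPretransitive_iff]
  intro x y
  have hx01 : x 0 ≠ x 1 := fun h => absurd (x.injective h) (by decide)
  have hx02 : x 0 ≠ x 2 := fun h => absurd (x.injective h) (by decide)
  have hx12 : x 1 ≠ x 2 := fun h => absurd (x.injective h) (by decide)
  have hy01 : y 0 ≠ y 1 := fun h => absurd (y.injective h) (by decide)
  have hy02 : y 0 ≠ y 2 := fun h => absurd (y.injective h) (by decide)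
  have hy12 : y 1 ≠ y 2 := fun h => absurd (y.injective h) (by decide)
  obtain ⟨O, hO, hx0O, hx1O, hx2O⟩ := tri_block hα hB hx01 hx02 hx12
  obtain ⟨O', hO', hy0O, hy1O, hy2O⟩ := tri_block hα hB hy01 hy02 hy12
  have hT : ({x 1, x 2} : Finset α) ⊆ O := by
    intro t ht
    rw [Finset.mem_insert, Finset.mem_singleton] at ht
    rcases ht with h | h <;> rw [h] <;> assumption
  have hT' : ({y 1, y 2} : Finset α) ⊆ O' := by
    intro t ht
    rw [Finset.mem_insert, Finset.mem_singleton] at ht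
    rcases ht with h | h <;> rw [h] <;> assumption
  obtain ⟨ψ, hψO, hψinj, hψT⟩ := psi_exists hT hT'
    ((Finset.card_pair hx12).trans (Finset.card_pair hy12).symm)
    ((hB.1 O hO).trans (hB.1 O' hO').symm) (y 0)
  have hψ1 := hψT (x 1) (by simp)
  have hψ2 := hψT (x 2) (by simp)
  rw [Finset.mem_insert, Finset.mem_singleton] at hψ1 hψ2
  have hψne : ψ (x 1) ≠ ψ (x 2) := fun h => hx12 (hψinj _ hx1O _ hx2O h)
  obtain ⟨ψ', hψ'O, hψ'inj, hψ'1, hψ'2⟩ : ∃ ψ' : α → α, (∀ a ∈ O, ψ' a ∈ O') ∧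
      (∀ a ∈ O, ∀ b ∈ O, ψ' a = ψ' b → a = b) ∧ ψ' (x 1) = y 1 ∧ ψ' (x 2) = y 2 := by
    rcases hψ1 with h1 | h1
    · refine ⟨ψ, hψO, hψinj, h1, ?_⟩
      rcases hψ2 with h2 | h2
      · exact absurd (h1.trans h2.symm) hψne
      · exact h2
    · have h2 : ψ (x 2) = y 1 := by
        rcases hψ2 with h2 | h2
        · exact h2
        · exact absurd (h1.trans h2.symm) hψne
      have hswO : ∀ a ∈ O, Equiv.swap (x 1) (x 2) a ∈ O := by
        intro a ha
        by_cases ha1 : a = x 1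
        · rw [ha1, Equiv.swap_apply_left]
          exact hx2O
        · by_cases ha2 : a = x 2
          · rw [ha2, Equiv.swap_apply_right]
            exact hx1O
          · rw [Equiv.swap_apply_of_ne_of_ne ha1 ha2]
            exact ha
      refine ⟨fun a => ψ (Equiv.swap (x 1) (x 2) a), fun a ha => hψO _ (hswO a ha), ?_, ?_, ?_⟩
      · intro a ha b hb hab
        exact (Equiv.swap (x 1) (x 2)).injective (hψinj _ (hswO a ha) _ (hswO b hb) hab)
      · show ψ (Equiv.swap (x 1) (x 2) (x 1)) = y 1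
        rw [Equiv.swap_apply_left]
        exact h2
      · show ψ (Equiv.swap (x 1) (x 2) (x 2)) = y 2
        rw [Equiv.swap_apply_right]
        exact h1
  obtain ⟨e, hep, heO, heB⟩ := s3622_ext hα hα hB hB hO hx0O hO' hy0O hψ'O hψ'inj
  refine ⟨⟨e, mem_aut_iff.mpr heB⟩, ?_⟩
  have e1 : e (x 1) = y 1 := (heO _ hx1O).trans hψ'1
  have e2 : e (x 2) = y 2 := (heO _ hx2O).trans hψ'2
  apply DFunLike.ext
  intro i
  match i with
  | ⟨0, _⟩ => exact hep
  | ⟨1, _⟩ => exact e1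
  | ⟨2, _⟩ => exact e2

end

/-- the 23 points other than `none` -/
abbrev P23 : Type := {a : Cfsg.GolayPt // a ≠ none}

/-- the point `0` -/
def p0 : P23 := ⟨some 0, Option.some_ne_none 0⟩

/-- the 22 points other than `none` and `0` -/
abbrev P22 : Type := {a : P23 // a ≠ p0}

/-- the derived design of the octads at `none` -/
def D23 : Set (Finset P23) := dLines Cfsg.octads (none : Cfsg.GolayPt)

/-- the derived design at `none` and `0` -/
def D22 : Set (Finset P22) := dLines D23 p0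

theorem d23_steiner : Cfsg.IsSteinerSystem 4 7 D23 := dLines58 Cfsg.Agent.S0363.result none

theorem d22_steiner : Cfsg.IsSteinerSystem 3 6 D22 := dLines47 d23_steiner p0

theorem card_P23 : Fintype.card P23 = 23 := card_sub24 (by decide) none

theorem card_P22 : Fintype.card P22 = 22 := card_sub23 card_P23 p0

/-- the automorphisms of `D22` that extend to the octad system form a simple subgroup of
index 2 -/
theorem m22_sub : ∃ H : Subgroup (Cfsg.setSystemAut D22), H.index = 2 ∧ Cfsg.IsM22 H := by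
  classical
  have hM : Cfsg.M24 = Cfsg.setSystemAut Cfsg.octads := Cfsg.Agent.S0369.result
  have hne : (none : Cfsg.GolayPt) ≠ some 0 := (Option.some_ne_none 0).symm
  have hs : IsSimpleGroup ↥(MulAction.stabilizer (Cfsg.setSystemAut Cfsg.octads)
      (none : Cfsg.GolayPt) ⊓ MulAction.stabilizer (Cfsg.setSystemAut Cfsg.octads)
      (some 0 : Cfsg.GolayPt)) := hM ▸ Cfsg.Agent.S0379.result none (some 0) hne
  have hc : Nat.card ↥(MulAction.stabilizer (Cfsg.setSystemAut Cfsg.octads)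
      (none : Cfsg.GolayPt) ⊓ MulAction.stabilizer (Cfsg.setSystemAut Cfsg.octads)
      (some 0 : Cfsg.GolayPt)) = 443520 := hM ▸ Cfsg.Agent.S0378.result none (some 0) hne
  have hnn : ¬ (fun a : Cfsg.GolayPt => a ≠ none) none := fun h => h rfl
  have hnp : ¬ (fun a : P23 => a ≠ p0) p0 := fun h => h rfl
  obtain ⟨ι, hιdef⟩ : ∃ ι : Equiv.Perm P22 →* Equiv.Perm Cfsg.GolayPt,
      ∀ σ, ι σ = Equiv.Perm.ofSubtype (Equiv.Perm.ofSubtype σ : Equiv.Perm P23) :=
    ⟨Equiv.Perm.ofSubtype.comp Equiv.Perm.ofSubtype, fun σ => rfl⟩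
  have hι : Function.Injective ι := by
    intro σ σ' h
    rw [hιdef, hιdef] at h
    exact Equiv.Perm.ofSubtype_injective (Equiv.Perm.ofSubtype_injective h)
  have hι0 : ∀ σ, ι σ none = none := by
    intro σ
    rw [hιdef]
    exact Equiv.Perm.ofSubtype_apply_of_not_mem _ hnn
  have hι1 : ∀ σ, ι σ (some 0) = some 0 := by
    intro σ
    rw [hιdef]
    have h1 : Equiv.Perm.ofSubtype (Equiv.Perm.ofSubtype σ : Equiv.Perm P23) (p0 : Cfsg.GolayPt)
        = ((Equiv.Perm.ofSubtype σ : Equiv.Perm P23) p0 : Cfsg.GolayPt) :=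
      Equiv.Perm.ofSubtype_apply_coe _ p0
    have h2 : (Equiv.Perm.ofSubtype σ : Equiv.Perm P23) p0 = p0 :=
      Equiv.Perm.ofSubtype_apply_of_not_mem _ hnp
    rw [h2] at h1
    exact h1
  obtain ⟨H, hHdef⟩ : ∃ H : Subgroup (Cfsg.setSystemAut D22),
      ∀ h : Cfsg.setSystemAut D22, h ∈ H ↔ ι (h : Equiv.Perm P22) ∈ Cfsg.setSystemAut Cfsg.octads :=
    ⟨(Cfsg.setSystemAut Cfsg.octads).comap (ι.comp (Subgroup.subtype _)), fun h => Iff.rfl⟩
  obtain ⟨f1, hf1⟩ : ∃ f1 : H →* Cfsg.setSystemAut Cfsg.octads,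
      ∀ h : H, ((f1 h : Cfsg.setSystemAut Cfsg.octads) : Equiv.Perm Cfsg.GolayPt)
        = ι ((h : Cfsg.setSystemAut D22) : Equiv.Perm P22) :=
    ⟨(ι.comp ((Subgroup.subtype _).comp (Subgroup.subtype H))).codRestrict _
      (fun h => (hHdef h.1).mp h.2), fun h => rfl⟩
  have hfix : ∀ h, f1 h ∈ MulAction.stabilizer (Cfsg.setSystemAut Cfsg.octads)
      (none : Cfsg.GolayPt) ⊓ MulAction.stabilizer (Cfsg.setSystemAut Cfsg.octads)
      (some 0 : Cfsg.GolayPt) := by
    intro h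
    rw [Subgroup.mem_inf, MulAction.mem_stabilizer_iff, MulAction.mem_stabilizer_iff]
    constructor
    · show ((f1 h : Cfsg.setSystemAut Cfsg.octads) : Equiv.Perm Cfsg.GolayPt) none = none
      rw [hf1]
      exact hι0 _
    · show ((f1 h : Cfsg.setSystemAut Cfsg.octads) : Equiv.Perm Cfsg.GolayPt) (some 0) = some 0
      rw [hf1]
      exact hι1 _
  obtain ⟨f2, hf2⟩ : ∃ f2 : H →* ↥(MulAction.stabilizer (Cfsg.setSystemAut Cfsg.octads)
      (none : Cfsg.GolayPt) ⊓ MulAction.stabilizer (Cfsg.setSystemAut Cfsg.octads)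
      (some 0 : Cfsg.GolayPt)), ∀ h : H, ((f2 h : Cfsg.setSystemAut Cfsg.octads)) = f1 h :=
    ⟨f1.codRestrict _ hfix, fun h => rfl⟩
  have hinj : Function.Injective f2 := by
    intro h1 h2 h12
    have h3 : ι ((h1 : Cfsg.setSystemAut D22) : Equiv.Perm P22)
        = ι ((h2 : Cfsg.setSystemAut D22) : Equiv.Perm P22) := by
      rw [← hf1, ← hf1, ← hf2, ← hf2, h12]
    exact Subtype.ext (Subtype.ext (hι h3))
  have hsurj : Function.Surjective f2 := by
    rintro ⟨⟨g, hg⟩, hgK⟩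
    rw [Subgroup.mem_inf, MulAction.mem_stabilizer_iff, MulAction.mem_stabilizer_iff] at hgK
    have hg0 : g none = none := hgK.1
    have hg1 : g (some 0) = some 0 := hgK.2
    have hne1 : ∀ x, (fun a : Cfsg.GolayPt => a ≠ none) (g x)
        ↔ (fun a : Cfsg.GolayPt => a ≠ none) x := by
      intro x
      constructor
      · intro h hx
        exact h (by rw [hx, hg0])
      · intro h hx
        exact h (g.injective (hx.trans hg0.symm))
    obtain ⟨g1, hg1def⟩ : ∃ g1 : Equiv.Perm P23, g1 = g.subtypePerm hne1 := ⟨_, rfl⟩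
    have hg1val : ∀ x : P23, (g1 x : Cfsg.GolayPt) = g x.1 := by
      intro x
      rw [hg1def]
      rfl
    have hg1p : g1 p0 = p0 := by
      apply Subtype.ext
      rw [hg1val]
      exact hg1
    have hg1mem : ∀ l ∈ D23, l.image g1 ∈ D23 :=
      restrict_aut (fun b hb => aut_image hg hb) hg0 g1 hg1val
    have hne2 : ∀ x : P23, (fun a : P23 => a ≠ p0) (g1 x) ↔ (fun a : P23 => a ≠ p0) x := by
      intro x
      constructor
      · intro h hx
        exact h (by rw [hx, hg1p])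
      · intro h hx
        exact h (g1.injective (hx.trans hg1p.symm))
    have hg2mem : ∀ l ∈ D22, l.image (g1.subtypePerm hne2) ∈ D22 :=
      restrict_aut hg1mem hg1p (g1.subtypePerm hne2) (fun x => rfl)
    have hg2aut : g1.subtypePerm hne2 ∈ Cfsg.setSystemAut D22 :=
      mem_aut_iff.mpr (iso3 d22_steiner d22_steiner hg2mem)
    have hA : Equiv.Perm.ofSubtype (g1.subtypePerm hne2) = g1 :=
      Equiv.Perm.ofSubtype_subtypePerm (p := fun a : P23 => a ≠ p0) hne2
        (fun x hx hxp => hx (by rw [hxp, hg1p]))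
    have hB : Equiv.Perm.ofSubtype (g.subtypePerm hne1) = g :=
      Equiv.Perm.ofSubtype_subtypePerm (p := fun a : Cfsg.GolayPt => a ≠ none) hne1
        (fun x hx hxp => hx (by rw [hxp, hg0]))
    have hιg2 : ι (g1.subtypePerm hne2) = g := by
      rw [hιdef, hA, hg1def, hB]
    have hH : (⟨g1.subtypePerm hne2, hg2aut⟩ : Cfsg.setSystemAut D22) ∈ H := by
      rw [hHdef]
      show ι (g1.subtypePerm hne2) ∈ Cfsg.setSystemAut Cfsg.octads
      rw [hιg2]
      exact hg
    refine ⟨⟨⟨g1.subtypePerm hne2, hg2aut⟩, hH⟩, ?_⟩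
    apply Subtype.ext
    apply Subtype.ext
    rw [hf2, hf1]
    exact hιg2
  obtain ⟨e2⟩ : Nonempty (H ≃* ↥(MulAction.stabilizer (Cfsg.setSystemAut Cfsg.octads)
      (none : Cfsg.GolayPt) ⊓ MulAction.stabilizer (Cfsg.setSystemAut Cfsg.octads)
      (some 0 : Cfsg.GolayPt))) := ⟨MulEquiv.ofBijective f2 ⟨hinj, hsurj⟩⟩
  have hcH : Nat.card H = 443520 := by
    rw [Nat.card_congr e2.toEquiv, hc]
  refine ⟨H, ?_, e2.isSimpleGroup_congr.mpr hs, hcH⟩
  have h1 := Subgroup.index_mul_card H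
  rw [hcH, aut3622_card card_P22 d22_steiner] at h1
  omega

/-- the automorphism group of an S(3, 6, 22) -/
theorem aut3622 {α : Type*} [Fintype α] [DecidableEq α] (hα : Fintype.card α = 22)
    {B : Set (Finset α)} (hB : Cfsg.IsSteinerSystem 3 6 B) :
    Nat.card (Cfsg.setSystemAut B) = 887040 ∧
      MulAction.IsMultiplyPretransitive (Cfsg.setSystemAut B) α 3 ∧
      ∃ H : Subgroup (Cfsg.setSystemAut B), H.index = 2 ∧ Cfsg.IsM22 H := by
  refine ⟨aut3622_card hα hB, aut3622_trans hα hB, ?_⟩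
  obtain ⟨e, he⟩ := s3622_iso hα card_P22 hB d22_steiner
  obtain ⟨φ, -⟩ := aut_equiv e he
  obtain ⟨H22, hidx, hsimple, hcard⟩ := m22_sub
  refine ⟨H22.map φ.symm.toMonoidHom, ?_, ?_, ?_⟩
  · rw [← hidx]
    exact Subgroup.index_map_equiv H22 φ.symm
  · exact (φ.symm.subgroupMap H22).symm.isSimpleGroup_congr.mpr hsimple
  · exact (Nat.card_congr (φ.symm.subgroupMap H22).toEquiv).symm.trans hcard

end Cfsg.Agent.Helper28.Hyp
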