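import Mathlib
import Cfsg.Agent.Helper3.M12Core

/-!
Maximality of a point stabilizer from the sizes of its orbits: if the orbit of `x` under `G`
is the union of `{x}` and three orbits of the stabilizer of `x`, and no proper partial sum of
the sizes (including `1`) divides the size of the whole orbit, then the stabilizer is maximal.
-/

set_option autoImplicit false

namespace Cfsg.Agent.Helper28.Coatom

open scoped Pointwise

theorem ncard_four {X : Type*} {O B₀ B₁ B₂ B₃ : Set X} (hO : O.Finite)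
    (hsub : O ⊆ B₀ ∪ B₁ ∪ B₂ ∪ B₃)
    (d01 : Disjoint B₀ B₁) (d02 : Disjoint B₀ B₂) (d03 : Disjoint B₀ B₃) (d12 : Disjoint B₁ B₂)
    (d13 : Disjoint B₁ B₃) (d23 : Disjoint B₂ B₃) :
    O.ncard = (O ∩ B₀).ncard + (O ∩ B₁).ncard + (O ∩ B₂).ncard + (O ∩ B₃).ncard := by
  have h : O = (O ∩ B₀) ∪ (O ∩ B₁) ∪ (O ∩ B₂) ∪ (O ∩ B₃) := by
    rw [← Set.inter_union_distrib_left, ← Set.inter_union_distrib_left,
      ← Set.inter_union_distrib_left]
    exact (Set.inter_eq_left.2 hsub).symm
  have f0 : (O ∩ B₀).Finite := hO.subset Set.inter_subset_left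
  have f1 : (O ∩ B₁).Finite := hO.subset Set.inter_subset_left
  have f2 : (O ∩ B₂).Finite := hO.subset Set.inter_subset_left
  have f3 : (O ∩ B₃).Finite := hO.subset Set.inter_subset_left
  have e01 : Disjoint (O ∩ B₀) (O ∩ B₁) :=
    d01.mono Set.inter_subset_right Set.inter_subset_right
  have e012 : Disjoint ((O ∩ B₀) ∪ (O ∩ B₁)) (O ∩ B₂) := by
    rw [Set.disjoint_union_left]
    exact ⟨d02.mono Set.inter_subset_right Set.inter_subset_right,
      d12.mono Set.inter_subset_right Set.inter_subset_right⟩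
  have e0123 : Disjoint ((O ∩ B₀) ∪ (O ∩ B₁) ∪ (O ∩ B₂)) (O ∩ B₃) := by
    rw [Set.disjoint_union_left, Set.disjoint_union_left]
    exact ⟨⟨d03.mono Set.inter_subset_right Set.inter_subset_right,
      d13.mono Set.inter_subset_right Set.inter_subset_right⟩,
      d23.mono Set.inter_subset_right Set.inter_subset_right⟩
  conv_lhs => rw [h]
  rw [Set.ncard_union_eq e0123 ((f0.union f1).union f2) f3,
    Set.ncard_union_eq e012 (f0.union f1) f2, Set.ncard_union_eq e01 f0 f1]

theorem coatom_of_three_orbits {G X : Type*} [Group G] [Finite G] [MulAction G X]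
    (x X₁ X₂ X₃ : X) (n1 n2 n3 N : ℕ)
    (hN : (MulAction.orbit G x).ncard = N)
    (c1 : (MulAction.orbit ↥(MulAction.stabilizer G x) X₁).ncard = n1)
    (c2 : (MulAction.orbit ↥(MulAction.stabilizer G x) X₂).ncard = n2)
    (c3 : (MulAction.orbit ↥(MulAction.stabilizer G x) X₃).ncard = n3)
    (hun : MulAction.orbit G x = {x} ∪ MulAction.orbit ↥(MulAction.stabilizer G x) X₁ ∪
      MulAction.orbit ↥(MulAction.stabilizer G x) X₂ ∪
      MulAction.orbit ↥(MulAction.stabilizer G x) X₃)
    (hne : 1 < n1 ∧ 1 < n2 ∧ 1 < n3 ∧ n1 ≠ n2 ∧ n1 ≠ n3 ∧ n2 ≠ n3)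
    (hN' : N = 1 + n1 + n2 + n3)
    (harith : ∀ e1 e2 e3 : ℕ, (e1 = 0 ∨ e1 = n1) → (e2 = 0 ∨ e2 = n2) → (e3 = 0 ∨ e3 = n3) →
      (1 + e1 + e2 + e3) ∣ N → (1 + e1 + e2 + e3 = 1) ∨ (1 + e1 + e2 + e3 = N)) :
    IsCoatom (MulAction.stabilizer G x) := by
  obtain ⟨g1, g2, g3, g12, g13, g23⟩ := hne
  set H := MulAction.stabilizer G x with hH
  have hfin : ∀ (K : Subgroup G) (y : X), (MulAction.orbit ↥K y).Finite := fun K y =>
    Set.finite_range _
  -- the orbit of `x` under its stabilizer
  have hx : MulAction.orbit ↥H x = {x} := by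
    ext y
    constructor
    · rintro ⟨h, rfl⟩
      exact h.2
    · rintro rfl
      exact MulAction.mem_orbit_self _
  have hxn : ∀ (Y : X) (n : ℕ), (MulAction.orbit ↥H Y).ncard = n → 1 < n →
      Disjoint ({x} : Set X) (MulAction.orbit ↥H Y) := by
    intro Y n hc hn
    rw [Set.disjoint_singleton_left]
    intro hmem
    have := MulAction.orbit_eq_iff.2 hmem
    rw [hx] at this
    rw [← this, Set.ncard_singleton] at hc
    omega
  have hdis : ∀ (Y Z : X) (n m : ℕ), (MulAction.orbit ↥H Y).ncard = n →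
      (MulAction.orbit ↥H Z).ncard = m → n ≠ m →
      Disjoint (MulAction.orbit ↥H Y) (MulAction.orbit ↥H Z) := by
    intro Y Z n m hn hm hnm
    rw [Set.disjoint_left]
    intro y hy hz
    have e1 := MulAction.orbit_eq_iff.2 hy
    have e2 := MulAction.orbit_eq_iff.2 hz
    rw [← e1, e2, hm] at hn
    exact hnm hn.symm
  have hcardG : Nat.card G = N * Nat.card H := by
    have h1 := Subgroup.card_mul_index H
    rw [hH, MulAction.index_stabilizer, hN] at h1
    rw [← h1, mul_comm]
  have hHpos : 0 < Nat.card H := Nat.card_pos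
  constructor
  · -- the stabilizer is proper
    intro htop
    have : Nat.card H = Nat.card G := by rw [htop, Subgroup.card_top]
    rw [hcardG] at this
    have : N = 1 := by
      have h2 : 1 * Nat.card H = N * Nat.card H := by rw [one_mul]; exact this
      exact (Nat.eq_of_mul_eq_mul_right hHpos h2).symm
    omega
  · intro K hK
    have hle : H ≤ K := le_of_lt hK
    -- the orbit of `x` under `K`
    have hO : MulAction.orbit ↥K x ⊆ MulAction.orbit G x := by
      rintro _ ⟨k, rfl⟩
      exact ⟨k.1, rfl⟩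
    have hcl : ∀ (Y : X), (MulAction.orbit ↥K x ∩ MulAction.orbit ↥H Y).ncard = 0 ∨
        (MulAction.orbit ↥K x ∩ MulAction.orbit ↥H Y).ncard = (MulAction.orbit ↥H Y).ncard := by
      intro Y
      by_cases hemp : MulAction.orbit ↥K x ∩ MulAction.orbit ↥H Y = ∅
      · left; rw [hemp, Set.ncard_empty]
      · right
        obtain ⟨y, ⟨k, hk⟩, hy2⟩ := Set.nonempty_iff_ne_empty.2 hemp
        have hsub : MulAction.orbit ↥H Y ⊆ MulAction.orbit ↥K x := by
          intro z hz
          rw [← MulAction.orbit_eq_iff.2 hy2] at hz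
          obtain ⟨h, rfl⟩ := hz
          refine ⟨⟨(h : G), hle h.2⟩ * k, ?_⟩
          rw [← hk]
          exact mul_smul _ _ _
        rw [Set.inter_eq_right.2 hsub]
    have hx0 : (MulAction.orbit ↥K x ∩ ({x} : Set X)).ncard = 1 := by
      rw [Set.inter_eq_right.2 (Set.singleton_subset_iff.2 (MulAction.mem_orbit_self _)),
        Set.ncard_singleton]
    have hcount := ncard_four (hfin K x) (hun ▸ hO) (hxn X₁ n1 c1 g1) (hxn X₂ n2 c2 g2)
      (hxn X₃ n3 c3 g3) (hdis X₁ X₂ n1 n2 c1 c2 g12) (hdis X₁ X₃ n1 n3 c1 c3 g13)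
      (hdis X₂ X₃ n2 n3 c2 c3 g23)
    rw [hx0] at hcount
    have hcardK : Nat.card K = (MulAction.orbit ↥K x).ncard * Nat.card H := by
      have h1 := Cfsg.Agent.Helper3.card_eq_orbit_mul' K x
      rw [inf_eq_right.2 hle] at h1
      exact h1
    have hdvd : (MulAction.orbit ↥K x).ncard ∣ N := by
      have h1 : Nat.card K ∣ Nat.card G := Subgroup.card_subgroup_dvd_card K
      rw [hcardK, hcardG] at h1
      exact (Nat.mul_dvd_mul_iff_right hHpos).1 h1
    have h1 := hcl X₁
    have h2 := hcl X₂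
    have h3 := hcl X₃
    rw [c1] at h1
    rw [c2] at h2
    rw [c3] at h3
    rw [hcount] at hdvd
    rcases harith _ _ _ h1 h2 h3 hdvd with h | h
    · exfalso
      rw [← hcount] at h
      rw [h, one_mul] at hcardK
      exact absurd (Subgroup.eq_of_le_of_card_ge hle (le_of_eq hcardK)) (ne_of_lt hK)
    · rw [← hcount] at h
      rw [h, ← hcardG] at hcardK
      exact Subgroup.eq_top_of_card_eq K hcardK

end Cfsg.Agent.Helper28.Coatom
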