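import Mathlib

/-!
# Coset tables with proofs (helper28)

Generic tools for certifying a coset enumeration: the index of a subgroup `H` of a group `G` is `n` when
* `n` cosets `Qf 0, …, Qf (n-1)` are closed under the generators, which act on them by a table `tab`
  (this bounds the index from above), and
* the table defines a homomorphism `φ` from `G` to the permutations of `Fin n` under which `H` fixes `0`
  (this separates the cosets).
Also: the orbits of `H` on the cosets, read off the table.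
-/

set_option autoImplicit false

namespace Cfsg.Agent.Helper28.CosetTable

section act

variable {G : Type*} [Group G] {α : Type*} [MulAction G α]

theorem flp {g : G} (hg : g * g = 1) {x y : α} (h : g • x = y) : g • y = x := by
  subst h; rw [← mul_smul, hg, one_smul]

theorem eqc {a b a' b' : α} (ha : a = a') (h : a = b) (hb : b = b') : a' = b' := by
  subst ha; subst hb; exact h

theorem trf {g : G} {x y x' y' : α} (hx : x = x') (h : g • x = y) (hy : y = y') : g • x' = y' := by
  subst hx; subst hy; exact h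

theorem eqe {g : G} {x y z : α} (h1 : g • x = y) (h2 : g • x = z) : y = z := h1.symm.trans h2

end act

/-- Bounded universal quantifier as a boolean, by structural recursion. -/
def allLt : ℕ → (ℕ → Bool) → Bool
  | 0, _ => true
  | k + 1, f => f k && allLt k f

theorem allLt_spec {n : ℕ} {f : ℕ → Bool} (h : allLt n f = true) : ∀ i, i < n → f i = true := by
  induction n with
  | zero => intro i hi; omega
  | succ k ih =>
    rw [allLt, Bool.and_eq_true] at h
    intro i hi
    rcases Nat.lt_succ_iff_lt_or_eq.mp hi with h' | rfl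
    · exact ih h.2 i h'
    · exact h.1

/-- Entry `i` of a table of `b`-bit numbers packed into a natural number. -/
def lk (T b i : ℕ) : ℕ := (T >>> (b * i)) % 2 ^ b

/-- The action of a word on a point, through a table. -/
def evalT {ι : Type*} (tab : ι → ℕ → ℕ) : List ι → ℕ → ℕ
  | [], i => i
  | g :: w, i => tab g (evalT tab w i)

section table

variable {ι : Type*} (tab : ι → ℕ → ℕ) (n : ℕ)

/-- The table is a family of involutions of `{0, …, n-1}`. -/
structure IsInv : Prop where
  lt : ∀ g i, i < n → tab g i < n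
  inv : ∀ g i, i < n → tab g (tab g i) = i

variable {tab n}

theorem evalT_lt (ht : IsInv tab n) (w : List ι) {i : ℕ} (hi : i < n) : evalT tab w i < n := by
  induction w with
  | nil => exact hi
  | cons g w ih => exact ht.lt g _ ih

/-- The permutation of `Fin n` given by a generator. -/
def permOf (ht : IsInv tab n) (g : ι) : Equiv.Perm (Fin n) where
  toFun i := ⟨tab g i, ht.lt g i i.2⟩
  invFun i := ⟨tab g i, ht.lt g i i.2⟩
  left_inv i := Fin.ext (ht.inv g i i.2)
  right_inv i := Fin.ext (ht.inv g i i.2)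

theorem permOf_apply (ht : IsInv tab n) (g : ι) (i : Fin n) : ((permOf ht g i : Fin n) : ℕ) = tab g i := rfl

theorem permOf_mul_self (ht : IsInv tab n) (g : ι) : permOf ht g * permOf ht g = 1 := by
  ext i
  exact ht.inv g i i.2

theorem permOf_inv (ht : IsInv tab n) (g : ι) : (permOf ht g)⁻¹ = permOf ht g :=
  inv_eq_of_mul_eq_one_left (permOf_mul_self ht g)

theorem prod_apply (ht : IsInv tab n) (w : List ι) (i : Fin n) :
    ((((w.map (permOf ht)).prod : Equiv.Perm (Fin n)) i : Fin n) : ℕ) = evalT tab w i := by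
  induction w with
  | nil => rfl
  | cons g w ih =>
    rw [List.map_cons, List.prod_cons, Equiv.Perm.mul_apply, permOf_apply, ih]
    rfl

/-- A word acts trivially as soon as the table says so. -/
theorem prod_eq_one (ht : IsInv tab n) (w : List ι)
    (h : allLt n (fun i => evalT tab w i == i) = true) : (w.map (permOf ht)).prod = 1 := by
  ext i
  rw [prod_apply, Equiv.Perm.one_apply]
  exact beq_iff_eq.mp (allLt_spec h i i.2)

theorem pow_eq_prod (ht : IsInv tab n) (x y : ι) (m : ℕ) :
    (permOf ht x * permOf ht y) ^ m = (((List.replicate m [x, y]).flatten).map (permOf ht)).prod := by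
  induction m with
  | zero => simp
  | succ m ih =>
    rw [pow_succ', ih, List.replicate_succ, List.flatten_cons, List.map_append, List.prod_append]
    simp [mul_assoc]

theorem prod_apply_mk (ht : IsInv tab n) (w : List ι) (i j : ℕ) (hi : i < n) (hj : j < n)
    (h : evalT tab w i = j) : ((w.map (permOf ht)).prod : Equiv.Perm (Fin n)) ⟨i, hi⟩ = ⟨j, hj⟩ := by
  apply Fin.ext
  rw [prod_apply]
  exact h

end table

section index

variable {G : Type*} [Group G] {H : Subgroup G} {ι : Type*} {gen : ι → G} {n : ℕ} {Qf : ℕ → G ⧸ H}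
  {tab : ι → ℕ → ℕ}

/-- Upper bound: the cosets `Qf i`, `i < n`, are all the cosets. -/
theorem exists_Qf (hgen : Subgroup.closure (Set.range gen) = ⊤) (hn : 0 < n)
    (h0 : Qf 0 = ((1 : G) : G ⧸ H)) (ht : IsInv tab n)
    (hcl : ∀ g i, i < n → gen g • Qf i = Qf (tab g i)) (q : G ⧸ H) : ∃ i, i < n ∧ q = Qf i := by
  obtain ⟨w, rfl⟩ := QuotientGroup.mk_surjective q
  have hw : w ∈ Subgroup.closure (Set.range gen) := by rw [hgen]; trivial
  induction hw using Subgroup.closure_induction_left with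
  | one => exact ⟨0, hn, h0.symm⟩
  | mul_left x hx y _ ih =>
    obtain ⟨i, hi, e⟩ := ih
    obtain ⟨g, rfl⟩ := hx
    refine ⟨tab g i, ht.lt g i hi, ?_⟩
    rw [← hcl g i hi, ← e]
    rfl
  | inv_mul_cancel x hx y _ ih =>
    obtain ⟨i, hi, e⟩ := ih
    obtain ⟨g, rfl⟩ := hx
    refine ⟨tab g i, ht.lt g i hi, ?_⟩
    have h1 : gen g • Qf (tab g i) = Qf i := by
      rw [hcl g _ (ht.lt g i hi), ht.inv g i hi]
    have h2 : (((gen g)⁻¹ * y : G) : G ⧸ H) = (gen g)⁻¹ • ((y : G) : G ⧸ H) := rfl
    rw [h2, e, ← h1, inv_smul_smul]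

variable (H) in
/-- The map from cosets to points given by a permutation representation in which `H` fixes `0`. -/
def psi (hn : 0 < n) (φ : G →* Equiv.Perm (Fin n)) (hH : ∀ h ∈ H, φ h ⟨0, hn⟩ = ⟨0, hn⟩) : G ⧸ H → Fin n :=
  fun q => Quotient.liftOn' q (fun w => φ w ⟨0, hn⟩) (by
    intro a b hab
    have h1 : a⁻¹ * b ∈ H := QuotientGroup.leftRel_apply.mp hab
    have h2 := hH _ h1
    have h3 : b = a * (a⁻¹ * b) := by group
    show φ a ⟨0, hn⟩ = φ b ⟨0, hn⟩
    rw [h3, map_mul, Equiv.Perm.mul_apply, h2])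

theorem psi_mk (hn : 0 < n) (φ : G →* Equiv.Perm (Fin n)) (hH : ∀ h ∈ H, φ h ⟨0, hn⟩ = ⟨0, hn⟩) (w : G) :
    psi H hn φ hH ((w : G) : G ⧸ H) = φ w ⟨0, hn⟩ := rfl

theorem psi_smul (hn : 0 < n) (φ : G →* Equiv.Perm (Fin n)) (hH : ∀ h ∈ H, φ h ⟨0, hn⟩ = ⟨0, hn⟩) (g : G)
    (q : G ⧸ H) : psi H hn φ hH (g • q) = φ g (psi H hn φ hH q) := by
  obtain ⟨w, rfl⟩ := QuotientGroup.mk_surjective q
  have h2 : g • ((w : G) : G ⧸ H) = (((g * w : G)) : G ⧸ H) := rfl
  rw [h2, psi_mk, psi_mk, map_mul, Equiv.Perm.mul_apply]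

/-- The coset `Qf i` is sent to the point `i`, given a spanning tree of the table. -/
theorem psi_Qf (hn : 0 < n) (φ : G →* Equiv.Perm (Fin n)) (hH : ∀ h ∈ H, φ h ⟨0, hn⟩ = ⟨0, hn⟩)
    (h0 : Qf 0 = ((1 : G) : G ⧸ H))
    (hcl : ∀ g i, i < n → gen g • Qf i = Qf (tab g i))
    (hφ : ∀ g (i : Fin n), ((φ (gen g) i : Fin n) : ℕ) = tab g i)
    (hpar : ∀ i, 0 < i → i < n → ∃ j g, j < i ∧ tab g j = i) :
    ∀ i (hi : i < n), psi H hn φ hH (Qf i) = ⟨i, hi⟩ := by
  intro i
  induction i using Nat.strong_induction_on with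
  | _ i ih =>
    intro hi
    rcases Nat.eq_zero_or_pos i with rfl | hpos
    · rw [h0, psi_mk, map_one]; rfl
    · obtain ⟨j, g, hj, e⟩ := hpar i hpos hi
      have hjn : j < n := lt_trans hj hi
      have h1 := ih j hj hjn
      apply Fin.ext
      show ((psi H hn φ hH (Qf i) : Fin n) : ℕ) = i
      rw [← e, ← hcl g j hjn, psi_smul, h1, hφ]

/-- The index of `H` is the number of rows of the table. -/
theorem index_eq (hgen : Subgroup.closure (Set.range gen) = ⊤) (hn : 0 < n)
    (h0 : Qf 0 = ((1 : G) : G ⧸ H)) (ht : IsInv tab n)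
    (hcl : ∀ g i, i < n → gen g • Qf i = Qf (tab g i))
    (φ : G →* Equiv.Perm (Fin n)) (hH : ∀ h ∈ H, φ h ⟨0, hn⟩ = ⟨0, hn⟩)
    (hφ : ∀ g (i : Fin n), ((φ (gen g) i : Fin n) : ℕ) = tab g i)
    (hpar : ∀ i, 0 < i → i < n → ∃ j g, j < i ∧ tab g j = i) :
    H.index = n ∧ Function.Bijective (psi H hn φ hH) := by
  have hps := psi_Qf hn φ hH h0 hcl hφ hpar
  have hinj : Function.Injective (psi H hn φ hH) := by
    intro q q' h
    obtain ⟨i, hi, rfl⟩ := exists_Qf hgen hn h0 ht hcl q
    obtain ⟨j, hj, rfl⟩ := exists_Qf hgen hn h0 ht hcl q'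
    rw [hps i hi, hps j hj] at h
    have : i = j := congrArg Fin.val h
    rw [this]
  have hsurj : Function.Surjective (psi H hn φ hH) := by
    intro i
    exact ⟨Qf i, hps i i.2⟩
  refine ⟨?_, hinj, hsurj⟩
  have e : (G ⧸ H) ≃ Fin n := Equiv.ofBijective _ ⟨hinj, hsurj⟩
  rw [Subgroup.index, Nat.card_congr e, Nat.card_fin]

end index

section orbit

variable {G : Type*} [Group G] {H : Subgroup G} {n : ℕ}

/-- The orbit of `H` on a coset, counted in the permutation representation. -/
theorem orbit_ncard {κ : Type*} (hs : κ → G) (hH : H = Subgroup.closure (Set.range hs))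
    (φ : G →* Equiv.Perm (Fin n)) (ψ : G ⧸ H → Fin n) (hψi : Function.Injective ψ)
    (hψ : ∀ (g : G) (q : G ⧸ H), ψ (g • q) = φ g (ψ q))
    (C : Fin n → Prop) [DecidablePred C] (q : G ⧸ H) (hq : C (ψ q))
    (hcl : ∀ k i, C i → C (φ (hs k) i))
    (dep : Fin n → ℕ)
    (hreach : ∀ i, C i → i = ψ q ∨ ∃ j k, C j ∧ dep j < dep i ∧ φ (hs k) j = i) :
    (MulAction.orbit H q).ncard = (Finset.univ.filter C).card := by
  have hmaps : ∀ h ∈ H, Set.MapsTo (φ h) {i | C i} {i | C i} := by
    intro h hh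
    rw [hH] at hh
    induction hh using Subgroup.closure_induction with
    | mem x hx =>
      obtain ⟨k, rfl⟩ := hx
      exact fun i hi => hcl k i hi
    | one => intro i hi; rw [map_one]; exact hi
    | mul x y _ _ ihx ihy =>
      intro i hi
      rw [map_mul, Equiv.Perm.mul_apply]
      exact ihx (ihy hi)
    | inv x _ ih =>
      rw [map_inv]
      have hb := ((Set.toFinite {i | C i}).injOn_iff_bijOn_of_mapsTo ih).1 (φ x).injective.injOn
      intro i hi
      obtain ⟨j, hj, e⟩ := hb.surjOn hi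
      have e2 : (φ x)⁻¹ i = j := by rw [← e]; simp
      rw [e2]
      exact hj
  have hall : ∀ m : ℕ, ∀ i, C i → dep i = m → ∃ h ∈ H, φ h (ψ q) = i := by
    intro m
    induction m using Nat.strong_induction_on with
    | _ m ih =>
      intro i hi hm
      rcases hreach i hi with rfl | ⟨j, k, hj, hd, e⟩
      · exact ⟨1, H.one_mem, by rw [map_one]; rfl⟩
      · obtain ⟨h, hh, e'⟩ := ih (dep j) (hm ▸ hd) j hj rfl
        refine ⟨hs k * h, H.mul_mem ?_ hh, ?_⟩
        · rw [hH]; exact Subgroup.subset_closure ⟨k, rfl⟩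
        · rw [map_mul, Equiv.Perm.mul_apply, e', e]
  have himg : ψ '' (MulAction.orbit H q) = ((Finset.univ.filter C : Finset (Fin n)) : Set (Fin n)) := by
    ext i
    rw [Set.mem_image, Finset.mem_coe, Finset.mem_filter]
    simp only [Finset.mem_univ, true_and]
    constructor
    · rintro ⟨q', ⟨h, rfl⟩, rfl⟩
      show C (ψ ((h : G) • q))
      rw [hψ]
      exact hmaps h h.2 hq
    · intro hi
      obtain ⟨h, hh, e⟩ := hall (dep i) i hi rfl
      exact ⟨(⟨h, hh⟩ : H) • q, ⟨⟨h, hh⟩, rfl⟩, by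
        have h2 : ((⟨h, hh⟩ : H) • q : G ⧸ H) = h • q := rfl
        rw [h2, hψ, e]⟩
  rw [← Set.ncard_image_of_injective _ hψi, himg, Set.ncard_coe_finset]

end orbit

end Cfsg.Agent.Helper28.CosetTable
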