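import Cfsg.Agent.Helper28.CosetTable

/-!
# Coset tables with proofs: counting (helper28)

A count of the points below a bound satisfying a boolean test, by binary splitting (so that its
evaluation nests only logarithmically deep).
-/

set_option autoImplicit false

namespace Cfsg.Agent.Helper28.CosetTable

/-- The number of `i` in `[lo, lo + 2 ^ d)` with `f i = true`. -/
def cntR : ℕ → ℕ → (ℕ → Bool) → ℕ
  | 0, lo, f => if f lo = true then 1 else 0
  | d + 1, lo, f => cntR d lo f + cntR d (lo + 2 ^ d) f

theorem cntR_eq (d : ℕ) : ∀ (lo : ℕ) (f : ℕ → Bool),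
    cntR d lo f = ((Finset.Ico lo (lo + 2 ^ d)).filter (fun i => f i = true)).card := by
  induction d with
  | zero =>
    intro lo f
    rw [cntR, pow_zero, Nat.Ico_succ_singleton, Finset.filter_singleton]
    by_cases h : f lo = true
    · rw [if_pos h, if_pos h, Finset.card_singleton]
    · rw [if_neg h, if_neg h, Finset.card_empty]
  | succ d ih =>
    intro lo f
    rw [cntR, ih, ih]
    have h1 : Finset.Ico lo (lo + 2 ^ (d + 1)) = Finset.Ico lo (lo + 2 ^ d) ∪ Finset.Ico (lo + 2 ^ d) (lo + 2 ^ d + 2 ^ d) := by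
      rw [Finset.Ico_union_Ico_eq_Ico (Nat.le_add_right _ _) (Nat.le_add_right _ _)]
      congr 1
      rw [pow_succ]; omega
    rw [h1, Finset.filter_union, Finset.card_union_of_disjoint]
    apply Finset.disjoint_filter_filter
    exact Finset.Ico_disjoint_Ico_consecutive _ _ _

/-- The number of points of `Fin n` passing a boolean test. -/
theorem card_filter_fin (n d : ℕ) (hd : n ≤ 2 ^ d) (f : ℕ → Bool) :
    (Finset.univ.filter (fun i : Fin n => f i = true)).card = cntR d 0 (fun i => decide (i < n) && f i) := by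
  rw [cntR_eq, Nat.zero_add]
  have h1 : (Finset.Ico 0 (2 ^ d)).filter (fun i => (decide (i < n) && f i) = true)
      = (Finset.univ.filter (fun i : Fin n => f i = true)).map Fin.valEmbedding := by
    ext i
    simp only [Finset.mem_filter, Finset.mem_Ico, Nat.zero_le, true_and, Bool.and_eq_true, decide_eq_true_eq,
      Finset.mem_map, Finset.mem_univ, Fin.valEmbedding_apply]
    constructor
    · rintro ⟨_, h2, h3⟩
      exact ⟨⟨i, h2⟩, h3, rfl⟩
    · rintro ⟨j, h3, rfl⟩
      exact ⟨lt_of_lt_of_le j.2 hd, j.2, h3⟩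
  rw [h1, Finset.card_map]

section edges

variable {Q : Type*}

/-- A list of edges `(i, j)`: the map `s` sends the coset numbered `i` to the coset numbered `j`. -/
def EdgesL (s : Q → Q) (Qf : ℕ → Q) : List (ℕ × ℕ) → Prop
  | [] => True
  | p :: l => s (Qf p.1) = Qf p.2 ∧ EdgesL s Qf l

theorem edgesL_spec (s : Q → Q) (Qf : ℕ → Q) : ∀ (l : List (ℕ × ℕ)), EdgesL s Qf l →
    ∀ r, r < l.length → s (Qf (l.getD r (0, 0)).1) = Qf (l.getD r (0, 0)).2 := by
  intro l
  induction l with
  | nil => intro _ r hr; simp at hr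
  | cons p l ih =>
    intro h r hr
    cases r with
    | zero => exact h.1
    | succ r =>
      have hr' : r < l.length := by simpa using hr
      simpa using ih h.2 r hr'

/-- Edges given as a list agree with a table. -/
theorem edges_tab (s : Q → Q) (Qf : ℕ → Q) (t : ℕ → ℕ) (lo : ℕ) (l : List (ℕ × ℕ)) (he : EdgesL s Qf l)
    (hb : allLt l.length (fun r => l.getD r (0, 0) == (lo + r, t (lo + r))) = true) :
    ∀ r, r < l.length → s (Qf (lo + r)) = Qf (t (lo + r)) := by
  intro r hr
  have h1 := edgesL_spec s Qf l he r hr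
  have h2 := beq_iff_eq.mp (allLt_spec hb r hr)
  rw [h2] at h1
  exact h1

/-- A property holds on consecutive blocks of 64 numbers. -/
def AllCh (P : ℕ → Prop) : ℕ → ℕ → Prop
  | _, 0 => True
  | lo, c + 1 => (∀ r, r < 64 → P (lo + r)) ∧ AllCh P (lo + 64) c

theorem allCh_spec (P : ℕ → Prop) : ∀ (c lo : ℕ), AllCh P lo c → ∀ k, k < c → ∀ r, r < 64 → P (lo + 64 * k + r) := by
  intro c
  induction c with
  | zero => intro lo _ k hk; omega
  | succ c ih =>
    intro lo h k hk r hr
    cases k with
    | zero => simpa using h.1 r hr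
    | succ k =>
      have h2 := ih (lo + 64) h.2 k (by omega) r hr
      have e : lo + 64 + 64 * k + r = lo + 64 * (k + 1) + r := by ring
      rw [e] at h2
      exact h2

theorem all_of_chunks (P : ℕ → Prop) (c rem : ℕ) (h : AllCh P 0 c) (hl : ∀ r, r < rem → P (64 * c + r)) :
    ∀ i, i < 64 * c + rem → P i := by
  intro i hi
  by_cases h1 : i < 64 * c
  · have h2 := allCh_spec P c 0 h (i / 64) (by omega) (i % 64) (Nat.mod_lt _ (by norm_num))
    have e : 0 + 64 * (i / 64) + i % 64 = i := by omega
    rw [e] at h2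
    exact h2
  · have h2 := hl (i - 64 * c) (by omega)
    have e : 64 * c + (i - 64 * c) = i := by omega
    rw [e] at h2
    exact h2

end edges

section orbit2

variable {G : Type*} [Group G] {H : Subgroup G} {n : ℕ}

/-- A set of points closed under the generators of `H` contains, with the image of a coset, the images of
its whole `H`-orbit. -/
theorem orbit_sub {κ : Type*} (hs : κ → G) (hH : H = Subgroup.closure (Set.range hs))
    (φ : G →* Equiv.Perm (Fin n)) (ψ : G ⧸ H → Fin n)
    (hψ : ∀ (g : G) (q : G ⧸ H), ψ (g • q) = φ g (ψ q))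
    (C : Fin n → Prop) (hcl : ∀ k i, C i → C (φ (hs k) i))
    (q q' : G ⧸ H) (hq : C (ψ q)) (hq' : q' ∈ MulAction.orbit H q) : C (ψ q') := by
  have hmaps : ∀ h ∈ H, Set.MapsTo (φ h) {i | C i} {i | C i} := by
    intro h hh
    rw [hH] at hh
    induction hh using Subgroup.closure_induction with
    | mem x hx =>
      obtain ⟨k, rfl⟩ := hx
      exact fun i hi => hcl k i hi
    | one => intro i hi; rw [map_one]; exact hi
    | mul x y _ _ ihx ihy =>
      intro i hi
      rw [map_mul, Equiv.Perm.mul_apply]
      exact ihx (ihy hi)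
    | inv x _ ih =>
      rw [map_inv]
      have hb := ((Set.toFinite {i | C i}).injOn_iff_bijOn_of_mapsTo ih).1 (φ x).injective.injOn
      intro i hi
      obtain ⟨j, hj, e⟩ := hb.surjOn hi
      have e2 : (φ x)⁻¹ i = j := by rw [← e]; simp
      rw [e2]
      exact hj
  obtain ⟨h, rfl⟩ := hq'
  show C (ψ ((h : G) • q))
  rw [hψ]
  exact hmaps h h.2 hq

end orbit2

end Cfsg.Agent.Helper28.CosetTable
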