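import Cfsg.Agent.Helper28.CosetTable2

/-!
# Coset tables with proofs: tables in small pieces (helper28)

A table of `b`-bit numbers stored as a list of lists of natural numbers, each packing 64 entries, so that
looking an entry up never handles a large number.
-/

set_option autoImplicit false

namespace Cfsg.Agent.Helper28.CosetTable

/-- Entry `i` of a table stored in blocks of 64 entries, 16 blocks to a list. -/
def lk3 (T : List (List ℕ)) (b i : ℕ) : ℕ := lk ((T.getD (i / 1024) []).getD (i / 64 % 16) 0) b (i % 64)

end Cfsg.Agent.Helper28.CosetTable
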