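import Cfsg.Agent.Helper28.CosetTable3

/-!
# Coset tables with proofs: checks in blocks (helper28)

A boolean test on `{0, …, n-1}` verified block by block, each block by its own evaluation.
-/

set_option autoImplicit false

namespace Cfsg.Agent.Helper28.CosetTable

/-- The test `f` holds on `lo, lo + 1, …, lo + len - 1`. -/
def allFrom (f : ℕ → Bool) : ℕ → ℕ → Bool
  | _, 0 => true
  | lo, k + 1 => f lo && allFrom f (lo + 1) k

theorem allFrom_spec (f : ℕ → Bool) : ∀ (len lo : ℕ), allFrom f lo len = true →
    ∀ i, lo ≤ i → i < lo + len → f i = true := by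
  intro len
  induction len with
  | zero => intro lo _ i h1 h2; omega
  | succ k ih =>
    intro lo h i h1 h2
    rw [allFrom, Bool.and_eq_true] at h
    rcases Nat.eq_or_lt_of_le h1 with rfl | h3
    · exact h.1
    · exact ih (lo + 1) h.2 i h3 (by omega)

/-- The test holds on `c` consecutive blocks of length `B`. -/
def BlocksOK (f : ℕ → Bool) (B : ℕ) : ℕ → ℕ → Prop
  | _, 0 => True
  | lo, c + 1 => allFrom f lo B = true ∧ BlocksOK f B (lo + B) c

theorem blocks_spec (f : ℕ → Bool) (B : ℕ) : ∀ (c lo : ℕ), BlocksOK f B lo c →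
    ∀ i, lo ≤ i → i < lo + B * c → f i = true := by
  intro c
  induction c with
  | zero => intro lo _ i h1 h2; omega
  | succ c ih =>
    intro lo h i h1 h2
    by_cases h3 : i < lo + B
    · exact allFrom_spec f B lo h.1 i h1 h3
    · exact ih (lo + B) h.2 i (by omega) (by rw [Nat.mul_succ] at h2; omega)

/-- A test checked in blocks holds below `n`. -/
theorem blocks_lt (f : ℕ → Bool) (n B c : ℕ) (hn : n ≤ B * c)
    (h : BlocksOK (fun i => Nat.ble n i || f i) B 0 c) : ∀ i, i < n → f i = true := by
  intro i hi
  have h1 := blocks_spec _ B c 0 h i (Nat.zero_le _) (by omega)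
  rw [Bool.or_eq_true] at h1
  rcases h1 with h1 | h1
  · exact absurd (Nat.le_of_ble_eq_true h1) (by omega)
  · exact h1

section table

variable {ι : Type*} {tab : ι → ℕ → ℕ} {n : ℕ}

/-- A word acts trivially as soon as the table says so. -/
theorem prod_eq_one' (ht : IsInv tab n) (w : List ι) (h : ∀ i, i < n → evalT tab w i = i) :
    (w.map (permOf ht)).prod = 1 := by
  ext i
  rw [prod_apply, Equiv.Perm.one_apply]
  exact h i i.2

end table

end Cfsg.Agent.Helper28.CosetTable
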