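import Cfsg.Agent.Helper28.CoxWord

/-!
# The order of a finite Coxeter group, by a verified enumeration (helper28)

The elements are numbered `0, …, N - 1`; element `i` is given by a word (read off a spanning tree),
multiplication on the right by a generator sends the word of `i` to the word of another element, by a
derivation made of braid moves and cancellations, and a permutation representation on `N` points
separates the `N` words.
-/

set_option autoImplicit false

namespace Cfsg.Agent.Helper28.CoxCard

open Cfsg.Agent.Helper28.CosetTable Cfsg.Agent.Helper28.CoxWord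

/-- Run the moves packed into `T`: `b` bits each, code plus one, ended by zero. -/
def runZ (mm : ℕ → ℕ → ℕ) (b : ℕ) : ℕ → ℕ → List ℕ → Option (List ℕ)
  | 0, T, w => if T = 0 then some w else none
  | k + 1, T, w =>
    if T = 0 then some w else
    match step mm (T % 2 ^ b - 1) w with
    | some w' => runZ mm b k (T / 2 ^ b) w'
    | none => none

theorem runZ_sound {G : Type*} [Group G] {f : ℕ → G} {mm : ℕ → ℕ → ℕ}
    (hsq : ∀ a, f a * f a = 1) (hbr : ∀ a b, (f a * f b) ^ mm a b = 1) (b : ℕ) :
    ∀ (k T : ℕ) (w v : List ℕ), runZ mm b k T w = some v → prodN f w = prodN f v := by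
  intro k
  induction k with
  | zero =>
    intro T w v h
    simp only [runZ] at h
    split_ifs at h
    simp only [Option.some.injEq] at h
    rw [h]
  | succ k ih =>
    intro T w v h
    simp only [runZ] at h
    split_ifs at h with hT
    · simp only [Option.some.injEq] at h
      rw [h]
    · cases hs : step mm (T % 2 ^ b - 1) w with
      | none => rw [hs] at h; simp at h
      | some w' =>
        rw [hs] at h
        rw [step_sound hsq hbr _ w w' hs]
        exact ih _ w' v h

/-- The word of an element, read off the spanning tree (parents in `P`, labels in `Gn`). -/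
def nfAux (P bP Gn : ℕ) : ℕ → ℕ → List ℕ → List ℕ
  | 0, _, acc => acc
  | k + 1, i, acc => if i = 0 then acc else nfAux P bP Gn k (lk P bP i) (lk Gn 4 i :: acc)

/-- The word of an element. -/
def nf (P bP Gn fuel : ℕ) (i : ℕ) : List ℕ := nfAux P bP Gn fuel i []

/-- A table of permutations indexed by natural numbers. -/
def tabN (n : ℕ) (Ts : List ℕ) (bits : ℕ) : ℕ → ℕ → ℕ :=
  fun g i => if g < n then lk (Ts.getD g 0) bits i else i

section cox

variable {n : ℕ} (M : CoxeterMatrix (Fin n))

theorem permRep_prodN (Ts : List ℕ) (bits N : ℕ) (ht : IsInv (tabF n Ts bits) N)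
    (hrel : ∀ i j : Fin n, allLt N (fun x => evalT (tabF n Ts bits)
      ((List.replicate (M i j) [i, j]).flatten) x == x) = true) (w : List ℕ) (x : Fin N) :
    ((permRep M Ts bits N ht hrel (prodN (fN M) w) x : Fin N) : ℕ) = evalT (tabN n Ts bits) w x := by
  induction w with
  | nil =>
    rw [prodN_nil, map_one]
    rfl
  | cons a w ih =>
    rw [prodN_cons, map_mul, Equiv.Perm.mul_apply]
    show _ = tabN n Ts bits a (evalT (tabN n Ts bits) w x)
    rw [← ih]
    unfold fN tabN
    by_cases ha : a < n
    · rw [dif_pos ha, if_pos ha, permRep_simple, permOf_apply]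
      rfl
    · rw [dif_neg ha, if_neg ha, map_one]
      rfl

/-- The order of a Coxeter group, from an enumeration of its elements. -/
theorem card_eq (MT : ℕ) (hMT : ∀ a b : Fin n, M a b = lk MT 4 (a.val * n + b.val))
    (N P bP Gn fuel MV wb b F RT bR : ℕ) (Ts : List ℕ) (bits : ℕ) (hN : 0 < N)
    (hnf0 : nf P bP Gn fuel 0 = [])
    (hup : allLt N (fun i => allLt n (fun g =>
      decide (runZ (mmT n MT) b F (lk MV wb (n * i + g)) (nf P bP Gn fuel i ++ [g]) =
        some (nf P bP Gn fuel (lk RT bR (n * i + g)))) && decide (lk RT bR (n * i + g) < N))) = true)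
    (hinv : ∀ g : Fin n, allLt N (fun i => decide (tabF n Ts bits g i < N) &&
      (tabF n Ts bits g (tabF n Ts bits g i) == i)) = true)
    (hrel : ∀ i j : Fin n, allLt N (fun x => evalT (tabF n Ts bits)
      ((List.replicate (M i j) [i, j]).flatten) x == x) = true)
    (hlow : allLt N (fun i => evalT (tabN n Ts bits) (nf P bP Gn fuel i) 0 == i) = true) :
    Nat.card M.Group = N := by
  have hsq := fN_sq M
  have hbr := fN_br M MT hMT
  have hcl : ∀ i, i < N → ∀ a : Fin n, ∃ j, j < N ∧
      prodN (fN M) (nf P bP Gn fuel i) * M.simple a = prodN (fN M) (nf P bP Gn fuel j) := by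
    intro i hi a
    have h1 := allLt_spec (allLt_spec hup i hi) a.val a.2
    simp only [Bool.and_eq_true, decide_eq_true_eq] at h1
    refine ⟨_, h1.2, ?_⟩
    rw [← runZ_sound hsq hbr b F _ _ _ h1.1, prodN_append, prodN_cons, prodN_nil, mul_one]
    unfold fN
    rw [dif_pos a.2]
  have hsurj : ∀ ω : List (Fin n), ∃ i, i < N ∧
      M.toCoxeterSystem.wordProd ω = prodN (fN M) (nf P bP Gn fuel i) := by
    intro ω
    induction ω using List.reverseRecOn with
    | nil => exact ⟨0, hN, by rw [hnf0]; rfl⟩
    | append_singleton l a ih =>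
      obtain ⟨i, hi, e⟩ := ih
      obtain ⟨j, hj, e'⟩ := hcl i hi a
      refine ⟨j, hj, ?_⟩
      rw [M.toCoxeterSystem.wordProd_append, e, ← e']
      simp
  have ht := isInv_of_check Ts bits N hinv
  have hinj : ∀ i, i < N → ∀ j, j < N →
      prodN (fN M) (nf P bP Gn fuel i) = prodN (fN M) (nf P bP Gn fuel j) → i = j := by
    intro i hi j hj e
    have h1 := permRep_prodN M Ts bits N ht hrel (nf P bP Gn fuel i) ⟨0, hN⟩
    have h2 := permRep_prodN M Ts bits N ht hrel (nf P bP Gn fuel j) ⟨0, hN⟩
    rw [e, h2] at h1
    have h3 := beq_iff_eq.mp (allLt_spec hlow i hi)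
    have h4 := beq_iff_eq.mp (allLt_spec hlow j hj)
    rw [← h3, ← h4]
    exact h1.symm
  let E : Fin N → M.Group := fun i => prodN (fN M) (nf P bP Gn fuel i)
  have hb : Function.Bijective E := by
    constructor
    · intro i j e
      exact Fin.ext (hinj i i.2 j j.2 e)
    · intro w
      obtain ⟨ω, rfl⟩ := M.toCoxeterSystem.wordProd_surjective w
      obtain ⟨i, hi, e⟩ := hsurj ω
      exact ⟨⟨i, hi⟩, e.symm⟩
  rw [← Nat.card_congr (Equiv.ofBijective E hb), Nat.card_fin]

end cox

end Cfsg.Agent.Helper28.CoxCard
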