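import Cfsg.Agent.Helper28.CoxCard

/-!
# Parabolic subgroups of Coxeter groups: the index by a verified enumeration (helper28)

For lists `J' ⊆ J` of labels, the subgroup generated by the generators in `J` is the disjoint union
of `m` cosets of the subgroup generated by the generators in `J'`: the coset representatives are
words read off a spanning tree, multiplication on the left by a generator in `J` sends the word of a
representative to the word of a representative followed by at most one letter of `J'` (a derivation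
by braid moves and cancellations), and a permutation representation in which the smaller subgroup
fixes a point separates the cosets.
-/

set_option autoImplicit false

namespace Cfsg.Agent.Helper28.CoxPar

open Cfsg.Agent.Helper28.CosetTable Cfsg.Agent.Helper28.CoxWord Cfsg.Agent.Helper28.CoxCard

/-- The word with at most one letter coded by a number. -/
def uword (c : ℕ) : List ℕ := if c = 0 then [] else [c - 1]

/-- The word of a coset representative, read off the spanning tree towards the root. -/
def nfR (P bP Gn : ℕ) : ℕ → ℕ → List ℕ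
  | 0, _ => []
  | k + 1, i => if i = 0 then [] else lk Gn 4 i :: nfR P bP Gn k (lk P bP i)

section cox

variable {n : ℕ} (M : CoxeterMatrix (Fin n))

/-- The subgroup generated by the generators with labels in a list. -/
def Pl (J : List ℕ) : Subgroup M.Group := Subgroup.closure {w | ∃ a ∈ J, w = fN M a}

theorem fN_mem_Pl (J : List ℕ) (a : ℕ) (ha : a ∈ J) : fN M a ∈ Pl M J :=
  Subgroup.subset_closure ⟨a, ha, rfl⟩

theorem prodN_mem_Pl (J : List ℕ) (w : List ℕ) (hw : ∀ a ∈ w, a ∈ J) : prodN (fN M) w ∈ Pl M J := by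
  induction w with
  | nil => rw [prodN_nil]; exact Subgroup.one_mem _
  | cons a w ih =>
    rw [prodN_cons]
    exact Subgroup.mul_mem _ (fN_mem_Pl M J a (hw a List.mem_cons_self))
      (ih (fun b hb => hw b (List.mem_cons_of_mem a hb)))

theorem Pl_mono {J J' : List ℕ} (h : ∀ a ∈ J', a ∈ J) : Pl M J' ≤ Pl M J := by
  apply Subgroup.closure_mono
  rintro w ⟨a, ha, rfl⟩
  exact ⟨a, h a ha, rfl⟩

theorem Pl_nil : Pl M [] = ⊥ := by
  unfold Pl
  rw [Subgroup.closure_eq_bot_iff]
  rintro w ⟨a, ha, rfl⟩
  simp at ha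

theorem card_Pl_nil : Nat.card (Pl M []) = 1 := by
  rw [Pl_nil]; exact Subgroup.card_bot

theorem Pl_all : Pl M (List.range n) = ⊤ := by
  rw [eq_top_iff, ← M.toCoxeterSystem.subgroup_closure_range_simple]
  apply Subgroup.closure_mono
  rintro w ⟨i, rfl⟩
  refine ⟨i.val, List.mem_range.mpr i.2, ?_⟩
  unfold fN
  rw [dif_pos i.2]
  rfl

theorem card_Pl_all : Nat.card (Pl M (List.range n)) = Nat.card M.Group := by
  rw [Pl_all]; exact Subgroup.card_top

/-- One step of the chain of subgroups. -/
theorem step_card (MT : ℕ) (hMT : ∀ a b : Fin n, M a b = lk MT 4 (a.val * n + b.val))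
    (J J' : List ℕ) (hJ : ∀ a ∈ J', a ∈ J)
    (m : ℕ) (wd : ℕ → List ℕ) (MV wb b F LT bL UT : ℕ) (Ts : List ℕ) (bits N x INV bI : ℕ)
    (hx : x < N) (hm : 0 < m)
    (hnf0 : wd 0 = [])
    (hlet : allLt m (fun t => (wd t).all (fun a => decide (a ∈ J))) = true)
    (hup : allLt m (fun t => J.all (fun g =>
      decide (runZ (mmT n MT) b F (lk MV wb (n * t + g)) (g :: wd t) =
        some (wd (lk LT bL (n * t + g)) ++ uword (lk UT 4 (n * t + g)))) &&
      decide (lk LT bL (n * t + g) < m) &&
      (uword (lk UT 4 (n * t + g))).all (fun a => decide (a ∈ J')))) = true)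
    (hinv : ∀ g : Fin n, allLt N (fun i => decide (tabF n Ts bits g i < N) &&
      (tabF n Ts bits g (tabF n Ts bits g i) == i)) = true)
    (hrel : ∀ i j : Fin n, allLt N (fun x => evalT (tabF n Ts bits)
      ((List.replicate (M i j) [i, j]).flatten) x == x) = true)
    (hfix : J'.all (fun j => tabN n Ts bits j x == x) = true)
    (hsep : allLt m (fun t => lk INV bI (evalT (tabN n Ts bits) (wd t) x) == t) = true) :
    Nat.card (Pl M J) = m * Nat.card (Pl M J') := by
  have hsq := fN_sq M
  have hbr := fN_br M MT hMT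
  have hle : Pl M J' ≤ Pl M J := Pl_mono M hJ
  have ht := isInv_of_check Ts bits N hinv
  have hEmem : ∀ t, t < m → prodN (fN M) (wd t) ∈ Pl M J := by
    intro t htm
    apply prodN_mem_Pl
    intro a ha
    have h1 := allLt_spec hlet t htm
    rw [List.all_eq_true] at h1
    exact of_decide_eq_true (h1 a ha)
  -- the smaller subgroup fixes the point
  have hfixP : ∀ p ∈ Pl M J', permRep M Ts bits N ht hrel p ⟨x, hx⟩ = ⟨x, hx⟩ := by
    intro p hp
    induction hp using Subgroup.closure_induction with
    | mem y hy =>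
      obtain ⟨a, ha, rfl⟩ := hy
      apply Fin.ext
      have h1 := permRep_prodN M Ts bits N ht hrel [a] ⟨x, hx⟩
      rw [prodN_cons, prodN_nil, mul_one] at h1
      rw [h1]
      rw [List.all_eq_true] at hfix
      exact beq_iff_eq.mp (hfix a ha)
    | one => rw [map_one]; rfl
    | mul y z _ _ ihy ihz => rw [map_mul, Equiv.Perm.mul_apply, ihz, ihy]
    | inv y _ ih =>
      rw [map_inv, Equiv.Perm.inv_eq_iff_eq]
      exact ih.symm
  -- every element of the bigger subgroup is a representative times an element of the smaller one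
  have hmul : ∀ g ∈ J, ∀ t, t < m → ∀ p ∈ Pl M J', ∃ t', t' < m ∧ ∃ p' ∈ Pl M J',
      fN M g * (prodN (fN M) (wd t) * p) = prodN (fN M) (wd t') * p' := by
    intro g hg t htm p hp
    have h1 := allLt_spec hup t htm
    rw [List.all_eq_true] at h1
    have h2 := h1 g hg
    simp only [Bool.and_eq_true, decide_eq_true_eq] at h2
    obtain ⟨⟨h3, h4⟩, h5⟩ := h2
    refine ⟨_, h4, prodN (fN M) (uword (lk UT 4 (n * t + g))) * p, ?_, ?_⟩
    · apply Subgroup.mul_mem _ _ hp
      apply prodN_mem_Pl
      intro a ha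
      rw [List.all_eq_true] at h5
      exact of_decide_eq_true (h5 a ha)
    · have h6 := runZ_sound hsq hbr b F _ _ _ h3
      rw [prodN_cons, prodN_append] at h6
      rw [← mul_assoc, h6, mul_assoc]
  have hsurj : ∀ w ∈ Pl M J, ∃ t, t < m ∧ ∃ p ∈ Pl M J',
      w = prodN (fN M) (wd t) * p := by
    intro w hw
    induction hw using Subgroup.closure_induction_left with
    | one => exact ⟨0, hm, 1, Subgroup.one_mem _, by rw [hnf0, prodN_nil, mul_one]⟩
    | mul_left y hy z _ ih =>
      obtain ⟨t, htm, p, hp, rfl⟩ := ih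
      obtain ⟨g, hg, rfl⟩ := hy
      obtain ⟨t', ht', p', hp', e⟩ := hmul g hg t htm p hp
      exact ⟨t', ht', p', hp', e⟩
    | inv_mul_cancel y hy z _ ih =>
      obtain ⟨t, htm, p, hp, rfl⟩ := ih
      obtain ⟨g, hg, rfl⟩ := hy
      obtain ⟨t', ht', p', hp', e⟩ := hmul g hg t htm p hp
      refine ⟨t', ht', p', hp', ?_⟩
      rw [inv_eq_of_mul_eq_one_left (hsq g)]
      exact e
  -- the representatives lie in different cosets
  have hinj : ∀ t, t < m → ∀ t', t' < m → ∀ p ∈ Pl M J', ∀ p' ∈ Pl M J',
      prodN (fN M) (wd t) * p = prodN (fN M) (wd t') * p' → t = t' := by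
    intro t htm t' ht' p hp p' hp' e
    have h1 := congrArg (fun w => ((permRep M Ts bits N ht hrel w ⟨x, hx⟩ : Fin N) : ℕ)) e
    simp only [map_mul, Equiv.Perm.mul_apply] at h1
    rw [hfixP p hp, hfixP p' hp', permRep_prodN, permRep_prodN] at h1
    have h3 := beq_iff_eq.mp (allLt_spec hsep t htm)
    have h4 := beq_iff_eq.mp (allLt_spec hsep t' ht')
    rw [← h3, ← h4]
    exact congrArg (lk INV bI) h1
  let Ψ : Fin m × Pl M J' → Pl M J := fun q =>
    ⟨prodN (fN M) (wd q.1) * q.2, Subgroup.mul_mem _ (hEmem q.1 q.1.2) (hle q.2.2)⟩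
  have hb : Function.Bijective Ψ := by
    constructor
    · rintro ⟨t, p⟩ ⟨t', p'⟩ e
      have e1 : prodN (fN M) (wd t) * (p : M.Group) =
          prodN (fN M) (wd t') * (p' : M.Group) := congrArg Subtype.val e
      have e2 : (t : ℕ) = t' := hinj t t.2 t' t'.2 p p.2 p' p'.2 e1
      have e3 : t = t' := Fin.ext e2
      subst e3
      have e4 : (p : M.Group) = p' := mul_left_cancel e1
      rw [Subtype.ext e4]
    · rintro ⟨w, hw⟩
      obtain ⟨t, htm, p, hp, rfl⟩ := hsurj w hw
      exact ⟨(⟨t, htm⟩, ⟨p, hp⟩), rfl⟩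
  rw [← Nat.card_congr (Equiv.ofBijective Ψ hb), Nat.card_prod, Nat.card_fin]

end cox

end Cfsg.Agent.Helper28.CoxPar
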