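import Mathlib
import Cfsg.Agent.Helper28.CosetTable

/-!
# Words in Coxeter groups: a verified checker for braid moves and cancellations (helper28)

A word in the generators of a Coxeter group is rewritten by a list of moves (replace an alternating
word of length `m a b` by the other one; delete a doubled letter); the product of the word does not
change. The moves are packed into one natural number, so that a derivation is checked by evaluation.
Also: permutation representations from packed tables, to show that a word is not trivial.
-/

set_option autoImplicit false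

namespace Cfsg.Agent.Helper28.CoxWord

open Cfsg.Agent.Helper28.CosetTable

/-- The alternating word of a given length starting with `a`. -/
def alt (a b : ℕ) : ℕ → List ℕ
  | 0 => []
  | k + 1 => a :: alt b a k

/-- Remove a given prefix. -/
def strip : List ℕ → List ℕ → Option (List ℕ)
  | [], w => some w
  | _ :: _, [] => none
  | a :: p, b :: w => if a = b then strip p w else none

theorem strip_spec : ∀ (p w v : List ℕ), strip p w = some v → w = p ++ v := by
  intro p
  induction p with
  | nil =>
    intro w v h
    simp only [strip, Option.some.injEq] at h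
    simp [h]
  | cons a p ih =>
    intro w v h
    cases w with
    | nil => simp [strip] at h
    | cons b w =>
      simp only [strip] at h
      split_ifs at h with hab
      subst hab
      rw [ih w v h]; rfl

/-- A braid move at the head of a word. -/
def braidHead (mm : ℕ → ℕ → ℕ) : List ℕ → Option (List ℕ)
  | a :: b :: w => (strip (alt a b (mm a b)) (a :: b :: w)).map (fun v => alt b a (mm a b) ++ v)
  | _ => none

/-- A cancellation at the head of a word. -/
def cancelHead : List ℕ → Option (List ℕ)
  | a :: b :: w => if a = b then some w else none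
  | _ => none

/-- Apply a move at a given position. -/
def applyAt (h : List ℕ → Option (List ℕ)) : ℕ → List ℕ → Option (List ℕ)
  | 0, w => h w
  | _ + 1, [] => none
  | p + 1, a :: w => (applyAt h p w).map (fun v => a :: v)

/-- One move, coded as `2 * position + kind`. -/
def step (mm : ℕ → ℕ → ℕ) (c : ℕ) (w : List ℕ) : Option (List ℕ) :=
  applyAt (if c % 2 = 1 then braidHead mm else cancelHead) (c / 2) w

/-- Run `k` moves packed into `T`, `b` bits each. -/
def run (mm : ℕ → ℕ → ℕ) (b : ℕ) : ℕ → ℕ → List ℕ → Option (List ℕ)
  | 0, _, w => some w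
  | k + 1, T, w =>
    match step mm (T % 2 ^ b) w with
    | some w' => run mm b k (T / 2 ^ b) w'
    | none => none

theorem prod_replicate_flatten {α : Type*} {G : Type*} [Monoid G] (g : α → G) (w : List α) (k : ℕ) :
    (((List.replicate k w).flatten).map g).prod = ((w.map g).prod) ^ k := by
  induction k with
  | zero => simp
  | succ k ih => rw [List.replicate_succ, List.flatten_cons, List.map_append, List.prod_append, ih, pow_succ']

section sound

variable {G : Type*} [Group G] (f : ℕ → G)

/-- The product of a word. -/
def prodN (w : List ℕ) : G := (w.map f).prod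

theorem prodN_nil : prodN f [] = 1 := rfl

theorem prodN_cons (a : ℕ) (w : List ℕ) : prodN f (a :: w) = f a * prodN f w := by
  simp [prodN]

theorem prodN_append (u v : List ℕ) : prodN f (u ++ v) = prodN f u * prodN f v := by
  simp [prodN]

theorem prodN_replicate (w : List ℕ) (h : ℕ) :
    prodN f (List.replicate h w).flatten = prodN f w ^ h := prod_replicate_flatten f w h

variable {f} {mm : ℕ → ℕ → ℕ}

theorem prodN_alt_even (a b : ℕ) (k : ℕ) : prodN f (alt a b (2 * k)) = (f a * f b) ^ k := by
  induction k with
  | zero => simp [alt, prodN]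
  | succ k ih =>
    show prodN f (a :: b :: alt a b (2 * k)) = _
    rw [prodN_cons, prodN_cons, ih, pow_succ', mul_assoc]

theorem prodN_alt_odd (a b : ℕ) (k : ℕ) : prodN f (alt a b (2 * k + 1)) = f a * (f b * f a) ^ k := by
  show prodN f (a :: alt b a (2 * k)) = _
  rw [prodN_cons, prodN_alt_even]

theorem prodN_alt_swap (hsq : ∀ a, f a * f a = 1) (hbr : ∀ a b, (f a * f b) ^ mm a b = 1) (a b : ℕ) :
    prodN f (alt a b (mm a b)) = prodN f (alt b a (mm a b)) := by
  have ha : (f a)⁻¹ = f a := inv_eq_of_mul_eq_one_left (hsq a)
  have hb : (f b)⁻¹ = f b := inv_eq_of_mul_eq_one_left (hsq b)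
  have hu : f b * f a = (f a * f b)⁻¹ := by rw [mul_inv_rev, ha, hb]
  have h := hbr a b
  rcases Nat.even_or_odd' (mm a b) with ⟨k, hk | hk⟩
  · rw [hk] at h ⊢
    rw [prodN_alt_even, prodN_alt_even, hu, inv_pow]
    apply eq_inv_of_mul_eq_one_left
    rw [← pow_add, ← two_mul]; exact h
  · rw [hk] at h ⊢
    rw [prodN_alt_odd, prodN_alt_odd, hu, inv_pow, mul_inv_eq_iff_eq_mul, mul_assoc, ← pow_add, ← two_mul]
    have h2 : (f a * f b) ^ (2 * k) = f b * f a := by
      rw [hu]; apply eq_inv_of_mul_eq_one_left
      rw [← pow_succ]; exact h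
    rw [h2, ← mul_assoc, hsq b, one_mul]

theorem braidHead_sound (hsq : ∀ a, f a * f a = 1) (hbr : ∀ a b, (f a * f b) ^ mm a b = 1)
    (w v : List ℕ) (h : braidHead mm w = some v) : prodN f w = prodN f v := by
  cases w with
  | nil => simp [braidHead] at h
  | cons a w =>
    cases w with
    | nil => simp [braidHead] at h
    | cons b w =>
      simp only [braidHead, Option.map_eq_some_iff] at h
      obtain ⟨u, hu, rfl⟩ := h
      rw [strip_spec _ _ _ hu, prodN_append, prodN_append, prodN_alt_swap hsq hbr]

theorem cancelHead_sound (hsq : ∀ a, f a * f a = 1)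
    (w v : List ℕ) (h : cancelHead w = some v) : prodN f w = prodN f v := by
  cases w with
  | nil => simp [cancelHead] at h
  | cons a w =>
    cases w with
    | nil => simp [cancelHead] at h
    | cons b w =>
      simp only [cancelHead] at h
      split_ifs at h with hab
      subst hab
      simp only [Option.some.injEq] at h
      subst h
      rw [prodN_cons, prodN_cons, ← mul_assoc, hsq, one_mul]

theorem applyAt_sound (h : List ℕ → Option (List ℕ))
    (hh : ∀ w v, h w = some v → prodN f w = prodN f v) :
    ∀ (p : ℕ) (w v : List ℕ), applyAt h p w = some v → prodN f w = prodN f v := by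
  intro p
  induction p with
  | zero => intro w v e; exact hh w v e
  | succ p ih =>
    intro w v e
    cases w with
    | nil => simp [applyAt] at e
    | cons a w =>
      simp only [applyAt, Option.map_eq_some_iff] at e
      obtain ⟨u, hu, rfl⟩ := e
      rw [prodN_cons, prodN_cons, ih w u hu]

theorem step_sound (hsq : ∀ a, f a * f a = 1) (hbr : ∀ a b, (f a * f b) ^ mm a b = 1)
    (c : ℕ) (w v : List ℕ) (h : step mm c w = some v) : prodN f w = prodN f v := by
  unfold step at h
  split_ifs at h
  · exact applyAt_sound _ (braidHead_sound hsq hbr) _ w v h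
  · exact applyAt_sound _ (cancelHead_sound hsq) _ w v h

theorem run_sound (hsq : ∀ a, f a * f a = 1) (hbr : ∀ a b, (f a * f b) ^ mm a b = 1) (b : ℕ) :
    ∀ (k T : ℕ) (w v : List ℕ), run mm b k T w = some v → prodN f w = prodN f v := by
  intro k
  induction k with
  | zero =>
    intro T w v h
    simp only [run, Option.some.injEq] at h
    rw [h]
  | succ k ih =>
    intro T w v h
    simp only [run] at h
    cases hs : step mm (T % 2 ^ b) w with
    | none => rw [hs] at h; simp at h
    | some w' =>
      rw [hs] at h
      rw [step_sound hsq hbr _ w w' hs]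
      exact ih _ w' v h

end sound

section cox

variable {n : ℕ} (M : CoxeterMatrix (Fin n))

/-- The generators, indexed by natural numbers. -/
def fN : ℕ → M.Group := fun a => if h : a < n then M.simple ⟨a, h⟩ else 1

/-- Entries of a Coxeter matrix, from a packed table. -/
def mmT (n MT : ℕ) (a b : ℕ) : ℕ := if a < n ∧ b < n then lk MT 4 (a * n + b) else 0

theorem fN_sq (a : ℕ) : fN M a * fN M a = 1 := by
  unfold fN
  split_ifs with h
  · exact M.toCoxeterSystem.simple_mul_simple_self ⟨a, h⟩
  · exact mul_one 1

theorem fN_br (MT : ℕ) (hMT : ∀ a b : Fin n, M a b = lk MT 4 (a.val * n + b.val)) (a b : ℕ) :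
    (fN M a * fN M b) ^ mmT n MT a b = 1 := by
  unfold mmT
  split_ifs with h
  · obtain ⟨ha, hb⟩ := h
    have h2 := M.toCoxeterSystem.simple_mul_simple_pow ⟨a, ha⟩ ⟨b, hb⟩
    rw [hMT] at h2
    unfold fN
    rw [dif_pos ha, dif_pos hb]
    exact h2
  · exact pow_zero _

theorem prod_finRange_eq : ((List.finRange n).map M.simple).prod = prodN (fN M) (List.range n) := by
  unfold prodN
  rw [← List.map_coe_finRange_eq_range, List.map_map]
  congr 1
  apply List.map_congr_left
  intro i _
  simp [fN]

/-- A power of the product of the generators is trivial, by a derivation. -/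
theorem coxeter_pow_eq_one (MT : ℕ) (hMT : ∀ a b : Fin n, M a b = lk MT 4 (a.val * n + b.val))
    (h b k T : ℕ)
    (hrun : run (mmT n MT) b k T (List.replicate h (List.range n)).flatten = some []) :
    ((List.finRange n).map M.simple).prod ^ h = 1 := by
  rw [prod_finRange_eq, ← prodN_replicate, run_sound (fN_sq M) (fN_br M MT hMT) b k T _ _ hrun]
  rfl

/-- A table of permutations, from packed numbers. -/
def tabF (n : ℕ) (Ts : List ℕ) (bits : ℕ) : Fin n → ℕ → ℕ := fun g i => lk (Ts.getD g.val 0) bits i

theorem isInv_of_check (Ts : List ℕ) (bits N : ℕ)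
    (h : ∀ g : Fin n, allLt N (fun i => decide (tabF n Ts bits g i < N) &&
      (tabF n Ts bits g (tabF n Ts bits g i) == i)) = true) : IsInv (tabF n Ts bits) N := by
  constructor
  · intro g i hi
    have h2 := allLt_spec (h g) i hi
    simp only [Bool.and_eq_true, decide_eq_true_eq, beq_iff_eq] at h2
    exact h2.1
  · intro g i hi
    have h2 := allLt_spec (h g) i hi
    simp only [Bool.and_eq_true, decide_eq_true_eq, beq_iff_eq] at h2
    exact h2.2

/-- The permutation representation given by a table. -/
def permRep (Ts : List ℕ) (bits N : ℕ) (ht : IsInv (tabF n Ts bits) N)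
    (hrel : ∀ i j : Fin n, allLt N (fun x => evalT (tabF n Ts bits)
      ((List.replicate (M i j) [i, j]).flatten) x == x) = true) : M.Group →* Equiv.Perm (Fin N) :=
  M.toCoxeterSystem.lift ⟨fun g => permOf ht g, by
    intro i j
    rw [pow_eq_prod]
    exact prod_eq_one ht _ (hrel i j)⟩

theorem permRep_simple (Ts : List ℕ) (bits N : ℕ) (ht : IsInv (tabF n Ts bits) N)
    (hrel : ∀ i j : Fin n, allLt N (fun x => evalT (tabF n Ts bits)
      ((List.replicate (M i j) [i, j]).flatten) x == x) = true) (i : Fin n) :
    permRep M Ts bits N ht hrel (M.simple i) = permOf ht i :=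
  M.toCoxeterSystem.lift_apply_simple _ i

theorem permRep_word (Ts : List ℕ) (bits N : ℕ) (ht : IsInv (tabF n Ts bits) N)
    (hrel : ∀ i j : Fin n, allLt N (fun x => evalT (tabF n Ts bits)
      ((List.replicate (M i j) [i, j]).flatten) x == x) = true) (w : List (Fin n)) (x : Fin N) :
    ((permRep M Ts bits N ht hrel (w.map M.simple).prod x : Fin N) : ℕ) = evalT (tabF n Ts bits) w x := by
  have e : (w.map M.simple).map (permRep M Ts bits N ht hrel) = w.map (permOf ht) := by
    rw [List.map_map]
    apply List.map_congr_left
    intro i _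
    exact permRep_simple M Ts bits N ht hrel i
  rw [map_list_prod, e, prod_apply ht w x]

/-- A power of the product of the generators is not trivial, by a permutation representation. -/
theorem coxeter_pow_ne_one (Ts : List ℕ) (bits N : ℕ)
    (hinv : ∀ g : Fin n, allLt N (fun i => decide (tabF n Ts bits g i < N) &&
      (tabF n Ts bits g (tabF n Ts bits g i) == i)) = true)
    (hrel : ∀ i j : Fin n, allLt N (fun x => evalT (tabF n Ts bits)
      ((List.replicate (M i j) [i, j]).flatten) x == x) = true)
    (k x : ℕ) (hx : x < N)
    (hk : evalT (tabF n Ts bits) ((List.replicate k (List.finRange n)).flatten) x ≠ x) :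
    ((List.finRange n).map M.simple).prod ^ k ≠ 1 := by
  intro hc
  apply hk
  have ht := isInv_of_check Ts bits N hinv
  have h1 := permRep_word M Ts bits N ht hrel ((List.replicate k (List.finRange n)).flatten) ⟨x, hx⟩
  rw [prod_replicate_flatten, hc, map_one] at h1
  exact h1.symm

end cox

/-- The order of an element from a trivial power and nontrivial powers. -/
theorem orderOf_eq_of_checks {G : Type*} [Group G] (x : G) (h : ℕ) (hpos : 0 < h) (hx : x ^ h = 1)
    (L : List ℕ) (hL : ∀ d, d < h → d ∣ h → ∃ e ∈ L, d ∣ e) (hne : ∀ e ∈ L, x ^ e ≠ 1) :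
    orderOf x = h := by
  have hd : orderOf x ∣ h := orderOf_dvd_of_pow_eq_one hx
  by_contra hne'
  have hlt : orderOf x < h := lt_of_le_of_ne (Nat.le_of_dvd hpos hd) hne'
  obtain ⟨e, he, hde⟩ := hL _ hlt hd
  exact hne e he (orderOf_dvd_iff_pow_eq_one.mp hde)

end Cfsg.Agent.Helper28.CoxWord
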