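import Cfsg.Agent.Helper28.FibEa
import Cfsg.Agent.Helper28.FibEb
import Cfsg.Agent.Helper28.FibEc
import Cfsg.Agent.Helper28.FibEd
import Cfsg.Agent.Helper28.FibEe
import Cfsg.Agent.Helper28.FibEf
import Cfsg.Agent.Helper28.FibEg
import Cfsg.Agent.Helper28.FibEh
import Cfsg.Agent.Helper28.FibEi

/-!
# The Fi₂₂ presentation, cosets of the subgroup generated by b, …, i: the index (helper28; generated)
-/

set_option autoImplicit false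
set_option maxRecDepth 100000
set_option linter.unusedSimpArgs false
set_option linter.constructorNameAsVariable false

noncomputable section

namespace Cfsg.Agent.Helper28.FibA

open Cfsg.Spor Cfsg.Spor.Fi22 Cfsg.Agent.Helper28.CosetTable

theorem hcl : ∀ gg i, i < 14080 → gen gg • Qf i = Qf (tab gg i) := by
  intro gg i hi
  cases gg
  · exact (sm_def _ _).symm.trans (cl_a i hi)
  · exact (sm_def _ _).symm.trans (cl_b i hi)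
  · exact (sm_def _ _).symm.trans (cl_c i hi)
  · exact (sm_def _ _).symm.trans (cl_d i hi)
  · exact (sm_def _ _).symm.trans (cl_e i hi)
  · exact (sm_def _ _).symm.trans (cl_f i hi)
  · exact (sm_def _ _).symm.trans (cl_g i hi)
  · exact (sm_def _ _).symm.trans (cl_h i hi)
  · exact (sm_def _ _).symm.trans (cl_i i hi)

theorem tabok_a_0 : allFrom (fun i => Nat.ble 14080 i || Nat.ble (tq_a i + 1) 14080 && Nat.beq (tq_a (tq_a i)) i) 0 8333 = true := by decide +kernel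
theorem tabok_a_1 : allFrom (fun i => Nat.ble 14080 i || Nat.ble (tq_a i + 1) 14080 && Nat.beq (tq_a (tq_a i)) i) 8333 8333 = true := by decide +kernel
theorem tabok_a : ∀ i, i < 14080 → (Nat.ble (tq_a i + 1) 14080 && Nat.beq (tq_a (tq_a i)) i) = true :=
  blocks_lt (fun i => Nat.ble (tq_a i + 1) 14080 && Nat.beq (tq_a (tq_a i)) i) 14080 8333 2 (by norm_num) ⟨tabok_a_0, tabok_a_1, trivial⟩

theorem tabok_b_0 : allFrom (fun i => Nat.ble 14080 i || Nat.ble (tq_b i + 1) 14080 && Nat.beq (tq_b (tq_b i)) i) 0 8333 = true := by decide +kernel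
theorem tabok_b_1 : allFrom (fun i => Nat.ble 14080 i || Nat.ble (tq_b i + 1) 14080 && Nat.beq (tq_b (tq_b i)) i) 8333 8333 = true := by decide +kernel
theorem tabok_b : ∀ i, i < 14080 → (Nat.ble (tq_b i + 1) 14080 && Nat.beq (tq_b (tq_b i)) i) = true :=
  blocks_lt (fun i => Nat.ble (tq_b i + 1) 14080 && Nat.beq (tq_b (tq_b i)) i) 14080 8333 2 (by norm_num) ⟨tabok_b_0, tabok_b_1, trivial⟩

theorem tabok_c_0 : allFrom (fun i => Nat.ble 14080 i || Nat.ble (tq_c i + 1) 14080 && Nat.beq (tq_c (tq_c i)) i) 0 8333 = true := by decide +kernel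
theorem tabok_c_1 : allFrom (fun i => Nat.ble 14080 i || Nat.ble (tq_c i + 1) 14080 && Nat.beq (tq_c (tq_c i)) i) 8333 8333 = true := by decide +kernel
theorem tabok_c : ∀ i, i < 14080 → (Nat.ble (tq_c i + 1) 14080 && Nat.beq (tq_c (tq_c i)) i) = true :=
  blocks_lt (fun i => Nat.ble (tq_c i + 1) 14080 && Nat.beq (tq_c (tq_c i)) i) 14080 8333 2 (by norm_num) ⟨tabok_c_0, tabok_c_1, trivial⟩

theorem tabok_d_0 : allFrom (fun i => Nat.ble 14080 i || Nat.ble (tq_d i + 1) 14080 && Nat.beq (tq_d (tq_d i)) i) 0 8333 = true := by decide +kernel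
theorem tabok_d_1 : allFrom (fun i => Nat.ble 14080 i || Nat.ble (tq_d i + 1) 14080 && Nat.beq (tq_d (tq_d i)) i) 8333 8333 = true := by decide +kernel
theorem tabok_d : ∀ i, i < 14080 → (Nat.ble (tq_d i + 1) 14080 && Nat.beq (tq_d (tq_d i)) i) = true :=
  blocks_lt (fun i => Nat.ble (tq_d i + 1) 14080 && Nat.beq (tq_d (tq_d i)) i) 14080 8333 2 (by norm_num) ⟨tabok_d_0, tabok_d_1, trivial⟩

theorem tabok_e_0 : allFrom (fun i => Nat.ble 14080 i || Nat.ble (tq_e i + 1) 14080 && Nat.beq (tq_e (tq_e i)) i) 0 8333 = true := by decide +kernel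
theorem tabok_e_1 : allFrom (fun i => Nat.ble 14080 i || Nat.ble (tq_e i + 1) 14080 && Nat.beq (tq_e (tq_e i)) i) 8333 8333 = true := by decide +kernel
theorem tabok_e : ∀ i, i < 14080 → (Nat.ble (tq_e i + 1) 14080 && Nat.beq (tq_e (tq_e i)) i) = true :=
  blocks_lt (fun i => Nat.ble (tq_e i + 1) 14080 && Nat.beq (tq_e (tq_e i)) i) 14080 8333 2 (by norm_num) ⟨tabok_e_0, tabok_e_1, trivial⟩

theorem tabok_f_0 : allFrom (fun i => Nat.ble 14080 i || Nat.ble (tq_f i + 1) 14080 && Nat.beq (tq_f (tq_f i)) i) 0 8333 = true := by decide +kernel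
theorem tabok_f_1 : allFrom (fun i => Nat.ble 14080 i || Nat.ble (tq_f i + 1) 14080 && Nat.beq (tq_f (tq_f i)) i) 8333 8333 = true := by decide +kernel
theorem tabok_f : ∀ i, i < 14080 → (Nat.ble (tq_f i + 1) 14080 && Nat.beq (tq_f (tq_f i)) i) = true :=
  blocks_lt (fun i => Nat.ble (tq_f i + 1) 14080 && Nat.beq (tq_f (tq_f i)) i) 14080 8333 2 (by norm_num) ⟨tabok_f_0, tabok_f_1, trivial⟩

theorem tabok_g_0 : allFrom (fun i => Nat.ble 14080 i || Nat.ble (tq_g i + 1) 14080 && Nat.beq (tq_g (tq_g i)) i) 0 8333 = true := by decide +kernel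
theorem tabok_g_1 : allFrom (fun i => Nat.ble 14080 i || Nat.ble (tq_g i + 1) 14080 && Nat.beq (tq_g (tq_g i)) i) 8333 8333 = true := by decide +kernel
theorem tabok_g : ∀ i, i < 14080 → (Nat.ble (tq_g i + 1) 14080 && Nat.beq (tq_g (tq_g i)) i) = true :=
  blocks_lt (fun i => Nat.ble (tq_g i + 1) 14080 && Nat.beq (tq_g (tq_g i)) i) 14080 8333 2 (by norm_num) ⟨tabok_g_0, tabok_g_1, trivial⟩

theorem tabok_h_0 : allFrom (fun i => Nat.ble 14080 i || Nat.ble (tq_h i + 1) 14080 && Nat.beq (tq_h (tq_h i)) i) 0 8333 = true := by decide +kernel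
theorem tabok_h_1 : allFrom (fun i => Nat.ble 14080 i || Nat.ble (tq_h i + 1) 14080 && Nat.beq (tq_h (tq_h i)) i) 8333 8333 = true := by decide +kernel
theorem tabok_h : ∀ i, i < 14080 → (Nat.ble (tq_h i + 1) 14080 && Nat.beq (tq_h (tq_h i)) i) = true :=
  blocks_lt (fun i => Nat.ble (tq_h i + 1) 14080 && Nat.beq (tq_h (tq_h i)) i) 14080 8333 2 (by norm_num) ⟨tabok_h_0, tabok_h_1, trivial⟩

theorem tabok_i_0 : allFrom (fun i => Nat.ble 14080 i || Nat.ble (tq_i i + 1) 14080 && Nat.beq (tq_i (tq_i i)) i) 0 8333 = true := by decide +kernel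
theorem tabok_i_1 : allFrom (fun i => Nat.ble 14080 i || Nat.ble (tq_i i + 1) 14080 && Nat.beq (tq_i (tq_i i)) i) 8333 8333 = true := by decide +kernel
theorem tabok_i : ∀ i, i < 14080 → (Nat.ble (tq_i i + 1) 14080 && Nat.beq (tq_i (tq_i i)) i) = true :=
  blocks_lt (fun i => Nat.ble (tq_i i + 1) 14080 && Nat.beq (tq_i (tq_i i)) i) 14080 8333 2 (by norm_num) ⟨tabok_i_0, tabok_i_1, trivial⟩

theorem ht : IsInv tab 14080 := by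
  constructor
  · intro gg i hi
    cases gg
    · exact Nat.le_of_ble_eq_true (Bool.and_eq_true_iff.mp (tabok_a i hi)).1
    · exact Nat.le_of_ble_eq_true (Bool.and_eq_true_iff.mp (tabok_b i hi)).1
    · exact Nat.le_of_ble_eq_true (Bool.and_eq_true_iff.mp (tabok_c i hi)).1
    · exact Nat.le_of_ble_eq_true (Bool.and_eq_true_iff.mp (tabok_d i hi)).1
    · exact Nat.le_of_ble_eq_true (Bool.and_eq_true_iff.mp (tabok_e i hi)).1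
    · exact Nat.le_of_ble_eq_true (Bool.and_eq_true_iff.mp (tabok_f i hi)).1
    · exact Nat.le_of_ble_eq_true (Bool.and_eq_true_iff.mp (tabok_g i hi)).1
    · exact Nat.le_of_ble_eq_true (Bool.and_eq_true_iff.mp (tabok_h i hi)).1
    · exact Nat.le_of_ble_eq_true (Bool.and_eq_true_iff.mp (tabok_i i hi)).1
  · intro gg i hi
    cases gg
    · exact Nat.eq_of_beq_eq_true (Bool.and_eq_true_iff.mp (tabok_a i hi)).2
    · exact Nat.eq_of_beq_eq_true (Bool.and_eq_true_iff.mp (tabok_b i hi)).2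
    · exact Nat.eq_of_beq_eq_true (Bool.and_eq_true_iff.mp (tabok_c i hi)).2
    · exact Nat.eq_of_beq_eq_true (Bool.and_eq_true_iff.mp (tabok_d i hi)).2
    · exact Nat.eq_of_beq_eq_true (Bool.and_eq_true_iff.mp (tabok_e i hi)).2
    · exact Nat.eq_of_beq_eq_true (Bool.and_eq_true_iff.mp (tabok_f i hi)).2
    · exact Nat.eq_of_beq_eq_true (Bool.and_eq_true_iff.mp (tabok_g i hi)).2
    · exact Nat.eq_of_beq_eq_true (Bool.and_eq_true_iff.mp (tabok_h i hi)).2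
    · exact Nat.eq_of_beq_eq_true (Bool.and_eq_true_iff.mp (tabok_i i hi)).2

theorem parok_0 : allFrom (fun i => Nat.ble 14080 i || Nat.beq i 0 || (Nat.ble (PARf i + 1) i && Nat.beq (tab (genOf (PGNf i)) (PARf i)) i)) 0 4166 = true := by decide +kernel
theorem parok_1 : allFrom (fun i => Nat.ble 14080 i || Nat.beq i 0 || (Nat.ble (PARf i + 1) i && Nat.beq (tab (genOf (PGNf i)) (PARf i)) i)) 4166 4166 = true := by decide +kernel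
theorem parok_2 : allFrom (fun i => Nat.ble 14080 i || Nat.beq i 0 || (Nat.ble (PARf i + 1) i && Nat.beq (tab (genOf (PGNf i)) (PARf i)) i)) 8332 4166 = true := by decide +kernel
theorem parok_3 : allFrom (fun i => Nat.ble 14080 i || Nat.beq i 0 || (Nat.ble (PARf i + 1) i && Nat.beq (tab (genOf (PGNf i)) (PARf i)) i)) 12498 4166 = true := by decide +kernel
theorem parok : ∀ i, i < 14080 → (Nat.beq i 0 || (Nat.ble (PARf i + 1) i && Nat.beq (tab (genOf (PGNf i)) (PARf i)) i)) = true :=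
  blocks_lt (fun i => Nat.beq i 0 || (Nat.ble (PARf i + 1) i && Nat.beq (tab (genOf (PGNf i)) (PARf i)) i)) 14080 4166 4 (by norm_num) ⟨parok_0, parok_1, parok_2, parok_3, trivial⟩

theorem hpar : ∀ i, 0 < i → i < 14080 → ∃ j gg, j < i ∧ tab gg j = i := by
  intro i h0 hi
  have h := parok i hi
  rw [Bool.or_eq_true, Bool.and_eq_true] at h
  rcases h with h | h
  · exact absurd (Nat.eq_of_beq_eq_true h) (by omega)
  · exact ⟨_, _, Nat.le_of_ble_eq_true h.1, Nat.eq_of_beq_eq_true h.2⟩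

theorem evalT_nil' (i : ℕ) : evalT tab [] i = i := rfl

theorem evalT_cons' (gg : Gen) (w : List Gen) (i : ℕ) : evalT tab (gg :: w) i = tab gg (evalT tab w i) := rfl

theorem tab_a (i : ℕ) : tab Gen.a i = tq_a i := rfl
theorem tab_b (i : ℕ) : tab Gen.b i = tq_b i := rfl
theorem tab_c (i : ℕ) : tab Gen.c i = tq_c i := rfl
theorem tab_d (i : ℕ) : tab Gen.d i = tq_d i := rfl
theorem tab_e (i : ℕ) : tab Gen.e i = tq_e i := rfl
theorem tab_f (i : ℕ) : tab Gen.f i = tq_f i := rfl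
theorem tab_g (i : ℕ) : tab Gen.g i = tq_g i := rfl
theorem tab_h (i : ℕ) : tab Gen.h i = tq_h i := rfl
theorem tab_i (i : ℕ) : tab Gen.i i = tq_i i := rfl

theorem cxr_a_a_0 : allFrom (fun i => Nat.ble 14080 i || Nat.beq (tq_a (tq_a i)) i) 0 12500 = true := by decide +kernel
theorem cxr_a_a_1 : allFrom (fun i => Nat.ble 14080 i || Nat.beq (tq_a (tq_a i)) i) 12500 12500 = true := by decide +kernel
theorem cxr_a_a : ∀ i, i < 14080 → (Nat.beq (tq_a (tq_a i)) i) = true :=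
  blocks_lt (fun i => Nat.beq (tq_a (tq_a i)) i) 14080 12500 2 (by norm_num) ⟨cxr_a_a_0, cxr_a_a_1, trivial⟩

theorem cx_a_a : ∀ i, i < 14080 → evalT tab [Gen.a, Gen.a] i = i := by
  intro i hi
  have h := Nat.eq_of_beq_eq_true (cxr_a_a i hi)
  simp only [evalT_cons', evalT_nil', tab_a, tab_b, tab_c, tab_d, tab_e, tab_f, tab_g, tab_h, tab_i]
  exact h

theorem cxr_a_b_0 : allFrom (fun i => Nat.ble 14080 i || Nat.beq (tq_a (tq_b (tq_a (tq_b (tq_a (tq_b i)))))) i) 0 4166 = true := by decide +kernel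
theorem cxr_a_b_1 : allFrom (fun i => Nat.ble 14080 i || Nat.beq (tq_a (tq_b (tq_a (tq_b (tq_a (tq_b i)))))) i) 4166 4166 = true := by decide +kernel
theorem cxr_a_b_2 : allFrom (fun i => Nat.ble 14080 i || Nat.beq (tq_a (tq_b (tq_a (tq_b (tq_a (tq_b i)))))) i) 8332 4166 = true := by decide +kernel
theorem cxr_a_b_3 : allFrom (fun i => Nat.ble 14080 i || Nat.beq (tq_a (tq_b (tq_a (tq_b (tq_a (tq_b i)))))) i) 12498 4166 = true := by decide +kernel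
theorem cxr_a_b : ∀ i, i < 14080 → (Nat.beq (tq_a (tq_b (tq_a (tq_b (tq_a (tq_b i)))))) i) = true :=
  blocks_lt (fun i => Nat.beq (tq_a (tq_b (tq_a (tq_b (tq_a (tq_b i)))))) i) 14080 4166 4 (by norm_num) ⟨cxr_a_b_0, cxr_a_b_1, cxr_a_b_2, cxr_a_b_3, trivial⟩

theorem cx_a_b : ∀ i, i < 14080 → evalT tab [Gen.a, Gen.b, Gen.a, Gen.b, Gen.a, Gen.b] i = i := by
  intro i hi
  have h := Nat.eq_of_beq_eq_true (cxr_a_b i hi)
  simp only [evalT_cons', evalT_nil', tab_a, tab_b, tab_c, tab_d, tab_e, tab_f, tab_g, tab_h, tab_i]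
  exact h

theorem cxr_a_c_0 : allFrom (fun i => Nat.ble 14080 i || Nat.beq (tq_a (tq_c (tq_a (tq_c i)))) i) 0 6250 = true := by decide +kernel
theorem cxr_a_c_1 : allFrom (fun i => Nat.ble 14080 i || Nat.beq (tq_a (tq_c (tq_a (tq_c i)))) i) 6250 6250 = true := by decide +kernel
theorem cxr_a_c_2 : allFrom (fun i => Nat.ble 14080 i || Nat.beq (tq_a (tq_c (tq_a (tq_c i)))) i) 12500 6250 = true := by decide +kernel
theorem cxr_a_c : ∀ i, i < 14080 → (Nat.beq (tq_a (tq_c (tq_a (tq_c i)))) i) = true :=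
  blocks_lt (fun i => Nat.beq (tq_a (tq_c (tq_a (tq_c i)))) i) 14080 6250 3 (by norm_num) ⟨cxr_a_c_0, cxr_a_c_1, cxr_a_c_2, trivial⟩

theorem cx_a_c : ∀ i, i < 14080 → evalT tab [Gen.a, Gen.c, Gen.a, Gen.c] i = i := by
  intro i hi
  have h := Nat.eq_of_beq_eq_true (cxr_a_c i hi)
  simp only [evalT_cons', evalT_nil', tab_a, tab_b, tab_c, tab_d, tab_e, tab_f, tab_g, tab_h, tab_i]
  exact h

theorem cxr_a_d_0 : allFrom (fun i => Nat.ble 14080 i || Nat.beq (tq_a (tq_d (tq_a (tq_d i)))) i) 0 6250 = true := by decide +kernel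
theorem cxr_a_d_1 : allFrom (fun i => Nat.ble 14080 i || Nat.beq (tq_a (tq_d (tq_a (tq_d i)))) i) 6250 6250 = true := by decide +kernel
theorem cxr_a_d_2 : allFrom (fun i => Nat.ble 14080 i || Nat.beq (tq_a (tq_d (tq_a (tq_d i)))) i) 12500 6250 = true := by decide +kernel
theorem cxr_a_d : ∀ i, i < 14080 → (Nat.beq (tq_a (tq_d (tq_a (tq_d i)))) i) = true :=
  blocks_lt (fun i => Nat.beq (tq_a (tq_d (tq_a (tq_d i)))) i) 14080 6250 3 (by norm_num) ⟨cxr_a_d_0, cxr_a_d_1, cxr_a_d_2, trivial⟩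

theorem cx_a_d : ∀ i, i < 14080 → evalT tab [Gen.a, Gen.d, Gen.a, Gen.d] i = i := by
  intro i hi
  have h := Nat.eq_of_beq_eq_true (cxr_a_d i hi)
  simp only [evalT_cons', evalT_nil', tab_a, tab_b, tab_c, tab_d, tab_e, tab_f, tab_g, tab_h, tab_i]
  exact h

theorem cxr_a_e_0 : allFrom (fun i => Nat.ble 14080 i || Nat.beq (tq_a (tq_e (tq_a (tq_e i)))) i) 0 6250 = true := by decide +kernel
theorem cxr_a_e_1 : allFrom (fun i => Nat.ble 14080 i || Nat.beq (tq_a (tq_e (tq_a (tq_e i)))) i) 6250 6250 = true := by decide +kernel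
theorem cxr_a_e_2 : allFrom (fun i => Nat.ble 14080 i || Nat.beq (tq_a (tq_e (tq_a (tq_e i)))) i) 12500 6250 = true := by decide +kernel
theorem cxr_a_e : ∀ i, i < 14080 → (Nat.beq (tq_a (tq_e (tq_a (tq_e i)))) i) = true :=
  blocks_lt (fun i => Nat.beq (tq_a (tq_e (tq_a (tq_e i)))) i) 14080 6250 3 (by norm_num) ⟨cxr_a_e_0, cxr_a_e_1, cxr_a_e_2, trivial⟩

theorem cx_a_e : ∀ i, i < 14080 → evalT tab [Gen.a, Gen.e, Gen.a, Gen.e] i = i := by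
  intro i hi
  have h := Nat.eq_of_beq_eq_true (cxr_a_e i hi)
  simp only [evalT_cons', evalT_nil', tab_a, tab_b, tab_c, tab_d, tab_e, tab_f, tab_g, tab_h, tab_i]
  exact h

theorem cxr_a_f_0 : allFrom (fun i => Nat.ble 14080 i || Nat.beq (tq_a (tq_f (tq_a (tq_f i)))) i) 0 6250 = true := by decide +kernel
theorem cxr_a_f_1 : allFrom (fun i => Nat.ble 14080 i || Nat.beq (tq_a (tq_f (tq_a (tq_f i)))) i) 6250 6250 = true := by decide +kernel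
theorem cxr_a_f_2 : allFrom (fun i => Nat.ble 14080 i || Nat.beq (tq_a (tq_f (tq_a (tq_f i)))) i) 12500 6250 = true := by decide +kernel
theorem cxr_a_f : ∀ i, i < 14080 → (Nat.beq (tq_a (tq_f (tq_a (tq_f i)))) i) = true :=
  blocks_lt (fun i => Nat.beq (tq_a (tq_f (tq_a (tq_f i)))) i) 14080 6250 3 (by norm_num) ⟨cxr_a_f_0, cxr_a_f_1, cxr_a_f_2, trivial⟩

theorem cx_a_f : ∀ i, i < 14080 → evalT tab [Gen.a, Gen.f, Gen.a, Gen.f] i = i := by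
  intro i hi
  have h := Nat.eq_of_beq_eq_true (cxr_a_f i hi)
  simp only [evalT_cons', evalT_nil', tab_a, tab_b, tab_c, tab_d, tab_e, tab_f, tab_g, tab_h, tab_i]
  exact h

theorem cxr_a_g_0 : allFrom (fun i => Nat.ble 14080 i || Nat.beq (tq_a (tq_g (tq_a (tq_g i)))) i) 0 6250 = true := by decide +kernel
theorem cxr_a_g_1 : allFrom (fun i => Nat.ble 14080 i || Nat.beq (tq_a (tq_g (tq_a (tq_g i)))) i) 6250 6250 = true := by decide +kernel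
theorem cxr_a_g_2 : allFrom (fun i => Nat.ble 14080 i || Nat.beq (tq_a (tq_g (tq_a (tq_g i)))) i) 12500 6250 = true := by decide +kernel
theorem cxr_a_g : ∀ i, i < 14080 → (Nat.beq (tq_a (tq_g (tq_a (tq_g i)))) i) = true :=
  blocks_lt (fun i => Nat.beq (tq_a (tq_g (tq_a (tq_g i)))) i) 14080 6250 3 (by norm_num) ⟨cxr_a_g_0, cxr_a_g_1, cxr_a_g_2, trivial⟩

theorem cx_a_g : ∀ i, i < 14080 → evalT tab [Gen.a, Gen.g, Gen.a, Gen.g] i = i := by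
  intro i hi
  have h := Nat.eq_of_beq_eq_true (cxr_a_g i hi)
  simp only [evalT_cons', evalT_nil', tab_a, tab_b, tab_c, tab_d, tab_e, tab_f, tab_g, tab_h, tab_i]
  exact h

theorem cxr_a_h_0 : allFrom (fun i => Nat.ble 14080 i || Nat.beq (tq_a (tq_h (tq_a (tq_h i)))) i) 0 6250 = true := by decide +kernel
theorem cxr_a_h_1 : allFrom (fun i => Nat.ble 14080 i || Nat.beq (tq_a (tq_h (tq_a (tq_h i)))) i) 6250 6250 = true := by decide +kernel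
theorem cxr_a_h_2 : allFrom (fun i => Nat.ble 14080 i || Nat.beq (tq_a (tq_h (tq_a (tq_h i)))) i) 12500 6250 = true := by decide +kernel
theorem cxr_a_h : ∀ i, i < 14080 → (Nat.beq (tq_a (tq_h (tq_a (tq_h i)))) i) = true :=
  blocks_lt (fun i => Nat.beq (tq_a (tq_h (tq_a (tq_h i)))) i) 14080 6250 3 (by norm_num) ⟨cxr_a_h_0, cxr_a_h_1, cxr_a_h_2, trivial⟩

theorem cx_a_h : ∀ i, i < 14080 → evalT tab [Gen.a, Gen.h, Gen.a, Gen.h] i = i := by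
  intro i hi
  have h := Nat.eq_of_beq_eq_true (cxr_a_h i hi)
  simp only [evalT_cons', evalT_nil', tab_a, tab_b, tab_c, tab_d, tab_e, tab_f, tab_g, tab_h, tab_i]
  exact h

theorem cxr_a_i_0 : allFrom (fun i => Nat.ble 14080 i || Nat.beq (tq_a (tq_i (tq_a (tq_i i)))) i) 0 6250 = true := by decide +kernel
theorem cxr_a_i_1 : allFrom (fun i => Nat.ble 14080 i || Nat.beq (tq_a (tq_i (tq_a (tq_i i)))) i) 6250 6250 = true := by decide +kernel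
theorem cxr_a_i_2 : allFrom (fun i => Nat.ble 14080 i || Nat.beq (tq_a (tq_i (tq_a (tq_i i)))) i) 12500 6250 = true := by decide +kernel
theorem cxr_a_i : ∀ i, i < 14080 → (Nat.beq (tq_a (tq_i (tq_a (tq_i i)))) i) = true :=
  blocks_lt (fun i => Nat.beq (tq_a (tq_i (tq_a (tq_i i)))) i) 14080 6250 3 (by norm_num) ⟨cxr_a_i_0, cxr_a_i_1, cxr_a_i_2, trivial⟩

theorem cx_a_i : ∀ i, i < 14080 → evalT tab [Gen.a, Gen.i, Gen.a, Gen.i] i = i := by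
  intro i hi
  have h := Nat.eq_of_beq_eq_true (cxr_a_i i hi)
  simp only [evalT_cons', evalT_nil', tab_a, tab_b, tab_c, tab_d, tab_e, tab_f, tab_g, tab_h, tab_i]
  exact h

theorem cxr_b_a_0 : allFrom (fun i => Nat.ble 14080 i || Nat.beq (tq_b (tq_a (tq_b (tq_a (tq_b (tq_a i)))))) i) 0 4166 = true := by decide +kernel
theorem cxr_b_a_1 : allFrom (fun i => Nat.ble 14080 i || Nat.beq (tq_b (tq_a (tq_b (tq_a (tq_b (tq_a i)))))) i) 4166 4166 = true := by decide +kernel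
theorem cxr_b_a_2 : allFrom (fun i => Nat.ble 14080 i || Nat.beq (tq_b (tq_a (tq_b (tq_a (tq_b (tq_a i)))))) i) 8332 4166 = true := by decide +kernel
theorem cxr_b_a_3 : allFrom (fun i => Nat.ble 14080 i || Nat.beq (tq_b (tq_a (tq_b (tq_a (tq_b (tq_a i)))))) i) 12498 4166 = true := by decide +kernel
theorem cxr_b_a : ∀ i, i < 14080 → (Nat.beq (tq_b (tq_a (tq_b (tq_a (tq_b (tq_a i)))))) i) = true :=
  blocks_lt (fun i => Nat.beq (tq_b (tq_a (tq_b (tq_a (tq_b (tq_a i)))))) i) 14080 4166 4 (by norm_num) ⟨cxr_b_a_0, cxr_b_a_1, cxr_b_a_2, cxr_b_a_3, trivial⟩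

theorem cx_b_a : ∀ i, i < 14080 → evalT tab [Gen.b, Gen.a, Gen.b, Gen.a, Gen.b, Gen.a] i = i := by
  intro i hi
  have h := Nat.eq_of_beq_eq_true (cxr_b_a i hi)
  simp only [evalT_cons', evalT_nil', tab_a, tab_b, tab_c, tab_d, tab_e, tab_f, tab_g, tab_h, tab_i]
  exact h

theorem cxr_b_b_0 : allFrom (fun i => Nat.ble 14080 i || Nat.beq (tq_b (tq_b i)) i) 0 12500 = true := by decide +kernel
theorem cxr_b_b_1 : allFrom (fun i => Nat.ble 14080 i || Nat.beq (tq_b (tq_b i)) i) 12500 12500 = true := by decide +kernel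
theorem cxr_b_b : ∀ i, i < 14080 → (Nat.beq (tq_b (tq_b i)) i) = true :=
  blocks_lt (fun i => Nat.beq (tq_b (tq_b i)) i) 14080 12500 2 (by norm_num) ⟨cxr_b_b_0, cxr_b_b_1, trivial⟩

theorem cx_b_b : ∀ i, i < 14080 → evalT tab [Gen.b, Gen.b] i = i := by
  intro i hi
  have h := Nat.eq_of_beq_eq_true (cxr_b_b i hi)
  simp only [evalT_cons', evalT_nil', tab_a, tab_b, tab_c, tab_d, tab_e, tab_f, tab_g, tab_h, tab_i]
  exact h

theorem cxr_b_c_0 : allFrom (fun i => Nat.ble 14080 i || Nat.beq (tq_b (tq_c (tq_b (tq_c (tq_b (tq_c i)))))) i) 0 4166 = true := by decide +kernel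
theorem cxr_b_c_1 : allFrom (fun i => Nat.ble 14080 i || Nat.beq (tq_b (tq_c (tq_b (tq_c (tq_b (tq_c i)))))) i) 4166 4166 = true := by decide +kernel
theorem cxr_b_c_2 : allFrom (fun i => Nat.ble 14080 i || Nat.beq (tq_b (tq_c (tq_b (tq_c (tq_b (tq_c i)))))) i) 8332 4166 = true := by decide +kernel
theorem cxr_b_c_3 : allFrom (fun i => Nat.ble 14080 i || Nat.beq (tq_b (tq_c (tq_b (tq_c (tq_b (tq_c i)))))) i) 12498 4166 = true := by decide +kernel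
theorem cxr_b_c : ∀ i, i < 14080 → (Nat.beq (tq_b (tq_c (tq_b (tq_c (tq_b (tq_c i)))))) i) = true :=
  blocks_lt (fun i => Nat.beq (tq_b (tq_c (tq_b (tq_c (tq_b (tq_c i)))))) i) 14080 4166 4 (by norm_num) ⟨cxr_b_c_0, cxr_b_c_1, cxr_b_c_2, cxr_b_c_3, trivial⟩

theorem cx_b_c : ∀ i, i < 14080 → evalT tab [Gen.b, Gen.c, Gen.b, Gen.c, Gen.b, Gen.c] i = i := by
  intro i hi
  have h := Nat.eq_of_beq_eq_true (cxr_b_c i hi)
  simp only [evalT_cons', evalT_nil', tab_a, tab_b, tab_c, tab_d, tab_e, tab_f, tab_g, tab_h, tab_i]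
  exact h

theorem cxr_b_d_0 : allFrom (fun i => Nat.ble 14080 i || Nat.beq (tq_b (tq_d (tq_b (tq_d i)))) i) 0 6250 = true := by decide +kernel
theorem cxr_b_d_1 : allFrom (fun i => Nat.ble 14080 i || Nat.beq (tq_b (tq_d (tq_b (tq_d i)))) i) 6250 6250 = true := by decide +kernel
theorem cxr_b_d_2 : allFrom (fun i => Nat.ble 14080 i || Nat.beq (tq_b (tq_d (tq_b (tq_d i)))) i) 12500 6250 = true := by decide +kernel
theorem cxr_b_d : ∀ i, i < 14080 → (Nat.beq (tq_b (tq_d (tq_b (tq_d i)))) i) = true :=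
  blocks_lt (fun i => Nat.beq (tq_b (tq_d (tq_b (tq_d i)))) i) 14080 6250 3 (by norm_num) ⟨cxr_b_d_0, cxr_b_d_1, cxr_b_d_2, trivial⟩

theorem cx_b_d : ∀ i, i < 14080 → evalT tab [Gen.b, Gen.d, Gen.b, Gen.d] i = i := by
  intro i hi
  have h := Nat.eq_of_beq_eq_true (cxr_b_d i hi)
  simp only [evalT_cons', evalT_nil', tab_a, tab_b, tab_c, tab_d, tab_e, tab_f, tab_g, tab_h, tab_i]
  exact h

theorem cxr_b_e_0 : allFrom (fun i => Nat.ble 14080 i || Nat.beq (tq_b (tq_e (tq_b (tq_e i)))) i) 0 6250 = true := by decide +kernel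
theorem cxr_b_e_1 : allFrom (fun i => Nat.ble 14080 i || Nat.beq (tq_b (tq_e (tq_b (tq_e i)))) i) 6250 6250 = true := by decide +kernel
theorem cxr_b_e_2 : allFrom (fun i => Nat.ble 14080 i || Nat.beq (tq_b (tq_e (tq_b (tq_e i)))) i) 12500 6250 = true := by decide +kernel
theorem cxr_b_e : ∀ i, i < 14080 → (Nat.beq (tq_b (tq_e (tq_b (tq_e i)))) i) = true :=
  blocks_lt (fun i => Nat.beq (tq_b (tq_e (tq_b (tq_e i)))) i) 14080 6250 3 (by norm_num) ⟨cxr_b_e_0, cxr_b_e_1, cxr_b_e_2, trivial⟩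

theorem cx_b_e : ∀ i, i < 14080 → evalT tab [Gen.b, Gen.e, Gen.b, Gen.e] i = i := by
  intro i hi
  have h := Nat.eq_of_beq_eq_true (cxr_b_e i hi)
  simp only [evalT_cons', evalT_nil', tab_a, tab_b, tab_c, tab_d, tab_e, tab_f, tab_g, tab_h, tab_i]
  exact h

theorem cxr_b_f_0 : allFrom (fun i => Nat.ble 14080 i || Nat.beq (tq_b (tq_f (tq_b (tq_f i)))) i) 0 6250 = true := by decide +kernel
theorem cxr_b_f_1 : allFrom (fun i => Nat.ble 14080 i || Nat.beq (tq_b (tq_f (tq_b (tq_f i)))) i) 6250 6250 = true := by decide +kernel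
theorem cxr_b_f_2 : allFrom (fun i => Nat.ble 14080 i || Nat.beq (tq_b (tq_f (tq_b (tq_f i)))) i) 12500 6250 = true := by decide +kernel
theorem cxr_b_f : ∀ i, i < 14080 → (Nat.beq (tq_b (tq_f (tq_b (tq_f i)))) i) = true :=
  blocks_lt (fun i => Nat.beq (tq_b (tq_f (tq_b (tq_f i)))) i) 14080 6250 3 (by norm_num) ⟨cxr_b_f_0, cxr_b_f_1, cxr_b_f_2, trivial⟩

theorem cx_b_f : ∀ i, i < 14080 → evalT tab [Gen.b, Gen.f, Gen.b, Gen.f] i = i := by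
  intro i hi
  have h := Nat.eq_of_beq_eq_true (cxr_b_f i hi)
  simp only [evalT_cons', evalT_nil', tab_a, tab_b, tab_c, tab_d, tab_e, tab_f, tab_g, tab_h, tab_i]
  exact h

theorem cxr_b_g_0 : allFrom (fun i => Nat.ble 14080 i || Nat.beq (tq_b (tq_g (tq_b (tq_g i)))) i) 0 6250 = true := by decide +kernel
theorem cxr_b_g_1 : allFrom (fun i => Nat.ble 14080 i || Nat.beq (tq_b (tq_g (tq_b (tq_g i)))) i) 6250 6250 = true := by decide +kernel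
theorem cxr_b_g_2 : allFrom (fun i => Nat.ble 14080 i || Nat.beq (tq_b (tq_g (tq_b (tq_g i)))) i) 12500 6250 = true := by decide +kernel
theorem cxr_b_g : ∀ i, i < 14080 → (Nat.beq (tq_b (tq_g (tq_b (tq_g i)))) i) = true :=
  blocks_lt (fun i => Nat.beq (tq_b (tq_g (tq_b (tq_g i)))) i) 14080 6250 3 (by norm_num) ⟨cxr_b_g_0, cxr_b_g_1, cxr_b_g_2, trivial⟩

theorem cx_b_g : ∀ i, i < 14080 → evalT tab [Gen.b, Gen.g, Gen.b, Gen.g] i = i := by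
  intro i hi
  have h := Nat.eq_of_beq_eq_true (cxr_b_g i hi)
  simp only [evalT_cons', evalT_nil', tab_a, tab_b, tab_c, tab_d, tab_e, tab_f, tab_g, tab_h, tab_i]
  exact h

theorem cxr_b_h_0 : allFrom (fun i => Nat.ble 14080 i || Nat.beq (tq_b (tq_h (tq_b (tq_h i)))) i) 0 6250 = true := by decide +kernel
theorem cxr_b_h_1 : allFrom (fun i => Nat.ble 14080 i || Nat.beq (tq_b (tq_h (tq_b (tq_h i)))) i) 6250 6250 = true := by decide +kernel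
theorem cxr_b_h_2 : allFrom (fun i => Nat.ble 14080 i || Nat.beq (tq_b (tq_h (tq_b (tq_h i)))) i) 12500 6250 = true := by decide +kernel
theorem cxr_b_h : ∀ i, i < 14080 → (Nat.beq (tq_b (tq_h (tq_b (tq_h i)))) i) = true :=
  blocks_lt (fun i => Nat.beq (tq_b (tq_h (tq_b (tq_h i)))) i) 14080 6250 3 (by norm_num) ⟨cxr_b_h_0, cxr_b_h_1, cxr_b_h_2, trivial⟩

theorem cx_b_h : ∀ i, i < 14080 → evalT tab [Gen.b, Gen.h, Gen.b, Gen.h] i = i := by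
  intro i hi
  have h := Nat.eq_of_beq_eq_true (cxr_b_h i hi)
  simp only [evalT_cons', evalT_nil', tab_a, tab_b, tab_c, tab_d, tab_e, tab_f, tab_g, tab_h, tab_i]
  exact h

theorem cxr_b_i_0 : allFrom (fun i => Nat.ble 14080 i || Nat.beq (tq_b (tq_i (tq_b (tq_i i)))) i) 0 6250 = true := by decide +kernel
theorem cxr_b_i_1 : allFrom (fun i => Nat.ble 14080 i || Nat.beq (tq_b (tq_i (tq_b (tq_i i)))) i) 6250 6250 = true := by decide +kernel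
theorem cxr_b_i_2 : allFrom (fun i => Nat.ble 14080 i || Nat.beq (tq_b (tq_i (tq_b (tq_i i)))) i) 12500 6250 = true := by decide +kernel
theorem cxr_b_i : ∀ i, i < 14080 → (Nat.beq (tq_b (tq_i (tq_b (tq_i i)))) i) = true :=
  blocks_lt (fun i => Nat.beq (tq_b (tq_i (tq_b (tq_i i)))) i) 14080 6250 3 (by norm_num) ⟨cxr_b_i_0, cxr_b_i_1, cxr_b_i_2, trivial⟩

theorem cx_b_i : ∀ i, i < 14080 → evalT tab [Gen.b, Gen.i, Gen.b, Gen.i] i = i := by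
  intro i hi
  have h := Nat.eq_of_beq_eq_true (cxr_b_i i hi)
  simp only [evalT_cons', evalT_nil', tab_a, tab_b, tab_c, tab_d, tab_e, tab_f, tab_g, tab_h, tab_i]
  exact h

theorem cxr_c_a_0 : allFrom (fun i => Nat.ble 14080 i || Nat.beq (tq_c (tq_a (tq_c (tq_a i)))) i) 0 6250 = true := by decide +kernel
theorem cxr_c_a_1 : allFrom (fun i => Nat.ble 14080 i || Nat.beq (tq_c (tq_a (tq_c (tq_a i)))) i) 6250 6250 = true := by decide +kernel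
theorem cxr_c_a_2 : allFrom (fun i => Nat.ble 14080 i || Nat.beq (tq_c (tq_a (tq_c (tq_a i)))) i) 12500 6250 = true := by decide +kernel
theorem cxr_c_a : ∀ i, i < 14080 → (Nat.beq (tq_c (tq_a (tq_c (tq_a i)))) i) = true :=
  blocks_lt (fun i => Nat.beq (tq_c (tq_a (tq_c (tq_a i)))) i) 14080 6250 3 (by norm_num) ⟨cxr_c_a_0, cxr_c_a_1, cxr_c_a_2, trivial⟩

theorem cx_c_a : ∀ i, i < 14080 → evalT tab [Gen.c, Gen.a, Gen.c, Gen.a] i = i := by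
  intro i hi
  have h := Nat.eq_of_beq_eq_true (cxr_c_a i hi)
  simp only [evalT_cons', evalT_nil', tab_a, tab_b, tab_c, tab_d, tab_e, tab_f, tab_g, tab_h, tab_i]
  exact h

theorem cxr_c_b_0 : allFrom (fun i => Nat.ble 14080 i || Nat.beq (tq_c (tq_b (tq_c (tq_b (tq_c (tq_b i)))))) i) 0 4166 = true := by decide +kernel
theorem cxr_c_b_1 : allFrom (fun i => Nat.ble 14080 i || Nat.beq (tq_c (tq_b (tq_c (tq_b (tq_c (tq_b i)))))) i) 4166 4166 = true := by decide +kernel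
theorem cxr_c_b_2 : allFrom (fun i => Nat.ble 14080 i || Nat.beq (tq_c (tq_b (tq_c (tq_b (tq_c (tq_b i)))))) i) 8332 4166 = true := by decide +kernel
theorem cxr_c_b_3 : allFrom (fun i => Nat.ble 14080 i || Nat.beq (tq_c (tq_b (tq_c (tq_b (tq_c (tq_b i)))))) i) 12498 4166 = true := by decide +kernel
theorem cxr_c_b : ∀ i, i < 14080 → (Nat.beq (tq_c (tq_b (tq_c (tq_b (tq_c (tq_b i)))))) i) = true :=
  blocks_lt (fun i => Nat.beq (tq_c (tq_b (tq_c (tq_b (tq_c (tq_b i)))))) i) 14080 4166 4 (by norm_num) ⟨cxr_c_b_0, cxr_c_b_1, cxr_c_b_2, cxr_c_b_3, trivial⟩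

theorem cx_c_b : ∀ i, i < 14080 → evalT tab [Gen.c, Gen.b, Gen.c, Gen.b, Gen.c, Gen.b] i = i := by
  intro i hi
  have h := Nat.eq_of_beq_eq_true (cxr_c_b i hi)
  simp only [evalT_cons', evalT_nil', tab_a, tab_b, tab_c, tab_d, tab_e, tab_f, tab_g, tab_h, tab_i]
  exact h

theorem cxr_c_c_0 : allFrom (fun i => Nat.ble 14080 i || Nat.beq (tq_c (tq_c i)) i) 0 12500 = true := by decide +kernel
theorem cxr_c_c_1 : allFrom (fun i => Nat.ble 14080 i || Nat.beq (tq_c (tq_c i)) i) 12500 12500 = true := by decide +kernel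
theorem cxr_c_c : ∀ i, i < 14080 → (Nat.beq (tq_c (tq_c i)) i) = true :=
  blocks_lt (fun i => Nat.beq (tq_c (tq_c i)) i) 14080 12500 2 (by norm_num) ⟨cxr_c_c_0, cxr_c_c_1, trivial⟩

theorem cx_c_c : ∀ i, i < 14080 → evalT tab [Gen.c, Gen.c] i = i := by
  intro i hi
  have h := Nat.eq_of_beq_eq_true (cxr_c_c i hi)
  simp only [evalT_cons', evalT_nil', tab_a, tab_b, tab_c, tab_d, tab_e, tab_f, tab_g, tab_h, tab_i]
  exact h

theorem cxr_c_d_0 : allFrom (fun i => Nat.ble 14080 i || Nat.beq (tq_c (tq_d (tq_c (tq_d (tq_c (tq_d i)))))) i) 0 4166 = true := by decide +kernel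
theorem cxr_c_d_1 : allFrom (fun i => Nat.ble 14080 i || Nat.beq (tq_c (tq_d (tq_c (tq_d (tq_c (tq_d i)))))) i) 4166 4166 = true := by decide +kernel
theorem cxr_c_d_2 : allFrom (fun i => Nat.ble 14080 i || Nat.beq (tq_c (tq_d (tq_c (tq_d (tq_c (tq_d i)))))) i) 8332 4166 = true := by decide +kernel
theorem cxr_c_d_3 : allFrom (fun i => Nat.ble 14080 i || Nat.beq (tq_c (tq_d (tq_c (tq_d (tq_c (tq_d i)))))) i) 12498 4166 = true := by decide +kernel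
theorem cxr_c_d : ∀ i, i < 14080 → (Nat.beq (tq_c (tq_d (tq_c (tq_d (tq_c (tq_d i)))))) i) = true :=
  blocks_lt (fun i => Nat.beq (tq_c (tq_d (tq_c (tq_d (tq_c (tq_d i)))))) i) 14080 4166 4 (by norm_num) ⟨cxr_c_d_0, cxr_c_d_1, cxr_c_d_2, cxr_c_d_3, trivial⟩

theorem cx_c_d : ∀ i, i < 14080 → evalT tab [Gen.c, Gen.d, Gen.c, Gen.d, Gen.c, Gen.d] i = i := by
  intro i hi
  have h := Nat.eq_of_beq_eq_true (cxr_c_d i hi)
  simp only [evalT_cons', evalT_nil', tab_a, tab_b, tab_c, tab_d, tab_e, tab_f, tab_g, tab_h, tab_i]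
  exact h

theorem cxr_c_e_0 : allFrom (fun i => Nat.ble 14080 i || Nat.beq (tq_c (tq_e (tq_c (tq_e i)))) i) 0 6250 = true := by decide +kernel
theorem cxr_c_e_1 : allFrom (fun i => Nat.ble 14080 i || Nat.beq (tq_c (tq_e (tq_c (tq_e i)))) i) 6250 6250 = true := by decide +kernel
theorem cxr_c_e_2 : allFrom (fun i => Nat.ble 14080 i || Nat.beq (tq_c (tq_e (tq_c (tq_e i)))) i) 12500 6250 = true := by decide +kernel
theorem cxr_c_e : ∀ i, i < 14080 → (Nat.beq (tq_c (tq_e (tq_c (tq_e i)))) i) = true :=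
  blocks_lt (fun i => Nat.beq (tq_c (tq_e (tq_c (tq_e i)))) i) 14080 6250 3 (by norm_num) ⟨cxr_c_e_0, cxr_c_e_1, cxr_c_e_2, trivial⟩

theorem cx_c_e : ∀ i, i < 14080 → evalT tab [Gen.c, Gen.e, Gen.c, Gen.e] i = i := by
  intro i hi
  have h := Nat.eq_of_beq_eq_true (cxr_c_e i hi)
  simp only [evalT_cons', evalT_nil', tab_a, tab_b, tab_c, tab_d, tab_e, tab_f, tab_g, tab_h, tab_i]
  exact h

theorem cxr_c_f_0 : allFrom (fun i => Nat.ble 14080 i || Nat.beq (tq_c (tq_f (tq_c (tq_f i)))) i) 0 6250 = true := by decide +kernel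
theorem cxr_c_f_1 : allFrom (fun i => Nat.ble 14080 i || Nat.beq (tq_c (tq_f (tq_c (tq_f i)))) i) 6250 6250 = true := by decide +kernel
theorem cxr_c_f_2 : allFrom (fun i => Nat.ble 14080 i || Nat.beq (tq_c (tq_f (tq_c (tq_f i)))) i) 12500 6250 = true := by decide +kernel
theorem cxr_c_f : ∀ i, i < 14080 → (Nat.beq (tq_c (tq_f (tq_c (tq_f i)))) i) = true :=
  blocks_lt (fun i => Nat.beq (tq_c (tq_f (tq_c (tq_f i)))) i) 14080 6250 3 (by norm_num) ⟨cxr_c_f_0, cxr_c_f_1, cxr_c_f_2, trivial⟩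

theorem cx_c_f : ∀ i, i < 14080 → evalT tab [Gen.c, Gen.f, Gen.c, Gen.f] i = i := by
  intro i hi
  have h := Nat.eq_of_beq_eq_true (cxr_c_f i hi)
  simp only [evalT_cons', evalT_nil', tab_a, tab_b, tab_c, tab_d, tab_e, tab_f, tab_g, tab_h, tab_i]
  exact h

theorem cxr_c_g_0 : allFrom (fun i => Nat.ble 14080 i || Nat.beq (tq_c (tq_g (tq_c (tq_g i)))) i) 0 6250 = true := by decide +kernel
theorem cxr_c_g_1 : allFrom (fun i => Nat.ble 14080 i || Nat.beq (tq_c (tq_g (tq_c (tq_g i)))) i) 6250 6250 = true := by decide +kernel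
theorem cxr_c_g_2 : allFrom (fun i => Nat.ble 14080 i || Nat.beq (tq_c (tq_g (tq_c (tq_g i)))) i) 12500 6250 = true := by decide +kernel
theorem cxr_c_g : ∀ i, i < 14080 → (Nat.beq (tq_c (tq_g (tq_c (tq_g i)))) i) = true :=
  blocks_lt (fun i => Nat.beq (tq_c (tq_g (tq_c (tq_g i)))) i) 14080 6250 3 (by norm_num) ⟨cxr_c_g_0, cxr_c_g_1, cxr_c_g_2, trivial⟩

theorem cx_c_g : ∀ i, i < 14080 → evalT tab [Gen.c, Gen.g, Gen.c, Gen.g] i = i := by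
  intro i hi
  have h := Nat.eq_of_beq_eq_true (cxr_c_g i hi)
  simp only [evalT_cons', evalT_nil', tab_a, tab_b, tab_c, tab_d, tab_e, tab_f, tab_g, tab_h, tab_i]
  exact h

theorem cxr_c_h_0 : allFrom (fun i => Nat.ble 14080 i || Nat.beq (tq_c (tq_h (tq_c (tq_h i)))) i) 0 6250 = true := by decide +kernel
theorem cxr_c_h_1 : allFrom (fun i => Nat.ble 14080 i || Nat.beq (tq_c (tq_h (tq_c (tq_h i)))) i) 6250 6250 = true := by decide +kernel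
theorem cxr_c_h_2 : allFrom (fun i => Nat.ble 14080 i || Nat.beq (tq_c (tq_h (tq_c (tq_h i)))) i) 12500 6250 = true := by decide +kernel
theorem cxr_c_h : ∀ i, i < 14080 → (Nat.beq (tq_c (tq_h (tq_c (tq_h i)))) i) = true :=
  blocks_lt (fun i => Nat.beq (tq_c (tq_h (tq_c (tq_h i)))) i) 14080 6250 3 (by norm_num) ⟨cxr_c_h_0, cxr_c_h_1, cxr_c_h_2, trivial⟩

theorem cx_c_h : ∀ i, i < 14080 → evalT tab [Gen.c, Gen.h, Gen.c, Gen.h] i = i := by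
  intro i hi
  have h := Nat.eq_of_beq_eq_true (cxr_c_h i hi)
  simp only [evalT_cons', evalT_nil', tab_a, tab_b, tab_c, tab_d, tab_e, tab_f, tab_g, tab_h, tab_i]
  exact h

theorem cxr_c_i_0 : allFrom (fun i => Nat.ble 14080 i || Nat.beq (tq_c (tq_i (tq_c (tq_i i)))) i) 0 6250 = true := by decide +kernel
theorem cxr_c_i_1 : allFrom (fun i => Nat.ble 14080 i || Nat.beq (tq_c (tq_i (tq_c (tq_i i)))) i) 6250 6250 = true := by decide +kernel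
theorem cxr_c_i_2 : allFrom (fun i => Nat.ble 14080 i || Nat.beq (tq_c (tq_i (tq_c (tq_i i)))) i) 12500 6250 = true := by decide +kernel
theorem cxr_c_i : ∀ i, i < 14080 → (Nat.beq (tq_c (tq_i (tq_c (tq_i i)))) i) = true :=
  blocks_lt (fun i => Nat.beq (tq_c (tq_i (tq_c (tq_i i)))) i) 14080 6250 3 (by norm_num) ⟨cxr_c_i_0, cxr_c_i_1, cxr_c_i_2, trivial⟩

theorem cx_c_i : ∀ i, i < 14080 → evalT tab [Gen.c, Gen.i, Gen.c, Gen.i] i = i := by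
  intro i hi
  have h := Nat.eq_of_beq_eq_true (cxr_c_i i hi)
  simp only [evalT_cons', evalT_nil', tab_a, tab_b, tab_c, tab_d, tab_e, tab_f, tab_g, tab_h, tab_i]
  exact h

theorem cxr_d_a_0 : allFrom (fun i => Nat.ble 14080 i || Nat.beq (tq_d (tq_a (tq_d (tq_a i)))) i) 0 6250 = true := by decide +kernel
theorem cxr_d_a_1 : allFrom (fun i => Nat.ble 14080 i || Nat.beq (tq_d (tq_a (tq_d (tq_a i)))) i) 6250 6250 = true := by decide +kernel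
theorem cxr_d_a_2 : allFrom (fun i => Nat.ble 14080 i || Nat.beq (tq_d (tq_a (tq_d (tq_a i)))) i) 12500 6250 = true := by decide +kernel
theorem cxr_d_a : ∀ i, i < 14080 → (Nat.beq (tq_d (tq_a (tq_d (tq_a i)))) i) = true :=
  blocks_lt (fun i => Nat.beq (tq_d (tq_a (tq_d (tq_a i)))) i) 14080 6250 3 (by norm_num) ⟨cxr_d_a_0, cxr_d_a_1, cxr_d_a_2, trivial⟩

theorem cx_d_a : ∀ i, i < 14080 → evalT tab [Gen.d, Gen.a, Gen.d, Gen.a] i = i := by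
  intro i hi
  have h := Nat.eq_of_beq_eq_true (cxr_d_a i hi)
  simp only [evalT_cons', evalT_nil', tab_a, tab_b, tab_c, tab_d, tab_e, tab_f, tab_g, tab_h, tab_i]
  exact h

theorem cxr_d_b_0 : allFrom (fun i => Nat.ble 14080 i || Nat.beq (tq_d (tq_b (tq_d (tq_b i)))) i) 0 6250 = true := by decide +kernel
theorem cxr_d_b_1 : allFrom (fun i => Nat.ble 14080 i || Nat.beq (tq_d (tq_b (tq_d (tq_b i)))) i) 6250 6250 = true := by decide +kernel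
theorem cxr_d_b_2 : allFrom (fun i => Nat.ble 14080 i || Nat.beq (tq_d (tq_b (tq_d (tq_b i)))) i) 12500 6250 = true := by decide +kernel
theorem cxr_d_b : ∀ i, i < 14080 → (Nat.beq (tq_d (tq_b (tq_d (tq_b i)))) i) = true :=
  blocks_lt (fun i => Nat.beq (tq_d (tq_b (tq_d (tq_b i)))) i) 14080 6250 3 (by norm_num) ⟨cxr_d_b_0, cxr_d_b_1, cxr_d_b_2, trivial⟩

theorem cx_d_b : ∀ i, i < 14080 → evalT tab [Gen.d, Gen.b, Gen.d, Gen.b] i = i := by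
  intro i hi
  have h := Nat.eq_of_beq_eq_true (cxr_d_b i hi)
  simp only [evalT_cons', evalT_nil', tab_a, tab_b, tab_c, tab_d, tab_e, tab_f, tab_g, tab_h, tab_i]
  exact h

theorem cxr_d_c_0 : allFrom (fun i => Nat.ble 14080 i || Nat.beq (tq_d (tq_c (tq_d (tq_c (tq_d (tq_c i)))))) i) 0 4166 = true := by decide +kernel
theorem cxr_d_c_1 : allFrom (fun i => Nat.ble 14080 i || Nat.beq (tq_d (tq_c (tq_d (tq_c (tq_d (tq_c i)))))) i) 4166 4166 = true := by decide +kernel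
theorem cxr_d_c_2 : allFrom (fun i => Nat.ble 14080 i || Nat.beq (tq_d (tq_c (tq_d (tq_c (tq_d (tq_c i)))))) i) 8332 4166 = true := by decide +kernel
theorem cxr_d_c_3 : allFrom (fun i => Nat.ble 14080 i || Nat.beq (tq_d (tq_c (tq_d (tq_c (tq_d (tq_c i)))))) i) 12498 4166 = true := by decide +kernel
theorem cxr_d_c : ∀ i, i < 14080 → (Nat.beq (tq_d (tq_c (tq_d (tq_c (tq_d (tq_c i)))))) i) = true :=
  blocks_lt (fun i => Nat.beq (tq_d (tq_c (tq_d (tq_c (tq_d (tq_c i)))))) i) 14080 4166 4 (by norm_num) ⟨cxr_d_c_0, cxr_d_c_1, cxr_d_c_2, cxr_d_c_3, trivial⟩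

theorem cx_d_c : ∀ i, i < 14080 → evalT tab [Gen.d, Gen.c, Gen.d, Gen.c, Gen.d, Gen.c] i = i := by
  intro i hi
  have h := Nat.eq_of_beq_eq_true (cxr_d_c i hi)
  simp only [evalT_cons', evalT_nil', tab_a, tab_b, tab_c, tab_d, tab_e, tab_f, tab_g, tab_h, tab_i]
  exact h

theorem cxr_d_d_0 : allFrom (fun i => Nat.ble 14080 i || Nat.beq (tq_d (tq_d i)) i) 0 12500 = true := by decide +kernel
theorem cxr_d_d_1 : allFrom (fun i => Nat.ble 14080 i || Nat.beq (tq_d (tq_d i)) i) 12500 12500 = true := by decide +kernel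
theorem cxr_d_d : ∀ i, i < 14080 → (Nat.beq (tq_d (tq_d i)) i) = true :=
  blocks_lt (fun i => Nat.beq (tq_d (tq_d i)) i) 14080 12500 2 (by norm_num) ⟨cxr_d_d_0, cxr_d_d_1, trivial⟩

theorem cx_d_d : ∀ i, i < 14080 → evalT tab [Gen.d, Gen.d] i = i := by
  intro i hi
  have h := Nat.eq_of_beq_eq_true (cxr_d_d i hi)
  simp only [evalT_cons', evalT_nil', tab_a, tab_b, tab_c, tab_d, tab_e, tab_f, tab_g, tab_h, tab_i]
  exact h

theorem cxr_d_e_0 : allFrom (fun i => Nat.ble 14080 i || Nat.beq (tq_d (tq_e (tq_d (tq_e (tq_d (tq_e i)))))) i) 0 4166 = true := by decide +kernel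
theorem cxr_d_e_1 : allFrom (fun i => Nat.ble 14080 i || Nat.beq (tq_d (tq_e (tq_d (tq_e (tq_d (tq_e i)))))) i) 4166 4166 = true := by decide +kernel
theorem cxr_d_e_2 : allFrom (fun i => Nat.ble 14080 i || Nat.beq (tq_d (tq_e (tq_d (tq_e (tq_d (tq_e i)))))) i) 8332 4166 = true := by decide +kernel
theorem cxr_d_e_3 : allFrom (fun i => Nat.ble 14080 i || Nat.beq (tq_d (tq_e (tq_d (tq_e (tq_d (tq_e i)))))) i) 12498 4166 = true := by decide +kernel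
theorem cxr_d_e : ∀ i, i < 14080 → (Nat.beq (tq_d (tq_e (tq_d (tq_e (tq_d (tq_e i)))))) i) = true :=
  blocks_lt (fun i => Nat.beq (tq_d (tq_e (tq_d (tq_e (tq_d (tq_e i)))))) i) 14080 4166 4 (by norm_num) ⟨cxr_d_e_0, cxr_d_e_1, cxr_d_e_2, cxr_d_e_3, trivial⟩

theorem cx_d_e : ∀ i, i < 14080 → evalT tab [Gen.d, Gen.e, Gen.d, Gen.e, Gen.d, Gen.e] i = i := by
  intro i hi
  have h := Nat.eq_of_beq_eq_true (cxr_d_e i hi)
  simp only [evalT_cons', evalT_nil', tab_a, tab_b, tab_c, tab_d, tab_e, tab_f, tab_g, tab_h, tab_i]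
  exact h

theorem cxr_d_f_0 : allFrom (fun i => Nat.ble 14080 i || Nat.beq (tq_d (tq_f (tq_d (tq_f i)))) i) 0 6250 = true := by decide +kernel
theorem cxr_d_f_1 : allFrom (fun i => Nat.ble 14080 i || Nat.beq (tq_d (tq_f (tq_d (tq_f i)))) i) 6250 6250 = true := by decide +kernel
theorem cxr_d_f_2 : allFrom (fun i => Nat.ble 14080 i || Nat.beq (tq_d (tq_f (tq_d (tq_f i)))) i) 12500 6250 = true := by decide +kernel
theorem cxr_d_f : ∀ i, i < 14080 → (Nat.beq (tq_d (tq_f (tq_d (tq_f i)))) i) = true :=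
  blocks_lt (fun i => Nat.beq (tq_d (tq_f (tq_d (tq_f i)))) i) 14080 6250 3 (by norm_num) ⟨cxr_d_f_0, cxr_d_f_1, cxr_d_f_2, trivial⟩

theorem cx_d_f : ∀ i, i < 14080 → evalT tab [Gen.d, Gen.f, Gen.d, Gen.f] i = i := by
  intro i hi
  have h := Nat.eq_of_beq_eq_true (cxr_d_f i hi)
  simp only [evalT_cons', evalT_nil', tab_a, tab_b, tab_c, tab_d, tab_e, tab_f, tab_g, tab_h, tab_i]
  exact h

theorem cxr_d_g_0 : allFrom (fun i => Nat.ble 14080 i || Nat.beq (tq_d (tq_g (tq_d (tq_g i)))) i) 0 6250 = true := by decide +kernel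
theorem cxr_d_g_1 : allFrom (fun i => Nat.ble 14080 i || Nat.beq (tq_d (tq_g (tq_d (tq_g i)))) i) 6250 6250 = true := by decide +kernel
theorem cxr_d_g_2 : allFrom (fun i => Nat.ble 14080 i || Nat.beq (tq_d (tq_g (tq_d (tq_g i)))) i) 12500 6250 = true := by decide +kernel
theorem cxr_d_g : ∀ i, i < 14080 → (Nat.beq (tq_d (tq_g (tq_d (tq_g i)))) i) = true :=
  blocks_lt (fun i => Nat.beq (tq_d (tq_g (tq_d (tq_g i)))) i) 14080 6250 3 (by norm_num) ⟨cxr_d_g_0, cxr_d_g_1, cxr_d_g_2, trivial⟩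

theorem cx_d_g : ∀ i, i < 14080 → evalT tab [Gen.d, Gen.g, Gen.d, Gen.g] i = i := by
  intro i hi
  have h := Nat.eq_of_beq_eq_true (cxr_d_g i hi)
  simp only [evalT_cons', evalT_nil', tab_a, tab_b, tab_c, tab_d, tab_e, tab_f, tab_g, tab_h, tab_i]
  exact h

theorem cxr_d_h_0 : allFrom (fun i => Nat.ble 14080 i || Nat.beq (tq_d (tq_h (tq_d (tq_h (tq_d (tq_h i)))))) i) 0 4166 = true := by decide +kernel
theorem cxr_d_h_1 : allFrom (fun i => Nat.ble 14080 i || Nat.beq (tq_d (tq_h (tq_d (tq_h (tq_d (tq_h i)))))) i) 4166 4166 = true := by decide +kernel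
theorem cxr_d_h_2 : allFrom (fun i => Nat.ble 14080 i || Nat.beq (tq_d (tq_h (tq_d (tq_h (tq_d (tq_h i)))))) i) 8332 4166 = true := by decide +kernel
theorem cxr_d_h_3 : allFrom (fun i => Nat.ble 14080 i || Nat.beq (tq_d (tq_h (tq_d (tq_h (tq_d (tq_h i)))))) i) 12498 4166 = true := by decide +kernel
theorem cxr_d_h : ∀ i, i < 14080 → (Nat.beq (tq_d (tq_h (tq_d (tq_h (tq_d (tq_h i)))))) i) = true :=
  blocks_lt (fun i => Nat.beq (tq_d (tq_h (tq_d (tq_h (tq_d (tq_h i)))))) i) 14080 4166 4 (by norm_num) ⟨cxr_d_h_0, cxr_d_h_1, cxr_d_h_2, cxr_d_h_3, trivial⟩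

theorem cx_d_h : ∀ i, i < 14080 → evalT tab [Gen.d, Gen.h, Gen.d, Gen.h, Gen.d, Gen.h] i = i := by
  intro i hi
  have h := Nat.eq_of_beq_eq_true (cxr_d_h i hi)
  simp only [evalT_cons', evalT_nil', tab_a, tab_b, tab_c, tab_d, tab_e, tab_f, tab_g, tab_h, tab_i]
  exact h

theorem cxr_d_i_0 : allFrom (fun i => Nat.ble 14080 i || Nat.beq (tq_d (tq_i (tq_d (tq_i i)))) i) 0 6250 = true := by decide +kernel
theorem cxr_d_i_1 : allFrom (fun i => Nat.ble 14080 i || Nat.beq (tq_d (tq_i (tq_d (tq_i i)))) i) 6250 6250 = true := by decide +kernel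
theorem cxr_d_i_2 : allFrom (fun i => Nat.ble 14080 i || Nat.beq (tq_d (tq_i (tq_d (tq_i i)))) i) 12500 6250 = true := by decide +kernel
theorem cxr_d_i : ∀ i, i < 14080 → (Nat.beq (tq_d (tq_i (tq_d (tq_i i)))) i) = true :=
  blocks_lt (fun i => Nat.beq (tq_d (tq_i (tq_d (tq_i i)))) i) 14080 6250 3 (by norm_num) ⟨cxr_d_i_0, cxr_d_i_1, cxr_d_i_2, trivial⟩

theorem cx_d_i : ∀ i, i < 14080 → evalT tab [Gen.d, Gen.i, Gen.d, Gen.i] i = i := by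
  intro i hi
  have h := Nat.eq_of_beq_eq_true (cxr_d_i i hi)
  simp only [evalT_cons', evalT_nil', tab_a, tab_b, tab_c, tab_d, tab_e, tab_f, tab_g, tab_h, tab_i]
  exact h

theorem cxr_e_a_0 : allFrom (fun i => Nat.ble 14080 i || Nat.beq (tq_e (tq_a (tq_e (tq_a i)))) i) 0 6250 = true := by decide +kernel
theorem cxr_e_a_1 : allFrom (fun i => Nat.ble 14080 i || Nat.beq (tq_e (tq_a (tq_e (tq_a i)))) i) 6250 6250 = true := by decide +kernel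
theorem cxr_e_a_2 : allFrom (fun i => Nat.ble 14080 i || Nat.beq (tq_e (tq_a (tq_e (tq_a i)))) i) 12500 6250 = true := by decide +kernel
theorem cxr_e_a : ∀ i, i < 14080 → (Nat.beq (tq_e (tq_a (tq_e (tq_a i)))) i) = true :=
  blocks_lt (fun i => Nat.beq (tq_e (tq_a (tq_e (tq_a i)))) i) 14080 6250 3 (by norm_num) ⟨cxr_e_a_0, cxr_e_a_1, cxr_e_a_2, trivial⟩

theorem cx_e_a : ∀ i, i < 14080 → evalT tab [Gen.e, Gen.a, Gen.e, Gen.a] i = i := by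
  intro i hi
  have h := Nat.eq_of_beq_eq_true (cxr_e_a i hi)
  simp only [evalT_cons', evalT_nil', tab_a, tab_b, tab_c, tab_d, tab_e, tab_f, tab_g, tab_h, tab_i]
  exact h

theorem cxr_e_b_0 : allFrom (fun i => Nat.ble 14080 i || Nat.beq (tq_e (tq_b (tq_e (tq_b i)))) i) 0 6250 = true := by decide +kernel
theorem cxr_e_b_1 : allFrom (fun i => Nat.ble 14080 i || Nat.beq (tq_e (tq_b (tq_e (tq_b i)))) i) 6250 6250 = true := by decide +kernel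
theorem cxr_e_b_2 : allFrom (fun i => Nat.ble 14080 i || Nat.beq (tq_e (tq_b (tq_e (tq_b i)))) i) 12500 6250 = true := by decide +kernel
theorem cxr_e_b : ∀ i, i < 14080 → (Nat.beq (tq_e (tq_b (tq_e (tq_b i)))) i) = true :=
  blocks_lt (fun i => Nat.beq (tq_e (tq_b (tq_e (tq_b i)))) i) 14080 6250 3 (by norm_num) ⟨cxr_e_b_0, cxr_e_b_1, cxr_e_b_2, trivial⟩

theorem cx_e_b : ∀ i, i < 14080 → evalT tab [Gen.e, Gen.b, Gen.e, Gen.b] i = i := by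
  intro i hi
  have h := Nat.eq_of_beq_eq_true (cxr_e_b i hi)
  simp only [evalT_cons', evalT_nil', tab_a, tab_b, tab_c, tab_d, tab_e, tab_f, tab_g, tab_h, tab_i]
  exact h

theorem cxr_e_c_0 : allFrom (fun i => Nat.ble 14080 i || Nat.beq (tq_e (tq_c (tq_e (tq_c i)))) i) 0 6250 = true := by decide +kernel
theorem cxr_e_c_1 : allFrom (fun i => Nat.ble 14080 i || Nat.beq (tq_e (tq_c (tq_e (tq_c i)))) i) 6250 6250 = true := by decide +kernel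
theorem cxr_e_c_2 : allFrom (fun i => Nat.ble 14080 i || Nat.beq (tq_e (tq_c (tq_e (tq_c i)))) i) 12500 6250 = true := by decide +kernel
theorem cxr_e_c : ∀ i, i < 14080 → (Nat.beq (tq_e (tq_c (tq_e (tq_c i)))) i) = true :=
  blocks_lt (fun i => Nat.beq (tq_e (tq_c (tq_e (tq_c i)))) i) 14080 6250 3 (by norm_num) ⟨cxr_e_c_0, cxr_e_c_1, cxr_e_c_2, trivial⟩

theorem cx_e_c : ∀ i, i < 14080 → evalT tab [Gen.e, Gen.c, Gen.e, Gen.c] i = i := by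
  intro i hi
  have h := Nat.eq_of_beq_eq_true (cxr_e_c i hi)
  simp only [evalT_cons', evalT_nil', tab_a, tab_b, tab_c, tab_d, tab_e, tab_f, tab_g, tab_h, tab_i]
  exact h

theorem cxr_e_d_0 : allFrom (fun i => Nat.ble 14080 i || Nat.beq (tq_e (tq_d (tq_e (tq_d (tq_e (tq_d i)))))) i) 0 4166 = true := by decide +kernel
theorem cxr_e_d_1 : allFrom (fun i => Nat.ble 14080 i || Nat.beq (tq_e (tq_d (tq_e (tq_d (tq_e (tq_d i)))))) i) 4166 4166 = true := by decide +kernel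
theorem cxr_e_d_2 : allFrom (fun i => Nat.ble 14080 i || Nat.beq (tq_e (tq_d (tq_e (tq_d (tq_e (tq_d i)))))) i) 8332 4166 = true := by decide +kernel
theorem cxr_e_d_3 : allFrom (fun i => Nat.ble 14080 i || Nat.beq (tq_e (tq_d (tq_e (tq_d (tq_e (tq_d i)))))) i) 12498 4166 = true := by decide +kernel
theorem cxr_e_d : ∀ i, i < 14080 → (Nat.beq (tq_e (tq_d (tq_e (tq_d (tq_e (tq_d i)))))) i) = true :=
  blocks_lt (fun i => Nat.beq (tq_e (tq_d (tq_e (tq_d (tq_e (tq_d i)))))) i) 14080 4166 4 (by norm_num) ⟨cxr_e_d_0, cxr_e_d_1, cxr_e_d_2, cxr_e_d_3, trivial⟩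

theorem cx_e_d : ∀ i, i < 14080 → evalT tab [Gen.e, Gen.d, Gen.e, Gen.d, Gen.e, Gen.d] i = i := by
  intro i hi
  have h := Nat.eq_of_beq_eq_true (cxr_e_d i hi)
  simp only [evalT_cons', evalT_nil', tab_a, tab_b, tab_c, tab_d, tab_e, tab_f, tab_g, tab_h, tab_i]
  exact h

theorem cxr_e_e_0 : allFrom (fun i => Nat.ble 14080 i || Nat.beq (tq_e (tq_e i)) i) 0 12500 = true := by decide +kernel
theorem cxr_e_e_1 : allFrom (fun i => Nat.ble 14080 i || Nat.beq (tq_e (tq_e i)) i) 12500 12500 = true := by decide +kernel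
theorem cxr_e_e : ∀ i, i < 14080 → (Nat.beq (tq_e (tq_e i)) i) = true :=
  blocks_lt (fun i => Nat.beq (tq_e (tq_e i)) i) 14080 12500 2 (by norm_num) ⟨cxr_e_e_0, cxr_e_e_1, trivial⟩

theorem cx_e_e : ∀ i, i < 14080 → evalT tab [Gen.e, Gen.e] i = i := by
  intro i hi
  have h := Nat.eq_of_beq_eq_true (cxr_e_e i hi)
  simp only [evalT_cons', evalT_nil', tab_a, tab_b, tab_c, tab_d, tab_e, tab_f, tab_g, tab_h, tab_i]
  exact h

theorem cxr_e_f_0 : allFrom (fun i => Nat.ble 14080 i || Nat.beq (tq_e (tq_f (tq_e (tq_f (tq_e (tq_f i)))))) i) 0 4166 = true := by decide +kernel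
theorem cxr_e_f_1 : allFrom (fun i => Nat.ble 14080 i || Nat.beq (tq_e (tq_f (tq_e (tq_f (tq_e (tq_f i)))))) i) 4166 4166 = true := by decide +kernel
theorem cxr_e_f_2 : allFrom (fun i => Nat.ble 14080 i || Nat.beq (tq_e (tq_f (tq_e (tq_f (tq_e (tq_f i)))))) i) 8332 4166 = true := by decide +kernel
theorem cxr_e_f_3 : allFrom (fun i => Nat.ble 14080 i || Nat.beq (tq_e (tq_f (tq_e (tq_f (tq_e (tq_f i)))))) i) 12498 4166 = true := by decide +kernel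
theorem cxr_e_f : ∀ i, i < 14080 → (Nat.beq (tq_e (tq_f (tq_e (tq_f (tq_e (tq_f i)))))) i) = true :=
  blocks_lt (fun i => Nat.beq (tq_e (tq_f (tq_e (tq_f (tq_e (tq_f i)))))) i) 14080 4166 4 (by norm_num) ⟨cxr_e_f_0, cxr_e_f_1, cxr_e_f_2, cxr_e_f_3, trivial⟩

theorem cx_e_f : ∀ i, i < 14080 → evalT tab [Gen.e, Gen.f, Gen.e, Gen.f, Gen.e, Gen.f] i = i := by
  intro i hi
  have h := Nat.eq_of_beq_eq_true (cxr_e_f i hi)
  simp only [evalT_cons', evalT_nil', tab_a, tab_b, tab_c, tab_d, tab_e, tab_f, tab_g, tab_h, tab_i]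
  exact h

theorem cxr_e_g_0 : allFrom (fun i => Nat.ble 14080 i || Nat.beq (tq_e (tq_g (tq_e (tq_g i)))) i) 0 6250 = true := by decide +kernel
theorem cxr_e_g_1 : allFrom (fun i => Nat.ble 14080 i || Nat.beq (tq_e (tq_g (tq_e (tq_g i)))) i) 6250 6250 = true := by decide +kernel
theorem cxr_e_g_2 : allFrom (fun i => Nat.ble 14080 i || Nat.beq (tq_e (tq_g (tq_e (tq_g i)))) i) 12500 6250 = true := by decide +kernel
theorem cxr_e_g : ∀ i, i < 14080 → (Nat.beq (tq_e (tq_g (tq_e (tq_g i)))) i) = true :=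
  blocks_lt (fun i => Nat.beq (tq_e (tq_g (tq_e (tq_g i)))) i) 14080 6250 3 (by norm_num) ⟨cxr_e_g_0, cxr_e_g_1, cxr_e_g_2, trivial⟩

theorem cx_e_g : ∀ i, i < 14080 → evalT tab [Gen.e, Gen.g, Gen.e, Gen.g] i = i := by
  intro i hi
  have h := Nat.eq_of_beq_eq_true (cxr_e_g i hi)
  simp only [evalT_cons', evalT_nil', tab_a, tab_b, tab_c, tab_d, tab_e, tab_f, tab_g, tab_h, tab_i]
  exact h

theorem cxr_e_h_0 : allFrom (fun i => Nat.ble 14080 i || Nat.beq (tq_e (tq_h (tq_e (tq_h i)))) i) 0 6250 = true := by decide +kernel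
theorem cxr_e_h_1 : allFrom (fun i => Nat.ble 14080 i || Nat.beq (tq_e (tq_h (tq_e (tq_h i)))) i) 6250 6250 = true := by decide +kernel
theorem cxr_e_h_2 : allFrom (fun i => Nat.ble 14080 i || Nat.beq (tq_e (tq_h (tq_e (tq_h i)))) i) 12500 6250 = true := by decide +kernel
theorem cxr_e_h : ∀ i, i < 14080 → (Nat.beq (tq_e (tq_h (tq_e (tq_h i)))) i) = true :=
  blocks_lt (fun i => Nat.beq (tq_e (tq_h (tq_e (tq_h i)))) i) 14080 6250 3 (by norm_num) ⟨cxr_e_h_0, cxr_e_h_1, cxr_e_h_2, trivial⟩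

theorem cx_e_h : ∀ i, i < 14080 → evalT tab [Gen.e, Gen.h, Gen.e, Gen.h] i = i := by
  intro i hi
  have h := Nat.eq_of_beq_eq_true (cxr_e_h i hi)
  simp only [evalT_cons', evalT_nil', tab_a, tab_b, tab_c, tab_d, tab_e, tab_f, tab_g, tab_h, tab_i]
  exact h

theorem cxr_e_i_0 : allFrom (fun i => Nat.ble 14080 i || Nat.beq (tq_e (tq_i (tq_e (tq_i i)))) i) 0 6250 = true := by decide +kernel
theorem cxr_e_i_1 : allFrom (fun i => Nat.ble 14080 i || Nat.beq (tq_e (tq_i (tq_e (tq_i i)))) i) 6250 6250 = true := by decide +kernel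
theorem cxr_e_i_2 : allFrom (fun i => Nat.ble 14080 i || Nat.beq (tq_e (tq_i (tq_e (tq_i i)))) i) 12500 6250 = true := by decide +kernel
theorem cxr_e_i : ∀ i, i < 14080 → (Nat.beq (tq_e (tq_i (tq_e (tq_i i)))) i) = true :=
  blocks_lt (fun i => Nat.beq (tq_e (tq_i (tq_e (tq_i i)))) i) 14080 6250 3 (by norm_num) ⟨cxr_e_i_0, cxr_e_i_1, cxr_e_i_2, trivial⟩

theorem cx_e_i : ∀ i, i < 14080 → evalT tab [Gen.e, Gen.i, Gen.e, Gen.i] i = i := by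
  intro i hi
  have h := Nat.eq_of_beq_eq_true (cxr_e_i i hi)
  simp only [evalT_cons', evalT_nil', tab_a, tab_b, tab_c, tab_d, tab_e, tab_f, tab_g, tab_h, tab_i]
  exact h

theorem cxr_f_a_0 : allFrom (fun i => Nat.ble 14080 i || Nat.beq (tq_f (tq_a (tq_f (tq_a i)))) i) 0 6250 = true := by decide +kernel
theorem cxr_f_a_1 : allFrom (fun i => Nat.ble 14080 i || Nat.beq (tq_f (tq_a (tq_f (tq_a i)))) i) 6250 6250 = true := by decide +kernel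
theorem cxr_f_a_2 : allFrom (fun i => Nat.ble 14080 i || Nat.beq (tq_f (tq_a (tq_f (tq_a i)))) i) 12500 6250 = true := by decide +kernel
theorem cxr_f_a : ∀ i, i < 14080 → (Nat.beq (tq_f (tq_a (tq_f (tq_a i)))) i) = true :=
  blocks_lt (fun i => Nat.beq (tq_f (tq_a (tq_f (tq_a i)))) i) 14080 6250 3 (by norm_num) ⟨cxr_f_a_0, cxr_f_a_1, cxr_f_a_2, trivial⟩

theorem cx_f_a : ∀ i, i < 14080 → evalT tab [Gen.f, Gen.a, Gen.f, Gen.a] i = i := by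
  intro i hi
  have h := Nat.eq_of_beq_eq_true (cxr_f_a i hi)
  simp only [evalT_cons', evalT_nil', tab_a, tab_b, tab_c, tab_d, tab_e, tab_f, tab_g, tab_h, tab_i]
  exact h

theorem cxr_f_b_0 : allFrom (fun i => Nat.ble 14080 i || Nat.beq (tq_f (tq_b (tq_f (tq_b i)))) i) 0 6250 = true := by decide +kernel
theorem cxr_f_b_1 : allFrom (fun i => Nat.ble 14080 i || Nat.beq (tq_f (tq_b (tq_f (tq_b i)))) i) 6250 6250 = true := by decide +kernel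
theorem cxr_f_b_2 : allFrom (fun i => Nat.ble 14080 i || Nat.beq (tq_f (tq_b (tq_f (tq_b i)))) i) 12500 6250 = true := by decide +kernel
theorem cxr_f_b : ∀ i, i < 14080 → (Nat.beq (tq_f (tq_b (tq_f (tq_b i)))) i) = true :=
  blocks_lt (fun i => Nat.beq (tq_f (tq_b (tq_f (tq_b i)))) i) 14080 6250 3 (by norm_num) ⟨cxr_f_b_0, cxr_f_b_1, cxr_f_b_2, trivial⟩

theorem cx_f_b : ∀ i, i < 14080 → evalT tab [Gen.f, Gen.b, Gen.f, Gen.b] i = i := by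
  intro i hi
  have h := Nat.eq_of_beq_eq_true (cxr_f_b i hi)
  simp only [evalT_cons', evalT_nil', tab_a, tab_b, tab_c, tab_d, tab_e, tab_f, tab_g, tab_h, tab_i]
  exact h

theorem cxr_f_c_0 : allFrom (fun i => Nat.ble 14080 i || Nat.beq (tq_f (tq_c (tq_f (tq_c i)))) i) 0 6250 = true := by decide +kernel
theorem cxr_f_c_1 : allFrom (fun i => Nat.ble 14080 i || Nat.beq (tq_f (tq_c (tq_f (tq_c i)))) i) 6250 6250 = true := by decide +kernel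
theorem cxr_f_c_2 : allFrom (fun i => Nat.ble 14080 i || Nat.beq (tq_f (tq_c (tq_f (tq_c i)))) i) 12500 6250 = true := by decide +kernel
theorem cxr_f_c : ∀ i, i < 14080 → (Nat.beq (tq_f (tq_c (tq_f (tq_c i)))) i) = true :=
  blocks_lt (fun i => Nat.beq (tq_f (tq_c (tq_f (tq_c i)))) i) 14080 6250 3 (by norm_num) ⟨cxr_f_c_0, cxr_f_c_1, cxr_f_c_2, trivial⟩

theorem cx_f_c : ∀ i, i < 14080 → evalT tab [Gen.f, Gen.c, Gen.f, Gen.c] i = i := by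
  intro i hi
  have h := Nat.eq_of_beq_eq_true (cxr_f_c i hi)
  simp only [evalT_cons', evalT_nil', tab_a, tab_b, tab_c, tab_d, tab_e, tab_f, tab_g, tab_h, tab_i]
  exact h

theorem cxr_f_d_0 : allFrom (fun i => Nat.ble 14080 i || Nat.beq (tq_f (tq_d (tq_f (tq_d i)))) i) 0 6250 = true := by decide +kernel
theorem cxr_f_d_1 : allFrom (fun i => Nat.ble 14080 i || Nat.beq (tq_f (tq_d (tq_f (tq_d i)))) i) 6250 6250 = true := by decide +kernel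
theorem cxr_f_d_2 : allFrom (fun i => Nat.ble 14080 i || Nat.beq (tq_f (tq_d (tq_f (tq_d i)))) i) 12500 6250 = true := by decide +kernel
theorem cxr_f_d : ∀ i, i < 14080 → (Nat.beq (tq_f (tq_d (tq_f (tq_d i)))) i) = true :=
  blocks_lt (fun i => Nat.beq (tq_f (tq_d (tq_f (tq_d i)))) i) 14080 6250 3 (by norm_num) ⟨cxr_f_d_0, cxr_f_d_1, cxr_f_d_2, trivial⟩

theorem cx_f_d : ∀ i, i < 14080 → evalT tab [Gen.f, Gen.d, Gen.f, Gen.d] i = i := by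
  intro i hi
  have h := Nat.eq_of_beq_eq_true (cxr_f_d i hi)
  simp only [evalT_cons', evalT_nil', tab_a, tab_b, tab_c, tab_d, tab_e, tab_f, tab_g, tab_h, tab_i]
  exact h

theorem cxr_f_e_0 : allFrom (fun i => Nat.ble 14080 i || Nat.beq (tq_f (tq_e (tq_f (tq_e (tq_f (tq_e i)))))) i) 0 4166 = true := by decide +kernel
theorem cxr_f_e_1 : allFrom (fun i => Nat.ble 14080 i || Nat.beq (tq_f (tq_e (tq_f (tq_e (tq_f (tq_e i)))))) i) 4166 4166 = true := by decide +kernel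
theorem cxr_f_e_2 : allFrom (fun i => Nat.ble 14080 i || Nat.beq (tq_f (tq_e (tq_f (tq_e (tq_f (tq_e i)))))) i) 8332 4166 = true := by decide +kernel
theorem cxr_f_e_3 : allFrom (fun i => Nat.ble 14080 i || Nat.beq (tq_f (tq_e (tq_f (tq_e (tq_f (tq_e i)))))) i) 12498 4166 = true := by decide +kernel
theorem cxr_f_e : ∀ i, i < 14080 → (Nat.beq (tq_f (tq_e (tq_f (tq_e (tq_f (tq_e i)))))) i) = true :=
  blocks_lt (fun i => Nat.beq (tq_f (tq_e (tq_f (tq_e (tq_f (tq_e i)))))) i) 14080 4166 4 (by norm_num) ⟨cxr_f_e_0, cxr_f_e_1, cxr_f_e_2, cxr_f_e_3, trivial⟩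

theorem cx_f_e : ∀ i, i < 14080 → evalT tab [Gen.f, Gen.e, Gen.f, Gen.e, Gen.f, Gen.e] i = i := by
  intro i hi
  have h := Nat.eq_of_beq_eq_true (cxr_f_e i hi)
  simp only [evalT_cons', evalT_nil', tab_a, tab_b, tab_c, tab_d, tab_e, tab_f, tab_g, tab_h, tab_i]
  exact h

theorem cxr_f_f_0 : allFrom (fun i => Nat.ble 14080 i || Nat.beq (tq_f (tq_f i)) i) 0 12500 = true := by decide +kernel
theorem cxr_f_f_1 : allFrom (fun i => Nat.ble 14080 i || Nat.beq (tq_f (tq_f i)) i) 12500 12500 = true := by decide +kernel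
theorem cxr_f_f : ∀ i, i < 14080 → (Nat.beq (tq_f (tq_f i)) i) = true :=
  blocks_lt (fun i => Nat.beq (tq_f (tq_f i)) i) 14080 12500 2 (by norm_num) ⟨cxr_f_f_0, cxr_f_f_1, trivial⟩

theorem cx_f_f : ∀ i, i < 14080 → evalT tab [Gen.f, Gen.f] i = i := by
  intro i hi
  have h := Nat.eq_of_beq_eq_true (cxr_f_f i hi)
  simp only [evalT_cons', evalT_nil', tab_a, tab_b, tab_c, tab_d, tab_e, tab_f, tab_g, tab_h, tab_i]
  exact h

theorem cxr_f_g_0 : allFrom (fun i => Nat.ble 14080 i || Nat.beq (tq_f (tq_g (tq_f (tq_g (tq_f (tq_g i)))))) i) 0 4166 = true := by decide +kernel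
theorem cxr_f_g_1 : allFrom (fun i => Nat.ble 14080 i || Nat.beq (tq_f (tq_g (tq_f (tq_g (tq_f (tq_g i)))))) i) 4166 4166 = true := by decide +kernel
theorem cxr_f_g_2 : allFrom (fun i => Nat.ble 14080 i || Nat.beq (tq_f (tq_g (tq_f (tq_g (tq_f (tq_g i)))))) i) 8332 4166 = true := by decide +kernel
theorem cxr_f_g_3 : allFrom (fun i => Nat.ble 14080 i || Nat.beq (tq_f (tq_g (tq_f (tq_g (tq_f (tq_g i)))))) i) 12498 4166 = true := by decide +kernel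
theorem cxr_f_g : ∀ i, i < 14080 → (Nat.beq (tq_f (tq_g (tq_f (tq_g (tq_f (tq_g i)))))) i) = true :=
  blocks_lt (fun i => Nat.beq (tq_f (tq_g (tq_f (tq_g (tq_f (tq_g i)))))) i) 14080 4166 4 (by norm_num) ⟨cxr_f_g_0, cxr_f_g_1, cxr_f_g_2, cxr_f_g_3, trivial⟩

theorem cx_f_g : ∀ i, i < 14080 → evalT tab [Gen.f, Gen.g, Gen.f, Gen.g, Gen.f, Gen.g] i = i := by
  intro i hi
  have h := Nat.eq_of_beq_eq_true (cxr_f_g i hi)
  simp only [evalT_cons', evalT_nil', tab_a, tab_b, tab_c, tab_d, tab_e, tab_f, tab_g, tab_h, tab_i]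
  exact h

theorem cxr_f_h_0 : allFrom (fun i => Nat.ble 14080 i || Nat.beq (tq_f (tq_h (tq_f (tq_h i)))) i) 0 6250 = true := by decide +kernel
theorem cxr_f_h_1 : allFrom (fun i => Nat.ble 14080 i || Nat.beq (tq_f (tq_h (tq_f (tq_h i)))) i) 6250 6250 = true := by decide +kernel
theorem cxr_f_h_2 : allFrom (fun i => Nat.ble 14080 i || Nat.beq (tq_f (tq_h (tq_f (tq_h i)))) i) 12500 6250 = true := by decide +kernel
theorem cxr_f_h : ∀ i, i < 14080 → (Nat.beq (tq_f (tq_h (tq_f (tq_h i)))) i) = true :=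
  blocks_lt (fun i => Nat.beq (tq_f (tq_h (tq_f (tq_h i)))) i) 14080 6250 3 (by norm_num) ⟨cxr_f_h_0, cxr_f_h_1, cxr_f_h_2, trivial⟩

theorem cx_f_h : ∀ i, i < 14080 → evalT tab [Gen.f, Gen.h, Gen.f, Gen.h] i = i := by
  intro i hi
  have h := Nat.eq_of_beq_eq_true (cxr_f_h i hi)
  simp only [evalT_cons', evalT_nil', tab_a, tab_b, tab_c, tab_d, tab_e, tab_f, tab_g, tab_h, tab_i]
  exact h

theorem cxr_f_i_0 : allFrom (fun i => Nat.ble 14080 i || Nat.beq (tq_f (tq_i (tq_f (tq_i i)))) i) 0 6250 = true := by decide +kernel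
theorem cxr_f_i_1 : allFrom (fun i => Nat.ble 14080 i || Nat.beq (tq_f (tq_i (tq_f (tq_i i)))) i) 6250 6250 = true := by decide +kernel
theorem cxr_f_i_2 : allFrom (fun i => Nat.ble 14080 i || Nat.beq (tq_f (tq_i (tq_f (tq_i i)))) i) 12500 6250 = true := by decide +kernel
theorem cxr_f_i : ∀ i, i < 14080 → (Nat.beq (tq_f (tq_i (tq_f (tq_i i)))) i) = true :=
  blocks_lt (fun i => Nat.beq (tq_f (tq_i (tq_f (tq_i i)))) i) 14080 6250 3 (by norm_num) ⟨cxr_f_i_0, cxr_f_i_1, cxr_f_i_2, trivial⟩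

theorem cx_f_i : ∀ i, i < 14080 → evalT tab [Gen.f, Gen.i, Gen.f, Gen.i] i = i := by
  intro i hi
  have h := Nat.eq_of_beq_eq_true (cxr_f_i i hi)
  simp only [evalT_cons', evalT_nil', tab_a, tab_b, tab_c, tab_d, tab_e, tab_f, tab_g, tab_h, tab_i]
  exact h

theorem cxr_g_a_0 : allFrom (fun i => Nat.ble 14080 i || Nat.beq (tq_g (tq_a (tq_g (tq_a i)))) i) 0 6250 = true := by decide +kernel
theorem cxr_g_a_1 : allFrom (fun i => Nat.ble 14080 i || Nat.beq (tq_g (tq_a (tq_g (tq_a i)))) i) 6250 6250 = true := by decide +kernel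
theorem cxr_g_a_2 : allFrom (fun i => Nat.ble 14080 i || Nat.beq (tq_g (tq_a (tq_g (tq_a i)))) i) 12500 6250 = true := by decide +kernel
theorem cxr_g_a : ∀ i, i < 14080 → (Nat.beq (tq_g (tq_a (tq_g (tq_a i)))) i) = true :=
  blocks_lt (fun i => Nat.beq (tq_g (tq_a (tq_g (tq_a i)))) i) 14080 6250 3 (by norm_num) ⟨cxr_g_a_0, cxr_g_a_1, cxr_g_a_2, trivial⟩

theorem cx_g_a : ∀ i, i < 14080 → evalT tab [Gen.g, Gen.a, Gen.g, Gen.a] i = i := by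
  intro i hi
  have h := Nat.eq_of_beq_eq_true (cxr_g_a i hi)
  simp only [evalT_cons', evalT_nil', tab_a, tab_b, tab_c, tab_d, tab_e, tab_f, tab_g, tab_h, tab_i]
  exact h

theorem cxr_g_b_0 : allFrom (fun i => Nat.ble 14080 i || Nat.beq (tq_g (tq_b (tq_g (tq_b i)))) i) 0 6250 = true := by decide +kernel
theorem cxr_g_b_1 : allFrom (fun i => Nat.ble 14080 i || Nat.beq (tq_g (tq_b (tq_g (tq_b i)))) i) 6250 6250 = true := by decide +kernel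
theorem cxr_g_b_2 : allFrom (fun i => Nat.ble 14080 i || Nat.beq (tq_g (tq_b (tq_g (tq_b i)))) i) 12500 6250 = true := by decide +kernel
theorem cxr_g_b : ∀ i, i < 14080 → (Nat.beq (tq_g (tq_b (tq_g (tq_b i)))) i) = true :=
  blocks_lt (fun i => Nat.beq (tq_g (tq_b (tq_g (tq_b i)))) i) 14080 6250 3 (by norm_num) ⟨cxr_g_b_0, cxr_g_b_1, cxr_g_b_2, trivial⟩

theorem cx_g_b : ∀ i, i < 14080 → evalT tab [Gen.g, Gen.b, Gen.g, Gen.b] i = i := by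
  intro i hi
  have h := Nat.eq_of_beq_eq_true (cxr_g_b i hi)
  simp only [evalT_cons', evalT_nil', tab_a, tab_b, tab_c, tab_d, tab_e, tab_f, tab_g, tab_h, tab_i]
  exact h

theorem cxr_g_c_0 : allFrom (fun i => Nat.ble 14080 i || Nat.beq (tq_g (tq_c (tq_g (tq_c i)))) i) 0 6250 = true := by decide +kernel
theorem cxr_g_c_1 : allFrom (fun i => Nat.ble 14080 i || Nat.beq (tq_g (tq_c (tq_g (tq_c i)))) i) 6250 6250 = true := by decide +kernel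
theorem cxr_g_c_2 : allFrom (fun i => Nat.ble 14080 i || Nat.beq (tq_g (tq_c (tq_g (tq_c i)))) i) 12500 6250 = true := by decide +kernel
theorem cxr_g_c : ∀ i, i < 14080 → (Nat.beq (tq_g (tq_c (tq_g (tq_c i)))) i) = true :=
  blocks_lt (fun i => Nat.beq (tq_g (tq_c (tq_g (tq_c i)))) i) 14080 6250 3 (by norm_num) ⟨cxr_g_c_0, cxr_g_c_1, cxr_g_c_2, trivial⟩

theorem cx_g_c : ∀ i, i < 14080 → evalT tab [Gen.g, Gen.c, Gen.g, Gen.c] i = i := by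
  intro i hi
  have h := Nat.eq_of_beq_eq_true (cxr_g_c i hi)
  simp only [evalT_cons', evalT_nil', tab_a, tab_b, tab_c, tab_d, tab_e, tab_f, tab_g, tab_h, tab_i]
  exact h

theorem cxr_g_d_0 : allFrom (fun i => Nat.ble 14080 i || Nat.beq (tq_g (tq_d (tq_g (tq_d i)))) i) 0 6250 = true := by decide +kernel
theorem cxr_g_d_1 : allFrom (fun i => Nat.ble 14080 i || Nat.beq (tq_g (tq_d (tq_g (tq_d i)))) i) 6250 6250 = true := by decide +kernel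
theorem cxr_g_d_2 : allFrom (fun i => Nat.ble 14080 i || Nat.beq (tq_g (tq_d (tq_g (tq_d i)))) i) 12500 6250 = true := by decide +kernel
theorem cxr_g_d : ∀ i, i < 14080 → (Nat.beq (tq_g (tq_d (tq_g (tq_d i)))) i) = true :=
  blocks_lt (fun i => Nat.beq (tq_g (tq_d (tq_g (tq_d i)))) i) 14080 6250 3 (by norm_num) ⟨cxr_g_d_0, cxr_g_d_1, cxr_g_d_2, trivial⟩

theorem cx_g_d : ∀ i, i < 14080 → evalT tab [Gen.g, Gen.d, Gen.g, Gen.d] i = i := by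
  intro i hi
  have h := Nat.eq_of_beq_eq_true (cxr_g_d i hi)
  simp only [evalT_cons', evalT_nil', tab_a, tab_b, tab_c, tab_d, tab_e, tab_f, tab_g, tab_h, tab_i]
  exact h

theorem cxr_g_e_0 : allFrom (fun i => Nat.ble 14080 i || Nat.beq (tq_g (tq_e (tq_g (tq_e i)))) i) 0 6250 = true := by decide +kernel
theorem cxr_g_e_1 : allFrom (fun i => Nat.ble 14080 i || Nat.beq (tq_g (tq_e (tq_g (tq_e i)))) i) 6250 6250 = true := by decide +kernel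
theorem cxr_g_e_2 : allFrom (fun i => Nat.ble 14080 i || Nat.beq (tq_g (tq_e (tq_g (tq_e i)))) i) 12500 6250 = true := by decide +kernel
theorem cxr_g_e : ∀ i, i < 14080 → (Nat.beq (tq_g (tq_e (tq_g (tq_e i)))) i) = true :=
  blocks_lt (fun i => Nat.beq (tq_g (tq_e (tq_g (tq_e i)))) i) 14080 6250 3 (by norm_num) ⟨cxr_g_e_0, cxr_g_e_1, cxr_g_e_2, trivial⟩

theorem cx_g_e : ∀ i, i < 14080 → evalT tab [Gen.g, Gen.e, Gen.g, Gen.e] i = i := by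
  intro i hi
  have h := Nat.eq_of_beq_eq_true (cxr_g_e i hi)
  simp only [evalT_cons', evalT_nil', tab_a, tab_b, tab_c, tab_d, tab_e, tab_f, tab_g, tab_h, tab_i]
  exact h

theorem cxr_g_f_0 : allFrom (fun i => Nat.ble 14080 i || Nat.beq (tq_g (tq_f (tq_g (tq_f (tq_g (tq_f i)))))) i) 0 4166 = true := by decide +kernel
theorem cxr_g_f_1 : allFrom (fun i => Nat.ble 14080 i || Nat.beq (tq_g (tq_f (tq_g (tq_f (tq_g (tq_f i)))))) i) 4166 4166 = true := by decide +kernel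
theorem cxr_g_f_2 : allFrom (fun i => Nat.ble 14080 i || Nat.beq (tq_g (tq_f (tq_g (tq_f (tq_g (tq_f i)))))) i) 8332 4166 = true := by decide +kernel
theorem cxr_g_f_3 : allFrom (fun i => Nat.ble 14080 i || Nat.beq (tq_g (tq_f (tq_g (tq_f (tq_g (tq_f i)))))) i) 12498 4166 = true := by decide +kernel
theorem cxr_g_f : ∀ i, i < 14080 → (Nat.beq (tq_g (tq_f (tq_g (tq_f (tq_g (tq_f i)))))) i) = true :=
  blocks_lt (fun i => Nat.beq (tq_g (tq_f (tq_g (tq_f (tq_g (tq_f i)))))) i) 14080 4166 4 (by norm_num) ⟨cxr_g_f_0, cxr_g_f_1, cxr_g_f_2, cxr_g_f_3, trivial⟩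

theorem cx_g_f : ∀ i, i < 14080 → evalT tab [Gen.g, Gen.f, Gen.g, Gen.f, Gen.g, Gen.f] i = i := by
  intro i hi
  have h := Nat.eq_of_beq_eq_true (cxr_g_f i hi)
  simp only [evalT_cons', evalT_nil', tab_a, tab_b, tab_c, tab_d, tab_e, tab_f, tab_g, tab_h, tab_i]
  exact h

theorem cxr_g_g_0 : allFrom (fun i => Nat.ble 14080 i || Nat.beq (tq_g (tq_g i)) i) 0 12500 = true := by decide +kernel
theorem cxr_g_g_1 : allFrom (fun i => Nat.ble 14080 i || Nat.beq (tq_g (tq_g i)) i) 12500 12500 = true := by decide +kernel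
theorem cxr_g_g : ∀ i, i < 14080 → (Nat.beq (tq_g (tq_g i)) i) = true :=
  blocks_lt (fun i => Nat.beq (tq_g (tq_g i)) i) 14080 12500 2 (by norm_num) ⟨cxr_g_g_0, cxr_g_g_1, trivial⟩

theorem cx_g_g : ∀ i, i < 14080 → evalT tab [Gen.g, Gen.g] i = i := by
  intro i hi
  have h := Nat.eq_of_beq_eq_true (cxr_g_g i hi)
  simp only [evalT_cons', evalT_nil', tab_a, tab_b, tab_c, tab_d, tab_e, tab_f, tab_g, tab_h, tab_i]
  exact h

theorem cxr_g_h_0 : allFrom (fun i => Nat.ble 14080 i || Nat.beq (tq_g (tq_h (tq_g (tq_h i)))) i) 0 6250 = true := by decide +kernel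
theorem cxr_g_h_1 : allFrom (fun i => Nat.ble 14080 i || Nat.beq (tq_g (tq_h (tq_g (tq_h i)))) i) 6250 6250 = true := by decide +kernel
theorem cxr_g_h_2 : allFrom (fun i => Nat.ble 14080 i || Nat.beq (tq_g (tq_h (tq_g (tq_h i)))) i) 12500 6250 = true := by decide +kernel
theorem cxr_g_h : ∀ i, i < 14080 → (Nat.beq (tq_g (tq_h (tq_g (tq_h i)))) i) = true :=
  blocks_lt (fun i => Nat.beq (tq_g (tq_h (tq_g (tq_h i)))) i) 14080 6250 3 (by norm_num) ⟨cxr_g_h_0, cxr_g_h_1, cxr_g_h_2, trivial⟩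

theorem cx_g_h : ∀ i, i < 14080 → evalT tab [Gen.g, Gen.h, Gen.g, Gen.h] i = i := by
  intro i hi
  have h := Nat.eq_of_beq_eq_true (cxr_g_h i hi)
  simp only [evalT_cons', evalT_nil', tab_a, tab_b, tab_c, tab_d, tab_e, tab_f, tab_g, tab_h, tab_i]
  exact h

theorem cxr_g_i_0 : allFrom (fun i => Nat.ble 14080 i || Nat.beq (tq_g (tq_i (tq_g (tq_i i)))) i) 0 6250 = true := by decide +kernel
theorem cxr_g_i_1 : allFrom (fun i => Nat.ble 14080 i || Nat.beq (tq_g (tq_i (tq_g (tq_i i)))) i) 6250 6250 = true := by decide +kernel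
theorem cxr_g_i_2 : allFrom (fun i => Nat.ble 14080 i || Nat.beq (tq_g (tq_i (tq_g (tq_i i)))) i) 12500 6250 = true := by decide +kernel
theorem cxr_g_i : ∀ i, i < 14080 → (Nat.beq (tq_g (tq_i (tq_g (tq_i i)))) i) = true :=
  blocks_lt (fun i => Nat.beq (tq_g (tq_i (tq_g (tq_i i)))) i) 14080 6250 3 (by norm_num) ⟨cxr_g_i_0, cxr_g_i_1, cxr_g_i_2, trivial⟩

theorem cx_g_i : ∀ i, i < 14080 → evalT tab [Gen.g, Gen.i, Gen.g, Gen.i] i = i := by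
  intro i hi
  have h := Nat.eq_of_beq_eq_true (cxr_g_i i hi)
  simp only [evalT_cons', evalT_nil', tab_a, tab_b, tab_c, tab_d, tab_e, tab_f, tab_g, tab_h, tab_i]
  exact h

theorem cxr_h_a_0 : allFrom (fun i => Nat.ble 14080 i || Nat.beq (tq_h (tq_a (tq_h (tq_a i)))) i) 0 6250 = true := by decide +kernel
theorem cxr_h_a_1 : allFrom (fun i => Nat.ble 14080 i || Nat.beq (tq_h (tq_a (tq_h (tq_a i)))) i) 6250 6250 = true := by decide +kernel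
theorem cxr_h_a_2 : allFrom (fun i => Nat.ble 14080 i || Nat.beq (tq_h (tq_a (tq_h (tq_a i)))) i) 12500 6250 = true := by decide +kernel
theorem cxr_h_a : ∀ i, i < 14080 → (Nat.beq (tq_h (tq_a (tq_h (tq_a i)))) i) = true :=
  blocks_lt (fun i => Nat.beq (tq_h (tq_a (tq_h (tq_a i)))) i) 14080 6250 3 (by norm_num) ⟨cxr_h_a_0, cxr_h_a_1, cxr_h_a_2, trivial⟩

theorem cx_h_a : ∀ i, i < 14080 → evalT tab [Gen.h, Gen.a, Gen.h, Gen.a] i = i := by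
  intro i hi
  have h := Nat.eq_of_beq_eq_true (cxr_h_a i hi)
  simp only [evalT_cons', evalT_nil', tab_a, tab_b, tab_c, tab_d, tab_e, tab_f, tab_g, tab_h, tab_i]
  exact h

theorem cxr_h_b_0 : allFrom (fun i => Nat.ble 14080 i || Nat.beq (tq_h (tq_b (tq_h (tq_b i)))) i) 0 6250 = true := by decide +kernel
theorem cxr_h_b_1 : allFrom (fun i => Nat.ble 14080 i || Nat.beq (tq_h (tq_b (tq_h (tq_b i)))) i) 6250 6250 = true := by decide +kernel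
theorem cxr_h_b_2 : allFrom (fun i => Nat.ble 14080 i || Nat.beq (tq_h (tq_b (tq_h (tq_b i)))) i) 12500 6250 = true := by decide +kernel
theorem cxr_h_b : ∀ i, i < 14080 → (Nat.beq (tq_h (tq_b (tq_h (tq_b i)))) i) = true :=
  blocks_lt (fun i => Nat.beq (tq_h (tq_b (tq_h (tq_b i)))) i) 14080 6250 3 (by norm_num) ⟨cxr_h_b_0, cxr_h_b_1, cxr_h_b_2, trivial⟩

theorem cx_h_b : ∀ i, i < 14080 → evalT tab [Gen.h, Gen.b, Gen.h, Gen.b] i = i := by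
  intro i hi
  have h := Nat.eq_of_beq_eq_true (cxr_h_b i hi)
  simp only [evalT_cons', evalT_nil', tab_a, tab_b, tab_c, tab_d, tab_e, tab_f, tab_g, tab_h, tab_i]
  exact h

theorem cxr_h_c_0 : allFrom (fun i => Nat.ble 14080 i || Nat.beq (tq_h (tq_c (tq_h (tq_c i)))) i) 0 6250 = true := by decide +kernel
theorem cxr_h_c_1 : allFrom (fun i => Nat.ble 14080 i || Nat.beq (tq_h (tq_c (tq_h (tq_c i)))) i) 6250 6250 = true := by decide +kernel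
theorem cxr_h_c_2 : allFrom (fun i => Nat.ble 14080 i || Nat.beq (tq_h (tq_c (tq_h (tq_c i)))) i) 12500 6250 = true := by decide +kernel
theorem cxr_h_c : ∀ i, i < 14080 → (Nat.beq (tq_h (tq_c (tq_h (tq_c i)))) i) = true :=
  blocks_lt (fun i => Nat.beq (tq_h (tq_c (tq_h (tq_c i)))) i) 14080 6250 3 (by norm_num) ⟨cxr_h_c_0, cxr_h_c_1, cxr_h_c_2, trivial⟩

theorem cx_h_c : ∀ i, i < 14080 → evalT tab [Gen.h, Gen.c, Gen.h, Gen.c] i = i := by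
  intro i hi
  have h := Nat.eq_of_beq_eq_true (cxr_h_c i hi)
  simp only [evalT_cons', evalT_nil', tab_a, tab_b, tab_c, tab_d, tab_e, tab_f, tab_g, tab_h, tab_i]
  exact h

theorem cxr_h_d_0 : allFrom (fun i => Nat.ble 14080 i || Nat.beq (tq_h (tq_d (tq_h (tq_d (tq_h (tq_d i)))))) i) 0 4166 = true := by decide +kernel
theorem cxr_h_d_1 : allFrom (fun i => Nat.ble 14080 i || Nat.beq (tq_h (tq_d (tq_h (tq_d (tq_h (tq_d i)))))) i) 4166 4166 = true := by decide +kernel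
theorem cxr_h_d_2 : allFrom (fun i => Nat.ble 14080 i || Nat.beq (tq_h (tq_d (tq_h (tq_d (tq_h (tq_d i)))))) i) 8332 4166 = true := by decide +kernel
theorem cxr_h_d_3 : allFrom (fun i => Nat.ble 14080 i || Nat.beq (tq_h (tq_d (tq_h (tq_d (tq_h (tq_d i)))))) i) 12498 4166 = true := by decide +kernel
theorem cxr_h_d : ∀ i, i < 14080 → (Nat.beq (tq_h (tq_d (tq_h (tq_d (tq_h (tq_d i)))))) i) = true :=
  blocks_lt (fun i => Nat.beq (tq_h (tq_d (tq_h (tq_d (tq_h (tq_d i)))))) i) 14080 4166 4 (by norm_num) ⟨cxr_h_d_0, cxr_h_d_1, cxr_h_d_2, cxr_h_d_3, trivial⟩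

theorem cx_h_d : ∀ i, i < 14080 → evalT tab [Gen.h, Gen.d, Gen.h, Gen.d, Gen.h, Gen.d] i = i := by
  intro i hi
  have h := Nat.eq_of_beq_eq_true (cxr_h_d i hi)
  simp only [evalT_cons', evalT_nil', tab_a, tab_b, tab_c, tab_d, tab_e, tab_f, tab_g, tab_h, tab_i]
  exact h

theorem cxr_h_e_0 : allFrom (fun i => Nat.ble 14080 i || Nat.beq (tq_h (tq_e (tq_h (tq_e i)))) i) 0 6250 = true := by decide +kernel
theorem cxr_h_e_1 : allFrom (fun i => Nat.ble 14080 i || Nat.beq (tq_h (tq_e (tq_h (tq_e i)))) i) 6250 6250 = true := by decide +kernel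
theorem cxr_h_e_2 : allFrom (fun i => Nat.ble 14080 i || Nat.beq (tq_h (tq_e (tq_h (tq_e i)))) i) 12500 6250 = true := by decide +kernel
theorem cxr_h_e : ∀ i, i < 14080 → (Nat.beq (tq_h (tq_e (tq_h (tq_e i)))) i) = true :=
  blocks_lt (fun i => Nat.beq (tq_h (tq_e (tq_h (tq_e i)))) i) 14080 6250 3 (by norm_num) ⟨cxr_h_e_0, cxr_h_e_1, cxr_h_e_2, trivial⟩

theorem cx_h_e : ∀ i, i < 14080 → evalT tab [Gen.h, Gen.e, Gen.h, Gen.e] i = i := by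
  intro i hi
  have h := Nat.eq_of_beq_eq_true (cxr_h_e i hi)
  simp only [evalT_cons', evalT_nil', tab_a, tab_b, tab_c, tab_d, tab_e, tab_f, tab_g, tab_h, tab_i]
  exact h

theorem cxr_h_f_0 : allFrom (fun i => Nat.ble 14080 i || Nat.beq (tq_h (tq_f (tq_h (tq_f i)))) i) 0 6250 = true := by decide +kernel
theorem cxr_h_f_1 : allFrom (fun i => Nat.ble 14080 i || Nat.beq (tq_h (tq_f (tq_h (tq_f i)))) i) 6250 6250 = true := by decide +kernel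
theorem cxr_h_f_2 : allFrom (fun i => Nat.ble 14080 i || Nat.beq (tq_h (tq_f (tq_h (tq_f i)))) i) 12500 6250 = true := by decide +kernel
theorem cxr_h_f : ∀ i, i < 14080 → (Nat.beq (tq_h (tq_f (tq_h (tq_f i)))) i) = true :=
  blocks_lt (fun i => Nat.beq (tq_h (tq_f (tq_h (tq_f i)))) i) 14080 6250 3 (by norm_num) ⟨cxr_h_f_0, cxr_h_f_1, cxr_h_f_2, trivial⟩

theorem cx_h_f : ∀ i, i < 14080 → evalT tab [Gen.h, Gen.f, Gen.h, Gen.f] i = i := by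
  intro i hi
  have h := Nat.eq_of_beq_eq_true (cxr_h_f i hi)
  simp only [evalT_cons', evalT_nil', tab_a, tab_b, tab_c, tab_d, tab_e, tab_f, tab_g, tab_h, tab_i]
  exact h

theorem cxr_h_g_0 : allFrom (fun i => Nat.ble 14080 i || Nat.beq (tq_h (tq_g (tq_h (tq_g i)))) i) 0 6250 = true := by decide +kernel
theorem cxr_h_g_1 : allFrom (fun i => Nat.ble 14080 i || Nat.beq (tq_h (tq_g (tq_h (tq_g i)))) i) 6250 6250 = true := by decide +kernel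
theorem cxr_h_g_2 : allFrom (fun i => Nat.ble 14080 i || Nat.beq (tq_h (tq_g (tq_h (tq_g i)))) i) 12500 6250 = true := by decide +kernel
theorem cxr_h_g : ∀ i, i < 14080 → (Nat.beq (tq_h (tq_g (tq_h (tq_g i)))) i) = true :=
  blocks_lt (fun i => Nat.beq (tq_h (tq_g (tq_h (tq_g i)))) i) 14080 6250 3 (by norm_num) ⟨cxr_h_g_0, cxr_h_g_1, cxr_h_g_2, trivial⟩

theorem cx_h_g : ∀ i, i < 14080 → evalT tab [Gen.h, Gen.g, Gen.h, Gen.g] i = i := by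
  intro i hi
  have h := Nat.eq_of_beq_eq_true (cxr_h_g i hi)
  simp only [evalT_cons', evalT_nil', tab_a, tab_b, tab_c, tab_d, tab_e, tab_f, tab_g, tab_h, tab_i]
  exact h

theorem cxr_h_h_0 : allFrom (fun i => Nat.ble 14080 i || Nat.beq (tq_h (tq_h i)) i) 0 12500 = true := by decide +kernel
theorem cxr_h_h_1 : allFrom (fun i => Nat.ble 14080 i || Nat.beq (tq_h (tq_h i)) i) 12500 12500 = true := by decide +kernel
theorem cxr_h_h : ∀ i, i < 14080 → (Nat.beq (tq_h (tq_h i)) i) = true :=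
  blocks_lt (fun i => Nat.beq (tq_h (tq_h i)) i) 14080 12500 2 (by norm_num) ⟨cxr_h_h_0, cxr_h_h_1, trivial⟩

theorem cx_h_h : ∀ i, i < 14080 → evalT tab [Gen.h, Gen.h] i = i := by
  intro i hi
  have h := Nat.eq_of_beq_eq_true (cxr_h_h i hi)
  simp only [evalT_cons', evalT_nil', tab_a, tab_b, tab_c, tab_d, tab_e, tab_f, tab_g, tab_h, tab_i]
  exact h

theorem cxr_h_i_0 : allFrom (fun i => Nat.ble 14080 i || Nat.beq (tq_h (tq_i (tq_h (tq_i (tq_h (tq_i i)))))) i) 0 4166 = true := by decide +kernel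
theorem cxr_h_i_1 : allFrom (fun i => Nat.ble 14080 i || Nat.beq (tq_h (tq_i (tq_h (tq_i (tq_h (tq_i i)))))) i) 4166 4166 = true := by decide +kernel
theorem cxr_h_i_2 : allFrom (fun i => Nat.ble 14080 i || Nat.beq (tq_h (tq_i (tq_h (tq_i (tq_h (tq_i i)))))) i) 8332 4166 = true := by decide +kernel
theorem cxr_h_i_3 : allFrom (fun i => Nat.ble 14080 i || Nat.beq (tq_h (tq_i (tq_h (tq_i (tq_h (tq_i i)))))) i) 12498 4166 = true := by decide +kernel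
theorem cxr_h_i : ∀ i, i < 14080 → (Nat.beq (tq_h (tq_i (tq_h (tq_i (tq_h (tq_i i)))))) i) = true :=
  blocks_lt (fun i => Nat.beq (tq_h (tq_i (tq_h (tq_i (tq_h (tq_i i)))))) i) 14080 4166 4 (by norm_num) ⟨cxr_h_i_0, cxr_h_i_1, cxr_h_i_2, cxr_h_i_3, trivial⟩

theorem cx_h_i : ∀ i, i < 14080 → evalT tab [Gen.h, Gen.i, Gen.h, Gen.i, Gen.h, Gen.i] i = i := by
  intro i hi
  have h := Nat.eq_of_beq_eq_true (cxr_h_i i hi)
  simp only [evalT_cons', evalT_nil', tab_a, tab_b, tab_c, tab_d, tab_e, tab_f, tab_g, tab_h, tab_i]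
  exact h

theorem cxr_i_a_0 : allFrom (fun i => Nat.ble 14080 i || Nat.beq (tq_i (tq_a (tq_i (tq_a i)))) i) 0 6250 = true := by decide +kernel
theorem cxr_i_a_1 : allFrom (fun i => Nat.ble 14080 i || Nat.beq (tq_i (tq_a (tq_i (tq_a i)))) i) 6250 6250 = true := by decide +kernel
theorem cxr_i_a_2 : allFrom (fun i => Nat.ble 14080 i || Nat.beq (tq_i (tq_a (tq_i (tq_a i)))) i) 12500 6250 = true := by decide +kernel
theorem cxr_i_a : ∀ i, i < 14080 → (Nat.beq (tq_i (tq_a (tq_i (tq_a i)))) i) = true :=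
  blocks_lt (fun i => Nat.beq (tq_i (tq_a (tq_i (tq_a i)))) i) 14080 6250 3 (by norm_num) ⟨cxr_i_a_0, cxr_i_a_1, cxr_i_a_2, trivial⟩

theorem cx_i_a : ∀ i, i < 14080 → evalT tab [Gen.i, Gen.a, Gen.i, Gen.a] i = i := by
  intro i hi
  have h := Nat.eq_of_beq_eq_true (cxr_i_a i hi)
  simp only [evalT_cons', evalT_nil', tab_a, tab_b, tab_c, tab_d, tab_e, tab_f, tab_g, tab_h, tab_i]
  exact h

theorem cxr_i_b_0 : allFrom (fun i => Nat.ble 14080 i || Nat.beq (tq_i (tq_b (tq_i (tq_b i)))) i) 0 6250 = true := by decide +kernel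
theorem cxr_i_b_1 : allFrom (fun i => Nat.ble 14080 i || Nat.beq (tq_i (tq_b (tq_i (tq_b i)))) i) 6250 6250 = true := by decide +kernel
theorem cxr_i_b_2 : allFrom (fun i => Nat.ble 14080 i || Nat.beq (tq_i (tq_b (tq_i (tq_b i)))) i) 12500 6250 = true := by decide +kernel
theorem cxr_i_b : ∀ i, i < 14080 → (Nat.beq (tq_i (tq_b (tq_i (tq_b i)))) i) = true :=
  blocks_lt (fun i => Nat.beq (tq_i (tq_b (tq_i (tq_b i)))) i) 14080 6250 3 (by norm_num) ⟨cxr_i_b_0, cxr_i_b_1, cxr_i_b_2, trivial⟩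

theorem cx_i_b : ∀ i, i < 14080 → evalT tab [Gen.i, Gen.b, Gen.i, Gen.b] i = i := by
  intro i hi
  have h := Nat.eq_of_beq_eq_true (cxr_i_b i hi)
  simp only [evalT_cons', evalT_nil', tab_a, tab_b, tab_c, tab_d, tab_e, tab_f, tab_g, tab_h, tab_i]
  exact h

theorem cxr_i_c_0 : allFrom (fun i => Nat.ble 14080 i || Nat.beq (tq_i (tq_c (tq_i (tq_c i)))) i) 0 6250 = true := by decide +kernel
theorem cxr_i_c_1 : allFrom (fun i => Nat.ble 14080 i || Nat.beq (tq_i (tq_c (tq_i (tq_c i)))) i) 6250 6250 = true := by decide +kernel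
theorem cxr_i_c_2 : allFrom (fun i => Nat.ble 14080 i || Nat.beq (tq_i (tq_c (tq_i (tq_c i)))) i) 12500 6250 = true := by decide +kernel
theorem cxr_i_c : ∀ i, i < 14080 → (Nat.beq (tq_i (tq_c (tq_i (tq_c i)))) i) = true :=
  blocks_lt (fun i => Nat.beq (tq_i (tq_c (tq_i (tq_c i)))) i) 14080 6250 3 (by norm_num) ⟨cxr_i_c_0, cxr_i_c_1, cxr_i_c_2, trivial⟩

theorem cx_i_c : ∀ i, i < 14080 → evalT tab [Gen.i, Gen.c, Gen.i, Gen.c] i = i := by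
  intro i hi
  have h := Nat.eq_of_beq_eq_true (cxr_i_c i hi)
  simp only [evalT_cons', evalT_nil', tab_a, tab_b, tab_c, tab_d, tab_e, tab_f, tab_g, tab_h, tab_i]
  exact h

theorem cxr_i_d_0 : allFrom (fun i => Nat.ble 14080 i || Nat.beq (tq_i (tq_d (tq_i (tq_d i)))) i) 0 6250 = true := by decide +kernel
theorem cxr_i_d_1 : allFrom (fun i => Nat.ble 14080 i || Nat.beq (tq_i (tq_d (tq_i (tq_d i)))) i) 6250 6250 = true := by decide +kernel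
theorem cxr_i_d_2 : allFrom (fun i => Nat.ble 14080 i || Nat.beq (tq_i (tq_d (tq_i (tq_d i)))) i) 12500 6250 = true := by decide +kernel
theorem cxr_i_d : ∀ i, i < 14080 → (Nat.beq (tq_i (tq_d (tq_i (tq_d i)))) i) = true :=
  blocks_lt (fun i => Nat.beq (tq_i (tq_d (tq_i (tq_d i)))) i) 14080 6250 3 (by norm_num) ⟨cxr_i_d_0, cxr_i_d_1, cxr_i_d_2, trivial⟩

theorem cx_i_d : ∀ i, i < 14080 → evalT tab [Gen.i, Gen.d, Gen.i, Gen.d] i = i := by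
  intro i hi
  have h := Nat.eq_of_beq_eq_true (cxr_i_d i hi)
  simp only [evalT_cons', evalT_nil', tab_a, tab_b, tab_c, tab_d, tab_e, tab_f, tab_g, tab_h, tab_i]
  exact h

theorem cxr_i_e_0 : allFrom (fun i => Nat.ble 14080 i || Nat.beq (tq_i (tq_e (tq_i (tq_e i)))) i) 0 6250 = true := by decide +kernel
theorem cxr_i_e_1 : allFrom (fun i => Nat.ble 14080 i || Nat.beq (tq_i (tq_e (tq_i (tq_e i)))) i) 6250 6250 = true := by decide +kernel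
theorem cxr_i_e_2 : allFrom (fun i => Nat.ble 14080 i || Nat.beq (tq_i (tq_e (tq_i (tq_e i)))) i) 12500 6250 = true := by decide +kernel
theorem cxr_i_e : ∀ i, i < 14080 → (Nat.beq (tq_i (tq_e (tq_i (tq_e i)))) i) = true :=
  blocks_lt (fun i => Nat.beq (tq_i (tq_e (tq_i (tq_e i)))) i) 14080 6250 3 (by norm_num) ⟨cxr_i_e_0, cxr_i_e_1, cxr_i_e_2, trivial⟩

theorem cx_i_e : ∀ i, i < 14080 → evalT tab [Gen.i, Gen.e, Gen.i, Gen.e] i = i := by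
  intro i hi
  have h := Nat.eq_of_beq_eq_true (cxr_i_e i hi)
  simp only [evalT_cons', evalT_nil', tab_a, tab_b, tab_c, tab_d, tab_e, tab_f, tab_g, tab_h, tab_i]
  exact h

theorem cxr_i_f_0 : allFrom (fun i => Nat.ble 14080 i || Nat.beq (tq_i (tq_f (tq_i (tq_f i)))) i) 0 6250 = true := by decide +kernel
theorem cxr_i_f_1 : allFrom (fun i => Nat.ble 14080 i || Nat.beq (tq_i (tq_f (tq_i (tq_f i)))) i) 6250 6250 = true := by decide +kernel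
theorem cxr_i_f_2 : allFrom (fun i => Nat.ble 14080 i || Nat.beq (tq_i (tq_f (tq_i (tq_f i)))) i) 12500 6250 = true := by decide +kernel
theorem cxr_i_f : ∀ i, i < 14080 → (Nat.beq (tq_i (tq_f (tq_i (tq_f i)))) i) = true :=
  blocks_lt (fun i => Nat.beq (tq_i (tq_f (tq_i (tq_f i)))) i) 14080 6250 3 (by norm_num) ⟨cxr_i_f_0, cxr_i_f_1, cxr_i_f_2, trivial⟩

theorem cx_i_f : ∀ i, i < 14080 → evalT tab [Gen.i, Gen.f, Gen.i, Gen.f] i = i := by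
  intro i hi
  have h := Nat.eq_of_beq_eq_true (cxr_i_f i hi)
  simp only [evalT_cons', evalT_nil', tab_a, tab_b, tab_c, tab_d, tab_e, tab_f, tab_g, tab_h, tab_i]
  exact h

theorem cxr_i_g_0 : allFrom (fun i => Nat.ble 14080 i || Nat.beq (tq_i (tq_g (tq_i (tq_g i)))) i) 0 6250 = true := by decide +kernel
theorem cxr_i_g_1 : allFrom (fun i => Nat.ble 14080 i || Nat.beq (tq_i (tq_g (tq_i (tq_g i)))) i) 6250 6250 = true := by decide +kernel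
theorem cxr_i_g_2 : allFrom (fun i => Nat.ble 14080 i || Nat.beq (tq_i (tq_g (tq_i (tq_g i)))) i) 12500 6250 = true := by decide +kernel
theorem cxr_i_g : ∀ i, i < 14080 → (Nat.beq (tq_i (tq_g (tq_i (tq_g i)))) i) = true :=
  blocks_lt (fun i => Nat.beq (tq_i (tq_g (tq_i (tq_g i)))) i) 14080 6250 3 (by norm_num) ⟨cxr_i_g_0, cxr_i_g_1, cxr_i_g_2, trivial⟩

theorem cx_i_g : ∀ i, i < 14080 → evalT tab [Gen.i, Gen.g, Gen.i, Gen.g] i = i := by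
  intro i hi
  have h := Nat.eq_of_beq_eq_true (cxr_i_g i hi)
  simp only [evalT_cons', evalT_nil', tab_a, tab_b, tab_c, tab_d, tab_e, tab_f, tab_g, tab_h, tab_i]
  exact h

theorem cxr_i_h_0 : allFrom (fun i => Nat.ble 14080 i || Nat.beq (tq_i (tq_h (tq_i (tq_h (tq_i (tq_h i)))))) i) 0 4166 = true := by decide +kernel
theorem cxr_i_h_1 : allFrom (fun i => Nat.ble 14080 i || Nat.beq (tq_i (tq_h (tq_i (tq_h (tq_i (tq_h i)))))) i) 4166 4166 = true := by decide +kernel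
theorem cxr_i_h_2 : allFrom (fun i => Nat.ble 14080 i || Nat.beq (tq_i (tq_h (tq_i (tq_h (tq_i (tq_h i)))))) i) 8332 4166 = true := by decide +kernel
theorem cxr_i_h_3 : allFrom (fun i => Nat.ble 14080 i || Nat.beq (tq_i (tq_h (tq_i (tq_h (tq_i (tq_h i)))))) i) 12498 4166 = true := by decide +kernel
theorem cxr_i_h : ∀ i, i < 14080 → (Nat.beq (tq_i (tq_h (tq_i (tq_h (tq_i (tq_h i)))))) i) = true :=
  blocks_lt (fun i => Nat.beq (tq_i (tq_h (tq_i (tq_h (tq_i (tq_h i)))))) i) 14080 4166 4 (by norm_num) ⟨cxr_i_h_0, cxr_i_h_1, cxr_i_h_2, cxr_i_h_3, trivial⟩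

theorem cx_i_h : ∀ i, i < 14080 → evalT tab [Gen.i, Gen.h, Gen.i, Gen.h, Gen.i, Gen.h] i = i := by
  intro i hi
  have h := Nat.eq_of_beq_eq_true (cxr_i_h i hi)
  simp only [evalT_cons', evalT_nil', tab_a, tab_b, tab_c, tab_d, tab_e, tab_f, tab_g, tab_h, tab_i]
  exact h

theorem cxr_i_i_0 : allFrom (fun i => Nat.ble 14080 i || Nat.beq (tq_i (tq_i i)) i) 0 12500 = true := by decide +kernel
theorem cxr_i_i_1 : allFrom (fun i => Nat.ble 14080 i || Nat.beq (tq_i (tq_i i)) i) 12500 12500 = true := by decide +kernel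
theorem cxr_i_i : ∀ i, i < 14080 → (Nat.beq (tq_i (tq_i i)) i) = true :=
  blocks_lt (fun i => Nat.beq (tq_i (tq_i i)) i) 14080 12500 2 (by norm_num) ⟨cxr_i_i_0, cxr_i_i_1, trivial⟩

theorem cx_i_i : ∀ i, i < 14080 → evalT tab [Gen.i, Gen.i] i = i := by
  intro i hi
  have h := Nat.eq_of_beq_eq_true (cxr_i_i i hi)
  simp only [evalT_cons', evalT_nil', tab_a, tab_b, tab_c, tab_d, tab_e, tab_f, tab_g, tab_h, tab_i]
  exact h

theorem coxP (x y : Gen) : (permOf ht x * permOf ht y) ^ coxLabel edges x y = 1 := by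
  rw [pow_eq_prod]
  cases x <;> cases y
  · exact prod_eq_one' ht _ cx_a_a
  · exact prod_eq_one' ht _ cx_a_b
  · exact prod_eq_one' ht _ cx_a_c
  · exact prod_eq_one' ht _ cx_a_d
  · exact prod_eq_one' ht _ cx_a_e
  · exact prod_eq_one' ht _ cx_a_f
  · exact prod_eq_one' ht _ cx_a_g
  · exact prod_eq_one' ht _ cx_a_h
  · exact prod_eq_one' ht _ cx_a_i
  · exact prod_eq_one' ht _ cx_b_a
  · exact prod_eq_one' ht _ cx_b_b
  · exact prod_eq_one' ht _ cx_b_c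
  · exact prod_eq_one' ht _ cx_b_d
  · exact prod_eq_one' ht _ cx_b_e
  · exact prod_eq_one' ht _ cx_b_f
  · exact prod_eq_one' ht _ cx_b_g
  · exact prod_eq_one' ht _ cx_b_h
  · exact prod_eq_one' ht _ cx_b_i
  · exact prod_eq_one' ht _ cx_c_a
  · exact prod_eq_one' ht _ cx_c_b
  · exact prod_eq_one' ht _ cx_c_c
  · exact prod_eq_one' ht _ cx_c_d
  · exact prod_eq_one' ht _ cx_c_e
  · exact prod_eq_one' ht _ cx_c_f
  · exact prod_eq_one' ht _ cx_c_g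
  · exact prod_eq_one' ht _ cx_c_h
  · exact prod_eq_one' ht _ cx_c_i
  · exact prod_eq_one' ht _ cx_d_a
  · exact prod_eq_one' ht _ cx_d_b
  · exact prod_eq_one' ht _ cx_d_c
  · exact prod_eq_one' ht _ cx_d_d
  · exact prod_eq_one' ht _ cx_d_e
  · exact prod_eq_one' ht _ cx_d_f
  · exact prod_eq_one' ht _ cx_d_g
  · exact prod_eq_one' ht _ cx_d_h
  · exact prod_eq_one' ht _ cx_d_i
  · exact prod_eq_one' ht _ cx_e_a
  · exact prod_eq_one' ht _ cx_e_b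
  · exact prod_eq_one' ht _ cx_e_c
  · exact prod_eq_one' ht _ cx_e_d
  · exact prod_eq_one' ht _ cx_e_e
  · exact prod_eq_one' ht _ cx_e_f
  · exact prod_eq_one' ht _ cx_e_g
  · exact prod_eq_one' ht _ cx_e_h
  · exact prod_eq_one' ht _ cx_e_i
  · exact prod_eq_one' ht _ cx_f_a
  · exact prod_eq_one' ht _ cx_f_b
  · exact prod_eq_one' ht _ cx_f_c
  · exact prod_eq_one' ht _ cx_f_d
  · exact prod_eq_one' ht _ cx_f_e
  · exact prod_eq_one' ht _ cx_f_f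
  · exact prod_eq_one' ht _ cx_f_g
  · exact prod_eq_one' ht _ cx_f_h
  · exact prod_eq_one' ht _ cx_f_i
  · exact prod_eq_one' ht _ cx_g_a
  · exact prod_eq_one' ht _ cx_g_b
  · exact prod_eq_one' ht _ cx_g_c
  · exact prod_eq_one' ht _ cx_g_d
  · exact prod_eq_one' ht _ cx_g_e
  · exact prod_eq_one' ht _ cx_g_f
  · exact prod_eq_one' ht _ cx_g_g
  · exact prod_eq_one' ht _ cx_g_h
  · exact prod_eq_one' ht _ cx_g_i
  · exact prod_eq_one' ht _ cx_h_a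
  · exact prod_eq_one' ht _ cx_h_b
  · exact prod_eq_one' ht _ cx_h_c
  · exact prod_eq_one' ht _ cx_h_d
  · exact prod_eq_one' ht _ cx_h_e
  · exact prod_eq_one' ht _ cx_h_f
  · exact prod_eq_one' ht _ cx_h_g
  · exact prod_eq_one' ht _ cx_h_h
  · exact prod_eq_one' ht _ cx_h_i
  · exact prod_eq_one' ht _ cx_i_a
  · exact prod_eq_one' ht _ cx_i_b
  · exact prod_eq_one' ht _ cx_i_c
  · exact prod_eq_one' ht _ cx_i_d
  · exact prod_eq_one' ht _ cx_i_e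
  · exact prod_eq_one' ht _ cx_i_f
  · exact prod_eq_one' ht _ cx_i_g
  · exact prod_eq_one' ht _ cx_i_h
  · exact prod_eq_one' ht _ cx_i_i

theorem exr_0_0 : allFrom (fun i => Nat.ble 14080 i || Nat.beq (tq_d (tq_c (tq_b (tq_d (tq_e (tq_f (tq_d (tq_h (tq_i (tq_d (tq_c (tq_b (tq_d (tq_e (tq_f (tq_d (tq_h (tq_i (tq_d (tq_c (tq_b (tq_d (tq_e (tq_f (tq_d (tq_h (tq_i (tq_d (tq_c (tq_b (tq_d (tq_e (tq_f (tq_d (tq_h (tq_i (tq_d (tq_c (tq_b (tq_d (tq_e (tq_f (tq_d (tq_h (tq_i (tq_d (tq_c (tq_b (tq_d (tq_e (tq_f (tq_d (tq_h (tq_i (tq_d (tq_c (tq_b (tq_d (tq_e (tq_f (tq_d (tq_h (tq_i (tq_d (tq_c (tq_b (tq_d (tq_e (tq_f (tq_d (tq_h (tq_i (tq_d (tq_c (tq_b (tq_d (tq_e (tq_f (tq_d (tq_h (tq_i (tq_d (tq_c (tq_b (tq_d (tq_e (tq_f (tq_d (tq_h (tq_i i)))))))))))))))))))))))))))))))))))))))))))))))))))))))))))))))))))))))))))))))))))))))))) i) 0 277 = true := by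 decide +kernel
theorem exr_0_1 : allFrom (fun i => Nat.ble 14080 i || Nat.beq (tq_d (tq_c (tq_b (tq_d (tq_e (tq_f (tq_d (tq_h (tq_i (tq_d (tq_c (tq_b (tq_d (tq_e (tq_f (tq_d (tq_h (tq_i (tq_d (tq_c (tq_b (tq_d (tq_e (tq_f (tq_d (tq_h (tq_i (tq_d (tq_c (tq_b (tq_d (tq_e (tq_f (tq_d (tq_h (tq_i (tq_d (tq_c (tq_b (tq_d (tq_e (tq_f (tq_d (tq_h (tq_i (tq_d (tq_c (tq_b (tq_d (tq_e (tq_f (tq_d (tq_h (tq_i (tq_d (tq_c (tq_b (tq_d (tq_e (tq_f (tq_d (tq_h (tq_i (tq_d (tq_c (tq_b (tq_d (tq_e (tq_f (tq_d (tq_h (tq_i (tq_d (tq_c (tq_b (tq_d (tq_e (tq_f (tq_d (tq_h (tq_i (tq_d (tq_c (tq_b (tq_d (tq_e (tq_f (tq_d (tq_h (tq_i i)))))))))))))))))))))))))))))))))))))))))))))))))))))))))))))))))))))))))))))))))))))))))) i) 277 277 = true := by decide +kernel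
theorem exr_0_2 : allFrom (fun i => Nat.ble 14080 i || Nat.beq (tq_d (tq_c (tq_b (tq_d (tq_e (tq_f (tq_d (tq_h (tq_i (tq_d (tq_c (tq_b (tq_d (tq_e (tq_f (tq_d (tq_h (tq_i (tq_d (tq_c (tq_b (tq_d (tq_e (tq_f (tq_d (tq_h (tq_i (tq_d (tq_c (tq_b (tq_d (tq_e (tq_f (tq_d (tq_h (tq_i (tq_d (tq_c (tq_b (tq_d (tq_e (tq_f (tq_d (tq_h (tq_i (tq_d (tq_c (tq_b (tq_d (tq_e (tq_f (tq_d (tq_h (tq_i (tq_d (tq_c (tq_b (tq_d (tq_e (tq_f (tq_d (tq_h (tq_i (tq_d (tq_c (tq_b (tq_d (tq_e (tq_f (tq_d (tq_h (tq_i (tq_d (tq_c (tq_b (tq_d (tq_e (tq_f (tq_d (tq_h (tq_i (tq_d (tq_c (tq_b (tq_d (tq_e (tq_f (tq_d (tq_h (tq_i i)))))))))))))))))))))))))))))))))))))))))))))))))))))))))))))))))))))))))))))))))))))))))) i) 554 277 = true := by decide +kernel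
theorem exr_0_3 : allFrom (fun i => Nat.ble 14080 i || Nat.beq (tq_d (tq_c (tq_b (tq_d (tq_e (tq_f (tq_d (tq_h (tq_i (tq_d (tq_c (tq_b (tq_d (tq_e (tq_f (tq_d (tq_h (tq_i (tq_d (tq_c (tq_b (tq_d (tq_e (tq_f (tq_d (tq_h (tq_i (tq_d (tq_c (tq_b (tq_d (tq_e (tq_f (tq_d (tq_h (tq_i (tq_d (tq_c (tq_b (tq_d (tq_e (tq_f (tq_d (tq_h (tq_i (tq_d (tq_c (tq_b (tq_d (tq_e (tq_f (tq_d (tq_h (tq_i (tq_d (tq_c (tq_b (tq_d (tq_e (tq_f (tq_d (tq_h (tq_i (tq_d (tq_c (tq_b (tq_d (tq_e (tq_f (tq_d (tq_h (tq_i (tq_d (tq_c (tq_b (tq_d (tq_e (tq_f (tq_d (tq_h (tq_i (tq_d (tq_c (tq_b (tq_d (tq_e (tq_f (tq_d (tq_h (tq_i i)))))))))))))))))))))))))))))))))))))))))))))))))))))))))))))))))))))))))))))))))))))))))) i) 831 277 = true := by decide +kernel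
theorem exr_0_4 : allFrom (fun i => Nat.ble 14080 i || Nat.beq (tq_d (tq_c (tq_b (tq_d (tq_e (tq_f (tq_d (tq_h (tq_i (tq_d (tq_c (tq_b (tq_d (tq_e (tq_f (tq_d (tq_h (tq_i (tq_d (tq_c (tq_b (tq_d (tq_e (tq_f (tq_d (tq_h (tq_i (tq_d (tq_c (tq_b (tq_d (tq_e (tq_f (tq_d (tq_h (tq_i (tq_d (tq_c (tq_b (tq_d (tq_e (tq_f (tq_d (tq_h (tq_i (tq_d (tq_c (tq_b (tq_d (tq_e (tq_f (tq_d (tq_h (tq_i (tq_d (tq_c (tq_b (tq_d (tq_e (tq_f (tq_d (tq_h (tq_i (tq_d (tq_c (tq_b (tq_d (tq_e (tq_f (tq_d (tq_h (tq_i (tq_d (tq_c (tq_b (tq_d (tq_e (tq_f (tq_d (tq_h (tq_i (tq_d (tq_c (tq_b (tq_d (tq_e (tq_f (tq_d (tq_h (tq_i i)))))))))))))))))))))))))))))))))))))))))))))))))))))))))))))))))))))))))))))))))))))))))) i) 1108 277 = true := by decide +kernel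
theorem exr_0_5 : allFrom (fun i => Nat.ble 14080 i || Nat.beq (tq_d (tq_c (tq_b (tq_d (tq_e (tq_f (tq_d (tq_h (tq_i (tq_d (tq_c (tq_b (tq_d (tq_e (tq_f (tq_d (tq_h (tq_i (tq_d (tq_c (tq_b (tq_d (tq_e (tq_f (tq_d (tq_h (tq_i (tq_d (tq_c (tq_b (tq_d (tq_e (tq_f (tq_d (tq_h (tq_i (tq_d (tq_c (tq_b (tq_d (tq_e (tq_f (tq_d (tq_h (tq_i (tq_d (tq_c (tq_b (tq_d (tq_e (tq_f (tq_d (tq_h (tq_i (tq_d (tq_c (tq_b (tq_d (tq_e (tq_f (tq_d (tq_h (tq_i (tq_d (tq_c (tq_b (tq_d (tq_e (tq_f (tq_d (tq_h (tq_i (tq_d (tq_c (tq_b (tq_d (tq_e (tq_f (tq_d (tq_h (tq_i (tq_d (tq_c (tq_b (tq_d (tq_e (tq_f (tq_d (tq_h (tq_i i)))))))))))))))))))))))))))))))))))))))))))))))))))))))))))))))))))))))))))))))))))))))))) i) 1385 277 = true := by decide +kernel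
theorem exr_0_6 : allFrom (fun i => Nat.ble 14080 i || Nat.beq (tq_d (tq_c (tq_b (tq_d (tq_e (tq_f (tq_d (tq_h (tq_i (tq_d (tq_c (tq_b (tq_d (tq_e (tq_f (tq_d (tq_h (tq_i (tq_d (tq_c (tq_b (tq_d (tq_e (tq_f (tq_d (tq_h (tq_i (tq_d (tq_c (tq_b (tq_d (tq_e (tq_f (tq_d (tq_h (tq_i (tq_d (tq_c (tq_b (tq_d (tq_e (tq_f (tq_d (tq_h (tq_i (tq_d (tq_c (tq_b (tq_d (tq_e (tq_f (tq_d (tq_h (tq_i (tq_d (tq_c (tq_b (tq_d (tq_e (tq_f (tq_d (tq_h (tq_i (tq_d (tq_c (tq_b (tq_d (tq_e (tq_f (tq_d (tq_h (tq_i (tq_d (tq_c (tq_b (tq_d (tq_e (tq_f (tq_d (tq_h (tq_i (tq_d (tq_c (tq_b (tq_d (tq_e (tq_f (tq_d (tq_h (tq_i i)))))))))))))))))))))))))))))))))))))))))))))))))))))))))))))))))))))))))))))))))))))))))) i) 1662 277 = true := by decide +kernel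
theorem exr_0_7 : allFrom (fun i => Nat.ble 14080 i || Nat.beq (tq_d (tq_c (tq_b (tq_d (tq_e (tq_f (tq_d (tq_h (tq_i (tq_d (tq_c (tq_b (tq_d (tq_e (tq_f (tq_d (tq_h (tq_i (tq_d (tq_c (tq_b (tq_d (tq_e (tq_f (tq_d (tq_h (tq_i (tq_d (tq_c (tq_b (tq_d (tq_e (tq_f (tq_d (tq_h (tq_i (tq_d (tq_c (tq_b (tq_d (tq_e (tq_f (tq_d (tq_h (tq_i (tq_d (tq_c (tq_b (tq_d (tq_e (tq_f (tq_d (tq_h (tq_i (tq_d (tq_c (tq_b (tq_d (tq_e (tq_f (tq_d (tq_h (tq_i (tq_d (tq_c (tq_b (tq_d (tq_e (tq_f (tq_d (tq_h (tq_i (tq_d (tq_c (tq_b (tq_d (tq_e (tq_f (tq_d (tq_h (tq_i (tq_d (tq_c (tq_b (tq_d (tq_e (tq_f (tq_d (tq_h (tq_i i)))))))))))))))))))))))))))))))))))))))))))))))))))))))))))))))))))))))))))))))))))))))))) i) 1939 277 = true := by decide +kernel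
theorem exr_0_8 : allFrom (fun i => Nat.ble 14080 i || Nat.beq (tq_d (tq_c (tq_b (tq_d (tq_e (tq_f (tq_d (tq_h (tq_i (tq_d (tq_c (tq_b (tq_d (tq_e (tq_f (tq_d (tq_h (tq_i (tq_d (tq_c (tq_b (tq_d (tq_e (tq_f (tq_d (tq_h (tq_i (tq_d (tq_c (tq_b (tq_d (tq_e (tq_f (tq_d (tq_h (tq_i (tq_d (tq_c (tq_b (tq_d (tq_e (tq_f (tq_d (tq_h (tq_i (tq_d (tq_c (tq_b (tq_d (tq_e (tq_f (tq_d (tq_h (tq_i (tq_d (tq_c (tq_b (tq_d (tq_e (tq_f (tq_d (tq_h (tq_i (tq_d (tq_c (tq_b (tq_d (tq_e (tq_f (tq_d (tq_h (tq_i (tq_d (tq_c (tq_b (tq_d (tq_e (tq_f (tq_d (tq_h (tq_i (tq_d (tq_c (tq_b (tq_d (tq_e (tq_f (tq_d (tq_h (tq_i i)))))))))))))))))))))))))))))))))))))))))))))))))))))))))))))))))))))))))))))))))))))))))) i) 2216 277 = true := by decide +kernel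
theorem exr_0_9 : allFrom (fun i => Nat.ble 14080 i || Nat.beq (tq_d (tq_c (tq_b (tq_d (tq_e (tq_f (tq_d (tq_h (tq_i (tq_d (tq_c (tq_b (tq_d (tq_e (tq_f (tq_d (tq_h (tq_i (tq_d (tq_c (tq_b (tq_d (tq_e (tq_f (tq_d (tq_h (tq_i (tq_d (tq_c (tq_b (tq_d (tq_e (tq_f (tq_d (tq_h (tq_i (tq_d (tq_c (tq_b (tq_d (tq_e (tq_f (tq_d (tq_h (tq_i (tq_d (tq_c (tq_b (tq_d (tq_e (tq_f (tq_d (tq_h (tq_i (tq_d (tq_c (tq_b (tq_d (tq_e (tq_f (tq_d (tq_h (tq_i (tq_d (tq_c (tq_b (tq_d (tq_e (tq_f (tq_d (tq_h (tq_i (tq_d (tq_c (tq_b (tq_d (tq_e (tq_f (tq_d (tq_h (tq_i (tq_d (tq_c (tq_b (tq_d (tq_e (tq_f (tq_d (tq_h (tq_i i)))))))))))))))))))))))))))))))))))))))))))))))))))))))))))))))))))))))))))))))))))))))))) i) 2493 277 = true := by decide +kernel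
theorem exr_0_10 : allFrom (fun i => Nat.ble 14080 i || Nat.beq (tq_d (tq_c (tq_b (tq_d (tq_e (tq_f (tq_d (tq_h (tq_i (tq_d (tq_c (tq_b (tq_d (tq_e (tq_f (tq_d (tq_h (tq_i (tq_d (tq_c (tq_b (tq_d (tq_e (tq_f (tq_d (tq_h (tq_i (tq_d (tq_c (tq_b (tq_d (tq_e (tq_f (tq_d (tq_h (tq_i (tq_d (tq_c (tq_b (tq_d (tq_e (tq_f (tq_d (tq_h (tq_i (tq_d (tq_c (tq_b (tq_d (tq_e (tq_f (tq_d (tq_h (tq_i (tq_d (tq_c (tq_b (tq_d (tq_e (tq_f (tq_d (tq_h (tq_i (tq_d (tq_c (tq_b (tq_d (tq_e (tq_f (tq_d (tq_h (tq_i (tq_d (tq_c (tq_b (tq_d (tq_e (tq_f (tq_d (tq_h (tq_i (tq_d (tq_c (tq_b (tq_d (tq_e (tq_f (tq_d (tq_h (tq_i i)))))))))))))))))))))))))))))))))))))))))))))))))))))))))))))))))))))))))))))))))))))))))) i) 2770 277 = true := by decide +kernel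
theorem exr_0_11 : allFrom (fun i => Nat.ble 14080 i || Nat.beq (tq_d (tq_c (tq_b (tq_d (tq_e (tq_f (tq_d (tq_h (tq_i (tq_d (tq_c (tq_b (tq_d (tq_e (tq_f (tq_d (tq_h (tq_i (tq_d (tq_c (tq_b (tq_d (tq_e (tq_f (tq_d (tq_h (tq_i (tq_d (tq_c (tq_b (tq_d (tq_e (tq_f (tq_d (tq_h (tq_i (tq_d (tq_c (tq_b (tq_d (tq_e (tq_f (tq_d (tq_h (tq_i (tq_d (tq_c (tq_b (tq_d (tq_e (tq_f (tq_d (tq_h (tq_i (tq_d (tq_c (tq_b (tq_d (tq_e (tq_f (tq_d (tq_h (tq_i (tq_d (tq_c (tq_b (tq_d (tq_e (tq_f (tq_d (tq_h (tq_i (tq_d (tq_c (tq_b (tq_d (tq_e (tq_f (tq_d (tq_h (tq_i (tq_d (tq_c (tq_b (tq_d (tq_e (tq_f (tq_d (tq_h (tq_i i)))))))))))))))))))))))))))))))))))))))))))))))))))))))))))))))))))))))))))))))))))))))))) i) 3047 277 = true := by decide +kernel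
theorem exr_0_12 : allFrom (fun i => Nat.ble 14080 i || Nat.beq (tq_d (tq_c (tq_b (tq_d (tq_e (tq_f (tq_d (tq_h (tq_i (tq_d (tq_c (tq_b (tq_d (tq_e (tq_f (tq_d (tq_h (tq_i (tq_d (tq_c (tq_b (tq_d (tq_e (tq_f (tq_d (tq_h (tq_i (tq_d (tq_c (tq_b (tq_d (tq_e (tq_f (tq_d (tq_h (tq_i (tq_d (tq_c (tq_b (tq_d (tq_e (tq_f (tq_d (tq_h (tq_i (tq_d (tq_c (tq_b (tq_d (tq_e (tq_f (tq_d (tq_h (tq_i (tq_d (tq_c (tq_b (tq_d (tq_e (tq_f (tq_d (tq_h (tq_i (tq_d (tq_c (tq_b (tq_d (tq_e (tq_f (tq_d (tq_h (tq_i (tq_d (tq_c (tq_b (tq_d (tq_e (tq_f (tq_d (tq_h (tq_i (tq_d (tq_c (tq_b (tq_d (tq_e (tq_f (tq_d (tq_h (tq_i i)))))))))))))))))))))))))))))))))))))))))))))))))))))))))))))))))))))))))))))))))))))))))) i) 3324 277 = true := by decide +kernel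
theorem exr_0_13 : allFrom (fun i => Nat.ble 14080 i || Nat.beq (tq_d (tq_c (tq_b (tq_d (tq_e (tq_f (tq_d (tq_h (tq_i (tq_d (tq_c (tq_b (tq_d (tq_e (tq_f (tq_d (tq_h (tq_i (tq_d (tq_c (tq_b (tq_d (tq_e (tq_f (tq_d (tq_h (tq_i (tq_d (tq_c (tq_b (tq_d (tq_e (tq_f (tq_d (tq_h (tq_i (tq_d (tq_c (tq_b (tq_d (tq_e (tq_f (tq_d (tq_h (tq_i (tq_d (tq_c (tq_b (tq_d (tq_e (tq_f (tq_d (tq_h (tq_i (tq_d (tq_c (tq_b (tq_d (tq_e (tq_f (tq_d (tq_h (tq_i (tq_d (tq_c (tq_b (tq_d (tq_e (tq_f (tq_d (tq_h (tq_i (tq_d (tq_c (tq_b (tq_d (tq_e (tq_f (tq_d (tq_h (tq_i (tq_d (tq_c (tq_b (tq_d (tq_e (tq_f (tq_d (tq_h (tq_i i)))))))))))))))))))))))))))))))))))))))))))))))))))))))))))))))))))))))))))))))))))))))))) i) 3601 277 = true := by decide +kernel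
theorem exr_0_14 : allFrom (fun i => Nat.ble 14080 i || Nat.beq (tq_d (tq_c (tq_b (tq_d (tq_e (tq_f (tq_d (tq_h (tq_i (tq_d (tq_c (tq_b (tq_d (tq_e (tq_f (tq_d (tq_h (tq_i (tq_d (tq_c (tq_b (tq_d (tq_e (tq_f (tq_d (tq_h (tq_i (tq_d (tq_c (tq_b (tq_d (tq_e (tq_f (tq_d (tq_h (tq_i (tq_d (tq_c (tq_b (tq_d (tq_e (tq_f (tq_d (tq_h (tq_i (tq_d (tq_c (tq_b (tq_d (tq_e (tq_f (tq_d (tq_h (tq_i (tq_d (tq_c (tq_b (tq_d (tq_e (tq_f (tq_d (tq_h (tq_i (tq_d (tq_c (tq_b (tq_d (tq_e (tq_f (tq_d (tq_h (tq_i (tq_d (tq_c (tq_b (tq_d (tq_e (tq_f (tq_d (tq_h (tq_i (tq_d (tq_c (tq_b (tq_d (tq_e (tq_f (tq_d (tq_h (tq_i i)))))))))))))))))))))))))))))))))))))))))))))))))))))))))))))))))))))))))))))))))))))))))) i) 3878 277 = true := by decide +kernel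
theorem exr_0_15 : allFrom (fun i => Nat.ble 14080 i || Nat.beq (tq_d (tq_c (tq_b (tq_d (tq_e (tq_f (tq_d (tq_h (tq_i (tq_d (tq_c (tq_b (tq_d (tq_e (tq_f (tq_d (tq_h (tq_i (tq_d (tq_c (tq_b (tq_d (tq_e (tq_f (tq_d (tq_h (tq_i (tq_d (tq_c (tq_b (tq_d (tq_e (tq_f (tq_d (tq_h (tq_i (tq_d (tq_c (tq_b (tq_d (tq_e (tq_f (tq_d (tq_h (tq_i (tq_d (tq_c (tq_b (tq_d (tq_e (tq_f (tq_d (tq_h (tq_i (tq_d (tq_c (tq_b (tq_d (tq_e (tq_f (tq_d (tq_h (tq_i (tq_d (tq_c (tq_b (tq_d (tq_e (tq_f (tq_d (tq_h (tq_i (tq_d (tq_c (tq_b (tq_d (tq_e (tq_f (tq_d (tq_h (tq_i (tq_d (tq_c (tq_b (tq_d (tq_e (tq_f (tq_d (tq_h (tq_i i)))))))))))))))))))))))))))))))))))))))))))))))))))))))))))))))))))))))))))))))))))))))))) i) 4155 277 = true := by decide +kernel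
theorem exr_0_16 : allFrom (fun i => Nat.ble 14080 i || Nat.beq (tq_d (tq_c (tq_b (tq_d (tq_e (tq_f (tq_d (tq_h (tq_i (tq_d (tq_c (tq_b (tq_d (tq_e (tq_f (tq_d (tq_h (tq_i (tq_d (tq_c (tq_b (tq_d (tq_e (tq_f (tq_d (tq_h (tq_i (tq_d (tq_c (tq_b (tq_d (tq_e (tq_f (tq_d (tq_h (tq_i (tq_d (tq_c (tq_b (tq_d (tq_e (tq_f (tq_d (tq_h (tq_i (tq_d (tq_c (tq_b (tq_d (tq_e (tq_f (tq_d (tq_h (tq_i (tq_d (tq_c (tq_b (tq_d (tq_e (tq_f (tq_d (tq_h (tq_i (tq_d (tq_c (tq_b (tq_d (tq_e (tq_f (tq_d (tq_h (tq_i (tq_d (tq_c (tq_b (tq_d (tq_e (tq_f (tq_d (tq_h (tq_i (tq_d (tq_c (tq_b (tq_d (tq_e (tq_f (tq_d (tq_h (tq_i i)))))))))))))))))))))))))))))))))))))))))))))))))))))))))))))))))))))))))))))))))))))))))) i) 4432 277 = true := by decide +kernel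
theorem exr_0_17 : allFrom (fun i => Nat.ble 14080 i || Nat.beq (tq_d (tq_c (tq_b (tq_d (tq_e (tq_f (tq_d (tq_h (tq_i (tq_d (tq_c (tq_b (tq_d (tq_e (tq_f (tq_d (tq_h (tq_i (tq_d (tq_c (tq_b (tq_d (tq_e (tq_f (tq_d (tq_h (tq_i (tq_d (tq_c (tq_b (tq_d (tq_e (tq_f (tq_d (tq_h (tq_i (tq_d (tq_c (tq_b (tq_d (tq_e (tq_f (tq_d (tq_h (tq_i (tq_d (tq_c (tq_b (tq_d (tq_e (tq_f (tq_d (tq_h (tq_i (tq_d (tq_c (tq_b (tq_d (tq_e (tq_f (tq_d (tq_h (tq_i (tq_d (tq_c (tq_b (tq_d (tq_e (tq_f (tq_d (tq_h (tq_i (tq_d (tq_c (tq_b (tq_d (tq_e (tq_f (tq_d (tq_h (tq_i (tq_d (tq_c (tq_b (tq_d (tq_e (tq_f (tq_d (tq_h (tq_i i)))))))))))))))))))))))))))))))))))))))))))))))))))))))))))))))))))))))))))))))))))))))))) i) 4709 277 = true := by decide +kernel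
theorem exr_0_18 : allFrom (fun i => Nat.ble 14080 i || Nat.beq (tq_d (tq_c (tq_b (tq_d (tq_e (tq_f (tq_d (tq_h (tq_i (tq_d (tq_c (tq_b (tq_d (tq_e (tq_f (tq_d (tq_h (tq_i (tq_d (tq_c (tq_b (tq_d (tq_e (tq_f (tq_d (tq_h (tq_i (tq_d (tq_c (tq_b (tq_d (tq_e (tq_f (tq_d (tq_h (tq_i (tq_d (tq_c (tq_b (tq_d (tq_e (tq_f (tq_d (tq_h (tq_i (tq_d (tq_c (tq_b (tq_d (tq_e (tq_f (tq_d (tq_h (tq_i (tq_d (tq_c (tq_b (tq_d (tq_e (tq_f (tq_d (tq_h (tq_i (tq_d (tq_c (tq_b (tq_d (tq_e (tq_f (tq_d (tq_h (tq_i (tq_d (tq_c (tq_b (tq_d (tq_e (tq_f (tq_d (tq_h (tq_i (tq_d (tq_c (tq_b (tq_d (tq_e (tq_f (tq_d (tq_h (tq_i i)))))))))))))))))))))))))))))))))))))))))))))))))))))))))))))))))))))))))))))))))))))))))) i) 4986 277 = true := by decide +kernel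
theorem exr_0_19 : allFrom (fun i => Nat.ble 14080 i || Nat.beq (tq_d (tq_c (tq_b (tq_d (tq_e (tq_f (tq_d (tq_h (tq_i (tq_d (tq_c (tq_b (tq_d (tq_e (tq_f (tq_d (tq_h (tq_i (tq_d (tq_c (tq_b (tq_d (tq_e (tq_f (tq_d (tq_h (tq_i (tq_d (tq_c (tq_b (tq_d (tq_e (tq_f (tq_d (tq_h (tq_i (tq_d (tq_c (tq_b (tq_d (tq_e (tq_f (tq_d (tq_h (tq_i (tq_d (tq_c (tq_b (tq_d (tq_e (tq_f (tq_d (tq_h (tq_i (tq_d (tq_c (tq_b (tq_d (tq_e (tq_f (tq_d (tq_h (tq_i (tq_d (tq_c (tq_b (tq_d (tq_e (tq_f (tq_d (tq_h (tq_i (tq_d (tq_c (tq_b (tq_d (tq_e (tq_f (tq_d (tq_h (tq_i (tq_d (tq_c (tq_b (tq_d (tq_e (tq_f (tq_d (tq_h (tq_i i)))))))))))))))))))))))))))))))))))))))))))))))))))))))))))))))))))))))))))))))))))))))))) i) 5263 277 = true := by decide +kernel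
theorem exr_0_20 : allFrom (fun i => Nat.ble 14080 i || Nat.beq (tq_d (tq_c (tq_b (tq_d (tq_e (tq_f (tq_d (tq_h (tq_i (tq_d (tq_c (tq_b (tq_d (tq_e (tq_f (tq_d (tq_h (tq_i (tq_d (tq_c (tq_b (tq_d (tq_e (tq_f (tq_d (tq_h (tq_i (tq_d (tq_c (tq_b (tq_d (tq_e (tq_f (tq_d (tq_h (tq_i (tq_d (tq_c (tq_b (tq_d (tq_e (tq_f (tq_d (tq_h (tq_i (tq_d (tq_c (tq_b (tq_d (tq_e (tq_f (tq_d (tq_h (tq_i (tq_d (tq_c (tq_b (tq_d (tq_e (tq_f (tq_d (tq_h (tq_i (tq_d (tq_c (tq_b (tq_d (tq_e (tq_f (tq_d (tq_h (tq_i (tq_d (tq_c (tq_b (tq_d (tq_e (tq_f (tq_d (tq_h (tq_i (tq_d (tq_c (tq_b (tq_d (tq_e (tq_f (tq_d (tq_h (tq_i i)))))))))))))))))))))))))))))))))))))))))))))))))))))))))))))))))))))))))))))))))))))))))) i) 5540 277 = true := by decide +kernel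
theorem exr_0_21 : allFrom (fun i => Nat.ble 14080 i || Nat.beq (tq_d (tq_c (tq_b (tq_d (tq_e (tq_f (tq_d (tq_h (tq_i (tq_d (tq_c (tq_b (tq_d (tq_e (tq_f (tq_d (tq_h (tq_i (tq_d (tq_c (tq_b (tq_d (tq_e (tq_f (tq_d (tq_h (tq_i (tq_d (tq_c (tq_b (tq_d (tq_e (tq_f (tq_d (tq_h (tq_i (tq_d (tq_c (tq_b (tq_d (tq_e (tq_f (tq_d (tq_h (tq_i (tq_d (tq_c (tq_b (tq_d (tq_e (tq_f (tq_d (tq_h (tq_i (tq_d (tq_c (tq_b (tq_d (tq_e (tq_f (tq_d (tq_h (tq_i (tq_d (tq_c (tq_b (tq_d (tq_e (tq_f (tq_d (tq_h (tq_i (tq_d (tq_c (tq_b (tq_d (tq_e (tq_f (tq_d (tq_h (tq_i (tq_d (tq_c (tq_b (tq_d (tq_e (tq_f (tq_d (tq_h (tq_i i)))))))))))))))))))))))))))))))))))))))))))))))))))))))))))))))))))))))))))))))))))))))))) i) 5817 277 = true := by decide +kernel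
theorem exr_0_22 : allFrom (fun i => Nat.ble 14080 i || Nat.beq (tq_d (tq_c (tq_b (tq_d (tq_e (tq_f (tq_d (tq_h (tq_i (tq_d (tq_c (tq_b (tq_d (tq_e (tq_f (tq_d (tq_h (tq_i (tq_d (tq_c (tq_b (tq_d (tq_e (tq_f (tq_d (tq_h (tq_i (tq_d (tq_c (tq_b (tq_d (tq_e (tq_f (tq_d (tq_h (tq_i (tq_d (tq_c (tq_b (tq_d (tq_e (tq_f (tq_d (tq_h (tq_i (tq_d (tq_c (tq_b (tq_d (tq_e (tq_f (tq_d (tq_h (tq_i (tq_d (tq_c (tq_b (tq_d (tq_e (tq_f (tq_d (tq_h (tq_i (tq_d (tq_c (tq_b (tq_d (tq_e (tq_f (tq_d (tq_h (tq_i (tq_d (tq_c (tq_b (tq_d (tq_e (tq_f (tq_d (tq_h (tq_i (tq_d (tq_c (tq_b (tq_d (tq_e (tq_f (tq_d (tq_h (tq_i i)))))))))))))))))))))))))))))))))))))))))))))))))))))))))))))))))))))))))))))))))))))))))) i) 6094 277 = true := by decide +kernel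
theorem exr_0_23 : allFrom (fun i => Nat.ble 14080 i || Nat.beq (tq_d (tq_c (tq_b (tq_d (tq_e (tq_f (tq_d (tq_h (tq_i (tq_d (tq_c (tq_b (tq_d (tq_e (tq_f (tq_d (tq_h (tq_i (tq_d (tq_c (tq_b (tq_d (tq_e (tq_f (tq_d (tq_h (tq_i (tq_d (tq_c (tq_b (tq_d (tq_e (tq_f (tq_d (tq_h (tq_i (tq_d (tq_c (tq_b (tq_d (tq_e (tq_f (tq_d (tq_h (tq_i (tq_d (tq_c (tq_b (tq_d (tq_e (tq_f (tq_d (tq_h (tq_i (tq_d (tq_c (tq_b (tq_d (tq_e (tq_f (tq_d (tq_h (tq_i (tq_d (tq_c (tq_b (tq_d (tq_e (tq_f (tq_d (tq_h (tq_i (tq_d (tq_c (tq_b (tq_d (tq_e (tq_f (tq_d (tq_h (tq_i (tq_d (tq_c (tq_b (tq_d (tq_e (tq_f (tq_d (tq_h (tq_i i)))))))))))))))))))))))))))))))))))))))))))))))))))))))))))))))))))))))))))))))))))))))))) i) 6371 277 = true := by decide +kernel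
theorem exr_0_24 : allFrom (fun i => Nat.ble 14080 i || Nat.beq (tq_d (tq_c (tq_b (tq_d (tq_e (tq_f (tq_d (tq_h (tq_i (tq_d (tq_c (tq_b (tq_d (tq_e (tq_f (tq_d (tq_h (tq_i (tq_d (tq_c (tq_b (tq_d (tq_e (tq_f (tq_d (tq_h (tq_i (tq_d (tq_c (tq_b (tq_d (tq_e (tq_f (tq_d (tq_h (tq_i (tq_d (tq_c (tq_b (tq_d (tq_e (tq_f (tq_d (tq_h (tq_i (tq_d (tq_c (tq_b (tq_d (tq_e (tq_f (tq_d (tq_h (tq_i (tq_d (tq_c (tq_b (tq_d (tq_e (tq_f (tq_d (tq_h (tq_i (tq_d (tq_c (tq_b (tq_d (tq_e (tq_f (tq_d (tq_h (tq_i (tq_d (tq_c (tq_b (tq_d (tq_e (tq_f (tq_d (tq_h (tq_i (tq_d (tq_c (tq_b (tq_d (tq_e (tq_f (tq_d (tq_h (tq_i i)))))))))))))))))))))))))))))))))))))))))))))))))))))))))))))))))))))))))))))))))))))))))) i) 6648 277 = true := by decide +kernel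
theorem exr_0_25 : allFrom (fun i => Nat.ble 14080 i || Nat.beq (tq_d (tq_c (tq_b (tq_d (tq_e (tq_f (tq_d (tq_h (tq_i (tq_d (tq_c (tq_b (tq_d (tq_e (tq_f (tq_d (tq_h (tq_i (tq_d (tq_c (tq_b (tq_d (tq_e (tq_f (tq_d (tq_h (tq_i (tq_d (tq_c (tq_b (tq_d (tq_e (tq_f (tq_d (tq_h (tq_i (tq_d (tq_c (tq_b (tq_d (tq_e (tq_f (tq_d (tq_h (tq_i (tq_d (tq_c (tq_b (tq_d (tq_e (tq_f (tq_d (tq_h (tq_i (tq_d (tq_c (tq_b (tq_d (tq_e (tq_f (tq_d (tq_h (tq_i (tq_d (tq_c (tq_b (tq_d (tq_e (tq_f (tq_d (tq_h (tq_i (tq_d (tq_c (tq_b (tq_d (tq_e (tq_f (tq_d (tq_h (tq_i (tq_d (tq_c (tq_b (tq_d (tq_e (tq_f (tq_d (tq_h (tq_i i)))))))))))))))))))))))))))))))))))))))))))))))))))))))))))))))))))))))))))))))))))))))))) i) 6925 277 = true := by decide +kernel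
theorem exr_0_26 : allFrom (fun i => Nat.ble 14080 i || Nat.beq (tq_d (tq_c (tq_b (tq_d (tq_e (tq_f (tq_d (tq_h (tq_i (tq_d (tq_c (tq_b (tq_d (tq_e (tq_f (tq_d (tq_h (tq_i (tq_d (tq_c (tq_b (tq_d (tq_e (tq_f (tq_d (tq_h (tq_i (tq_d (tq_c (tq_b (tq_d (tq_e (tq_f (tq_d (tq_h (tq_i (tq_d (tq_c (tq_b (tq_d (tq_e (tq_f (tq_d (tq_h (tq_i (tq_d (tq_c (tq_b (tq_d (tq_e (tq_f (tq_d (tq_h (tq_i (tq_d (tq_c (tq_b (tq_d (tq_e (tq_f (tq_d (tq_h (tq_i (tq_d (tq_c (tq_b (tq_d (tq_e (tq_f (tq_d (tq_h (tq_i (tq_d (tq_c (tq_b (tq_d (tq_e (tq_f (tq_d (tq_h (tq_i (tq_d (tq_c (tq_b (tq_d (tq_e (tq_f (tq_d (tq_h (tq_i i)))))))))))))))))))))))))))))))))))))))))))))))))))))))))))))))))))))))))))))))))))))))))) i) 7202 277 = true := by decide +kernel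
theorem exr_0_27 : allFrom (fun i => Nat.ble 14080 i || Nat.beq (tq_d (tq_c (tq_b (tq_d (tq_e (tq_f (tq_d (tq_h (tq_i (tq_d (tq_c (tq_b (tq_d (tq_e (tq_f (tq_d (tq_h (tq_i (tq_d (tq_c (tq_b (tq_d (tq_e (tq_f (tq_d (tq_h (tq_i (tq_d (tq_c (tq_b (tq_d (tq_e (tq_f (tq_d (tq_h (tq_i (tq_d (tq_c (tq_b (tq_d (tq_e (tq_f (tq_d (tq_h (tq_i (tq_d (tq_c (tq_b (tq_d (tq_e (tq_f (tq_d (tq_h (tq_i (tq_d (tq_c (tq_b (tq_d (tq_e (tq_f (tq_d (tq_h (tq_i (tq_d (tq_c (tq_b (tq_d (tq_e (tq_f (tq_d (tq_h (tq_i (tq_d (tq_c (tq_b (tq_d (tq_e (tq_f (tq_d (tq_h (tq_i (tq_d (tq_c (tq_b (tq_d (tq_e (tq_f (tq_d (tq_h (tq_i i)))))))))))))))))))))))))))))))))))))))))))))))))))))))))))))))))))))))))))))))))))))))))) i) 7479 277 = true := by decide +kernel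
theorem exr_0_28 : allFrom (fun i => Nat.ble 14080 i || Nat.beq (tq_d (tq_c (tq_b (tq_d (tq_e (tq_f (tq_d (tq_h (tq_i (tq_d (tq_c (tq_b (tq_d (tq_e (tq_f (tq_d (tq_h (tq_i (tq_d (tq_c (tq_b (tq_d (tq_e (tq_f (tq_d (tq_h (tq_i (tq_d (tq_c (tq_b (tq_d (tq_e (tq_f (tq_d (tq_h (tq_i (tq_d (tq_c (tq_b (tq_d (tq_e (tq_f (tq_d (tq_h (tq_i (tq_d (tq_c (tq_b (tq_d (tq_e (tq_f (tq_d (tq_h (tq_i (tq_d (tq_c (tq_b (tq_d (tq_e (tq_f (tq_d (tq_h (tq_i (tq_d (tq_c (tq_b (tq_d (tq_e (tq_f (tq_d (tq_h (tq_i (tq_d (tq_c (tq_b (tq_d (tq_e (tq_f (tq_d (tq_h (tq_i (tq_d (tq_c (tq_b (tq_d (tq_e (tq_f (tq_d (tq_h (tq_i i)))))))))))))))))))))))))))))))))))))))))))))))))))))))))))))))))))))))))))))))))))))))))) i) 7756 277 = true := by decide +kernel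
theorem exr_0_29 : allFrom (fun i => Nat.ble 14080 i || Nat.beq (tq_d (tq_c (tq_b (tq_d (tq_e (tq_f (tq_d (tq_h (tq_i (tq_d (tq_c (tq_b (tq_d (tq_e (tq_f (tq_d (tq_h (tq_i (tq_d (tq_c (tq_b (tq_d (tq_e (tq_f (tq_d (tq_h (tq_i (tq_d (tq_c (tq_b (tq_d (tq_e (tq_f (tq_d (tq_h (tq_i (tq_d (tq_c (tq_b (tq_d (tq_e (tq_f (tq_d (tq_h (tq_i (tq_d (tq_c (tq_b (tq_d (tq_e (tq_f (tq_d (tq_h (tq_i (tq_d (tq_c (tq_b (tq_d (tq_e (tq_f (tq_d (tq_h (tq_i (tq_d (tq_c (tq_b (tq_d (tq_e (tq_f (tq_d (tq_h (tq_i (tq_d (tq_c (tq_b (tq_d (tq_e (tq_f (tq_d (tq_h (tq_i (tq_d (tq_c (tq_b (tq_d (tq_e (tq_f (tq_d (tq_h (tq_i i)))))))))))))))))))))))))))))))))))))))))))))))))))))))))))))))))))))))))))))))))))))))))) i) 8033 277 = true := by decide +kernel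
theorem exr_0_30 : allFrom (fun i => Nat.ble 14080 i || Nat.beq (tq_d (tq_c (tq_b (tq_d (tq_e (tq_f (tq_d (tq_h (tq_i (tq_d (tq_c (tq_b (tq_d (tq_e (tq_f (tq_d (tq_h (tq_i (tq_d (tq_c (tq_b (tq_d (tq_e (tq_f (tq_d (tq_h (tq_i (tq_d (tq_c (tq_b (tq_d (tq_e (tq_f (tq_d (tq_h (tq_i (tq_d (tq_c (tq_b (tq_d (tq_e (tq_f (tq_d (tq_h (tq_i (tq_d (tq_c (tq_b (tq_d (tq_e (tq_f (tq_d (tq_h (tq_i (tq_d (tq_c (tq_b (tq_d (tq_e (tq_f (tq_d (tq_h (tq_i (tq_d (tq_c (tq_b (tq_d (tq_e (tq_f (tq_d (tq_h (tq_i (tq_d (tq_c (tq_b (tq_d (tq_e (tq_f (tq_d (tq_h (tq_i (tq_d (tq_c (tq_b (tq_d (tq_e (tq_f (tq_d (tq_h (tq_i i)))))))))))))))))))))))))))))))))))))))))))))))))))))))))))))))))))))))))))))))))))))))))) i) 8310 277 = true := by decide +kernel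
theorem exr_0_31 : allFrom (fun i => Nat.ble 14080 i || Nat.beq (tq_d (tq_c (tq_b (tq_d (tq_e (tq_f (tq_d (tq_h (tq_i (tq_d (tq_c (tq_b (tq_d (tq_e (tq_f (tq_d (tq_h (tq_i (tq_d (tq_c (tq_b (tq_d (tq_e (tq_f (tq_d (tq_h (tq_i (tq_d (tq_c (tq_b (tq_d (tq_e (tq_f (tq_d (tq_h (tq_i (tq_d (tq_c (tq_b (tq_d (tq_e (tq_f (tq_d (tq_h (tq_i (tq_d (tq_c (tq_b (tq_d (tq_e (tq_f (tq_d (tq_h (tq_i (tq_d (tq_c (tq_b (tq_d (tq_e (tq_f (tq_d (tq_h (tq_i (tq_d (tq_c (tq_b (tq_d (tq_e (tq_f (tq_d (tq_h (tq_i (tq_d (tq_c (tq_b (tq_d (tq_e (tq_f (tq_d (tq_h (tq_i (tq_d (tq_c (tq_b (tq_d (tq_e (tq_f (tq_d (tq_h (tq_i i)))))))))))))))))))))))))))))))))))))))))))))))))))))))))))))))))))))))))))))))))))))))))) i) 8587 277 = true := by decide +kernel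
theorem exr_0_32 : allFrom (fun i => Nat.ble 14080 i || Nat.beq (tq_d (tq_c (tq_b (tq_d (tq_e (tq_f (tq_d (tq_h (tq_i (tq_d (tq_c (tq_b (tq_d (tq_e (tq_f (tq_d (tq_h (tq_i (tq_d (tq_c (tq_b (tq_d (tq_e (tq_f (tq_d (tq_h (tq_i (tq_d (tq_c (tq_b (tq_d (tq_e (tq_f (tq_d (tq_h (tq_i (tq_d (tq_c (tq_b (tq_d (tq_e (tq_f (tq_d (tq_h (tq_i (tq_d (tq_c (tq_b (tq_d (tq_e (tq_f (tq_d (tq_h (tq_i (tq_d (tq_c (tq_b (tq_d (tq_e (tq_f (tq_d (tq_h (tq_i (tq_d (tq_c (tq_b (tq_d (tq_e (tq_f (tq_d (tq_h (tq_i (tq_d (tq_c (tq_b (tq_d (tq_e (tq_f (tq_d (tq_h (tq_i (tq_d (tq_c (tq_b (tq_d (tq_e (tq_f (tq_d (tq_h (tq_i i)))))))))))))))))))))))))))))))))))))))))))))))))))))))))))))))))))))))))))))))))))))))))) i) 8864 277 = true := by decide +kernel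
theorem exr_0_33 : allFrom (fun i => Nat.ble 14080 i || Nat.beq (tq_d (tq_c (tq_b (tq_d (tq_e (tq_f (tq_d (tq_h (tq_i (tq_d (tq_c (tq_b (tq_d (tq_e (tq_f (tq_d (tq_h (tq_i (tq_d (tq_c (tq_b (tq_d (tq_e (tq_f (tq_d (tq_h (tq_i (tq_d (tq_c (tq_b (tq_d (tq_e (tq_f (tq_d (tq_h (tq_i (tq_d (tq_c (tq_b (tq_d (tq_e (tq_f (tq_d (tq_h (tq_i (tq_d (tq_c (tq_b (tq_d (tq_e (tq_f (tq_d (tq_h (tq_i (tq_d (tq_c (tq_b (tq_d (tq_e (tq_f (tq_d (tq_h (tq_i (tq_d (tq_c (tq_b (tq_d (tq_e (tq_f (tq_d (tq_h (tq_i (tq_d (tq_c (tq_b (tq_d (tq_e (tq_f (tq_d (tq_h (tq_i (tq_d (tq_c (tq_b (tq_d (tq_e (tq_f (tq_d (tq_h (tq_i i)))))))))))))))))))))))))))))))))))))))))))))))))))))))))))))))))))))))))))))))))))))))))) i) 9141 277 = true := by decide +kernel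
theorem exr_0_34 : allFrom (fun i => Nat.ble 14080 i || Nat.beq (tq_d (tq_c (tq_b (tq_d (tq_e (tq_f (tq_d (tq_h (tq_i (tq_d (tq_c (tq_b (tq_d (tq_e (tq_f (tq_d (tq_h (tq_i (tq_d (tq_c (tq_b (tq_d (tq_e (tq_f (tq_d (tq_h (tq_i (tq_d (tq_c (tq_b (tq_d (tq_e (tq_f (tq_d (tq_h (tq_i (tq_d (tq_c (tq_b (tq_d (tq_e (tq_f (tq_d (tq_h (tq_i (tq_d (tq_c (tq_b (tq_d (tq_e (tq_f (tq_d (tq_h (tq_i (tq_d (tq_c (tq_b (tq_d (tq_e (tq_f (tq_d (tq_h (tq_i (tq_d (tq_c (tq_b (tq_d (tq_e (tq_f (tq_d (tq_h (tq_i (tq_d (tq_c (tq_b (tq_d (tq_e (tq_f (tq_d (tq_h (tq_i (tq_d (tq_c (tq_b (tq_d (tq_e (tq_f (tq_d (tq_h (tq_i i)))))))))))))))))))))))))))))))))))))))))))))))))))))))))))))))))))))))))))))))))))))))))) i) 9418 277 = true := by decide +kernel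
theorem exr_0_35 : allFrom (fun i => Nat.ble 14080 i || Nat.beq (tq_d (tq_c (tq_b (tq_d (tq_e (tq_f (tq_d (tq_h (tq_i (tq_d (tq_c (tq_b (tq_d (tq_e (tq_f (tq_d (tq_h (tq_i (tq_d (tq_c (tq_b (tq_d (tq_e (tq_f (tq_d (tq_h (tq_i (tq_d (tq_c (tq_b (tq_d (tq_e (tq_f (tq_d (tq_h (tq_i (tq_d (tq_c (tq_b (tq_d (tq_e (tq_f (tq_d (tq_h (tq_i (tq_d (tq_c (tq_b (tq_d (tq_e (tq_f (tq_d (tq_h (tq_i (tq_d (tq_c (tq_b (tq_d (tq_e (tq_f (tq_d (tq_h (tq_i (tq_d (tq_c (tq_b (tq_d (tq_e (tq_f (tq_d (tq_h (tq_i (tq_d (tq_c (tq_b (tq_d (tq_e (tq_f (tq_d (tq_h (tq_i (tq_d (tq_c (tq_b (tq_d (tq_e (tq_f (tq_d (tq_h (tq_i i)))))))))))))))))))))))))))))))))))))))))))))))))))))))))))))))))))))))))))))))))))))))))) i) 9695 277 = true := by decide +kernel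
theorem exr_0_36 : allFrom (fun i => Nat.ble 14080 i || Nat.beq (tq_d (tq_c (tq_b (tq_d (tq_e (tq_f (tq_d (tq_h (tq_i (tq_d (tq_c (tq_b (tq_d (tq_e (tq_f (tq_d (tq_h (tq_i (tq_d (tq_c (tq_b (tq_d (tq_e (tq_f (tq_d (tq_h (tq_i (tq_d (tq_c (tq_b (tq_d (tq_e (tq_f (tq_d (tq_h (tq_i (tq_d (tq_c (tq_b (tq_d (tq_e (tq_f (tq_d (tq_h (tq_i (tq_d (tq_c (tq_b (tq_d (tq_e (tq_f (tq_d (tq_h (tq_i (tq_d (tq_c (tq_b (tq_d (tq_e (tq_f (tq_d (tq_h (tq_i (tq_d (tq_c (tq_b (tq_d (tq_e (tq_f (tq_d (tq_h (tq_i (tq_d (tq_c (tq_b (tq_d (tq_e (tq_f (tq_d (tq_h (tq_i (tq_d (tq_c (tq_b (tq_d (tq_e (tq_f (tq_d (tq_h (tq_i i)))))))))))))))))))))))))))))))))))))))))))))))))))))))))))))))))))))))))))))))))))))))))) i) 9972 277 = true := by decide +kernel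
theorem exr_0_37 : allFrom (fun i => Nat.ble 14080 i || Nat.beq (tq_d (tq_c (tq_b (tq_d (tq_e (tq_f (tq_d (tq_h (tq_i (tq_d (tq_c (tq_b (tq_d (tq_e (tq_f (tq_d (tq_h (tq_i (tq_d (tq_c (tq_b (tq_d (tq_e (tq_f (tq_d (tq_h (tq_i (tq_d (tq_c (tq_b (tq_d (tq_e (tq_f (tq_d (tq_h (tq_i (tq_d (tq_c (tq_b (tq_d (tq_e (tq_f (tq_d (tq_h (tq_i (tq_d (tq_c (tq_b (tq_d (tq_e (tq_f (tq_d (tq_h (tq_i (tq_d (tq_c (tq_b (tq_d (tq_e (tq_f (tq_d (tq_h (tq_i (tq_d (tq_c (tq_b (tq_d (tq_e (tq_f (tq_d (tq_h (tq_i (tq_d (tq_c (tq_b (tq_d (tq_e (tq_f (tq_d (tq_h (tq_i (tq_d (tq_c (tq_b (tq_d (tq_e (tq_f (tq_d (tq_h (tq_i i)))))))))))))))))))))))))))))))))))))))))))))))))))))))))))))))))))))))))))))))))))))))))) i) 10249 277 = true := by decide +kernel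
theorem exr_0_38 : allFrom (fun i => Nat.ble 14080 i || Nat.beq (tq_d (tq_c (tq_b (tq_d (tq_e (tq_f (tq_d (tq_h (tq_i (tq_d (tq_c (tq_b (tq_d (tq_e (tq_f (tq_d (tq_h (tq_i (tq_d (tq_c (tq_b (tq_d (tq_e (tq_f (tq_d (tq_h (tq_i (tq_d (tq_c (tq_b (tq_d (tq_e (tq_f (tq_d (tq_h (tq_i (tq_d (tq_c (tq_b (tq_d (tq_e (tq_f (tq_d (tq_h (tq_i (tq_d (tq_c (tq_b (tq_d (tq_e (tq_f (tq_d (tq_h (tq_i (tq_d (tq_c (tq_b (tq_d (tq_e (tq_f (tq_d (tq_h (tq_i (tq_d (tq_c (tq_b (tq_d (tq_e (tq_f (tq_d (tq_h (tq_i (tq_d (tq_c (tq_b (tq_d (tq_e (tq_f (tq_d (tq_h (tq_i (tq_d (tq_c (tq_b (tq_d (tq_e (tq_f (tq_d (tq_h (tq_i i)))))))))))))))))))))))))))))))))))))))))))))))))))))))))))))))))))))))))))))))))))))))))) i) 10526 277 = true := by decide +kernel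
theorem exr_0_39 : allFrom (fun i => Nat.ble 14080 i || Nat.beq (tq_d (tq_c (tq_b (tq_d (tq_e (tq_f (tq_d (tq_h (tq_i (tq_d (tq_c (tq_b (tq_d (tq_e (tq_f (tq_d (tq_h (tq_i (tq_d (tq_c (tq_b (tq_d (tq_e (tq_f (tq_d (tq_h (tq_i (tq_d (tq_c (tq_b (tq_d (tq_e (tq_f (tq_d (tq_h (tq_i (tq_d (tq_c (tq_b (tq_d (tq_e (tq_f (tq_d (tq_h (tq_i (tq_d (tq_c (tq_b (tq_d (tq_e (tq_f (tq_d (tq_h (tq_i (tq_d (tq_c (tq_b (tq_d (tq_e (tq_f (tq_d (tq_h (tq_i (tq_d (tq_c (tq_b (tq_d (tq_e (tq_f (tq_d (tq_h (tq_i (tq_d (tq_c (tq_b (tq_d (tq_e (tq_f (tq_d (tq_h (tq_i (tq_d (tq_c (tq_b (tq_d (tq_e (tq_f (tq_d (tq_h (tq_i i)))))))))))))))))))))))))))))))))))))))))))))))))))))))))))))))))))))))))))))))))))))))))) i) 10803 277 = true := by decide +kernel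
theorem exr_0_40 : allFrom (fun i => Nat.ble 14080 i || Nat.beq (tq_d (tq_c (tq_b (tq_d (tq_e (tq_f (tq_d (tq_h (tq_i (tq_d (tq_c (tq_b (tq_d (tq_e (tq_f (tq_d (tq_h (tq_i (tq_d (tq_c (tq_b (tq_d (tq_e (tq_f (tq_d (tq_h (tq_i (tq_d (tq_c (tq_b (tq_d (tq_e (tq_f (tq_d (tq_h (tq_i (tq_d (tq_c (tq_b (tq_d (tq_e (tq_f (tq_d (tq_h (tq_i (tq_d (tq_c (tq_b (tq_d (tq_e (tq_f (tq_d (tq_h (tq_i (tq_d (tq_c (tq_b (tq_d (tq_e (tq_f (tq_d (tq_h (tq_i (tq_d (tq_c (tq_b (tq_d (tq_e (tq_f (tq_d (tq_h (tq_i (tq_d (tq_c (tq_b (tq_d (tq_e (tq_f (tq_d (tq_h (tq_i (tq_d (tq_c (tq_b (tq_d (tq_e (tq_f (tq_d (tq_h (tq_i i)))))))))))))))))))))))))))))))))))))))))))))))))))))))))))))))))))))))))))))))))))))))))) i) 11080 277 = true := by decide +kernel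
theorem exr_0_41 : allFrom (fun i => Nat.ble 14080 i || Nat.beq (tq_d (tq_c (tq_b (tq_d (tq_e (tq_f (tq_d (tq_h (tq_i (tq_d (tq_c (tq_b (tq_d (tq_e (tq_f (tq_d (tq_h (tq_i (tq_d (tq_c (tq_b (tq_d (tq_e (tq_f (tq_d (tq_h (tq_i (tq_d (tq_c (tq_b (tq_d (tq_e (tq_f (tq_d (tq_h (tq_i (tq_d (tq_c (tq_b (tq_d (tq_e (tq_f (tq_d (tq_h (tq_i (tq_d (tq_c (tq_b (tq_d (tq_e (tq_f (tq_d (tq_h (tq_i (tq_d (tq_c (tq_b (tq_d (tq_e (tq_f (tq_d (tq_h (tq_i (tq_d (tq_c (tq_b (tq_d (tq_e (tq_f (tq_d (tq_h (tq_i (tq_d (tq_c (tq_b (tq_d (tq_e (tq_f (tq_d (tq_h (tq_i (tq_d (tq_c (tq_b (tq_d (tq_e (tq_f (tq_d (tq_h (tq_i i)))))))))))))))))))))))))))))))))))))))))))))))))))))))))))))))))))))))))))))))))))))))))) i) 11357 277 = true := by decide +kernel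
theorem exr_0_42 : allFrom (fun i => Nat.ble 14080 i || Nat.beq (tq_d (tq_c (tq_b (tq_d (tq_e (tq_f (tq_d (tq_h (tq_i (tq_d (tq_c (tq_b (tq_d (tq_e (tq_f (tq_d (tq_h (tq_i (tq_d (tq_c (tq_b (tq_d (tq_e (tq_f (tq_d (tq_h (tq_i (tq_d (tq_c (tq_b (tq_d (tq_e (tq_f (tq_d (tq_h (tq_i (tq_d (tq_c (tq_b (tq_d (tq_e (tq_f (tq_d (tq_h (tq_i (tq_d (tq_c (tq_b (tq_d (tq_e (tq_f (tq_d (tq_h (tq_i (tq_d (tq_c (tq_b (tq_d (tq_e (tq_f (tq_d (tq_h (tq_i (tq_d (tq_c (tq_b (tq_d (tq_e (tq_f (tq_d (tq_h (tq_i (tq_d (tq_c (tq_b (tq_d (tq_e (tq_f (tq_d (tq_h (tq_i (tq_d (tq_c (tq_b (tq_d (tq_e (tq_f (tq_d (tq_h (tq_i i)))))))))))))))))))))))))))))))))))))))))))))))))))))))))))))))))))))))))))))))))))))))))) i) 11634 277 = true := by decide +kernel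
theorem exr_0_43 : allFrom (fun i => Nat.ble 14080 i || Nat.beq (tq_d (tq_c (tq_b (tq_d (tq_e (tq_f (tq_d (tq_h (tq_i (tq_d (tq_c (tq_b (tq_d (tq_e (tq_f (tq_d (tq_h (tq_i (tq_d (tq_c (tq_b (tq_d (tq_e (tq_f (tq_d (tq_h (tq_i (tq_d (tq_c (tq_b (tq_d (tq_e (tq_f (tq_d (tq_h (tq_i (tq_d (tq_c (tq_b (tq_d (tq_e (tq_f (tq_d (tq_h (tq_i (tq_d (tq_c (tq_b (tq_d (tq_e (tq_f (tq_d (tq_h (tq_i (tq_d (tq_c (tq_b (tq_d (tq_e (tq_f (tq_d (tq_h (tq_i (tq_d (tq_c (tq_b (tq_d (tq_e (tq_f (tq_d (tq_h (tq_i (tq_d (tq_c (tq_b (tq_d (tq_e (tq_f (tq_d (tq_h (tq_i (tq_d (tq_c (tq_b (tq_d (tq_e (tq_f (tq_d (tq_h (tq_i i)))))))))))))))))))))))))))))))))))))))))))))))))))))))))))))))))))))))))))))))))))))))))) i) 11911 277 = true := by decide +kernel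
theorem exr_0_44 : allFrom (fun i => Nat.ble 14080 i || Nat.beq (tq_d (tq_c (tq_b (tq_d (tq_e (tq_f (tq_d (tq_h (tq_i (tq_d (tq_c (tq_b (tq_d (tq_e (tq_f (tq_d (tq_h (tq_i (tq_d (tq_c (tq_b (tq_d (tq_e (tq_f (tq_d (tq_h (tq_i (tq_d (tq_c (tq_b (tq_d (tq_e (tq_f (tq_d (tq_h (tq_i (tq_d (tq_c (tq_b (tq_d (tq_e (tq_f (tq_d (tq_h (tq_i (tq_d (tq_c (tq_b (tq_d (tq_e (tq_f (tq_d (tq_h (tq_i (tq_d (tq_c (tq_b (tq_d (tq_e (tq_f (tq_d (tq_h (tq_i (tq_d (tq_c (tq_b (tq_d (tq_e (tq_f (tq_d (tq_h (tq_i (tq_d (tq_c (tq_b (tq_d (tq_e (tq_f (tq_d (tq_h (tq_i (tq_d (tq_c (tq_b (tq_d (tq_e (tq_f (tq_d (tq_h (tq_i i)))))))))))))))))))))))))))))))))))))))))))))))))))))))))))))))))))))))))))))))))))))))))) i) 12188 277 = true := by decide +kernel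
theorem exr_0_45 : allFrom (fun i => Nat.ble 14080 i || Nat.beq (tq_d (tq_c (tq_b (tq_d (tq_e (tq_f (tq_d (tq_h (tq_i (tq_d (tq_c (tq_b (tq_d (tq_e (tq_f (tq_d (tq_h (tq_i (tq_d (tq_c (tq_b (tq_d (tq_e (tq_f (tq_d (tq_h (tq_i (tq_d (tq_c (tq_b (tq_d (tq_e (tq_f (tq_d (tq_h (tq_i (tq_d (tq_c (tq_b (tq_d (tq_e (tq_f (tq_d (tq_h (tq_i (tq_d (tq_c (tq_b (tq_d (tq_e (tq_f (tq_d (tq_h (tq_i (tq_d (tq_c (tq_b (tq_d (tq_e (tq_f (tq_d (tq_h (tq_i (tq_d (tq_c (tq_b (tq_d (tq_e (tq_f (tq_d (tq_h (tq_i (tq_d (tq_c (tq_b (tq_d (tq_e (tq_f (tq_d (tq_h (tq_i (tq_d (tq_c (tq_b (tq_d (tq_e (tq_f (tq_d (tq_h (tq_i i)))))))))))))))))))))))))))))))))))))))))))))))))))))))))))))))))))))))))))))))))))))))))) i) 12465 277 = true := by decide +kernel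
theorem exr_0_46 : allFrom (fun i => Nat.ble 14080 i || Nat.beq (tq_d (tq_c (tq_b (tq_d (tq_e (tq_f (tq_d (tq_h (tq_i (tq_d (tq_c (tq_b (tq_d (tq_e (tq_f (tq_d (tq_h (tq_i (tq_d (tq_c (tq_b (tq_d (tq_e (tq_f (tq_d (tq_h (tq_i (tq_d (tq_c (tq_b (tq_d (tq_e (tq_f (tq_d (tq_h (tq_i (tq_d (tq_c (tq_b (tq_d (tq_e (tq_f (tq_d (tq_h (tq_i (tq_d (tq_c (tq_b (tq_d (tq_e (tq_f (tq_d (tq_h (tq_i (tq_d (tq_c (tq_b (tq_d (tq_e (tq_f (tq_d (tq_h (tq_i (tq_d (tq_c (tq_b (tq_d (tq_e (tq_f (tq_d (tq_h (tq_i (tq_d (tq_c (tq_b (tq_d (tq_e (tq_f (tq_d (tq_h (tq_i (tq_d (tq_c (tq_b (tq_d (tq_e (tq_f (tq_d (tq_h (tq_i i)))))))))))))))))))))))))))))))))))))))))))))))))))))))))))))))))))))))))))))))))))))))))) i) 12742 277 = true := by decide +kernel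
theorem exr_0_47 : allFrom (fun i => Nat.ble 14080 i || Nat.beq (tq_d (tq_c (tq_b (tq_d (tq_e (tq_f (tq_d (tq_h (tq_i (tq_d (tq_c (tq_b (tq_d (tq_e (tq_f (tq_d (tq_h (tq_i (tq_d (tq_c (tq_b (tq_d (tq_e (tq_f (tq_d (tq_h (tq_i (tq_d (tq_c (tq_b (tq_d (tq_e (tq_f (tq_d (tq_h (tq_i (tq_d (tq_c (tq_b (tq_d (tq_e (tq_f (tq_d (tq_h (tq_i (tq_d (tq_c (tq_b (tq_d (tq_e (tq_f (tq_d (tq_h (tq_i (tq_d (tq_c (tq_b (tq_d (tq_e (tq_f (tq_d (tq_h (tq_i (tq_d (tq_c (tq_b (tq_d (tq_e (tq_f (tq_d (tq_h (tq_i (tq_d (tq_c (tq_b (tq_d (tq_e (tq_f (tq_d (tq_h (tq_i (tq_d (tq_c (tq_b (tq_d (tq_e (tq_f (tq_d (tq_h (tq_i i)))))))))))))))))))))))))))))))))))))))))))))))))))))))))))))))))))))))))))))))))))))))))) i) 13019 277 = true := by decide +kernel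
theorem exr_0_48 : allFrom (fun i => Nat.ble 14080 i || Nat.beq (tq_d (tq_c (tq_b (tq_d (tq_e (tq_f (tq_d (tq_h (tq_i (tq_d (tq_c (tq_b (tq_d (tq_e (tq_f (tq_d (tq_h (tq_i (tq_d (tq_c (tq_b (tq_d (tq_e (tq_f (tq_d (tq_h (tq_i (tq_d (tq_c (tq_b (tq_d (tq_e (tq_f (tq_d (tq_h (tq_i (tq_d (tq_c (tq_b (tq_d (tq_e (tq_f (tq_d (tq_h (tq_i (tq_d (tq_c (tq_b (tq_d (tq_e (tq_f (tq_d (tq_h (tq_i (tq_d (tq_c (tq_b (tq_d (tq_e (tq_f (tq_d (tq_h (tq_i (tq_d (tq_c (tq_b (tq_d (tq_e (tq_f (tq_d (tq_h (tq_i (tq_d (tq_c (tq_b (tq_d (tq_e (tq_f (tq_d (tq_h (tq_i (tq_d (tq_c (tq_b (tq_d (tq_e (tq_f (tq_d (tq_h (tq_i i)))))))))))))))))))))))))))))))))))))))))))))))))))))))))))))))))))))))))))))))))))))))))) i) 13296 277 = true := by decide +kernel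
theorem exr_0_49 : allFrom (fun i => Nat.ble 14080 i || Nat.beq (tq_d (tq_c (tq_b (tq_d (tq_e (tq_f (tq_d (tq_h (tq_i (tq_d (tq_c (tq_b (tq_d (tq_e (tq_f (tq_d (tq_h (tq_i (tq_d (tq_c (tq_b (tq_d (tq_e (tq_f (tq_d (tq_h (tq_i (tq_d (tq_c (tq_b (tq_d (tq_e (tq_f (tq_d (tq_h (tq_i (tq_d (tq_c (tq_b (tq_d (tq_e (tq_f (tq_d (tq_h (tq_i (tq_d (tq_c (tq_b (tq_d (tq_e (tq_f (tq_d (tq_h (tq_i (tq_d (tq_c (tq_b (tq_d (tq_e (tq_f (tq_d (tq_h (tq_i (tq_d (tq_c (tq_b (tq_d (tq_e (tq_f (tq_d (tq_h (tq_i (tq_d (tq_c (tq_b (tq_d (tq_e (tq_f (tq_d (tq_h (tq_i (tq_d (tq_c (tq_b (tq_d (tq_e (tq_f (tq_d (tq_h (tq_i i)))))))))))))))))))))))))))))))))))))))))))))))))))))))))))))))))))))))))))))))))))))))))) i) 13573 277 = true := by decide +kernel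
theorem exr_0_50 : allFrom (fun i => Nat.ble 14080 i || Nat.beq (tq_d (tq_c (tq_b (tq_d (tq_e (tq_f (tq_d (tq_h (tq_i (tq_d (tq_c (tq_b (tq_d (tq_e (tq_f (tq_d (tq_h (tq_i (tq_d (tq_c (tq_b (tq_d (tq_e (tq_f (tq_d (tq_h (tq_i (tq_d (tq_c (tq_b (tq_d (tq_e (tq_f (tq_d (tq_h (tq_i (tq_d (tq_c (tq_b (tq_d (tq_e (tq_f (tq_d (tq_h (tq_i (tq_d (tq_c (tq_b (tq_d (tq_e (tq_f (tq_d (tq_h (tq_i (tq_d (tq_c (tq_b (tq_d (tq_e (tq_f (tq_d (tq_h (tq_i (tq_d (tq_c (tq_b (tq_d (tq_e (tq_f (tq_d (tq_h (tq_i (tq_d (tq_c (tq_b (tq_d (tq_e (tq_f (tq_d (tq_h (tq_i (tq_d (tq_c (tq_b (tq_d (tq_e (tq_f (tq_d (tq_h (tq_i i)))))))))))))))))))))))))))))))))))))))))))))))))))))))))))))))))))))))))))))))))))))))))) i) 13850 277 = true := by decide +kernel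
theorem exr_0 : ∀ i, i < 14080 → (Nat.beq (tq_d (tq_c (tq_b (tq_d (tq_e (tq_f (tq_d (tq_h (tq_i (tq_d (tq_c (tq_b (tq_d (tq_e (tq_f (tq_d (tq_h (tq_i (tq_d (tq_c (tq_b (tq_d (tq_e (tq_f (tq_d (tq_h (tq_i (tq_d (tq_c (tq_b (tq_d (tq_e (tq_f (tq_d (tq_h (tq_i (tq_d (tq_c (tq_b (tq_d (tq_e (tq_f (tq_d (tq_h (tq_i (tq_d (tq_c (tq_b (tq_d (tq_e (tq_f (tq_d (tq_h (tq_i (tq_d (tq_c (tq_b (tq_d (tq_e (tq_f (tq_d (tq_h (tq_i (tq_d (tq_c (tq_b (tq_d (tq_e (tq_f (tq_d (tq_h (tq_i (tq_d (tq_c (tq_b (tq_d (tq_e (tq_f (tq_d (tq_h (tq_i (tq_d (tq_c (tq_b (tq_d (tq_e (tq_f (tq_d (tq_h (tq_i i)))))))))))))))))))))))))))))))))))))))))))))))))))))))))))))))))))))))))))))))))))))))))) i) = true :=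
  blocks_lt (fun i => Nat.beq (tq_d (tq_c (tq_b (tq_d (tq_e (tq_f (tq_d (tq_h (tq_i (tq_d (tq_c (tq_b (tq_d (tq_e (tq_f (tq_d (tq_h (tq_i (tq_d (tq_c (tq_b (tq_d (tq_e (tq_f (tq_d (tq_h (tq_i (tq_d (tq_c (tq_b (tq_d (tq_e (tq_f (tq_d (tq_h (tq_i (tq_d (tq_c (tq_b (tq_d (tq_e (tq_f (tq_d (tq_h (tq_i (tq_d (tq_c (tq_b (tq_d (tq_e (tq_f (tq_d (tq_h (tq_i (tq_d (tq_c (tq_b (tq_d (tq_e (tq_f (tq_d (tq_h (tq_i (tq_d (tq_c (tq_b (tq_d (tq_e (tq_f (tq_d (tq_h (tq_i (tq_d (tq_c (tq_b (tq_d (tq_e (tq_f (tq_d (tq_h (tq_i (tq_d (tq_c (tq_b (tq_d (tq_e (tq_f (tq_d (tq_h (tq_i i)))))))))))))))))))))))))))))))))))))))))))))))))))))))))))))))))))))))))))))))))))))))))) i) 14080 277 51 (by norm_num) ⟨exr_0_0, exr_0_1, exr_0_2, exr_0_3, exr_0_4, exr_0_5, exr_0_6, exr_0_7, exr_0_8, exr_0_9, exr_0_10, exr_0_11, exr_0_12, exr_0_13, exr_0_14, exr_0_15, exr_0_16, exr_0_17,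 exr_0_18, exr_0_19, exr_0_20, exr_0_21, exr_0_22, exr_0_23, exr_0_24, exr_0_25, exr_0_26, exr_0_27, exr_0_28, exr_0_29, exr_0_30, exr_0_31, exr_0_32, exr_0_33, exr_0_34, exr_0_35, exr_0_36, exr_0_37, exr_0_38, exr_0_39, exr_0_40, exr_0_41, exr_0_42, exr_0_43, exr_0_44, exr_0_45, exr_0_46, exr_0_47, exr_0_48, exr_0_49, exr_0_50, trivial⟩

theorem ex_0 : ∀ i, i < 14080 → evalT tab [Gen.d, Gen.c, Gen.b, Gen.d, Gen.e, Gen.f, Gen.d, Gen.h, Gen.i, Gen.d, Gen.c, Gen.b, Gen.d, Gen.e, Gen.f, Gen.d, Gen.h, Gen.i, Gen.d, Gen.c, Gen.b, Gen.d, Gen.e, Gen.f, Gen.d, Gen.h, Gen.i, Gen.d, Gen.c, Gen.b, Gen.d, Gen.e, Gen.f, Gen.d, Gen.h, Gen.i, Gen.d, Gen.c, Gen.b, Gen.d, Gen.e, Gen.f, Gen.d, Gen.h, Gen.i, Gen.d, Gen.c, Gen.b, Gen.d, Gen.e, Gen.f, Gen.d, Gen.h, Gen.i, Gen.d, Gen.c, Gen.b, Gen.d, Gen.e, Gen.f, Gen.d, Gen.h, Gen.i, Gen.d, Gen.c, Gen.b, Gen.d, Gen.e,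 Gen.f, Gen.d, Gen.h, Gen.i, Gen.d, Gen.c, Gen.b, Gen.d, Gen.e, Gen.f, Gen.d, Gen.h, Gen.i, Gen.d, Gen.c, Gen.b, Gen.d, Gen.e, Gen.f, Gen.d, Gen.h, Gen.i] i = i := by
  intro i hi
  have h := Nat.eq_of_beq_eq_true (exr_0 i hi)
  simp only [evalT_cons', evalT_nil', tab_a, tab_b, tab_c, tab_d, tab_e, tab_f, tab_g, tab_h, tab_i]
  exact h

theorem exr_1_0 : allFrom (fun i => Nat.ble 14080 i || Nat.beq (tq_a (tq_b (tq_c (tq_d (tq_e (tq_f (tq_h (tq_a (tq_b (tq_c (tq_d (tq_e (tq_f (tq_h (tq_a (tq_b (tq_c (tq_d (tq_e (tq_f (tq_h (tq_a (tq_b (tq_c (tq_d (tq_e (tq_f (tq_h (tq_a (tq_b (tq_c (tq_d (tq_e (tq_f (tq_h (tq_a (tq_b (tq_c (tq_d (tq_e (tq_f (tq_h (tq_a (tq_b (tq_c (tq_d (tq_e (tq_f (tq_h (tq_a (tq_b (tq_c (tq_d (tq_e (tq_f (tq_h (tq_a (tq_b (tq_c (tq_d (tq_e (tq_f (tq_h i))))))))))))))))))))))))))))))))))))))))))))))))))))))))))))))) i) 0 396 = true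 := by decide +kernel
theorem exr_1_1 : allFrom (fun i => Nat.ble 14080 i || Nat.beq (tq_a (tq_b (tq_c (tq_d (tq_e (tq_f (tq_h (tq_a (tq_b (tq_c (tq_d (tq_e (tq_f (tq_h (tq_a (tq_b (tq_c (tq_d (tq_e (tq_f (tq_h (tq_a (tq_b (tq_c (tq_d (tq_e (tq_f (tq_h (tq_a (tq_b (tq_c (tq_d (tq_e (tq_f (tq_h (tq_a (tq_b (tq_c (tq_d (tq_e (tq_f (tq_h (tq_a (tq_b (tq_c (tq_d (tq_e (tq_f (tq_h (tq_a (tq_b (tq_c (tq_d (tq_e (tq_f (tq_h (tq_a (tq_b (tq_c (tq_d (tq_e (tq_f (tq_h i))))))))))))))))))))))))))))))))))))))))))))))))))))))))))))))) i) 396 396 = true := by decide +kernel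
theorem exr_1_2 : allFrom (fun i => Nat.ble 14080 i || Nat.beq (tq_a (tq_b (tq_c (tq_d (tq_e (tq_f (tq_h (tq_a (tq_b (tq_c (tq_d (tq_e (tq_f (tq_h (tq_a (tq_b (tq_c (tq_d (tq_e (tq_f (tq_h (tq_a (tq_b (tq_c (tq_d (tq_e (tq_f (tq_h (tq_a (tq_b (tq_c (tq_d (tq_e (tq_f (tq_h (tq_a (tq_b (tq_c (tq_d (tq_e (tq_f (tq_h (tq_a (tq_b (tq_c (tq_d (tq_e (tq_f (tq_h (tq_a (tq_b (tq_c (tq_d (tq_e (tq_f (tq_h (tq_a (tq_b (tq_c (tq_d (tq_e (tq_f (tq_h i))))))))))))))))))))))))))))))))))))))))))))))))))))))))))))))) i) 792 396 = true := by decide +kernel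
theorem exr_1_3 : allFrom (fun i => Nat.ble 14080 i || Nat.beq (tq_a (tq_b (tq_c (tq_d (tq_e (tq_f (tq_h (tq_a (tq_b (tq_c (tq_d (tq_e (tq_f (tq_h (tq_a (tq_b (tq_c (tq_d (tq_e (tq_f (tq_h (tq_a (tq_b (tq_c (tq_d (tq_e (tq_f (tq_h (tq_a (tq_b (tq_c (tq_d (tq_e (tq_f (tq_h (tq_a (tq_b (tq_c (tq_d (tq_e (tq_f (tq_h (tq_a (tq_b (tq_c (tq_d (tq_e (tq_f (tq_h (tq_a (tq_b (tq_c (tq_d (tq_e (tq_f (tq_h (tq_a (tq_b (tq_c (tq_d (tq_e (tq_f (tq_h i))))))))))))))))))))))))))))))))))))))))))))))))))))))))))))))) i) 1188 396 = true := by decide +kernel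
theorem exr_1_4 : allFrom (fun i => Nat.ble 14080 i || Nat.beq (tq_a (tq_b (tq_c (tq_d (tq_e (tq_f (tq_h (tq_a (tq_b (tq_c (tq_d (tq_e (tq_f (tq_h (tq_a (tq_b (tq_c (tq_d (tq_e (tq_f (tq_h (tq_a (tq_b (tq_c (tq_d (tq_e (tq_f (tq_h (tq_a (tq_b (tq_c (tq_d (tq_e (tq_f (tq_h (tq_a (tq_b (tq_c (tq_d (tq_e (tq_f (tq_h (tq_a (tq_b (tq_c (tq_d (tq_e (tq_f (tq_h (tq_a (tq_b (tq_c (tq_d (tq_e (tq_f (tq_h (tq_a (tq_b (tq_c (tq_d (tq_e (tq_f (tq_h i))))))))))))))))))))))))))))))))))))))))))))))))))))))))))))))) i) 1584 396 = true := by decide +kernel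
theorem exr_1_5 : allFrom (fun i => Nat.ble 14080 i || Nat.beq (tq_a (tq_b (tq_c (tq_d (tq_e (tq_f (tq_h (tq_a (tq_b (tq_c (tq_d (tq_e (tq_f (tq_h (tq_a (tq_b (tq_c (tq_d (tq_e (tq_f (tq_h (tq_a (tq_b (tq_c (tq_d (tq_e (tq_f (tq_h (tq_a (tq_b (tq_c (tq_d (tq_e (tq_f (tq_h (tq_a (tq_b (tq_c (tq_d (tq_e (tq_f (tq_h (tq_a (tq_b (tq_c (tq_d (tq_e (tq_f (tq_h (tq_a (tq_b (tq_c (tq_d (tq_e (tq_f (tq_h (tq_a (tq_b (tq_c (tq_d (tq_e (tq_f (tq_h i))))))))))))))))))))))))))))))))))))))))))))))))))))))))))))))) i) 1980 396 = true := by decide +kernel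
theorem exr_1_6 : allFrom (fun i => Nat.ble 14080 i || Nat.beq (tq_a (tq_b (tq_c (tq_d (tq_e (tq_f (tq_h (tq_a (tq_b (tq_c (tq_d (tq_e (tq_f (tq_h (tq_a (tq_b (tq_c (tq_d (tq_e (tq_f (tq_h (tq_a (tq_b (tq_c (tq_d (tq_e (tq_f (tq_h (tq_a (tq_b (tq_c (tq_d (tq_e (tq_f (tq_h (tq_a (tq_b (tq_c (tq_d (tq_e (tq_f (tq_h (tq_a (tq_b (tq_c (tq_d (tq_e (tq_f (tq_h (tq_a (tq_b (tq_c (tq_d (tq_e (tq_f (tq_h (tq_a (tq_b (tq_c (tq_d (tq_e (tq_f (tq_h i))))))))))))))))))))))))))))))))))))))))))))))))))))))))))))))) i) 2376 396 = true := by decide +kernel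
theorem exr_1_7 : allFrom (fun i => Nat.ble 14080 i || Nat.beq (tq_a (tq_b (tq_c (tq_d (tq_e (tq_f (tq_h (tq_a (tq_b (tq_c (tq_d (tq_e (tq_f (tq_h (tq_a (tq_b (tq_c (tq_d (tq_e (tq_f (tq_h (tq_a (tq_b (tq_c (tq_d (tq_e (tq_f (tq_h (tq_a (tq_b (tq_c (tq_d (tq_e (tq_f (tq_h (tq_a (tq_b (tq_c (tq_d (tq_e (tq_f (tq_h (tq_a (tq_b (tq_c (tq_d (tq_e (tq_f (tq_h (tq_a (tq_b (tq_c (tq_d (tq_e (tq_f (tq_h (tq_a (tq_b (tq_c (tq_d (tq_e (tq_f (tq_h i))))))))))))))))))))))))))))))))))))))))))))))))))))))))))))))) i) 2772 396 = true := by decide +kernel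
theorem exr_1_8 : allFrom (fun i => Nat.ble 14080 i || Nat.beq (tq_a (tq_b (tq_c (tq_d (tq_e (tq_f (tq_h (tq_a (tq_b (tq_c (tq_d (tq_e (tq_f (tq_h (tq_a (tq_b (tq_c (tq_d (tq_e (tq_f (tq_h (tq_a (tq_b (tq_c (tq_d (tq_e (tq_f (tq_h (tq_a (tq_b (tq_c (tq_d (tq_e (tq_f (tq_h (tq_a (tq_b (tq_c (tq_d (tq_e (tq_f (tq_h (tq_a (tq_b (tq_c (tq_d (tq_e (tq_f (tq_h (tq_a (tq_b (tq_c (tq_d (tq_e (tq_f (tq_h (tq_a (tq_b (tq_c (tq_d (tq_e (tq_f (tq_h i))))))))))))))))))))))))))))))))))))))))))))))))))))))))))))))) i) 3168 396 = true := by decide +kernel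
theorem exr_1_9 : allFrom (fun i => Nat.ble 14080 i || Nat.beq (tq_a (tq_b (tq_c (tq_d (tq_e (tq_f (tq_h (tq_a (tq_b (tq_c (tq_d (tq_e (tq_f (tq_h (tq_a (tq_b (tq_c (tq_d (tq_e (tq_f (tq_h (tq_a (tq_b (tq_c (tq_d (tq_e (tq_f (tq_h (tq_a (tq_b (tq_c (tq_d (tq_e (tq_f (tq_h (tq_a (tq_b (tq_c (tq_d (tq_e (tq_f (tq_h (tq_a (tq_b (tq_c (tq_d (tq_e (tq_f (tq_h (tq_a (tq_b (tq_c (tq_d (tq_e (tq_f (tq_h (tq_a (tq_b (tq_c (tq_d (tq_e (tq_f (tq_h i))))))))))))))))))))))))))))))))))))))))))))))))))))))))))))))) i) 3564 396 = true := by decide +kernel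
theorem exr_1_10 : allFrom (fun i => Nat.ble 14080 i || Nat.beq (tq_a (tq_b (tq_c (tq_d (tq_e (tq_f (tq_h (tq_a (tq_b (tq_c (tq_d (tq_e (tq_f (tq_h (tq_a (tq_b (tq_c (tq_d (tq_e (tq_f (tq_h (tq_a (tq_b (tq_c (tq_d (tq_e (tq_f (tq_h (tq_a (tq_b (tq_c (tq_d (tq_e (tq_f (tq_h (tq_a (tq_b (tq_c (tq_d (tq_e (tq_f (tq_h (tq_a (tq_b (tq_c (tq_d (tq_e (tq_f (tq_h (tq_a (tq_b (tq_c (tq_d (tq_e (tq_f (tq_h (tq_a (tq_b (tq_c (tq_d (tq_e (tq_f (tq_h i))))))))))))))))))))))))))))))))))))))))))))))))))))))))))))))) i) 3960 396 = true := by decide +kernel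
theorem exr_1_11 : allFrom (fun i => Nat.ble 14080 i || Nat.beq (tq_a (tq_b (tq_c (tq_d (tq_e (tq_f (tq_h (tq_a (tq_b (tq_c (tq_d (tq_e (tq_f (tq_h (tq_a (tq_b (tq_c (tq_d (tq_e (tq_f (tq_h (tq_a (tq_b (tq_c (tq_d (tq_e (tq_f (tq_h (tq_a (tq_b (tq_c (tq_d (tq_e (tq_f (tq_h (tq_a (tq_b (tq_c (tq_d (tq_e (tq_f (tq_h (tq_a (tq_b (tq_c (tq_d (tq_e (tq_f (tq_h (tq_a (tq_b (tq_c (tq_d (tq_e (tq_f (tq_h (tq_a (tq_b (tq_c (tq_d (tq_e (tq_f (tq_h i))))))))))))))))))))))))))))))))))))))))))))))))))))))))))))))) i) 4356 396 = true := by decide +kernel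
theorem exr_1_12 : allFrom (fun i => Nat.ble 14080 i || Nat.beq (tq_a (tq_b (tq_c (tq_d (tq_e (tq_f (tq_h (tq_a (tq_b (tq_c (tq_d (tq_e (tq_f (tq_h (tq_a (tq_b (tq_c (tq_d (tq_e (tq_f (tq_h (tq_a (tq_b (tq_c (tq_d (tq_e (tq_f (tq_h (tq_a (tq_b (tq_c (tq_d (tq_e (tq_f (tq_h (tq_a (tq_b (tq_c (tq_d (tq_e (tq_f (tq_h (tq_a (tq_b (tq_c (tq_d (tq_e (tq_f (tq_h (tq_a (tq_b (tq_c (tq_d (tq_e (tq_f (tq_h (tq_a (tq_b (tq_c (tq_d (tq_e (tq_f (tq_h i))))))))))))))))))))))))))))))))))))))))))))))))))))))))))))))) i) 4752 396 = true := by decide +kernel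
theorem exr_1_13 : allFrom (fun i => Nat.ble 14080 i || Nat.beq (tq_a (tq_b (tq_c (tq_d (tq_e (tq_f (tq_h (tq_a (tq_b (tq_c (tq_d (tq_e (tq_f (tq_h (tq_a (tq_b (tq_c (tq_d (tq_e (tq_f (tq_h (tq_a (tq_b (tq_c (tq_d (tq_e (tq_f (tq_h (tq_a (tq_b (tq_c (tq_d (tq_e (tq_f (tq_h (tq_a (tq_b (tq_c (tq_d (tq_e (tq_f (tq_h (tq_a (tq_b (tq_c (tq_d (tq_e (tq_f (tq_h (tq_a (tq_b (tq_c (tq_d (tq_e (tq_f (tq_h (tq_a (tq_b (tq_c (tq_d (tq_e (tq_f (tq_h i))))))))))))))))))))))))))))))))))))))))))))))))))))))))))))))) i) 5148 396 = true := by decide +kernel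
theorem exr_1_14 : allFrom (fun i => Nat.ble 14080 i || Nat.beq (tq_a (tq_b (tq_c (tq_d (tq_e (tq_f (tq_h (tq_a (tq_b (tq_c (tq_d (tq_e (tq_f (tq_h (tq_a (tq_b (tq_c (tq_d (tq_e (tq_f (tq_h (tq_a (tq_b (tq_c (tq_d (tq_e (tq_f (tq_h (tq_a (tq_b (tq_c (tq_d (tq_e (tq_f (tq_h (tq_a (tq_b (tq_c (tq_d (tq_e (tq_f (tq_h (tq_a (tq_b (tq_c (tq_d (tq_e (tq_f (tq_h (tq_a (tq_b (tq_c (tq_d (tq_e (tq_f (tq_h (tq_a (tq_b (tq_c (tq_d (tq_e (tq_f (tq_h i))))))))))))))))))))))))))))))))))))))))))))))))))))))))))))))) i) 5544 396 = true := by decide +kernel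
theorem exr_1_15 : allFrom (fun i => Nat.ble 14080 i || Nat.beq (tq_a (tq_b (tq_c (tq_d (tq_e (tq_f (tq_h (tq_a (tq_b (tq_c (tq_d (tq_e (tq_f (tq_h (tq_a (tq_b (tq_c (tq_d (tq_e (tq_f (tq_h (tq_a (tq_b (tq_c (tq_d (tq_e (tq_f (tq_h (tq_a (tq_b (tq_c (tq_d (tq_e (tq_f (tq_h (tq_a (tq_b (tq_c (tq_d (tq_e (tq_f (tq_h (tq_a (tq_b (tq_c (tq_d (tq_e (tq_f (tq_h (tq_a (tq_b (tq_c (tq_d (tq_e (tq_f (tq_h (tq_a (tq_b (tq_c (tq_d (tq_e (tq_f (tq_h i))))))))))))))))))))))))))))))))))))))))))))))))))))))))))))))) i) 5940 396 = true := by decide +kernel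
theorem exr_1_16 : allFrom (fun i => Nat.ble 14080 i || Nat.beq (tq_a (tq_b (tq_c (tq_d (tq_e (tq_f (tq_h (tq_a (tq_b (tq_c (tq_d (tq_e (tq_f (tq_h (tq_a (tq_b (tq_c (tq_d (tq_e (tq_f (tq_h (tq_a (tq_b (tq_c (tq_d (tq_e (tq_f (tq_h (tq_a (tq_b (tq_c (tq_d (tq_e (tq_f (tq_h (tq_a (tq_b (tq_c (tq_d (tq_e (tq_f (tq_h (tq_a (tq_b (tq_c (tq_d (tq_e (tq_f (tq_h (tq_a (tq_b (tq_c (tq_d (tq_e (tq_f (tq_h (tq_a (tq_b (tq_c (tq_d (tq_e (tq_f (tq_h i))))))))))))))))))))))))))))))))))))))))))))))))))))))))))))))) i) 6336 396 = true := by decide +kernel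
theorem exr_1_17 : allFrom (fun i => Nat.ble 14080 i || Nat.beq (tq_a (tq_b (tq_c (tq_d (tq_e (tq_f (tq_h (tq_a (tq_b (tq_c (tq_d (tq_e (tq_f (tq_h (tq_a (tq_b (tq_c (tq_d (tq_e (tq_f (tq_h (tq_a (tq_b (tq_c (tq_d (tq_e (tq_f (tq_h (tq_a (tq_b (tq_c (tq_d (tq_e (tq_f (tq_h (tq_a (tq_b (tq_c (tq_d (tq_e (tq_f (tq_h (tq_a (tq_b (tq_c (tq_d (tq_e (tq_f (tq_h (tq_a (tq_b (tq_c (tq_d (tq_e (tq_f (tq_h (tq_a (tq_b (tq_c (tq_d (tq_e (tq_f (tq_h i))))))))))))))))))))))))))))))))))))))))))))))))))))))))))))))) i) 6732 396 = true := by decide +kernel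
theorem exr_1_18 : allFrom (fun i => Nat.ble 14080 i || Nat.beq (tq_a (tq_b (tq_c (tq_d (tq_e (tq_f (tq_h (tq_a (tq_b (tq_c (tq_d (tq_e (tq_f (tq_h (tq_a (tq_b (tq_c (tq_d (tq_e (tq_f (tq_h (tq_a (tq_b (tq_c (tq_d (tq_e (tq_f (tq_h (tq_a (tq_b (tq_c (tq_d (tq_e (tq_f (tq_h (tq_a (tq_b (tq_c (tq_d (tq_e (tq_f (tq_h (tq_a (tq_b (tq_c (tq_d (tq_e (tq_f (tq_h (tq_a (tq_b (tq_c (tq_d (tq_e (tq_f (tq_h (tq_a (tq_b (tq_c (tq_d (tq_e (tq_f (tq_h i))))))))))))))))))))))))))))))))))))))))))))))))))))))))))))))) i) 7128 396 = true := by decide +kernel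
theorem exr_1_19 : allFrom (fun i => Nat.ble 14080 i || Nat.beq (tq_a (tq_b (tq_c (tq_d (tq_e (tq_f (tq_h (tq_a (tq_b (tq_c (tq_d (tq_e (tq_f (tq_h (tq_a (tq_b (tq_c (tq_d (tq_e (tq_f (tq_h (tq_a (tq_b (tq_c (tq_d (tq_e (tq_f (tq_h (tq_a (tq_b (tq_c (tq_d (tq_e (tq_f (tq_h (tq_a (tq_b (tq_c (tq_d (tq_e (tq_f (tq_h (tq_a (tq_b (tq_c (tq_d (tq_e (tq_f (tq_h (tq_a (tq_b (tq_c (tq_d (tq_e (tq_f (tq_h (tq_a (tq_b (tq_c (tq_d (tq_e (tq_f (tq_h i))))))))))))))))))))))))))))))))))))))))))))))))))))))))))))))) i) 7524 396 = true := by decide +kernel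
theorem exr_1_20 : allFrom (fun i => Nat.ble 14080 i || Nat.beq (tq_a (tq_b (tq_c (tq_d (tq_e (tq_f (tq_h (tq_a (tq_b (tq_c (tq_d (tq_e (tq_f (tq_h (tq_a (tq_b (tq_c (tq_d (tq_e (tq_f (tq_h (tq_a (tq_b (tq_c (tq_d (tq_e (tq_f (tq_h (tq_a (tq_b (tq_c (tq_d (tq_e (tq_f (tq_h (tq_a (tq_b (tq_c (tq_d (tq_e (tq_f (tq_h (tq_a (tq_b (tq_c (tq_d (tq_e (tq_f (tq_h (tq_a (tq_b (tq_c (tq_d (tq_e (tq_f (tq_h (tq_a (tq_b (tq_c (tq_d (tq_e (tq_f (tq_h i))))))))))))))))))))))))))))))))))))))))))))))))))))))))))))))) i) 7920 396 = true := by decide +kernel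
theorem exr_1_21 : allFrom (fun i => Nat.ble 14080 i || Nat.beq (tq_a (tq_b (tq_c (tq_d (tq_e (tq_f (tq_h (tq_a (tq_b (tq_c (tq_d (tq_e (tq_f (tq_h (tq_a (tq_b (tq_c (tq_d (tq_e (tq_f (tq_h (tq_a (tq_b (tq_c (tq_d (tq_e (tq_f (tq_h (tq_a (tq_b (tq_c (tq_d (tq_e (tq_f (tq_h (tq_a (tq_b (tq_c (tq_d (tq_e (tq_f (tq_h (tq_a (tq_b (tq_c (tq_d (tq_e (tq_f (tq_h (tq_a (tq_b (tq_c (tq_d (tq_e (tq_f (tq_h (tq_a (tq_b (tq_c (tq_d (tq_e (tq_f (tq_h i))))))))))))))))))))))))))))))))))))))))))))))))))))))))))))))) i) 8316 396 = true := by decide +kernel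
theorem exr_1_22 : allFrom (fun i => Nat.ble 14080 i || Nat.beq (tq_a (tq_b (tq_c (tq_d (tq_e (tq_f (tq_h (tq_a (tq_b (tq_c (tq_d (tq_e (tq_f (tq_h (tq_a (tq_b (tq_c (tq_d (tq_e (tq_f (tq_h (tq_a (tq_b (tq_c (tq_d (tq_e (tq_f (tq_h (tq_a (tq_b (tq_c (tq_d (tq_e (tq_f (tq_h (tq_a (tq_b (tq_c (tq_d (tq_e (tq_f (tq_h (tq_a (tq_b (tq_c (tq_d (tq_e (tq_f (tq_h (tq_a (tq_b (tq_c (tq_d (tq_e (tq_f (tq_h (tq_a (tq_b (tq_c (tq_d (tq_e (tq_f (tq_h i))))))))))))))))))))))))))))))))))))))))))))))))))))))))))))))) i) 8712 396 = true := by decide +kernel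
theorem exr_1_23 : allFrom (fun i => Nat.ble 14080 i || Nat.beq (tq_a (tq_b (tq_c (tq_d (tq_e (tq_f (tq_h (tq_a (tq_b (tq_c (tq_d (tq_e (tq_f (tq_h (tq_a (tq_b (tq_c (tq_d (tq_e (tq_f (tq_h (tq_a (tq_b (tq_c (tq_d (tq_e (tq_f (tq_h (tq_a (tq_b (tq_c (tq_d (tq_e (tq_f (tq_h (tq_a (tq_b (tq_c (tq_d (tq_e (tq_f (tq_h (tq_a (tq_b (tq_c (tq_d (tq_e (tq_f (tq_h (tq_a (tq_b (tq_c (tq_d (tq_e (tq_f (tq_h (tq_a (tq_b (tq_c (tq_d (tq_e (tq_f (tq_h i))))))))))))))))))))))))))))))))))))))))))))))))))))))))))))))) i) 9108 396 = true := by decide +kernel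
theorem exr_1_24 : allFrom (fun i => Nat.ble 14080 i || Nat.beq (tq_a (tq_b (tq_c (tq_d (tq_e (tq_f (tq_h (tq_a (tq_b (tq_c (tq_d (tq_e (tq_f (tq_h (tq_a (tq_b (tq_c (tq_d (tq_e (tq_f (tq_h (tq_a (tq_b (tq_c (tq_d (tq_e (tq_f (tq_h (tq_a (tq_b (tq_c (tq_d (tq_e (tq_f (tq_h (tq_a (tq_b (tq_c (tq_d (tq_e (tq_f (tq_h (tq_a (tq_b (tq_c (tq_d (tq_e (tq_f (tq_h (tq_a (tq_b (tq_c (tq_d (tq_e (tq_f (tq_h (tq_a (tq_b (tq_c (tq_d (tq_e (tq_f (tq_h i))))))))))))))))))))))))))))))))))))))))))))))))))))))))))))))) i) 9504 396 = true := by decide +kernel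
theorem exr_1_25 : allFrom (fun i => Nat.ble 14080 i || Nat.beq (tq_a (tq_b (tq_c (tq_d (tq_e (tq_f (tq_h (tq_a (tq_b (tq_c (tq_d (tq_e (tq_f (tq_h (tq_a (tq_b (tq_c (tq_d (tq_e (tq_f (tq_h (tq_a (tq_b (tq_c (tq_d (tq_e (tq_f (tq_h (tq_a (tq_b (tq_c (tq_d (tq_e (tq_f (tq_h (tq_a (tq_b (tq_c (tq_d (tq_e (tq_f (tq_h (tq_a (tq_b (tq_c (tq_d (tq_e (tq_f (tq_h (tq_a (tq_b (tq_c (tq_d (tq_e (tq_f (tq_h (tq_a (tq_b (tq_c (tq_d (tq_e (tq_f (tq_h i))))))))))))))))))))))))))))))))))))))))))))))))))))))))))))))) i) 9900 396 = true := by decide +kernel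
theorem exr_1_26 : allFrom (fun i => Nat.ble 14080 i || Nat.beq (tq_a (tq_b (tq_c (tq_d (tq_e (tq_f (tq_h (tq_a (tq_b (tq_c (tq_d (tq_e (tq_f (tq_h (tq_a (tq_b (tq_c (tq_d (tq_e (tq_f (tq_h (tq_a (tq_b (tq_c (tq_d (tq_e (tq_f (tq_h (tq_a (tq_b (tq_c (tq_d (tq_e (tq_f (tq_h (tq_a (tq_b (tq_c (tq_d (tq_e (tq_f (tq_h (tq_a (tq_b (tq_c (tq_d (tq_e (tq_f (tq_h (tq_a (tq_b (tq_c (tq_d (tq_e (tq_f (tq_h (tq_a (tq_b (tq_c (tq_d (tq_e (tq_f (tq_h i))))))))))))))))))))))))))))))))))))))))))))))))))))))))))))))) i) 10296 396 = true := by decide +kernel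
theorem exr_1_27 : allFrom (fun i => Nat.ble 14080 i || Nat.beq (tq_a (tq_b (tq_c (tq_d (tq_e (tq_f (tq_h (tq_a (tq_b (tq_c (tq_d (tq_e (tq_f (tq_h (tq_a (tq_b (tq_c (tq_d (tq_e (tq_f (tq_h (tq_a (tq_b (tq_c (tq_d (tq_e (tq_f (tq_h (tq_a (tq_b (tq_c (tq_d (tq_e (tq_f (tq_h (tq_a (tq_b (tq_c (tq_d (tq_e (tq_f (tq_h (tq_a (tq_b (tq_c (tq_d (tq_e (tq_f (tq_h (tq_a (tq_b (tq_c (tq_d (tq_e (tq_f (tq_h (tq_a (tq_b (tq_c (tq_d (tq_e (tq_f (tq_h i))))))))))))))))))))))))))))))))))))))))))))))))))))))))))))))) i) 10692 396 = true := by decide +kernel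
theorem exr_1_28 : allFrom (fun i => Nat.ble 14080 i || Nat.beq (tq_a (tq_b (tq_c (tq_d (tq_e (tq_f (tq_h (tq_a (tq_b (tq_c (tq_d (tq_e (tq_f (tq_h (tq_a (tq_b (tq_c (tq_d (tq_e (tq_f (tq_h (tq_a (tq_b (tq_c (tq_d (tq_e (tq_f (tq_h (tq_a (tq_b (tq_c (tq_d (tq_e (tq_f (tq_h (tq_a (tq_b (tq_c (tq_d (tq_e (tq_f (tq_h (tq_a (tq_b (tq_c (tq_d (tq_e (tq_f (tq_h (tq_a (tq_b (tq_c (tq_d (tq_e (tq_f (tq_h (tq_a (tq_b (tq_c (tq_d (tq_e (tq_f (tq_h i))))))))))))))))))))))))))))))))))))))))))))))))))))))))))))))) i) 11088 396 = true := by decide +kernel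
theorem exr_1_29 : allFrom (fun i => Nat.ble 14080 i || Nat.beq (tq_a (tq_b (tq_c (tq_d (tq_e (tq_f (tq_h (tq_a (tq_b (tq_c (tq_d (tq_e (tq_f (tq_h (tq_a (tq_b (tq_c (tq_d (tq_e (tq_f (tq_h (tq_a (tq_b (tq_c (tq_d (tq_e (tq_f (tq_h (tq_a (tq_b (tq_c (tq_d (tq_e (tq_f (tq_h (tq_a (tq_b (tq_c (tq_d (tq_e (tq_f (tq_h (tq_a (tq_b (tq_c (tq_d (tq_e (tq_f (tq_h (tq_a (tq_b (tq_c (tq_d (tq_e (tq_f (tq_h (tq_a (tq_b (tq_c (tq_d (tq_e (tq_f (tq_h i))))))))))))))))))))))))))))))))))))))))))))))))))))))))))))))) i) 11484 396 = true := by decide +kernel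
theorem exr_1_30 : allFrom (fun i => Nat.ble 14080 i || Nat.beq (tq_a (tq_b (tq_c (tq_d (tq_e (tq_f (tq_h (tq_a (tq_b (tq_c (tq_d (tq_e (tq_f (tq_h (tq_a (tq_b (tq_c (tq_d (tq_e (tq_f (tq_h (tq_a (tq_b (tq_c (tq_d (tq_e (tq_f (tq_h (tq_a (tq_b (tq_c (tq_d (tq_e (tq_f (tq_h (tq_a (tq_b (tq_c (tq_d (tq_e (tq_f (tq_h (tq_a (tq_b (tq_c (tq_d (tq_e (tq_f (tq_h (tq_a (tq_b (tq_c (tq_d (tq_e (tq_f (tq_h (tq_a (tq_b (tq_c (tq_d (tq_e (tq_f (tq_h i))))))))))))))))))))))))))))))))))))))))))))))))))))))))))))))) i) 11880 396 = true := by decide +kernel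
theorem exr_1_31 : allFrom (fun i => Nat.ble 14080 i || Nat.beq (tq_a (tq_b (tq_c (tq_d (tq_e (tq_f (tq_h (tq_a (tq_b (tq_c (tq_d (tq_e (tq_f (tq_h (tq_a (tq_b (tq_c (tq_d (tq_e (tq_f (tq_h (tq_a (tq_b (tq_c (tq_d (tq_e (tq_f (tq_h (tq_a (tq_b (tq_c (tq_d (tq_e (tq_f (tq_h (tq_a (tq_b (tq_c (tq_d (tq_e (tq_f (tq_h (tq_a (tq_b (tq_c (tq_d (tq_e (tq_f (tq_h (tq_a (tq_b (tq_c (tq_d (tq_e (tq_f (tq_h (tq_a (tq_b (tq_c (tq_d (tq_e (tq_f (tq_h i))))))))))))))))))))))))))))))))))))))))))))))))))))))))))))))) i) 12276 396 = true := by decide +kernel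
theorem exr_1_32 : allFrom (fun i => Nat.ble 14080 i || Nat.beq (tq_a (tq_b (tq_c (tq_d (tq_e (tq_f (tq_h (tq_a (tq_b (tq_c (tq_d (tq_e (tq_f (tq_h (tq_a (tq_b (tq_c (tq_d (tq_e (tq_f (tq_h (tq_a (tq_b (tq_c (tq_d (tq_e (tq_f (tq_h (tq_a (tq_b (tq_c (tq_d (tq_e (tq_f (tq_h (tq_a (tq_b (tq_c (tq_d (tq_e (tq_f (tq_h (tq_a (tq_b (tq_c (tq_d (tq_e (tq_f (tq_h (tq_a (tq_b (tq_c (tq_d (tq_e (tq_f (tq_h (tq_a (tq_b (tq_c (tq_d (tq_e (tq_f (tq_h i))))))))))))))))))))))))))))))))))))))))))))))))))))))))))))))) i) 12672 396 = true := by decide +kernel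
theorem exr_1_33 : allFrom (fun i => Nat.ble 14080 i || Nat.beq (tq_a (tq_b (tq_c (tq_d (tq_e (tq_f (tq_h (tq_a (tq_b (tq_c (tq_d (tq_e (tq_f (tq_h (tq_a (tq_b (tq_c (tq_d (tq_e (tq_f (tq_h (tq_a (tq_b (tq_c (tq_d (tq_e (tq_f (tq_h (tq_a (tq_b (tq_c (tq_d (tq_e (tq_f (tq_h (tq_a (tq_b (tq_c (tq_d (tq_e (tq_f (tq_h (tq_a (tq_b (tq_c (tq_d (tq_e (tq_f (tq_h (tq_a (tq_b (tq_c (tq_d (tq_e (tq_f (tq_h (tq_a (tq_b (tq_c (tq_d (tq_e (tq_f (tq_h i))))))))))))))))))))))))))))))))))))))))))))))))))))))))))))))) i) 13068 396 = true := by decide +kernel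
theorem exr_1_34 : allFrom (fun i => Nat.ble 14080 i || Nat.beq (tq_a (tq_b (tq_c (tq_d (tq_e (tq_f (tq_h (tq_a (tq_b (tq_c (tq_d (tq_e (tq_f (tq_h (tq_a (tq_b (tq_c (tq_d (tq_e (tq_f (tq_h (tq_a (tq_b (tq_c (tq_d (tq_e (tq_f (tq_h (tq_a (tq_b (tq_c (tq_d (tq_e (tq_f (tq_h (tq_a (tq_b (tq_c (tq_d (tq_e (tq_f (tq_h (tq_a (tq_b (tq_c (tq_d (tq_e (tq_f (tq_h (tq_a (tq_b (tq_c (tq_d (tq_e (tq_f (tq_h (tq_a (tq_b (tq_c (tq_d (tq_e (tq_f (tq_h i))))))))))))))))))))))))))))))))))))))))))))))))))))))))))))))) i) 13464 396 = true := by decide +kernel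
theorem exr_1_35 : allFrom (fun i => Nat.ble 14080 i || Nat.beq (tq_a (tq_b (tq_c (tq_d (tq_e (tq_f (tq_h (tq_a (tq_b (tq_c (tq_d (tq_e (tq_f (tq_h (tq_a (tq_b (tq_c (tq_d (tq_e (tq_f (tq_h (tq_a (tq_b (tq_c (tq_d (tq_e (tq_f (tq_h (tq_a (tq_b (tq_c (tq_d (tq_e (tq_f (tq_h (tq_a (tq_b (tq_c (tq_d (tq_e (tq_f (tq_h (tq_a (tq_b (tq_c (tq_d (tq_e (tq_f (tq_h (tq_a (tq_b (tq_c (tq_d (tq_e (tq_f (tq_h (tq_a (tq_b (tq_c (tq_d (tq_e (tq_f (tq_h i))))))))))))))))))))))))))))))))))))))))))))))))))))))))))))))) i) 13860 396 = true := by decide +kernel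
theorem exr_1 : ∀ i, i < 14080 → (Nat.beq (tq_a (tq_b (tq_c (tq_d (tq_e (tq_f (tq_h (tq_a (tq_b (tq_c (tq_d (tq_e (tq_f (tq_h (tq_a (tq_b (tq_c (tq_d (tq_e (tq_f (tq_h (tq_a (tq_b (tq_c (tq_d (tq_e (tq_f (tq_h (tq_a (tq_b (tq_c (tq_d (tq_e (tq_f (tq_h (tq_a (tq_b (tq_c (tq_d (tq_e (tq_f (tq_h (tq_a (tq_b (tq_c (tq_d (tq_e (tq_f (tq_h (tq_a (tq_b (tq_c (tq_d (tq_e (tq_f (tq_h (tq_a (tq_b (tq_c (tq_d (tq_e (tq_f (tq_h i))))))))))))))))))))))))))))))))))))))))))))))))))))))))))))))) i) = true :=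
  blocks_lt (fun i => Nat.beq (tq_a (tq_b (tq_c (tq_d (tq_e (tq_f (tq_h (tq_a (tq_b (tq_c (tq_d (tq_e (tq_f (tq_h (tq_a (tq_b (tq_c (tq_d (tq_e (tq_f (tq_h (tq_a (tq_b (tq_c (tq_d (tq_e (tq_f (tq_h (tq_a (tq_b (tq_c (tq_d (tq_e (tq_f (tq_h (tq_a (tq_b (tq_c (tq_d (tq_e (tq_f (tq_h (tq_a (tq_b (tq_c (tq_d (tq_e (tq_f (tq_h (tq_a (tq_b (tq_c (tq_d (tq_e (tq_f (tq_h (tq_a (tq_b (tq_c (tq_d (tq_e (tq_f (tq_h i))))))))))))))))))))))))))))))))))))))))))))))))))))))))))))))) i) 14080 396 36 (by norm_num) ⟨exr_1_0, exr_1_1, exr_1_2, exr_1_3, exr_1_4, exr_1_5, exr_1_6, exr_1_7, exr_1_8, exr_1_9, exr_1_10, exr_1_11, exr_1_12, exr_1_13, exr_1_14, exr_1_15, exr_1_16, exr_1_17, exr_1_18, exr_1_19, exr_1_20, exr_1_21, exr_1_22, exr_1_23, exr_1_24, exr_1_25, exr_1_26, exr_1_27, exr_1_28, exr_1_29, exr_1_30, exr_1_31, exr_1_32, exr_1_33, exr_1_34, exr_1_35, trivial⟩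

theorem ex_1 : ∀ i, i < 14080 → evalT tab [Gen.a, Gen.b, Gen.c, Gen.d, Gen.e, Gen.f, Gen.h, Gen.a, Gen.b, Gen.c, Gen.d, Gen.e, Gen.f, Gen.h, Gen.a, Gen.b, Gen.c, Gen.d, Gen.e, Gen.f, Gen.h, Gen.a, Gen.b, Gen.c, Gen.d, Gen.e, Gen.f, Gen.h, Gen.a, Gen.b, Gen.c, Gen.d, Gen.e, Gen.f, Gen.h, Gen.a, Gen.b, Gen.c, Gen.d, Gen.e, Gen.f, Gen.h, Gen.a, Gen.b, Gen.c, Gen.d, Gen.e, Gen.f, Gen.h, Gen.a, Gen.b, Gen.c, Gen.d, Gen.e, Gen.f, Gen.h, Gen.a, Gen.b, Gen.c, Gen.d, Gen.e, Gen.f, Gen.h] i = i := by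
  intro i hi
  have h := Nat.eq_of_beq_eq_true (exr_1 i hi)
  simp only [evalT_cons', evalT_nil', tab_a, tab_b, tab_c, tab_d, tab_e, tab_f, tab_g, tab_h, tab_i]
  exact h

theorem exr_2_0 : allFrom (fun i => Nat.ble 14080 i || Nat.beq (tq_b (tq_c (tq_d (tq_e (tq_f (tq_g (tq_h (tq_b (tq_c (tq_d (tq_e (tq_f (tq_g (tq_h (tq_b (tq_c (tq_d (tq_e (tq_f (tq_g (tq_h (tq_b (tq_c (tq_d (tq_e (tq_f (tq_g (tq_h (tq_b (tq_c (tq_d (tq_e (tq_f (tq_g (tq_h (tq_b (tq_c (tq_d (tq_e (tq_f (tq_g (tq_h (tq_b (tq_c (tq_d (tq_e (tq_f (tq_g (tq_h (tq_b (tq_c (tq_d (tq_e (tq_f (tq_g (tq_h (tq_b (tq_c (tq_d (tq_e (tq_f (tq_g (tq_h i))))))))))))))))))))))))))))))))))))))))))))))))))))))))))))))) i) 0 396 = true := by decide +kernel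
theorem exr_2_1 : allFrom (fun i => Nat.ble 14080 i || Nat.beq (tq_b (tq_c (tq_d (tq_e (tq_f (tq_g (tq_h (tq_b (tq_c (tq_d (tq_e (tq_f (tq_g (tq_h (tq_b (tq_c (tq_d (tq_e (tq_f (tq_g (tq_h (tq_b (tq_c (tq_d (tq_e (tq_f (tq_g (tq_h (tq_b (tq_c (tq_d (tq_e (tq_f (tq_g (tq_h (tq_b (tq_c (tq_d (tq_e (tq_f (tq_g (tq_h (tq_b (tq_c (tq_d (tq_e (tq_f (tq_g (tq_h (tq_b (tq_c (tq_d (tq_e (tq_f (tq_g (tq_h (tq_b (tq_c (tq_d (tq_e (tq_f (tq_g (tq_h i))))))))))))))))))))))))))))))))))))))))))))))))))))))))))))))) i) 396 396 = true := by decide +kernel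
theorem exr_2_2 : allFrom (fun i => Nat.ble 14080 i || Nat.beq (tq_b (tq_c (tq_d (tq_e (tq_f (tq_g (tq_h (tq_b (tq_c (tq_d (tq_e (tq_f (tq_g (tq_h (tq_b (tq_c (tq_d (tq_e (tq_f (tq_g (tq_h (tq_b (tq_c (tq_d (tq_e (tq_f (tq_g (tq_h (tq_b (tq_c (tq_d (tq_e (tq_f (tq_g (tq_h (tq_b (tq_c (tq_d (tq_e (tq_f (tq_g (tq_h (tq_b (tq_c (tq_d (tq_e (tq_f (tq_g (tq_h (tq_b (tq_c (tq_d (tq_e (tq_f (tq_g (tq_h (tq_b (tq_c (tq_d (tq_e (tq_f (tq_g (tq_h i))))))))))))))))))))))))))))))))))))))))))))))))))))))))))))))) i) 792 396 = true := by decide +kernel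
theorem exr_2_3 : allFrom (fun i => Nat.ble 14080 i || Nat.beq (tq_b (tq_c (tq_d (tq_e (tq_f (tq_g (tq_h (tq_b (tq_c (tq_d (tq_e (tq_f (tq_g (tq_h (tq_b (tq_c (tq_d (tq_e (tq_f (tq_g (tq_h (tq_b (tq_c (tq_d (tq_e (tq_f (tq_g (tq_h (tq_b (tq_c (tq_d (tq_e (tq_f (tq_g (tq_h (tq_b (tq_c (tq_d (tq_e (tq_f (tq_g (tq_h (tq_b (tq_c (tq_d (tq_e (tq_f (tq_g (tq_h (tq_b (tq_c (tq_d (tq_e (tq_f (tq_g (tq_h (tq_b (tq_c (tq_d (tq_e (tq_f (tq_g (tq_h i))))))))))))))))))))))))))))))))))))))))))))))))))))))))))))))) i) 1188 396 = true := by decide +kernel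
theorem exr_2_4 : allFrom (fun i => Nat.ble 14080 i || Nat.beq (tq_b (tq_c (tq_d (tq_e (tq_f (tq_g (tq_h (tq_b (tq_c (tq_d (tq_e (tq_f (tq_g (tq_h (tq_b (tq_c (tq_d (tq_e (tq_f (tq_g (tq_h (tq_b (tq_c (tq_d (tq_e (tq_f (tq_g (tq_h (tq_b (tq_c (tq_d (tq_e (tq_f (tq_g (tq_h (tq_b (tq_c (tq_d (tq_e (tq_f (tq_g (tq_h (tq_b (tq_c (tq_d (tq_e (tq_f (tq_g (tq_h (tq_b (tq_c (tq_d (tq_e (tq_f (tq_g (tq_h (tq_b (tq_c (tq_d (tq_e (tq_f (tq_g (tq_h i))))))))))))))))))))))))))))))))))))))))))))))))))))))))))))))) i) 1584 396 = true := by decide +kernel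
theorem exr_2_5 : allFrom (fun i => Nat.ble 14080 i || Nat.beq (tq_b (tq_c (tq_d (tq_e (tq_f (tq_g (tq_h (tq_b (tq_c (tq_d (tq_e (tq_f (tq_g (tq_h (tq_b (tq_c (tq_d (tq_e (tq_f (tq_g (tq_h (tq_b (tq_c (tq_d (tq_e (tq_f (tq_g (tq_h (tq_b (tq_c (tq_d (tq_e (tq_f (tq_g (tq_h (tq_b (tq_c (tq_d (tq_e (tq_f (tq_g (tq_h (tq_b (tq_c (tq_d (tq_e (tq_f (tq_g (tq_h (tq_b (tq_c (tq_d (tq_e (tq_f (tq_g (tq_h (tq_b (tq_c (tq_d (tq_e (tq_f (tq_g (tq_h i))))))))))))))))))))))))))))))))))))))))))))))))))))))))))))))) i) 1980 396 = true := by decide +kernel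
theorem exr_2_6 : allFrom (fun i => Nat.ble 14080 i || Nat.beq (tq_b (tq_c (tq_d (tq_e (tq_f (tq_g (tq_h (tq_b (tq_c (tq_d (tq_e (tq_f (tq_g (tq_h (tq_b (tq_c (tq_d (tq_e (tq_f (tq_g (tq_h (tq_b (tq_c (tq_d (tq_e (tq_f (tq_g (tq_h (tq_b (tq_c (tq_d (tq_e (tq_f (tq_g (tq_h (tq_b (tq_c (tq_d (tq_e (tq_f (tq_g (tq_h (tq_b (tq_c (tq_d (tq_e (tq_f (tq_g (tq_h (tq_b (tq_c (tq_d (tq_e (tq_f (tq_g (tq_h (tq_b (tq_c (tq_d (tq_e (tq_f (tq_g (tq_h i))))))))))))))))))))))))))))))))))))))))))))))))))))))))))))))) i) 2376 396 = true := by decide +kernel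
theorem exr_2_7 : allFrom (fun i => Nat.ble 14080 i || Nat.beq (tq_b (tq_c (tq_d (tq_e (tq_f (tq_g (tq_h (tq_b (tq_c (tq_d (tq_e (tq_f (tq_g (tq_h (tq_b (tq_c (tq_d (tq_e (tq_f (tq_g (tq_h (tq_b (tq_c (tq_d (tq_e (tq_f (tq_g (tq_h (tq_b (tq_c (tq_d (tq_e (tq_f (tq_g (tq_h (tq_b (tq_c (tq_d (tq_e (tq_f (tq_g (tq_h (tq_b (tq_c (tq_d (tq_e (tq_f (tq_g (tq_h (tq_b (tq_c (tq_d (tq_e (tq_f (tq_g (tq_h (tq_b (tq_c (tq_d (tq_e (tq_f (tq_g (tq_h i))))))))))))))))))))))))))))))))))))))))))))))))))))))))))))))) i) 2772 396 = true := by decide +kernel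
theorem exr_2_8 : allFrom (fun i => Nat.ble 14080 i || Nat.beq (tq_b (tq_c (tq_d (tq_e (tq_f (tq_g (tq_h (tq_b (tq_c (tq_d (tq_e (tq_f (tq_g (tq_h (tq_b (tq_c (tq_d (tq_e (tq_f (tq_g (tq_h (tq_b (tq_c (tq_d (tq_e (tq_f (tq_g (tq_h (tq_b (tq_c (tq_d (tq_e (tq_f (tq_g (tq_h (tq_b (tq_c (tq_d (tq_e (tq_f (tq_g (tq_h (tq_b (tq_c (tq_d (tq_e (tq_f (tq_g (tq_h (tq_b (tq_c (tq_d (tq_e (tq_f (tq_g (tq_h (tq_b (tq_c (tq_d (tq_e (tq_f (tq_g (tq_h i))))))))))))))))))))))))))))))))))))))))))))))))))))))))))))))) i) 3168 396 = true := by decide +kernel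
theorem exr_2_9 : allFrom (fun i => Nat.ble 14080 i || Nat.beq (tq_b (tq_c (tq_d (tq_e (tq_f (tq_g (tq_h (tq_b (tq_c (tq_d (tq_e (tq_f (tq_g (tq_h (tq_b (tq_c (tq_d (tq_e (tq_f (tq_g (tq_h (tq_b (tq_c (tq_d (tq_e (tq_f (tq_g (tq_h (tq_b (tq_c (tq_d (tq_e (tq_f (tq_g (tq_h (tq_b (tq_c (tq_d (tq_e (tq_f (tq_g (tq_h (tq_b (tq_c (tq_d (tq_e (tq_f (tq_g (tq_h (tq_b (tq_c (tq_d (tq_e (tq_f (tq_g (tq_h (tq_b (tq_c (tq_d (tq_e (tq_f (tq_g (tq_h i))))))))))))))))))))))))))))))))))))))))))))))))))))))))))))))) i) 3564 396 = true := by decide +kernel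
theorem exr_2_10 : allFrom (fun i => Nat.ble 14080 i || Nat.beq (tq_b (tq_c (tq_d (tq_e (tq_f (tq_g (tq_h (tq_b (tq_c (tq_d (tq_e (tq_f (tq_g (tq_h (tq_b (tq_c (tq_d (tq_e (tq_f (tq_g (tq_h (tq_b (tq_c (tq_d (tq_e (tq_f (tq_g (tq_h (tq_b (tq_c (tq_d (tq_e (tq_f (tq_g (tq_h (tq_b (tq_c (tq_d (tq_e (tq_f (tq_g (tq_h (tq_b (tq_c (tq_d (tq_e (tq_f (tq_g (tq_h (tq_b (tq_c (tq_d (tq_e (tq_f (tq_g (tq_h (tq_b (tq_c (tq_d (tq_e (tq_f (tq_g (tq_h i))))))))))))))))))))))))))))))))))))))))))))))))))))))))))))))) i) 3960 396 = true := by decide +kernel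
theorem exr_2_11 : allFrom (fun i => Nat.ble 14080 i || Nat.beq (tq_b (tq_c (tq_d (tq_e (tq_f (tq_g (tq_h (tq_b (tq_c (tq_d (tq_e (tq_f (tq_g (tq_h (tq_b (tq_c (tq_d (tq_e (tq_f (tq_g (tq_h (tq_b (tq_c (tq_d (tq_e (tq_f (tq_g (tq_h (tq_b (tq_c (tq_d (tq_e (tq_f (tq_g (tq_h (tq_b (tq_c (tq_d (tq_e (tq_f (tq_g (tq_h (tq_b (tq_c (tq_d (tq_e (tq_f (tq_g (tq_h (tq_b (tq_c (tq_d (tq_e (tq_f (tq_g (tq_h (tq_b (tq_c (tq_d (tq_e (tq_f (tq_g (tq_h i))))))))))))))))))))))))))))))))))))))))))))))))))))))))))))))) i) 4356 396 = true := by decide +kernel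
theorem exr_2_12 : allFrom (fun i => Nat.ble 14080 i || Nat.beq (tq_b (tq_c (tq_d (tq_e (tq_f (tq_g (tq_h (tq_b (tq_c (tq_d (tq_e (tq_f (tq_g (tq_h (tq_b (tq_c (tq_d (tq_e (tq_f (tq_g (tq_h (tq_b (tq_c (tq_d (tq_e (tq_f (tq_g (tq_h (tq_b (tq_c (tq_d (tq_e (tq_f (tq_g (tq_h (tq_b (tq_c (tq_d (tq_e (tq_f (tq_g (tq_h (tq_b (tq_c (tq_d (tq_e (tq_f (tq_g (tq_h (tq_b (tq_c (tq_d (tq_e (tq_f (tq_g (tq_h (tq_b (tq_c (tq_d (tq_e (tq_f (tq_g (tq_h i))))))))))))))))))))))))))))))))))))))))))))))))))))))))))))))) i) 4752 396 = true := by decide +kernel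
theorem exr_2_13 : allFrom (fun i => Nat.ble 14080 i || Nat.beq (tq_b (tq_c (tq_d (tq_e (tq_f (tq_g (tq_h (tq_b (tq_c (tq_d (tq_e (tq_f (tq_g (tq_h (tq_b (tq_c (tq_d (tq_e (tq_f (tq_g (tq_h (tq_b (tq_c (tq_d (tq_e (tq_f (tq_g (tq_h (tq_b (tq_c (tq_d (tq_e (tq_f (tq_g (tq_h (tq_b (tq_c (tq_d (tq_e (tq_f (tq_g (tq_h (tq_b (tq_c (tq_d (tq_e (tq_f (tq_g (tq_h (tq_b (tq_c (tq_d (tq_e (tq_f (tq_g (tq_h (tq_b (tq_c (tq_d (tq_e (tq_f (tq_g (tq_h i))))))))))))))))))))))))))))))))))))))))))))))))))))))))))))))) i) 5148 396 = true := by decide +kernel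
theorem exr_2_14 : allFrom (fun i => Nat.ble 14080 i || Nat.beq (tq_b (tq_c (tq_d (tq_e (tq_f (tq_g (tq_h (tq_b (tq_c (tq_d (tq_e (tq_f (tq_g (tq_h (tq_b (tq_c (tq_d (tq_e (tq_f (tq_g (tq_h (tq_b (tq_c (tq_d (tq_e (tq_f (tq_g (tq_h (tq_b (tq_c (tq_d (tq_e (tq_f (tq_g (tq_h (tq_b (tq_c (tq_d (tq_e (tq_f (tq_g (tq_h (tq_b (tq_c (tq_d (tq_e (tq_f (tq_g (tq_h (tq_b (tq_c (tq_d (tq_e (tq_f (tq_g (tq_h (tq_b (tq_c (tq_d (tq_e (tq_f (tq_g (tq_h i))))))))))))))))))))))))))))))))))))))))))))))))))))))))))))))) i) 5544 396 = true := by decide +kernel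
theorem exr_2_15 : allFrom (fun i => Nat.ble 14080 i || Nat.beq (tq_b (tq_c (tq_d (tq_e (tq_f (tq_g (tq_h (tq_b (tq_c (tq_d (tq_e (tq_f (tq_g (tq_h (tq_b (tq_c (tq_d (tq_e (tq_f (tq_g (tq_h (tq_b (tq_c (tq_d (tq_e (tq_f (tq_g (tq_h (tq_b (tq_c (tq_d (tq_e (tq_f (tq_g (tq_h (tq_b (tq_c (tq_d (tq_e (tq_f (tq_g (tq_h (tq_b (tq_c (tq_d (tq_e (tq_f (tq_g (tq_h (tq_b (tq_c (tq_d (tq_e (tq_f (tq_g (tq_h (tq_b (tq_c (tq_d (tq_e (tq_f (tq_g (tq_h i))))))))))))))))))))))))))))))))))))))))))))))))))))))))))))))) i) 5940 396 = true := by decide +kernel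
theorem exr_2_16 : allFrom (fun i => Nat.ble 14080 i || Nat.beq (tq_b (tq_c (tq_d (tq_e (tq_f (tq_g (tq_h (tq_b (tq_c (tq_d (tq_e (tq_f (tq_g (tq_h (tq_b (tq_c (tq_d (tq_e (tq_f (tq_g (tq_h (tq_b (tq_c (tq_d (tq_e (tq_f (tq_g (tq_h (tq_b (tq_c (tq_d (tq_e (tq_f (tq_g (tq_h (tq_b (tq_c (tq_d (tq_e (tq_f (tq_g (tq_h (tq_b (tq_c (tq_d (tq_e (tq_f (tq_g (tq_h (tq_b (tq_c (tq_d (tq_e (tq_f (tq_g (tq_h (tq_b (tq_c (tq_d (tq_e (tq_f (tq_g (tq_h i))))))))))))))))))))))))))))))))))))))))))))))))))))))))))))))) i) 6336 396 = true := by decide +kernel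
theorem exr_2_17 : allFrom (fun i => Nat.ble 14080 i || Nat.beq (tq_b (tq_c (tq_d (tq_e (tq_f (tq_g (tq_h (tq_b (tq_c (tq_d (tq_e (tq_f (tq_g (tq_h (tq_b (tq_c (tq_d (tq_e (tq_f (tq_g (tq_h (tq_b (tq_c (tq_d (tq_e (tq_f (tq_g (tq_h (tq_b (tq_c (tq_d (tq_e (tq_f (tq_g (tq_h (tq_b (tq_c (tq_d (tq_e (tq_f (tq_g (tq_h (tq_b (tq_c (tq_d (tq_e (tq_f (tq_g (tq_h (tq_b (tq_c (tq_d (tq_e (tq_f (tq_g (tq_h (tq_b (tq_c (tq_d (tq_e (tq_f (tq_g (tq_h i))))))))))))))))))))))))))))))))))))))))))))))))))))))))))))))) i) 6732 396 = true := by decide +kernel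
theorem exr_2_18 : allFrom (fun i => Nat.ble 14080 i || Nat.beq (tq_b (tq_c (tq_d (tq_e (tq_f (tq_g (tq_h (tq_b (tq_c (tq_d (tq_e (tq_f (tq_g (tq_h (tq_b (tq_c (tq_d (tq_e (tq_f (tq_g (tq_h (tq_b (tq_c (tq_d (tq_e (tq_f (tq_g (tq_h (tq_b (tq_c (tq_d (tq_e (tq_f (tq_g (tq_h (tq_b (tq_c (tq_d (tq_e (tq_f (tq_g (tq_h (tq_b (tq_c (tq_d (tq_e (tq_f (tq_g (tq_h (tq_b (tq_c (tq_d (tq_e (tq_f (tq_g (tq_h (tq_b (tq_c (tq_d (tq_e (tq_f (tq_g (tq_h i))))))))))))))))))))))))))))))))))))))))))))))))))))))))))))))) i) 7128 396 = true := by decide +kernel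
theorem exr_2_19 : allFrom (fun i => Nat.ble 14080 i || Nat.beq (tq_b (tq_c (tq_d (tq_e (tq_f (tq_g (tq_h (tq_b (tq_c (tq_d (tq_e (tq_f (tq_g (tq_h (tq_b (tq_c (tq_d (tq_e (tq_f (tq_g (tq_h (tq_b (tq_c (tq_d (tq_e (tq_f (tq_g (tq_h (tq_b (tq_c (tq_d (tq_e (tq_f (tq_g (tq_h (tq_b (tq_c (tq_d (tq_e (tq_f (tq_g (tq_h (tq_b (tq_c (tq_d (tq_e (tq_f (tq_g (tq_h (tq_b (tq_c (tq_d (tq_e (tq_f (tq_g (tq_h (tq_b (tq_c (tq_d (tq_e (tq_f (tq_g (tq_h i))))))))))))))))))))))))))))))))))))))))))))))))))))))))))))))) i) 7524 396 = true := by decide +kernel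
theorem exr_2_20 : allFrom (fun i => Nat.ble 14080 i || Nat.beq (tq_b (tq_c (tq_d (tq_e (tq_f (tq_g (tq_h (tq_b (tq_c (tq_d (tq_e (tq_f (tq_g (tq_h (tq_b (tq_c (tq_d (tq_e (tq_f (tq_g (tq_h (tq_b (tq_c (tq_d (tq_e (tq_f (tq_g (tq_h (tq_b (tq_c (tq_d (tq_e (tq_f (tq_g (tq_h (tq_b (tq_c (tq_d (tq_e (tq_f (tq_g (tq_h (tq_b (tq_c (tq_d (tq_e (tq_f (tq_g (tq_h (tq_b (tq_c (tq_d (tq_e (tq_f (tq_g (tq_h (tq_b (tq_c (tq_d (tq_e (tq_f (tq_g (tq_h i))))))))))))))))))))))))))))))))))))))))))))))))))))))))))))))) i) 7920 396 = true := by decide +kernel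
theorem exr_2_21 : allFrom (fun i => Nat.ble 14080 i || Nat.beq (tq_b (tq_c (tq_d (tq_e (tq_f (tq_g (tq_h (tq_b (tq_c (tq_d (tq_e (tq_f (tq_g (tq_h (tq_b (tq_c (tq_d (tq_e (tq_f (tq_g (tq_h (tq_b (tq_c (tq_d (tq_e (tq_f (tq_g (tq_h (tq_b (tq_c (tq_d (tq_e (tq_f (tq_g (tq_h (tq_b (tq_c (tq_d (tq_e (tq_f (tq_g (tq_h (tq_b (tq_c (tq_d (tq_e (tq_f (tq_g (tq_h (tq_b (tq_c (tq_d (tq_e (tq_f (tq_g (tq_h (tq_b (tq_c (tq_d (tq_e (tq_f (tq_g (tq_h i))))))))))))))))))))))))))))))))))))))))))))))))))))))))))))))) i) 8316 396 = true := by decide +kernel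
theorem exr_2_22 : allFrom (fun i => Nat.ble 14080 i || Nat.beq (tq_b (tq_c (tq_d (tq_e (tq_f (tq_g (tq_h (tq_b (tq_c (tq_d (tq_e (tq_f (tq_g (tq_h (tq_b (tq_c (tq_d (tq_e (tq_f (tq_g (tq_h (tq_b (tq_c (tq_d (tq_e (tq_f (tq_g (tq_h (tq_b (tq_c (tq_d (tq_e (tq_f (tq_g (tq_h (tq_b (tq_c (tq_d (tq_e (tq_f (tq_g (tq_h (tq_b (tq_c (tq_d (tq_e (tq_f (tq_g (tq_h (tq_b (tq_c (tq_d (tq_e (tq_f (tq_g (tq_h (tq_b (tq_c (tq_d (tq_e (tq_f (tq_g (tq_h i))))))))))))))))))))))))))))))))))))))))))))))))))))))))))))))) i) 8712 396 = true := by decide +kernel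
theorem exr_2_23 : allFrom (fun i => Nat.ble 14080 i || Nat.beq (tq_b (tq_c (tq_d (tq_e (tq_f (tq_g (tq_h (tq_b (tq_c (tq_d (tq_e (tq_f (tq_g (tq_h (tq_b (tq_c (tq_d (tq_e (tq_f (tq_g (tq_h (tq_b (tq_c (tq_d (tq_e (tq_f (tq_g (tq_h (tq_b (tq_c (tq_d (tq_e (tq_f (tq_g (tq_h (tq_b (tq_c (tq_d (tq_e (tq_f (tq_g (tq_h (tq_b (tq_c (tq_d (tq_e (tq_f (tq_g (tq_h (tq_b (tq_c (tq_d (tq_e (tq_f (tq_g (tq_h (tq_b (tq_c (tq_d (tq_e (tq_f (tq_g (tq_h i))))))))))))))))))))))))))))))))))))))))))))))))))))))))))))))) i) 9108 396 = true := by decide +kernel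
theorem exr_2_24 : allFrom (fun i => Nat.ble 14080 i || Nat.beq (tq_b (tq_c (tq_d (tq_e (tq_f (tq_g (tq_h (tq_b (tq_c (tq_d (tq_e (tq_f (tq_g (tq_h (tq_b (tq_c (tq_d (tq_e (tq_f (tq_g (tq_h (tq_b (tq_c (tq_d (tq_e (tq_f (tq_g (tq_h (tq_b (tq_c (tq_d (tq_e (tq_f (tq_g (tq_h (tq_b (tq_c (tq_d (tq_e (tq_f (tq_g (tq_h (tq_b (tq_c (tq_d (tq_e (tq_f (tq_g (tq_h (tq_b (tq_c (tq_d (tq_e (tq_f (tq_g (tq_h (tq_b (tq_c (tq_d (tq_e (tq_f (tq_g (tq_h i))))))))))))))))))))))))))))))))))))))))))))))))))))))))))))))) i) 9504 396 = true := by decide +kernel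
theorem exr_2_25 : allFrom (fun i => Nat.ble 14080 i || Nat.beq (tq_b (tq_c (tq_d (tq_e (tq_f (tq_g (tq_h (tq_b (tq_c (tq_d (tq_e (tq_f (tq_g (tq_h (tq_b (tq_c (tq_d (tq_e (tq_f (tq_g (tq_h (tq_b (tq_c (tq_d (tq_e (tq_f (tq_g (tq_h (tq_b (tq_c (tq_d (tq_e (tq_f (tq_g (tq_h (tq_b (tq_c (tq_d (tq_e (tq_f (tq_g (tq_h (tq_b (tq_c (tq_d (tq_e (tq_f (tq_g (tq_h (tq_b (tq_c (tq_d (tq_e (tq_f (tq_g (tq_h (tq_b (tq_c (tq_d (tq_e (tq_f (tq_g (tq_h i))))))))))))))))))))))))))))))))))))))))))))))))))))))))))))))) i) 9900 396 = true := by decide +kernel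
theorem exr_2_26 : allFrom (fun i => Nat.ble 14080 i || Nat.beq (tq_b (tq_c (tq_d (tq_e (tq_f (tq_g (tq_h (tq_b (tq_c (tq_d (tq_e (tq_f (tq_g (tq_h (tq_b (tq_c (tq_d (tq_e (tq_f (tq_g (tq_h (tq_b (tq_c (tq_d (tq_e (tq_f (tq_g (tq_h (tq_b (tq_c (tq_d (tq_e (tq_f (tq_g (tq_h (tq_b (tq_c (tq_d (tq_e (tq_f (tq_g (tq_h (tq_b (tq_c (tq_d (tq_e (tq_f (tq_g (tq_h (tq_b (tq_c (tq_d (tq_e (tq_f (tq_g (tq_h (tq_b (tq_c (tq_d (tq_e (tq_f (tq_g (tq_h i))))))))))))))))))))))))))))))))))))))))))))))))))))))))))))))) i) 10296 396 = true := by decide +kernel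
theorem exr_2_27 : allFrom (fun i => Nat.ble 14080 i || Nat.beq (tq_b (tq_c (tq_d (tq_e (tq_f (tq_g (tq_h (tq_b (tq_c (tq_d (tq_e (tq_f (tq_g (tq_h (tq_b (tq_c (tq_d (tq_e (tq_f (tq_g (tq_h (tq_b (tq_c (tq_d (tq_e (tq_f (tq_g (tq_h (tq_b (tq_c (tq_d (tq_e (tq_f (tq_g (tq_h (tq_b (tq_c (tq_d (tq_e (tq_f (tq_g (tq_h (tq_b (tq_c (tq_d (tq_e (tq_f (tq_g (tq_h (tq_b (tq_c (tq_d (tq_e (tq_f (tq_g (tq_h (tq_b (tq_c (tq_d (tq_e (tq_f (tq_g (tq_h i))))))))))))))))))))))))))))))))))))))))))))))))))))))))))))))) i) 10692 396 = true := by decide +kernel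
theorem exr_2_28 : allFrom (fun i => Nat.ble 14080 i || Nat.beq (tq_b (tq_c (tq_d (tq_e (tq_f (tq_g (tq_h (tq_b (tq_c (tq_d (tq_e (tq_f (tq_g (tq_h (tq_b (tq_c (tq_d (tq_e (tq_f (tq_g (tq_h (tq_b (tq_c (tq_d (tq_e (tq_f (tq_g (tq_h (tq_b (tq_c (tq_d (tq_e (tq_f (tq_g (tq_h (tq_b (tq_c (tq_d (tq_e (tq_f (tq_g (tq_h (tq_b (tq_c (tq_d (tq_e (tq_f (tq_g (tq_h (tq_b (tq_c (tq_d (tq_e (tq_f (tq_g (tq_h (tq_b (tq_c (tq_d (tq_e (tq_f (tq_g (tq_h i))))))))))))))))))))))))))))))))))))))))))))))))))))))))))))))) i) 11088 396 = true := by decide +kernel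
theorem exr_2_29 : allFrom (fun i => Nat.ble 14080 i || Nat.beq (tq_b (tq_c (tq_d (tq_e (tq_f (tq_g (tq_h (tq_b (tq_c (tq_d (tq_e (tq_f (tq_g (tq_h (tq_b (tq_c (tq_d (tq_e (tq_f (tq_g (tq_h (tq_b (tq_c (tq_d (tq_e (tq_f (tq_g (tq_h (tq_b (tq_c (tq_d (tq_e (tq_f (tq_g (tq_h (tq_b (tq_c (tq_d (tq_e (tq_f (tq_g (tq_h (tq_b (tq_c (tq_d (tq_e (tq_f (tq_g (tq_h (tq_b (tq_c (tq_d (tq_e (tq_f (tq_g (tq_h (tq_b (tq_c (tq_d (tq_e (tq_f (tq_g (tq_h i))))))))))))))))))))))))))))))))))))))))))))))))))))))))))))))) i) 11484 396 = true := by decide +kernel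
theorem exr_2_30 : allFrom (fun i => Nat.ble 14080 i || Nat.beq (tq_b (tq_c (tq_d (tq_e (tq_f (tq_g (tq_h (tq_b (tq_c (tq_d (tq_e (tq_f (tq_g (tq_h (tq_b (tq_c (tq_d (tq_e (tq_f (tq_g (tq_h (tq_b (tq_c (tq_d (tq_e (tq_f (tq_g (tq_h (tq_b (tq_c (tq_d (tq_e (tq_f (tq_g (tq_h (tq_b (tq_c (tq_d (tq_e (tq_f (tq_g (tq_h (tq_b (tq_c (tq_d (tq_e (tq_f (tq_g (tq_h (tq_b (tq_c (tq_d (tq_e (tq_f (tq_g (tq_h (tq_b (tq_c (tq_d (tq_e (tq_f (tq_g (tq_h i))))))))))))))))))))))))))))))))))))))))))))))))))))))))))))))) i) 11880 396 = true := by decide +kernel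
theorem exr_2_31 : allFrom (fun i => Nat.ble 14080 i || Nat.beq (tq_b (tq_c (tq_d (tq_e (tq_f (tq_g (tq_h (tq_b (tq_c (tq_d (tq_e (tq_f (tq_g (tq_h (tq_b (tq_c (tq_d (tq_e (tq_f (tq_g (tq_h (tq_b (tq_c (tq_d (tq_e (tq_f (tq_g (tq_h (tq_b (tq_c (tq_d (tq_e (tq_f (tq_g (tq_h (tq_b (tq_c (tq_d (tq_e (tq_f (tq_g (tq_h (tq_b (tq_c (tq_d (tq_e (tq_f (tq_g (tq_h (tq_b (tq_c (tq_d (tq_e (tq_f (tq_g (tq_h (tq_b (tq_c (tq_d (tq_e (tq_f (tq_g (tq_h i))))))))))))))))))))))))))))))))))))))))))))))))))))))))))))))) i) 12276 396 = true := by decide +kernel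
theorem exr_2_32 : allFrom (fun i => Nat.ble 14080 i || Nat.beq (tq_b (tq_c (tq_d (tq_e (tq_f (tq_g (tq_h (tq_b (tq_c (tq_d (tq_e (tq_f (tq_g (tq_h (tq_b (tq_c (tq_d (tq_e (tq_f (tq_g (tq_h (tq_b (tq_c (tq_d (tq_e (tq_f (tq_g (tq_h (tq_b (tq_c (tq_d (tq_e (tq_f (tq_g (tq_h (tq_b (tq_c (tq_d (tq_e (tq_f (tq_g (tq_h (tq_b (tq_c (tq_d (tq_e (tq_f (tq_g (tq_h (tq_b (tq_c (tq_d (tq_e (tq_f (tq_g (tq_h (tq_b (tq_c (tq_d (tq_e (tq_f (tq_g (tq_h i))))))))))))))))))))))))))))))))))))))))))))))))))))))))))))))) i) 12672 396 = true := by decide +kernel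
theorem exr_2_33 : allFrom (fun i => Nat.ble 14080 i || Nat.beq (tq_b (tq_c (tq_d (tq_e (tq_f (tq_g (tq_h (tq_b (tq_c (tq_d (tq_e (tq_f (tq_g (tq_h (tq_b (tq_c (tq_d (tq_e (tq_f (tq_g (tq_h (tq_b (tq_c (tq_d (tq_e (tq_f (tq_g (tq_h (tq_b (tq_c (tq_d (tq_e (tq_f (tq_g (tq_h (tq_b (tq_c (tq_d (tq_e (tq_f (tq_g (tq_h (tq_b (tq_c (tq_d (tq_e (tq_f (tq_g (tq_h (tq_b (tq_c (tq_d (tq_e (tq_f (tq_g (tq_h (tq_b (tq_c (tq_d (tq_e (tq_f (tq_g (tq_h i))))))))))))))))))))))))))))))))))))))))))))))))))))))))))))))) i) 13068 396 = true := by decide +kernel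
theorem exr_2_34 : allFrom (fun i => Nat.ble 14080 i || Nat.beq (tq_b (tq_c (tq_d (tq_e (tq_f (tq_g (tq_h (tq_b (tq_c (tq_d (tq_e (tq_f (tq_g (tq_h (tq_b (tq_c (tq_d (tq_e (tq_f (tq_g (tq_h (tq_b (tq_c (tq_d (tq_e (tq_f (tq_g (tq_h (tq_b (tq_c (tq_d (tq_e (tq_f (tq_g (tq_h (tq_b (tq_c (tq_d (tq_e (tq_f (tq_g (tq_h (tq_b (tq_c (tq_d (tq_e (tq_f (tq_g (tq_h (tq_b (tq_c (tq_d (tq_e (tq_f (tq_g (tq_h (tq_b (tq_c (tq_d (tq_e (tq_f (tq_g (tq_h i))))))))))))))))))))))))))))))))))))))))))))))))))))))))))))))) i) 13464 396 = true := by decide +kernel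
theorem exr_2_35 : allFrom (fun i => Nat.ble 14080 i || Nat.beq (tq_b (tq_c (tq_d (tq_e (tq_f (tq_g (tq_h (tq_b (tq_c (tq_d (tq_e (tq_f (tq_g (tq_h (tq_b (tq_c (tq_d (tq_e (tq_f (tq_g (tq_h (tq_b (tq_c (tq_d (tq_e (tq_f (tq_g (tq_h (tq_b (tq_c (tq_d (tq_e (tq_f (tq_g (tq_h (tq_b (tq_c (tq_d (tq_e (tq_f (tq_g (tq_h (tq_b (tq_c (tq_d (tq_e (tq_f (tq_g (tq_h (tq_b (tq_c (tq_d (tq_e (tq_f (tq_g (tq_h (tq_b (tq_c (tq_d (tq_e (tq_f (tq_g (tq_h i))))))))))))))))))))))))))))))))))))))))))))))))))))))))))))))) i) 13860 396 = true := by decide +kernel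
theorem exr_2 : ∀ i, i < 14080 → (Nat.beq (tq_b (tq_c (tq_d (tq_e (tq_f (tq_g (tq_h (tq_b (tq_c (tq_d (tq_e (tq_f (tq_g (tq_h (tq_b (tq_c (tq_d (tq_e (tq_f (tq_g (tq_h (tq_b (tq_c (tq_d (tq_e (tq_f (tq_g (tq_h (tq_b (tq_c (tq_d (tq_e (tq_f (tq_g (tq_h (tq_b (tq_c (tq_d (tq_e (tq_f (tq_g (tq_h (tq_b (tq_c (tq_d (tq_e (tq_f (tq_g (tq_h (tq_b (tq_c (tq_d (tq_e (tq_f (tq_g (tq_h (tq_b (tq_c (tq_d (tq_e (tq_f (tq_g (tq_h i))))))))))))))))))))))))))))))))))))))))))))))))))))))))))))))) i) = true :=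
  blocks_lt (fun i => Nat.beq (tq_b (tq_c (tq_d (tq_e (tq_f (tq_g (tq_h (tq_b (tq_c (tq_d (tq_e (tq_f (tq_g (tq_h (tq_b (tq_c (tq_d (tq_e (tq_f (tq_g (tq_h (tq_b (tq_c (tq_d (tq_e (tq_f (tq_g (tq_h (tq_b (tq_c (tq_d (tq_e (tq_f (tq_g (tq_h (tq_b (tq_c (tq_d (tq_e (tq_f (tq_g (tq_h (tq_b (tq_c (tq_d (tq_e (tq_f (tq_g (tq_h (tq_b (tq_c (tq_d (tq_e (tq_f (tq_g (tq_h (tq_b (tq_c (tq_d (tq_e (tq_f (tq_g (tq_h i))))))))))))))))))))))))))))))))))))))))))))))))))))))))))))))) i) 14080 396 36 (by norm_num) ⟨exr_2_0, exr_2_1, exr_2_2, exr_2_3, exr_2_4, exr_2_5, exr_2_6, exr_2_7, exr_2_8, exr_2_9, exr_2_10, exr_2_11, exr_2_12, exr_2_13, exr_2_14, exr_2_15, exr_2_16, exr_2_17, exr_2_18, exr_2_19, exr_2_20, exr_2_21, exr_2_22, exr_2_23, exr_2_24, exr_2_25, exr_2_26, exr_2_27, exr_2_28, exr_2_29, exr_2_30, exr_2_31, exr_2_32, exr_2_33, exr_2_34, exr_2_35, trivial⟩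

theorem ex_2 : ∀ i, i < 14080 → evalT tab [Gen.b, Gen.c, Gen.d, Gen.e, Gen.f, Gen.g, Gen.h, Gen.b, Gen.c, Gen.d, Gen.e, Gen.f, Gen.g, Gen.h, Gen.b, Gen.c, Gen.d, Gen.e, Gen.f, Gen.g, Gen.h, Gen.b, Gen.c, Gen.d, Gen.e, Gen.f, Gen.g, Gen.h, Gen.b, Gen.c, Gen.d, Gen.e, Gen.f, Gen.g, Gen.h, Gen.b, Gen.c, Gen.d, Gen.e, Gen.f, Gen.g, Gen.h, Gen.b, Gen.c, Gen.d, Gen.e, Gen.f, Gen.g, Gen.h, Gen.b, Gen.c, Gen.d, Gen.e, Gen.f, Gen.g, Gen.h, Gen.b, Gen.c, Gen.d, Gen.e, Gen.f, Gen.g, Gen.h] i = i := by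
  intro i hi
  have h := Nat.eq_of_beq_eq_true (exr_2 i hi)
  simp only [evalT_cons', evalT_nil', tab_a, tab_b, tab_c, tab_d, tab_e, tab_f, tab_g, tab_h, tab_i]
  exact h

theorem relsP : ∀ r ∈ rels, FreeGroup.lift (permOf ht) r = 1 := by
  intro r hr
  rcases hr with ⟨x, -, y, -, rfl⟩ | hr
  · rw [map_pow, map_mul, FreeGroup.lift_apply_of, FreeGroup.lift_apply_of]
    exact coxP x y
  · have hr' : r ∈ extra := hr
    simp only [extra, List.mem_cons, List.not_mem_nil, or_false] at hr'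
    rcases hr' with rfl | rfl | rfl
    · simp only [map_mul, map_pow, map_inv, FreeGroup.lift_apply_of, pow_succ, pow_zero, one_mul, mul_inv_rev,
        permOf_inv, mul_assoc]
      have h := prod_eq_one' ht [Gen.d, Gen.c, Gen.b, Gen.d, Gen.e, Gen.f, Gen.d, Gen.h, Gen.i, Gen.d, Gen.c, Gen.b, Gen.d, Gen.e, Gen.f, Gen.d, Gen.h, Gen.i, Gen.d, Gen.c, Gen.b, Gen.d, Gen.e, Gen.f, Gen.d, Gen.h, Gen.i, Gen.d, Gen.c, Gen.b, Gen.d, Gen.e, Gen.f, Gen.d, Gen.h, Gen.i, Gen.d, Gen.c, Gen.b, Gen.d, Gen.e, Gen.f, Gen.d, Gen.h, Gen.i, Gen.d, Gen.c, Gen.b, Gen.d, Gen.e, Gen.f, Gen.d, Gen.h, Gen.i, Gen.d, Gen.c, Gen.b, Gen.d, Gen.e, Gen.f, Gen.d, Gen.h, Gen.i, Gen.d, Gen.c, Gen.b, Gen.d, Gen.e, Gen.f, Gen.d, Gen.h, Gen.i, Gen.d, Gen.c, Gen.b, Gen.d, Gen.e, Gen.f, Gen.d, Gen.h, Gen.i, Gen.d, Gen.c, Gen.b, Gen.d, Gen.e, Gen.f, Gen.d, Gen.h, Gen.i] ex_0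
      simpa only [List.map_cons, List.map_nil, List.prod_cons, List.prod_nil, mul_one] using h
    · simp only [map_mul, map_pow, map_inv, FreeGroup.lift_apply_of, pow_succ, pow_zero, one_mul, mul_inv_rev,
        permOf_inv, mul_assoc]
      have h := prod_eq_one' ht [Gen.a, Gen.b, Gen.c, Gen.d, Gen.e, Gen.f, Gen.h, Gen.a, Gen.b, Gen.c, Gen.d, Gen.e, Gen.f, Gen.h, Gen.a, Gen.b, Gen.c, Gen.d, Gen.e, Gen.f, Gen.h, Gen.a, Gen.b, Gen.c, Gen.d, Gen.e, Gen.f, Gen.h, Gen.a, Gen.b, Gen.c, Gen.d, Gen.e, Gen.f, Gen.h, Gen.a, Gen.b, Gen.c, Gen.d, Gen.e, Gen.f, Gen.h, Gen.a, Gen.b, Gen.c, Gen.d, Gen.e, Gen.f, Gen.h, Gen.a, Gen.b, Gen.c, Gen.d, Gen.e, Gen.f, Gen.h, Gen.a, Gen.b, Gen.c, Gen.d, Gen.e, Gen.f, Gen.h] ex_1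
      simpa only [List.map_cons, List.map_nil, List.prod_cons, List.prod_nil, mul_one] using h
    · simp only [map_mul, map_pow, map_inv, FreeGroup.lift_apply_of, pow_succ, pow_zero, one_mul, mul_inv_rev,
        permOf_inv, mul_assoc]
      have h := prod_eq_one' ht [Gen.b, Gen.c, Gen.d, Gen.e, Gen.f, Gen.g, Gen.h, Gen.b, Gen.c, Gen.d, Gen.e, Gen.f, Gen.g, Gen.h, Gen.b, Gen.c, Gen.d, Gen.e, Gen.f, Gen.g, Gen.h, Gen.b, Gen.c, Gen.d, Gen.e, Gen.f, Gen.g, Gen.h, Gen.b, Gen.c, Gen.d, Gen.e, Gen.f, Gen.g, Gen.h, Gen.b, Gen.c, Gen.d, Gen.e, Gen.f, Gen.g, Gen.h, Gen.b, Gen.c, Gen.d, Gen.e, Gen.f, Gen.g, Gen.h, Gen.b, Gen.c, Gen.d, Gen.e, Gen.f, Gen.g, Gen.h, Gen.b, Gen.c, Gen.d, Gen.e, Gen.f, Gen.g, Gen.h] ex_2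
      simpa only [List.map_cons, List.map_nil, List.prod_cons, List.prod_nil, mul_one] using h

/-- The permutation representation on the cosets. -/
def phi : Grp →* Equiv.Perm (Fin 14080) := PresentedGroup.toGroup relsP

theorem phi_gen (x : Gen) : phi (gen x) = permOf ht x := PresentedGroup.toGroup.of relsP

theorem phi_mk_of (x : Gen) : phi (PresentedGroup.mk rels (FreeGroup.of x)) = permOf ht x := phi_gen x

theorem hH : ∀ h ∈ H, phi h ⟨0, by norm_num⟩ = ⟨0, by norm_num⟩ := by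
  have hle : H ≤ (MulAction.stabilizer (Equiv.Perm (Fin 14080)) (⟨0, by norm_num⟩ : Fin 14080)).comap phi := by
    rw [H, Subgroup.map_le_iff_le_comap, Subgroup.closure_le]
    intro s hs
    simp only [Set.mem_insert_iff, Set.mem_singleton_iff] at hs
    rcases hs with rfl | rfl | rfl | rfl | rfl | rfl | rfl | rfl
    · show phi (PresentedGroup.mk rels (b)) ⟨0, _⟩ = ⟨0, _⟩
      simp only [map_mul, map_pow, phi_mk_of, pow_succ, pow_zero, one_mul, mul_assoc]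
      have h := prod_apply_mk ht [Gen.b] 0 0 (by norm_num) (by norm_num) (by decide +kernel)
      simpa only [List.map_cons, List.map_nil, List.prod_cons, List.prod_nil, mul_one] using h
    · show phi (PresentedGroup.mk rels (c)) ⟨0, _⟩ = ⟨0, _⟩
      simp only [map_mul, map_pow, phi_mk_of, pow_succ, pow_zero, one_mul, mul_assoc]
      have h := prod_apply_mk ht [Gen.c] 0 0 (by norm_num) (by norm_num) (by decide +kernel)
      simpa only [List.map_cons, List.map_nil, List.prod_cons, List.prod_nil, mul_one] using h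
    · show phi (PresentedGroup.mk rels (d)) ⟨0, _⟩ = ⟨0, _⟩
      simp only [map_mul, map_pow, phi_mk_of, pow_succ, pow_zero, one_mul, mul_assoc]
      have h := prod_apply_mk ht [Gen.d] 0 0 (by norm_num) (by norm_num) (by decide +kernel)
      simpa only [List.map_cons, List.map_nil, List.prod_cons, List.prod_nil, mul_one] using h
    · show phi (PresentedGroup.mk rels (e)) ⟨0, _⟩ = ⟨0, _⟩
      simp only [map_mul, map_pow, phi_mk_of, pow_succ, pow_zero, one_mul, mul_assoc]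
      have h := prod_apply_mk ht [Gen.e] 0 0 (by norm_num) (by norm_num) (by decide +kernel)
      simpa only [List.map_cons, List.map_nil, List.prod_cons, List.prod_nil, mul_one] using h
    · show phi (PresentedGroup.mk rels (f)) ⟨0, _⟩ = ⟨0, _⟩
      simp only [map_mul, map_pow, phi_mk_of, pow_succ, pow_zero, one_mul, mul_assoc]
      have h := prod_apply_mk ht [Gen.f] 0 0 (by norm_num) (by norm_num) (by decide +kernel)
      simpa only [List.map_cons, List.map_nil, List.prod_cons, List.prod_nil, mul_one] using h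
    · show phi (PresentedGroup.mk rels (g)) ⟨0, _⟩ = ⟨0, _⟩
      simp only [map_mul, map_pow, phi_mk_of, pow_succ, pow_zero, one_mul, mul_assoc]
      have h := prod_apply_mk ht [Gen.g] 0 0 (by norm_num) (by norm_num) (by decide +kernel)
      simpa only [List.map_cons, List.map_nil, List.prod_cons, List.prod_nil, mul_one] using h
    · show phi (PresentedGroup.mk rels (h)) ⟨0, _⟩ = ⟨0, _⟩
      simp only [map_mul, map_pow, phi_mk_of, pow_succ, pow_zero, one_mul, mul_assoc]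
      have h := prod_apply_mk ht [Gen.h] 0 0 (by norm_num) (by norm_num) (by decide +kernel)
      simpa only [List.map_cons, List.map_nil, List.prod_cons, List.prod_nil, mul_one] using h
    · show phi (PresentedGroup.mk rels (i)) ⟨0, _⟩ = ⟨0, _⟩
      simp only [map_mul, map_pow, phi_mk_of, pow_succ, pow_zero, one_mul, mul_assoc]
      have h := prod_apply_mk ht [Gen.i] 0 0 (by norm_num) (by norm_num) (by decide +kernel)
      simpa only [List.map_cons, List.map_nil, List.prod_cons, List.prod_nil, mul_one] using h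
  intro h hh
  exact hle hh

theorem hgen : Subgroup.closure (Set.range gen) = ⊤ := PresentedGroup.closure_range_of rels

theorem h0 : Qf 0 = ((1 : Grp) : Q) := rfl

theorem hphi : ∀ gg (i : Fin 14080), ((phi (gen gg) i : Fin 14080) : ℕ) = tab gg i := by
  intro gg i
  rw [phi_gen]
  rfl

/-- The index of the subgroup. -/
theorem index_H : H.index = 14080 :=
  (index_eq hgen (by norm_num) h0 ht hcl phi hH hphi hpar).1

theorem psi_bij : Function.Bijective (psi H (by norm_num) phi hH) :=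
  (index_eq hgen (by norm_num) h0 ht hcl phi hH hphi hpar).2


end Cfsg.Agent.Helper28.FibA
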