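import Cfsg.Agent.Helper28.FicR0

/-!
# The Fi₂₃ presentation, cosets of the subgroup generated by a, …, i: relator checks, part 5 (helper28; generated)
-/

set_option autoImplicit false
set_option maxRecDepth 100000
set_option linter.unusedSimpArgs false
set_option linter.constructorNameAsVariable false

noncomputable section

namespace Cfsg.Agent.Helper28.FicA

open Cfsg.Spor Cfsg.Spor.Fi23 Cfsg.Agent.Helper28.CosetTable

theorem cxr_j_b_0 : allFrom (fun i => Nat.ble 31671 i || Nat.beq (tq_j (tq_b (tq_j (tq_b i)))) i) 0 6250 = true := by decide +kernel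
theorem cxr_j_b_1 : allFrom (fun i => Nat.ble 31671 i || Nat.beq (tq_j (tq_b (tq_j (tq_b i)))) i) 6250 6250 = true := by decide +kernel
theorem cxr_j_b_2 : allFrom (fun i => Nat.ble 31671 i || Nat.beq (tq_j (tq_b (tq_j (tq_b i)))) i) 12500 6250 = true := by decide +kernel
theorem cxr_j_b_3 : allFrom (fun i => Nat.ble 31671 i || Nat.beq (tq_j (tq_b (tq_j (tq_b i)))) i) 18750 6250 = true := by decide +kernel
theorem cxr_j_b_4 : allFrom (fun i => Nat.ble 31671 i || Nat.beq (tq_j (tq_b (tq_j (tq_b i)))) i) 25000 6250 = true := by decide +kernel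
theorem cxr_j_b_5 : allFrom (fun i => Nat.ble 31671 i || Nat.beq (tq_j (tq_b (tq_j (tq_b i)))) i) 31250 6250 = true := by decide +kernel
theorem cxr_j_b : ∀ i, i < 31671 → (Nat.beq (tq_j (tq_b (tq_j (tq_b i)))) i) = true :=
  blocks_lt (fun i => Nat.beq (tq_j (tq_b (tq_j (tq_b i)))) i) 31671 6250 6 (by norm_num) ⟨cxr_j_b_0, cxr_j_b_1, cxr_j_b_2, cxr_j_b_3, cxr_j_b_4, cxr_j_b_5, trivial⟩

theorem cx_j_b : ∀ i, i < 31671 → evalT tab [Gen.j, Gen.b, Gen.j, Gen.b] i = i := by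
  intro i hi
  have h := Nat.eq_of_beq_eq_true (cxr_j_b i hi)
  simp only [evalT_cons', evalT_nil', tab_a, tab_b, tab_c, tab_d, tab_e, tab_f, tab_g, tab_j, tab_h, tab_i]
  exact h

theorem cxr_j_c_0 : allFrom (fun i => Nat.ble 31671 i || Nat.beq (tq_j (tq_c (tq_j (tq_c i)))) i) 0 6250 = true := by decide +kernel
theorem cxr_j_c_1 : allFrom (fun i => Nat.ble 31671 i || Nat.beq (tq_j (tq_c (tq_j (tq_c i)))) i) 6250 6250 = true := by decide +kernel
theorem cxr_j_c_2 : allFrom (fun i => Nat.ble 31671 i || Nat.beq (tq_j (tq_c (tq_j (tq_c i)))) i) 12500 6250 = true := by decide +kernel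
theorem cxr_j_c_3 : allFrom (fun i => Nat.ble 31671 i || Nat.beq (tq_j (tq_c (tq_j (tq_c i)))) i) 18750 6250 = true := by decide +kernel
theorem cxr_j_c_4 : allFrom (fun i => Nat.ble 31671 i || Nat.beq (tq_j (tq_c (tq_j (tq_c i)))) i) 25000 6250 = true := by decide +kernel
theorem cxr_j_c_5 : allFrom (fun i => Nat.ble 31671 i || Nat.beq (tq_j (tq_c (tq_j (tq_c i)))) i) 31250 6250 = true := by decide +kernel
theorem cxr_j_c : ∀ i, i < 31671 → (Nat.beq (tq_j (tq_c (tq_j (tq_c i)))) i) = true :=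
  blocks_lt (fun i => Nat.beq (tq_j (tq_c (tq_j (tq_c i)))) i) 31671 6250 6 (by norm_num) ⟨cxr_j_c_0, cxr_j_c_1, cxr_j_c_2, cxr_j_c_3, cxr_j_c_4, cxr_j_c_5, trivial⟩

theorem cx_j_c : ∀ i, i < 31671 → evalT tab [Gen.j, Gen.c, Gen.j, Gen.c] i = i := by
  intro i hi
  have h := Nat.eq_of_beq_eq_true (cxr_j_c i hi)
  simp only [evalT_cons', evalT_nil', tab_a, tab_b, tab_c, tab_d, tab_e, tab_f, tab_g, tab_j, tab_h, tab_i]
  exact h

theorem cxr_j_d_0 : allFrom (fun i => Nat.ble 31671 i || Nat.beq (tq_j (tq_d (tq_j (tq_d i)))) i) 0 6250 = true := by decide +kernel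
theorem cxr_j_d_1 : allFrom (fun i => Nat.ble 31671 i || Nat.beq (tq_j (tq_d (tq_j (tq_d i)))) i) 6250 6250 = true := by decide +kernel
theorem cxr_j_d_2 : allFrom (fun i => Nat.ble 31671 i || Nat.beq (tq_j (tq_d (tq_j (tq_d i)))) i) 12500 6250 = true := by decide +kernel
theorem cxr_j_d_3 : allFrom (fun i => Nat.ble 31671 i || Nat.beq (tq_j (tq_d (tq_j (tq_d i)))) i) 18750 6250 = true := by decide +kernel
theorem cxr_j_d_4 : allFrom (fun i => Nat.ble 31671 i || Nat.beq (tq_j (tq_d (tq_j (tq_d i)))) i) 25000 6250 = true := by decide +kernel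
theorem cxr_j_d_5 : allFrom (fun i => Nat.ble 31671 i || Nat.beq (tq_j (tq_d (tq_j (tq_d i)))) i) 31250 6250 = true := by decide +kernel
theorem cxr_j_d : ∀ i, i < 31671 → (Nat.beq (tq_j (tq_d (tq_j (tq_d i)))) i) = true :=
  blocks_lt (fun i => Nat.beq (tq_j (tq_d (tq_j (tq_d i)))) i) 31671 6250 6 (by norm_num) ⟨cxr_j_d_0, cxr_j_d_1, cxr_j_d_2, cxr_j_d_3, cxr_j_d_4, cxr_j_d_5, trivial⟩

theorem cx_j_d : ∀ i, i < 31671 → evalT tab [Gen.j, Gen.d, Gen.j, Gen.d] i = i := by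
  intro i hi
  have h := Nat.eq_of_beq_eq_true (cxr_j_d i hi)
  simp only [evalT_cons', evalT_nil', tab_a, tab_b, tab_c, tab_d, tab_e, tab_f, tab_g, tab_j, tab_h, tab_i]
  exact h

theorem cxr_j_e_0 : allFrom (fun i => Nat.ble 31671 i || Nat.beq (tq_j (tq_e (tq_j (tq_e i)))) i) 0 6250 = true := by decide +kernel
theorem cxr_j_e_1 : allFrom (fun i => Nat.ble 31671 i || Nat.beq (tq_j (tq_e (tq_j (tq_e i)))) i) 6250 6250 = true := by decide +kernel
theorem cxr_j_e_2 : allFrom (fun i => Nat.ble 31671 i || Nat.beq (tq_j (tq_e (tq_j (tq_e i)))) i) 12500 6250 = true := by decide +kernel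
theorem cxr_j_e_3 : allFrom (fun i => Nat.ble 31671 i || Nat.beq (tq_j (tq_e (tq_j (tq_e i)))) i) 18750 6250 = true := by decide +kernel
theorem cxr_j_e_4 : allFrom (fun i => Nat.ble 31671 i || Nat.beq (tq_j (tq_e (tq_j (tq_e i)))) i) 25000 6250 = true := by decide +kernel
theorem cxr_j_e_5 : allFrom (fun i => Nat.ble 31671 i || Nat.beq (tq_j (tq_e (tq_j (tq_e i)))) i) 31250 6250 = true := by decide +kernel
theorem cxr_j_e : ∀ i, i < 31671 → (Nat.beq (tq_j (tq_e (tq_j (tq_e i)))) i) = true :=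
  blocks_lt (fun i => Nat.beq (tq_j (tq_e (tq_j (tq_e i)))) i) 31671 6250 6 (by norm_num) ⟨cxr_j_e_0, cxr_j_e_1, cxr_j_e_2, cxr_j_e_3, cxr_j_e_4, cxr_j_e_5, trivial⟩

theorem cx_j_e : ∀ i, i < 31671 → evalT tab [Gen.j, Gen.e, Gen.j, Gen.e] i = i := by
  intro i hi
  have h := Nat.eq_of_beq_eq_true (cxr_j_e i hi)
  simp only [evalT_cons', evalT_nil', tab_a, tab_b, tab_c, tab_d, tab_e, tab_f, tab_g, tab_j, tab_h, tab_i]
  exact h

theorem cxr_j_f_0 : allFrom (fun i => Nat.ble 31671 i || Nat.beq (tq_j (tq_f (tq_j (tq_f i)))) i) 0 6250 = true := by decide +kernel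
theorem cxr_j_f_1 : allFrom (fun i => Nat.ble 31671 i || Nat.beq (tq_j (tq_f (tq_j (tq_f i)))) i) 6250 6250 = true := by decide +kernel
theorem cxr_j_f_2 : allFrom (fun i => Nat.ble 31671 i || Nat.beq (tq_j (tq_f (tq_j (tq_f i)))) i) 12500 6250 = true := by decide +kernel
theorem cxr_j_f_3 : allFrom (fun i => Nat.ble 31671 i || Nat.beq (tq_j (tq_f (tq_j (tq_f i)))) i) 18750 6250 = true := by decide +kernel
theorem cxr_j_f_4 : allFrom (fun i => Nat.ble 31671 i || Nat.beq (tq_j (tq_f (tq_j (tq_f i)))) i) 25000 6250 = true := by decide +kernel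
theorem cxr_j_f_5 : allFrom (fun i => Nat.ble 31671 i || Nat.beq (tq_j (tq_f (tq_j (tq_f i)))) i) 31250 6250 = true := by decide +kernel
theorem cxr_j_f : ∀ i, i < 31671 → (Nat.beq (tq_j (tq_f (tq_j (tq_f i)))) i) = true :=
  blocks_lt (fun i => Nat.beq (tq_j (tq_f (tq_j (tq_f i)))) i) 31671 6250 6 (by norm_num) ⟨cxr_j_f_0, cxr_j_f_1, cxr_j_f_2, cxr_j_f_3, cxr_j_f_4, cxr_j_f_5, trivial⟩

theorem cx_j_f : ∀ i, i < 31671 → evalT tab [Gen.j, Gen.f, Gen.j, Gen.f] i = i := by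
  intro i hi
  have h := Nat.eq_of_beq_eq_true (cxr_j_f i hi)
  simp only [evalT_cons', evalT_nil', tab_a, tab_b, tab_c, tab_d, tab_e, tab_f, tab_g, tab_j, tab_h, tab_i]
  exact h

theorem cxr_j_g_0 : allFrom (fun i => Nat.ble 31671 i || Nat.beq (tq_j (tq_g (tq_j (tq_g (tq_j (tq_g i)))))) i) 0 4166 = true := by decide +kernel
theorem cxr_j_g_1 : allFrom (fun i => Nat.ble 31671 i || Nat.beq (tq_j (tq_g (tq_j (tq_g (tq_j (tq_g i)))))) i) 4166 4166 = true := by decide +kernel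
theorem cxr_j_g_2 : allFrom (fun i => Nat.ble 31671 i || Nat.beq (tq_j (tq_g (tq_j (tq_g (tq_j (tq_g i)))))) i) 8332 4166 = true := by decide +kernel
theorem cxr_j_g_3 : allFrom (fun i => Nat.ble 31671 i || Nat.beq (tq_j (tq_g (tq_j (tq_g (tq_j (tq_g i)))))) i) 12498 4166 = true := by decide +kernel
theorem cxr_j_g_4 : allFrom (fun i => Nat.ble 31671 i || Nat.beq (tq_j (tq_g (tq_j (tq_g (tq_j (tq_g i)))))) i) 16664 4166 = true := by decide +kernel
theorem cxr_j_g_5 : allFrom (fun i => Nat.ble 31671 i || Nat.beq (tq_j (tq_g (tq_j (tq_g (tq_j (tq_g i)))))) i) 20830 4166 = true := by decide +kernel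
theorem cxr_j_g_6 : allFrom (fun i => Nat.ble 31671 i || Nat.beq (tq_j (tq_g (tq_j (tq_g (tq_j (tq_g i)))))) i) 24996 4166 = true := by decide +kernel
theorem cxr_j_g_7 : allFrom (fun i => Nat.ble 31671 i || Nat.beq (tq_j (tq_g (tq_j (tq_g (tq_j (tq_g i)))))) i) 29162 4166 = true := by decide +kernel
theorem cxr_j_g : ∀ i, i < 31671 → (Nat.beq (tq_j (tq_g (tq_j (tq_g (tq_j (tq_g i)))))) i) = true :=
  blocks_lt (fun i => Nat.beq (tq_j (tq_g (tq_j (tq_g (tq_j (tq_g i)))))) i) 31671 4166 8 (by norm_num) ⟨cxr_j_g_0, cxr_j_g_1, cxr_j_g_2, cxr_j_g_3, cxr_j_g_4, cxr_j_g_5, cxr_j_g_6, cxr_j_g_7, trivial⟩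

theorem cx_j_g : ∀ i, i < 31671 → evalT tab [Gen.j, Gen.g, Gen.j, Gen.g, Gen.j, Gen.g] i = i := by
  intro i hi
  have h := Nat.eq_of_beq_eq_true (cxr_j_g i hi)
  simp only [evalT_cons', evalT_nil', tab_a, tab_b, tab_c, tab_d, tab_e, tab_f, tab_g, tab_j, tab_h, tab_i]
  exact h

theorem cxr_j_j_0 : allFrom (fun i => Nat.ble 31671 i || Nat.beq (tq_j (tq_j i)) i) 0 12500 = true := by decide +kernel
theorem cxr_j_j_1 : allFrom (fun i => Nat.ble 31671 i || Nat.beq (tq_j (tq_j i)) i) 12500 12500 = true := by decide +kernel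
theorem cxr_j_j_2 : allFrom (fun i => Nat.ble 31671 i || Nat.beq (tq_j (tq_j i)) i) 25000 12500 = true := by decide +kernel
theorem cxr_j_j : ∀ i, i < 31671 → (Nat.beq (tq_j (tq_j i)) i) = true :=
  blocks_lt (fun i => Nat.beq (tq_j (tq_j i)) i) 31671 12500 3 (by norm_num) ⟨cxr_j_j_0, cxr_j_j_1, cxr_j_j_2, trivial⟩

theorem cx_j_j : ∀ i, i < 31671 → evalT tab [Gen.j, Gen.j] i = i := by
  intro i hi
  have h := Nat.eq_of_beq_eq_true (cxr_j_j i hi)
  simp only [evalT_cons', evalT_nil', tab_a, tab_b, tab_c, tab_d, tab_e, tab_f, tab_g, tab_j, tab_h, tab_i]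
  exact h

theorem cxr_j_h_0 : allFrom (fun i => Nat.ble 31671 i || Nat.beq (tq_j (tq_h (tq_j (tq_h i)))) i) 0 6250 = true := by decide +kernel
theorem cxr_j_h_1 : allFrom (fun i => Nat.ble 31671 i || Nat.beq (tq_j (tq_h (tq_j (tq_h i)))) i) 6250 6250 = true := by decide +kernel
theorem cxr_j_h_2 : allFrom (fun i => Nat.ble 31671 i || Nat.beq (tq_j (tq_h (tq_j (tq_h i)))) i) 12500 6250 = true := by decide +kernel
theorem cxr_j_h_3 : allFrom (fun i => Nat.ble 31671 i || Nat.beq (tq_j (tq_h (tq_j (tq_h i)))) i) 18750 6250 = true := by decide +kernel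
theorem cxr_j_h_4 : allFrom (fun i => Nat.ble 31671 i || Nat.beq (tq_j (tq_h (tq_j (tq_h i)))) i) 25000 6250 = true := by decide +kernel
theorem cxr_j_h_5 : allFrom (fun i => Nat.ble 31671 i || Nat.beq (tq_j (tq_h (tq_j (tq_h i)))) i) 31250 6250 = true := by decide +kernel
theorem cxr_j_h : ∀ i, i < 31671 → (Nat.beq (tq_j (tq_h (tq_j (tq_h i)))) i) = true :=
  blocks_lt (fun i => Nat.beq (tq_j (tq_h (tq_j (tq_h i)))) i) 31671 6250 6 (by norm_num) ⟨cxr_j_h_0, cxr_j_h_1, cxr_j_h_2, cxr_j_h_3, cxr_j_h_4, cxr_j_h_5, trivial⟩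

theorem cx_j_h : ∀ i, i < 31671 → evalT tab [Gen.j, Gen.h, Gen.j, Gen.h] i = i := by
  intro i hi
  have h := Nat.eq_of_beq_eq_true (cxr_j_h i hi)
  simp only [evalT_cons', evalT_nil', tab_a, tab_b, tab_c, tab_d, tab_e, tab_f, tab_g, tab_j, tab_h, tab_i]
  exact h

theorem cxr_j_i_0 : allFrom (fun i => Nat.ble 31671 i || Nat.beq (tq_j (tq_i (tq_j (tq_i i)))) i) 0 6250 = true := by decide +kernel
theorem cxr_j_i_1 : allFrom (fun i => Nat.ble 31671 i || Nat.beq (tq_j (tq_i (tq_j (tq_i i)))) i) 6250 6250 = true := by decide +kernel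
theorem cxr_j_i_2 : allFrom (fun i => Nat.ble 31671 i || Nat.beq (tq_j (tq_i (tq_j (tq_i i)))) i) 12500 6250 = true := by decide +kernel
theorem cxr_j_i_3 : allFrom (fun i => Nat.ble 31671 i || Nat.beq (tq_j (tq_i (tq_j (tq_i i)))) i) 18750 6250 = true := by decide +kernel
theorem cxr_j_i_4 : allFrom (fun i => Nat.ble 31671 i || Nat.beq (tq_j (tq_i (tq_j (tq_i i)))) i) 25000 6250 = true := by decide +kernel
theorem cxr_j_i_5 : allFrom (fun i => Nat.ble 31671 i || Nat.beq (tq_j (tq_i (tq_j (tq_i i)))) i) 31250 6250 = true := by decide +kernel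
theorem cxr_j_i : ∀ i, i < 31671 → (Nat.beq (tq_j (tq_i (tq_j (tq_i i)))) i) = true :=
  blocks_lt (fun i => Nat.beq (tq_j (tq_i (tq_j (tq_i i)))) i) 31671 6250 6 (by norm_num) ⟨cxr_j_i_0, cxr_j_i_1, cxr_j_i_2, cxr_j_i_3, cxr_j_i_4, cxr_j_i_5, trivial⟩

theorem cx_j_i : ∀ i, i < 31671 → evalT tab [Gen.j, Gen.i, Gen.j, Gen.i] i = i := by
  intro i hi
  have h := Nat.eq_of_beq_eq_true (cxr_j_i i hi)
  simp only [evalT_cons', evalT_nil', tab_a, tab_b, tab_c, tab_d, tab_e, tab_f, tab_g, tab_j, tab_h, tab_i]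
  exact h

theorem cxr_h_a_0 : allFrom (fun i => Nat.ble 31671 i || Nat.beq (tq_h (tq_a (tq_h (tq_a i)))) i) 0 6250 = true := by decide +kernel
theorem cxr_h_a_1 : allFrom (fun i => Nat.ble 31671 i || Nat.beq (tq_h (tq_a (tq_h (tq_a i)))) i) 6250 6250 = true := by decide +kernel
theorem cxr_h_a_2 : allFrom (fun i => Nat.ble 31671 i || Nat.beq (tq_h (tq_a (tq_h (tq_a i)))) i) 12500 6250 = true := by decide +kernel
theorem cxr_h_a_3 : allFrom (fun i => Nat.ble 31671 i || Nat.beq (tq_h (tq_a (tq_h (tq_a i)))) i) 18750 6250 = true := by decide +kernel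
theorem cxr_h_a_4 : allFrom (fun i => Nat.ble 31671 i || Nat.beq (tq_h (tq_a (tq_h (tq_a i)))) i) 25000 6250 = true := by decide +kernel
theorem cxr_h_a_5 : allFrom (fun i => Nat.ble 31671 i || Nat.beq (tq_h (tq_a (tq_h (tq_a i)))) i) 31250 6250 = true := by decide +kernel
theorem cxr_h_a : ∀ i, i < 31671 → (Nat.beq (tq_h (tq_a (tq_h (tq_a i)))) i) = true :=
  blocks_lt (fun i => Nat.beq (tq_h (tq_a (tq_h (tq_a i)))) i) 31671 6250 6 (by norm_num) ⟨cxr_h_a_0, cxr_h_a_1, cxr_h_a_2, cxr_h_a_3, cxr_h_a_4, cxr_h_a_5, trivial⟩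

theorem cx_h_a : ∀ i, i < 31671 → evalT tab [Gen.h, Gen.a, Gen.h, Gen.a] i = i := by
  intro i hi
  have h := Nat.eq_of_beq_eq_true (cxr_h_a i hi)
  simp only [evalT_cons', evalT_nil', tab_a, tab_b, tab_c, tab_d, tab_e, tab_f, tab_g, tab_j, tab_h, tab_i]
  exact h

theorem cxr_h_b_0 : allFrom (fun i => Nat.ble 31671 i || Nat.beq (tq_h (tq_b (tq_h (tq_b i)))) i) 0 6250 = true := by decide +kernel
theorem cxr_h_b_1 : allFrom (fun i => Nat.ble 31671 i || Nat.beq (tq_h (tq_b (tq_h (tq_b i)))) i) 6250 6250 = true := by decide +kernel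
theorem cxr_h_b_2 : allFrom (fun i => Nat.ble 31671 i || Nat.beq (tq_h (tq_b (tq_h (tq_b i)))) i) 12500 6250 = true := by decide +kernel
theorem cxr_h_b_3 : allFrom (fun i => Nat.ble 31671 i || Nat.beq (tq_h (tq_b (tq_h (tq_b i)))) i) 18750 6250 = true := by decide +kernel
theorem cxr_h_b_4 : allFrom (fun i => Nat.ble 31671 i || Nat.beq (tq_h (tq_b (tq_h (tq_b i)))) i) 25000 6250 = true := by decide +kernel
theorem cxr_h_b_5 : allFrom (fun i => Nat.ble 31671 i || Nat.beq (tq_h (tq_b (tq_h (tq_b i)))) i) 31250 6250 = true := by decide +kernel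
theorem cxr_h_b : ∀ i, i < 31671 → (Nat.beq (tq_h (tq_b (tq_h (tq_b i)))) i) = true :=
  blocks_lt (fun i => Nat.beq (tq_h (tq_b (tq_h (tq_b i)))) i) 31671 6250 6 (by norm_num) ⟨cxr_h_b_0, cxr_h_b_1, cxr_h_b_2, cxr_h_b_3, cxr_h_b_4, cxr_h_b_5, trivial⟩

theorem cx_h_b : ∀ i, i < 31671 → evalT tab [Gen.h, Gen.b, Gen.h, Gen.b] i = i := by
  intro i hi
  have h := Nat.eq_of_beq_eq_true (cxr_h_b i hi)
  simp only [evalT_cons', evalT_nil', tab_a, tab_b, tab_c, tab_d, tab_e, tab_f, tab_g, tab_j, tab_h, tab_i]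
  exact h

theorem cxr_h_c_0 : allFrom (fun i => Nat.ble 31671 i || Nat.beq (tq_h (tq_c (tq_h (tq_c i)))) i) 0 6250 = true := by decide +kernel
theorem cxr_h_c_1 : allFrom (fun i => Nat.ble 31671 i || Nat.beq (tq_h (tq_c (tq_h (tq_c i)))) i) 6250 6250 = true := by decide +kernel
theorem cxr_h_c_2 : allFrom (fun i => Nat.ble 31671 i || Nat.beq (tq_h (tq_c (tq_h (tq_c i)))) i) 12500 6250 = true := by decide +kernel
theorem cxr_h_c_3 : allFrom (fun i => Nat.ble 31671 i || Nat.beq (tq_h (tq_c (tq_h (tq_c i)))) i) 18750 6250 = true := by decide +kernel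
theorem cxr_h_c_4 : allFrom (fun i => Nat.ble 31671 i || Nat.beq (tq_h (tq_c (tq_h (tq_c i)))) i) 25000 6250 = true := by decide +kernel
theorem cxr_h_c_5 : allFrom (fun i => Nat.ble 31671 i || Nat.beq (tq_h (tq_c (tq_h (tq_c i)))) i) 31250 6250 = true := by decide +kernel
theorem cxr_h_c : ∀ i, i < 31671 → (Nat.beq (tq_h (tq_c (tq_h (tq_c i)))) i) = true :=
  blocks_lt (fun i => Nat.beq (tq_h (tq_c (tq_h (tq_c i)))) i) 31671 6250 6 (by norm_num) ⟨cxr_h_c_0, cxr_h_c_1, cxr_h_c_2, cxr_h_c_3, cxr_h_c_4, cxr_h_c_5, trivial⟩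

theorem cx_h_c : ∀ i, i < 31671 → evalT tab [Gen.h, Gen.c, Gen.h, Gen.c] i = i := by
  intro i hi
  have h := Nat.eq_of_beq_eq_true (cxr_h_c i hi)
  simp only [evalT_cons', evalT_nil', tab_a, tab_b, tab_c, tab_d, tab_e, tab_f, tab_g, tab_j, tab_h, tab_i]
  exact h

theorem cxr_h_d_0 : allFrom (fun i => Nat.ble 31671 i || Nat.beq (tq_h (tq_d (tq_h (tq_d (tq_h (tq_d i)))))) i) 0 4166 = true := by decide +kernel
theorem cxr_h_d_1 : allFrom (fun i => Nat.ble 31671 i || Nat.beq (tq_h (tq_d (tq_h (tq_d (tq_h (tq_d i)))))) i) 4166 4166 = true := by decide +kernel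
theorem cxr_h_d_2 : allFrom (fun i => Nat.ble 31671 i || Nat.beq (tq_h (tq_d (tq_h (tq_d (tq_h (tq_d i)))))) i) 8332 4166 = true := by decide +kernel
theorem cxr_h_d_3 : allFrom (fun i => Nat.ble 31671 i || Nat.beq (tq_h (tq_d (tq_h (tq_d (tq_h (tq_d i)))))) i) 12498 4166 = true := by decide +kernel
theorem cxr_h_d_4 : allFrom (fun i => Nat.ble 31671 i || Nat.beq (tq_h (tq_d (tq_h (tq_d (tq_h (tq_d i)))))) i) 16664 4166 = true := by decide +kernel
theorem cxr_h_d_5 : allFrom (fun i => Nat.ble 31671 i || Nat.beq (tq_h (tq_d (tq_h (tq_d (tq_h (tq_d i)))))) i) 20830 4166 = true := by decide +kernel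
theorem cxr_h_d_6 : allFrom (fun i => Nat.ble 31671 i || Nat.beq (tq_h (tq_d (tq_h (tq_d (tq_h (tq_d i)))))) i) 24996 4166 = true := by decide +kernel
theorem cxr_h_d_7 : allFrom (fun i => Nat.ble 31671 i || Nat.beq (tq_h (tq_d (tq_h (tq_d (tq_h (tq_d i)))))) i) 29162 4166 = true := by decide +kernel
theorem cxr_h_d : ∀ i, i < 31671 → (Nat.beq (tq_h (tq_d (tq_h (tq_d (tq_h (tq_d i)))))) i) = true :=
  blocks_lt (fun i => Nat.beq (tq_h (tq_d (tq_h (tq_d (tq_h (tq_d i)))))) i) 31671 4166 8 (by norm_num) ⟨cxr_h_d_0, cxr_h_d_1, cxr_h_d_2, cxr_h_d_3, cxr_h_d_4, cxr_h_d_5, cxr_h_d_6, cxr_h_d_7, trivial⟩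

theorem cx_h_d : ∀ i, i < 31671 → evalT tab [Gen.h, Gen.d, Gen.h, Gen.d, Gen.h, Gen.d] i = i := by
  intro i hi
  have h := Nat.eq_of_beq_eq_true (cxr_h_d i hi)
  simp only [evalT_cons', evalT_nil', tab_a, tab_b, tab_c, tab_d, tab_e, tab_f, tab_g, tab_j, tab_h, tab_i]
  exact h

theorem cxr_h_e_0 : allFrom (fun i => Nat.ble 31671 i || Nat.beq (tq_h (tq_e (tq_h (tq_e i)))) i) 0 6250 = true := by decide +kernel
theorem cxr_h_e_1 : allFrom (fun i => Nat.ble 31671 i || Nat.beq (tq_h (tq_e (tq_h (tq_e i)))) i) 6250 6250 = true := by decide +kernel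
theorem cxr_h_e_2 : allFrom (fun i => Nat.ble 31671 i || Nat.beq (tq_h (tq_e (tq_h (tq_e i)))) i) 12500 6250 = true := by decide +kernel
theorem cxr_h_e_3 : allFrom (fun i => Nat.ble 31671 i || Nat.beq (tq_h (tq_e (tq_h (tq_e i)))) i) 18750 6250 = true := by decide +kernel
theorem cxr_h_e_4 : allFrom (fun i => Nat.ble 31671 i || Nat.beq (tq_h (tq_e (tq_h (tq_e i)))) i) 25000 6250 = true := by decide +kernel
theorem cxr_h_e_5 : allFrom (fun i => Nat.ble 31671 i || Nat.beq (tq_h (tq_e (tq_h (tq_e i)))) i) 31250 6250 = true := by decide +kernel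
theorem cxr_h_e : ∀ i, i < 31671 → (Nat.beq (tq_h (tq_e (tq_h (tq_e i)))) i) = true :=
  blocks_lt (fun i => Nat.beq (tq_h (tq_e (tq_h (tq_e i)))) i) 31671 6250 6 (by norm_num) ⟨cxr_h_e_0, cxr_h_e_1, cxr_h_e_2, cxr_h_e_3, cxr_h_e_4, cxr_h_e_5, trivial⟩

theorem cx_h_e : ∀ i, i < 31671 → evalT tab [Gen.h, Gen.e, Gen.h, Gen.e] i = i := by
  intro i hi
  have h := Nat.eq_of_beq_eq_true (cxr_h_e i hi)
  simp only [evalT_cons', evalT_nil', tab_a, tab_b, tab_c, tab_d, tab_e, tab_f, tab_g, tab_j, tab_h, tab_i]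
  exact h

theorem cxr_h_f_0 : allFrom (fun i => Nat.ble 31671 i || Nat.beq (tq_h (tq_f (tq_h (tq_f i)))) i) 0 6250 = true := by decide +kernel
theorem cxr_h_f_1 : allFrom (fun i => Nat.ble 31671 i || Nat.beq (tq_h (tq_f (tq_h (tq_f i)))) i) 6250 6250 = true := by decide +kernel
theorem cxr_h_f_2 : allFrom (fun i => Nat.ble 31671 i || Nat.beq (tq_h (tq_f (tq_h (tq_f i)))) i) 12500 6250 = true := by decide +kernel
theorem cxr_h_f_3 : allFrom (fun i => Nat.ble 31671 i || Nat.beq (tq_h (tq_f (tq_h (tq_f i)))) i) 18750 6250 = true := by decide +kernel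
theorem cxr_h_f_4 : allFrom (fun i => Nat.ble 31671 i || Nat.beq (tq_h (tq_f (tq_h (tq_f i)))) i) 25000 6250 = true := by decide +kernel
theorem cxr_h_f_5 : allFrom (fun i => Nat.ble 31671 i || Nat.beq (tq_h (tq_f (tq_h (tq_f i)))) i) 31250 6250 = true := by decide +kernel
theorem cxr_h_f : ∀ i, i < 31671 → (Nat.beq (tq_h (tq_f (tq_h (tq_f i)))) i) = true :=
  blocks_lt (fun i => Nat.beq (tq_h (tq_f (tq_h (tq_f i)))) i) 31671 6250 6 (by norm_num) ⟨cxr_h_f_0, cxr_h_f_1, cxr_h_f_2, cxr_h_f_3, cxr_h_f_4, cxr_h_f_5, trivial⟩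

theorem cx_h_f : ∀ i, i < 31671 → evalT tab [Gen.h, Gen.f, Gen.h, Gen.f] i = i := by
  intro i hi
  have h := Nat.eq_of_beq_eq_true (cxr_h_f i hi)
  simp only [evalT_cons', evalT_nil', tab_a, tab_b, tab_c, tab_d, tab_e, tab_f, tab_g, tab_j, tab_h, tab_i]
  exact h

theorem cxr_h_g_0 : allFrom (fun i => Nat.ble 31671 i || Nat.beq (tq_h (tq_g (tq_h (tq_g i)))) i) 0 6250 = true := by decide +kernel
theorem cxr_h_g_1 : allFrom (fun i => Nat.ble 31671 i || Nat.beq (tq_h (tq_g (tq_h (tq_g i)))) i) 6250 6250 = true := by decide +kernel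
theorem cxr_h_g_2 : allFrom (fun i => Nat.ble 31671 i || Nat.beq (tq_h (tq_g (tq_h (tq_g i)))) i) 12500 6250 = true := by decide +kernel
theorem cxr_h_g_3 : allFrom (fun i => Nat.ble 31671 i || Nat.beq (tq_h (tq_g (tq_h (tq_g i)))) i) 18750 6250 = true := by decide +kernel
theorem cxr_h_g_4 : allFrom (fun i => Nat.ble 31671 i || Nat.beq (tq_h (tq_g (tq_h (tq_g i)))) i) 25000 6250 = true := by decide +kernel
theorem cxr_h_g_5 : allFrom (fun i => Nat.ble 31671 i || Nat.beq (tq_h (tq_g (tq_h (tq_g i)))) i) 31250 6250 = true := by decide +kernel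
theorem cxr_h_g : ∀ i, i < 31671 → (Nat.beq (tq_h (tq_g (tq_h (tq_g i)))) i) = true :=
  blocks_lt (fun i => Nat.beq (tq_h (tq_g (tq_h (tq_g i)))) i) 31671 6250 6 (by norm_num) ⟨cxr_h_g_0, cxr_h_g_1, cxr_h_g_2, cxr_h_g_3, cxr_h_g_4, cxr_h_g_5, trivial⟩

theorem cx_h_g : ∀ i, i < 31671 → evalT tab [Gen.h, Gen.g, Gen.h, Gen.g] i = i := by
  intro i hi
  have h := Nat.eq_of_beq_eq_true (cxr_h_g i hi)
  simp only [evalT_cons', evalT_nil', tab_a, tab_b, tab_c, tab_d, tab_e, tab_f, tab_g, tab_j, tab_h, tab_i]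
  exact h

theorem cxr_h_j_0 : allFrom (fun i => Nat.ble 31671 i || Nat.beq (tq_h (tq_j (tq_h (tq_j i)))) i) 0 6250 = true := by decide +kernel
theorem cxr_h_j_1 : allFrom (fun i => Nat.ble 31671 i || Nat.beq (tq_h (tq_j (tq_h (tq_j i)))) i) 6250 6250 = true := by decide +kernel
theorem cxr_h_j_2 : allFrom (fun i => Nat.ble 31671 i || Nat.beq (tq_h (tq_j (tq_h (tq_j i)))) i) 12500 6250 = true := by decide +kernel
theorem cxr_h_j_3 : allFrom (fun i => Nat.ble 31671 i || Nat.beq (tq_h (tq_j (tq_h (tq_j i)))) i) 18750 6250 = true := by decide +kernel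
theorem cxr_h_j_4 : allFrom (fun i => Nat.ble 31671 i || Nat.beq (tq_h (tq_j (tq_h (tq_j i)))) i) 25000 6250 = true := by decide +kernel
theorem cxr_h_j_5 : allFrom (fun i => Nat.ble 31671 i || Nat.beq (tq_h (tq_j (tq_h (tq_j i)))) i) 31250 6250 = true := by decide +kernel
theorem cxr_h_j : ∀ i, i < 31671 → (Nat.beq (tq_h (tq_j (tq_h (tq_j i)))) i) = true :=
  blocks_lt (fun i => Nat.beq (tq_h (tq_j (tq_h (tq_j i)))) i) 31671 6250 6 (by norm_num) ⟨cxr_h_j_0, cxr_h_j_1, cxr_h_j_2, cxr_h_j_3, cxr_h_j_4, cxr_h_j_5, trivial⟩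

theorem cx_h_j : ∀ i, i < 31671 → evalT tab [Gen.h, Gen.j, Gen.h, Gen.j] i = i := by
  intro i hi
  have h := Nat.eq_of_beq_eq_true (cxr_h_j i hi)
  simp only [evalT_cons', evalT_nil', tab_a, tab_b, tab_c, tab_d, tab_e, tab_f, tab_g, tab_j, tab_h, tab_i]
  exact h

theorem cxr_h_h_0 : allFrom (fun i => Nat.ble 31671 i || Nat.beq (tq_h (tq_h i)) i) 0 12500 = true := by decide +kernel
theorem cxr_h_h_1 : allFrom (fun i => Nat.ble 31671 i || Nat.beq (tq_h (tq_h i)) i) 12500 12500 = true := by decide +kernel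
theorem cxr_h_h_2 : allFrom (fun i => Nat.ble 31671 i || Nat.beq (tq_h (tq_h i)) i) 25000 12500 = true := by decide +kernel
theorem cxr_h_h : ∀ i, i < 31671 → (Nat.beq (tq_h (tq_h i)) i) = true :=
  blocks_lt (fun i => Nat.beq (tq_h (tq_h i)) i) 31671 12500 3 (by norm_num) ⟨cxr_h_h_0, cxr_h_h_1, cxr_h_h_2, trivial⟩

theorem cx_h_h : ∀ i, i < 31671 → evalT tab [Gen.h, Gen.h] i = i := by
  intro i hi
  have h := Nat.eq_of_beq_eq_true (cxr_h_h i hi)
  simp only [evalT_cons', evalT_nil', tab_a, tab_b, tab_c, tab_d, tab_e, tab_f, tab_g, tab_j, tab_h, tab_i]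
  exact h

end Cfsg.Agent.Helper28.FicA
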