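import Cfsg.Agent.Helper28.FicR0

/-!
# The Fi₂₃ presentation, cosets of the subgroup generated by a, …, i: relator checks, part 6 (helper28; generated)
-/

set_option autoImplicit false
set_option maxRecDepth 100000
set_option linter.unusedSimpArgs false
set_option linter.constructorNameAsVariable false

noncomputable section

namespace Cfsg.Agent.Helper28.FicA

open Cfsg.Spor Cfsg.Spor.Fi23 Cfsg.Agent.Helper28.CosetTable

theorem cxr_h_i_0 : allFrom (fun i => Nat.ble 31671 i || Nat.beq (tq_h (tq_i (tq_h (tq_i (tq_h (tq_i i)))))) i) 0 4166 = true := by decide +kernel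
theorem cxr_h_i_1 : allFrom (fun i => Nat.ble 31671 i || Nat.beq (tq_h (tq_i (tq_h (tq_i (tq_h (tq_i i)))))) i) 4166 4166 = true := by decide +kernel
theorem cxr_h_i_2 : allFrom (fun i => Nat.ble 31671 i || Nat.beq (tq_h (tq_i (tq_h (tq_i (tq_h (tq_i i)))))) i) 8332 4166 = true := by decide +kernel
theorem cxr_h_i_3 : allFrom (fun i => Nat.ble 31671 i || Nat.beq (tq_h (tq_i (tq_h (tq_i (tq_h (tq_i i)))))) i) 12498 4166 = true := by decide +kernel
theorem cxr_h_i_4 : allFrom (fun i => Nat.ble 31671 i || Nat.beq (tq_h (tq_i (tq_h (tq_i (tq_h (tq_i i)))))) i) 16664 4166 = true := by decide +kernel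
theorem cxr_h_i_5 : allFrom (fun i => Nat.ble 31671 i || Nat.beq (tq_h (tq_i (tq_h (tq_i (tq_h (tq_i i)))))) i) 20830 4166 = true := by decide +kernel
theorem cxr_h_i_6 : allFrom (fun i => Nat.ble 31671 i || Nat.beq (tq_h (tq_i (tq_h (tq_i (tq_h (tq_i i)))))) i) 24996 4166 = true := by decide +kernel
theorem cxr_h_i_7 : allFrom (fun i => Nat.ble 31671 i || Nat.beq (tq_h (tq_i (tq_h (tq_i (tq_h (tq_i i)))))) i) 29162 4166 = true := by decide +kernel
theorem cxr_h_i : ∀ i, i < 31671 → (Nat.beq (tq_h (tq_i (tq_h (tq_i (tq_h (tq_i i)))))) i) = true :=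
  blocks_lt (fun i => Nat.beq (tq_h (tq_i (tq_h (tq_i (tq_h (tq_i i)))))) i) 31671 4166 8 (by norm_num) ⟨cxr_h_i_0, cxr_h_i_1, cxr_h_i_2, cxr_h_i_3, cxr_h_i_4, cxr_h_i_5, cxr_h_i_6, cxr_h_i_7, trivial⟩

theorem cx_h_i : ∀ i, i < 31671 → evalT tab [Gen.h, Gen.i, Gen.h, Gen.i, Gen.h, Gen.i] i = i := by
  intro i hi
  have h := Nat.eq_of_beq_eq_true (cxr_h_i i hi)
  simp only [evalT_cons', evalT_nil', tab_a, tab_b, tab_c, tab_d, tab_e, tab_f, tab_g, tab_j, tab_h, tab_i]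
  exact h

theorem cxr_i_a_0 : allFrom (fun i => Nat.ble 31671 i || Nat.beq (tq_i (tq_a (tq_i (tq_a i)))) i) 0 6250 = true := by decide +kernel
theorem cxr_i_a_1 : allFrom (fun i => Nat.ble 31671 i || Nat.beq (tq_i (tq_a (tq_i (tq_a i)))) i) 6250 6250 = true := by decide +kernel
theorem cxr_i_a_2 : allFrom (fun i => Nat.ble 31671 i || Nat.beq (tq_i (tq_a (tq_i (tq_a i)))) i) 12500 6250 = true := by decide +kernel
theorem cxr_i_a_3 : allFrom (fun i => Nat.ble 31671 i || Nat.beq (tq_i (tq_a (tq_i (tq_a i)))) i) 18750 6250 = true := by decide +kernel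
theorem cxr_i_a_4 : allFrom (fun i => Nat.ble 31671 i || Nat.beq (tq_i (tq_a (tq_i (tq_a i)))) i) 25000 6250 = true := by decide +kernel
theorem cxr_i_a_5 : allFrom (fun i => Nat.ble 31671 i || Nat.beq (tq_i (tq_a (tq_i (tq_a i)))) i) 31250 6250 = true := by decide +kernel
theorem cxr_i_a : ∀ i, i < 31671 → (Nat.beq (tq_i (tq_a (tq_i (tq_a i)))) i) = true :=
  blocks_lt (fun i => Nat.beq (tq_i (tq_a (tq_i (tq_a i)))) i) 31671 6250 6 (by norm_num) ⟨cxr_i_a_0, cxr_i_a_1, cxr_i_a_2, cxr_i_a_3, cxr_i_a_4, cxr_i_a_5, trivial⟩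

theorem cx_i_a : ∀ i, i < 31671 → evalT tab [Gen.i, Gen.a, Gen.i, Gen.a] i = i := by
  intro i hi
  have h := Nat.eq_of_beq_eq_true (cxr_i_a i hi)
  simp only [evalT_cons', evalT_nil', tab_a, tab_b, tab_c, tab_d, tab_e, tab_f, tab_g, tab_j, tab_h, tab_i]
  exact h

theorem cxr_i_b_0 : allFrom (fun i => Nat.ble 31671 i || Nat.beq (tq_i (tq_b (tq_i (tq_b i)))) i) 0 6250 = true := by decide +kernel
theorem cxr_i_b_1 : allFrom (fun i => Nat.ble 31671 i || Nat.beq (tq_i (tq_b (tq_i (tq_b i)))) i) 6250 6250 = true := by decide +kernel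
theorem cxr_i_b_2 : allFrom (fun i => Nat.ble 31671 i || Nat.beq (tq_i (tq_b (tq_i (tq_b i)))) i) 12500 6250 = true := by decide +kernel
theorem cxr_i_b_3 : allFrom (fun i => Nat.ble 31671 i || Nat.beq (tq_i (tq_b (tq_i (tq_b i)))) i) 18750 6250 = true := by decide +kernel
theorem cxr_i_b_4 : allFrom (fun i => Nat.ble 31671 i || Nat.beq (tq_i (tq_b (tq_i (tq_b i)))) i) 25000 6250 = true := by decide +kernel
theorem cxr_i_b_5 : allFrom (fun i => Nat.ble 31671 i || Nat.beq (tq_i (tq_b (tq_i (tq_b i)))) i) 31250 6250 = true := by decide +kernel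
theorem cxr_i_b : ∀ i, i < 31671 → (Nat.beq (tq_i (tq_b (tq_i (tq_b i)))) i) = true :=
  blocks_lt (fun i => Nat.beq (tq_i (tq_b (tq_i (tq_b i)))) i) 31671 6250 6 (by norm_num) ⟨cxr_i_b_0, cxr_i_b_1, cxr_i_b_2, cxr_i_b_3, cxr_i_b_4, cxr_i_b_5, trivial⟩

theorem cx_i_b : ∀ i, i < 31671 → evalT tab [Gen.i, Gen.b, Gen.i, Gen.b] i = i := by
  intro i hi
  have h := Nat.eq_of_beq_eq_true (cxr_i_b i hi)
  simp only [evalT_cons', evalT_nil', tab_a, tab_b, tab_c, tab_d, tab_e, tab_f, tab_g, tab_j, tab_h, tab_i]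
  exact h

theorem cxr_i_c_0 : allFrom (fun i => Nat.ble 31671 i || Nat.beq (tq_i (tq_c (tq_i (tq_c i)))) i) 0 6250 = true := by decide +kernel
theorem cxr_i_c_1 : allFrom (fun i => Nat.ble 31671 i || Nat.beq (tq_i (tq_c (tq_i (tq_c i)))) i) 6250 6250 = true := by decide +kernel
theorem cxr_i_c_2 : allFrom (fun i => Nat.ble 31671 i || Nat.beq (tq_i (tq_c (tq_i (tq_c i)))) i) 12500 6250 = true := by decide +kernel
theorem cxr_i_c_3 : allFrom (fun i => Nat.ble 31671 i || Nat.beq (tq_i (tq_c (tq_i (tq_c i)))) i) 18750 6250 = true := by decide +kernel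
theorem cxr_i_c_4 : allFrom (fun i => Nat.ble 31671 i || Nat.beq (tq_i (tq_c (tq_i (tq_c i)))) i) 25000 6250 = true := by decide +kernel
theorem cxr_i_c_5 : allFrom (fun i => Nat.ble 31671 i || Nat.beq (tq_i (tq_c (tq_i (tq_c i)))) i) 31250 6250 = true := by decide +kernel
theorem cxr_i_c : ∀ i, i < 31671 → (Nat.beq (tq_i (tq_c (tq_i (tq_c i)))) i) = true :=
  blocks_lt (fun i => Nat.beq (tq_i (tq_c (tq_i (tq_c i)))) i) 31671 6250 6 (by norm_num) ⟨cxr_i_c_0, cxr_i_c_1, cxr_i_c_2, cxr_i_c_3, cxr_i_c_4, cxr_i_c_5, trivial⟩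

theorem cx_i_c : ∀ i, i < 31671 → evalT tab [Gen.i, Gen.c, Gen.i, Gen.c] i = i := by
  intro i hi
  have h := Nat.eq_of_beq_eq_true (cxr_i_c i hi)
  simp only [evalT_cons', evalT_nil', tab_a, tab_b, tab_c, tab_d, tab_e, tab_f, tab_g, tab_j, tab_h, tab_i]
  exact h

theorem cxr_i_d_0 : allFrom (fun i => Nat.ble 31671 i || Nat.beq (tq_i (tq_d (tq_i (tq_d i)))) i) 0 6250 = true := by decide +kernel
theorem cxr_i_d_1 : allFrom (fun i => Nat.ble 31671 i || Nat.beq (tq_i (tq_d (tq_i (tq_d i)))) i) 6250 6250 = true := by decide +kernel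
theorem cxr_i_d_2 : allFrom (fun i => Nat.ble 31671 i || Nat.beq (tq_i (tq_d (tq_i (tq_d i)))) i) 12500 6250 = true := by decide +kernel
theorem cxr_i_d_3 : allFrom (fun i => Nat.ble 31671 i || Nat.beq (tq_i (tq_d (tq_i (tq_d i)))) i) 18750 6250 = true := by decide +kernel
theorem cxr_i_d_4 : allFrom (fun i => Nat.ble 31671 i || Nat.beq (tq_i (tq_d (tq_i (tq_d i)))) i) 25000 6250 = true := by decide +kernel
theorem cxr_i_d_5 : allFrom (fun i => Nat.ble 31671 i || Nat.beq (tq_i (tq_d (tq_i (tq_d i)))) i) 31250 6250 = true := by decide +kernel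
theorem cxr_i_d : ∀ i, i < 31671 → (Nat.beq (tq_i (tq_d (tq_i (tq_d i)))) i) = true :=
  blocks_lt (fun i => Nat.beq (tq_i (tq_d (tq_i (tq_d i)))) i) 31671 6250 6 (by norm_num) ⟨cxr_i_d_0, cxr_i_d_1, cxr_i_d_2, cxr_i_d_3, cxr_i_d_4, cxr_i_d_5, trivial⟩

theorem cx_i_d : ∀ i, i < 31671 → evalT tab [Gen.i, Gen.d, Gen.i, Gen.d] i = i := by
  intro i hi
  have h := Nat.eq_of_beq_eq_true (cxr_i_d i hi)
  simp only [evalT_cons', evalT_nil', tab_a, tab_b, tab_c, tab_d, tab_e, tab_f, tab_g, tab_j, tab_h, tab_i]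
  exact h

theorem cxr_i_e_0 : allFrom (fun i => Nat.ble 31671 i || Nat.beq (tq_i (tq_e (tq_i (tq_e i)))) i) 0 6250 = true := by decide +kernel
theorem cxr_i_e_1 : allFrom (fun i => Nat.ble 31671 i || Nat.beq (tq_i (tq_e (tq_i (tq_e i)))) i) 6250 6250 = true := by decide +kernel
theorem cxr_i_e_2 : allFrom (fun i => Nat.ble 31671 i || Nat.beq (tq_i (tq_e (tq_i (tq_e i)))) i) 12500 6250 = true := by decide +kernel
theorem cxr_i_e_3 : allFrom (fun i => Nat.ble 31671 i || Nat.beq (tq_i (tq_e (tq_i (tq_e i)))) i) 18750 6250 = true := by decide +kernel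
theorem cxr_i_e_4 : allFrom (fun i => Nat.ble 31671 i || Nat.beq (tq_i (tq_e (tq_i (tq_e i)))) i) 25000 6250 = true := by decide +kernel
theorem cxr_i_e_5 : allFrom (fun i => Nat.ble 31671 i || Nat.beq (tq_i (tq_e (tq_i (tq_e i)))) i) 31250 6250 = true := by decide +kernel
theorem cxr_i_e : ∀ i, i < 31671 → (Nat.beq (tq_i (tq_e (tq_i (tq_e i)))) i) = true :=
  blocks_lt (fun i => Nat.beq (tq_i (tq_e (tq_i (tq_e i)))) i) 31671 6250 6 (by norm_num) ⟨cxr_i_e_0, cxr_i_e_1, cxr_i_e_2, cxr_i_e_3, cxr_i_e_4, cxr_i_e_5, trivial⟩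

theorem cx_i_e : ∀ i, i < 31671 → evalT tab [Gen.i, Gen.e, Gen.i, Gen.e] i = i := by
  intro i hi
  have h := Nat.eq_of_beq_eq_true (cxr_i_e i hi)
  simp only [evalT_cons', evalT_nil', tab_a, tab_b, tab_c, tab_d, tab_e, tab_f, tab_g, tab_j, tab_h, tab_i]
  exact h

theorem cxr_i_f_0 : allFrom (fun i => Nat.ble 31671 i || Nat.beq (tq_i (tq_f (tq_i (tq_f i)))) i) 0 6250 = true := by decide +kernel
theorem cxr_i_f_1 : allFrom (fun i => Nat.ble 31671 i || Nat.beq (tq_i (tq_f (tq_i (tq_f i)))) i) 6250 6250 = true := by decide +kernel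
theorem cxr_i_f_2 : allFrom (fun i => Nat.ble 31671 i || Nat.beq (tq_i (tq_f (tq_i (tq_f i)))) i) 12500 6250 = true := by decide +kernel
theorem cxr_i_f_3 : allFrom (fun i => Nat.ble 31671 i || Nat.beq (tq_i (tq_f (tq_i (tq_f i)))) i) 18750 6250 = true := by decide +kernel
theorem cxr_i_f_4 : allFrom (fun i => Nat.ble 31671 i || Nat.beq (tq_i (tq_f (tq_i (tq_f i)))) i) 25000 6250 = true := by decide +kernel
theorem cxr_i_f_5 : allFrom (fun i => Nat.ble 31671 i || Nat.beq (tq_i (tq_f (tq_i (tq_f i)))) i) 31250 6250 = true := by decide +kernel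
theorem cxr_i_f : ∀ i, i < 31671 → (Nat.beq (tq_i (tq_f (tq_i (tq_f i)))) i) = true :=
  blocks_lt (fun i => Nat.beq (tq_i (tq_f (tq_i (tq_f i)))) i) 31671 6250 6 (by norm_num) ⟨cxr_i_f_0, cxr_i_f_1, cxr_i_f_2, cxr_i_f_3, cxr_i_f_4, cxr_i_f_5, trivial⟩

theorem cx_i_f : ∀ i, i < 31671 → evalT tab [Gen.i, Gen.f, Gen.i, Gen.f] i = i := by
  intro i hi
  have h := Nat.eq_of_beq_eq_true (cxr_i_f i hi)
  simp only [evalT_cons', evalT_nil', tab_a, tab_b, tab_c, tab_d, tab_e, tab_f, tab_g, tab_j, tab_h, tab_i]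
  exact h

theorem cxr_i_g_0 : allFrom (fun i => Nat.ble 31671 i || Nat.beq (tq_i (tq_g (tq_i (tq_g i)))) i) 0 6250 = true := by decide +kernel
theorem cxr_i_g_1 : allFrom (fun i => Nat.ble 31671 i || Nat.beq (tq_i (tq_g (tq_i (tq_g i)))) i) 6250 6250 = true := by decide +kernel
theorem cxr_i_g_2 : allFrom (fun i => Nat.ble 31671 i || Nat.beq (tq_i (tq_g (tq_i (tq_g i)))) i) 12500 6250 = true := by decide +kernel
theorem cxr_i_g_3 : allFrom (fun i => Nat.ble 31671 i || Nat.beq (tq_i (tq_g (tq_i (tq_g i)))) i) 18750 6250 = true := by decide +kernel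
theorem cxr_i_g_4 : allFrom (fun i => Nat.ble 31671 i || Nat.beq (tq_i (tq_g (tq_i (tq_g i)))) i) 25000 6250 = true := by decide +kernel
theorem cxr_i_g_5 : allFrom (fun i => Nat.ble 31671 i || Nat.beq (tq_i (tq_g (tq_i (tq_g i)))) i) 31250 6250 = true := by decide +kernel
theorem cxr_i_g : ∀ i, i < 31671 → (Nat.beq (tq_i (tq_g (tq_i (tq_g i)))) i) = true :=
  blocks_lt (fun i => Nat.beq (tq_i (tq_g (tq_i (tq_g i)))) i) 31671 6250 6 (by norm_num) ⟨cxr_i_g_0, cxr_i_g_1, cxr_i_g_2, cxr_i_g_3, cxr_i_g_4, cxr_i_g_5, trivial⟩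

theorem cx_i_g : ∀ i, i < 31671 → evalT tab [Gen.i, Gen.g, Gen.i, Gen.g] i = i := by
  intro i hi
  have h := Nat.eq_of_beq_eq_true (cxr_i_g i hi)
  simp only [evalT_cons', evalT_nil', tab_a, tab_b, tab_c, tab_d, tab_e, tab_f, tab_g, tab_j, tab_h, tab_i]
  exact h

theorem cxr_i_j_0 : allFrom (fun i => Nat.ble 31671 i || Nat.beq (tq_i (tq_j (tq_i (tq_j i)))) i) 0 6250 = true := by decide +kernel
theorem cxr_i_j_1 : allFrom (fun i => Nat.ble 31671 i || Nat.beq (tq_i (tq_j (tq_i (tq_j i)))) i) 6250 6250 = true := by decide +kernel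
theorem cxr_i_j_2 : allFrom (fun i => Nat.ble 31671 i || Nat.beq (tq_i (tq_j (tq_i (tq_j i)))) i) 12500 6250 = true := by decide +kernel
theorem cxr_i_j_3 : allFrom (fun i => Nat.ble 31671 i || Nat.beq (tq_i (tq_j (tq_i (tq_j i)))) i) 18750 6250 = true := by decide +kernel
theorem cxr_i_j_4 : allFrom (fun i => Nat.ble 31671 i || Nat.beq (tq_i (tq_j (tq_i (tq_j i)))) i) 25000 6250 = true := by decide +kernel
theorem cxr_i_j_5 : allFrom (fun i => Nat.ble 31671 i || Nat.beq (tq_i (tq_j (tq_i (tq_j i)))) i) 31250 6250 = true := by decide +kernel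
theorem cxr_i_j : ∀ i, i < 31671 → (Nat.beq (tq_i (tq_j (tq_i (tq_j i)))) i) = true :=
  blocks_lt (fun i => Nat.beq (tq_i (tq_j (tq_i (tq_j i)))) i) 31671 6250 6 (by norm_num) ⟨cxr_i_j_0, cxr_i_j_1, cxr_i_j_2, cxr_i_j_3, cxr_i_j_4, cxr_i_j_5, trivial⟩

theorem cx_i_j : ∀ i, i < 31671 → evalT tab [Gen.i, Gen.j, Gen.i, Gen.j] i = i := by
  intro i hi
  have h := Nat.eq_of_beq_eq_true (cxr_i_j i hi)
  simp only [evalT_cons', evalT_nil', tab_a, tab_b, tab_c, tab_d, tab_e, tab_f, tab_g, tab_j, tab_h, tab_i]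
  exact h

theorem cxr_i_h_0 : allFrom (fun i => Nat.ble 31671 i || Nat.beq (tq_i (tq_h (tq_i (tq_h (tq_i (tq_h i)))))) i) 0 4166 = true := by decide +kernel
theorem cxr_i_h_1 : allFrom (fun i => Nat.ble 31671 i || Nat.beq (tq_i (tq_h (tq_i (tq_h (tq_i (tq_h i)))))) i) 4166 4166 = true := by decide +kernel
theorem cxr_i_h_2 : allFrom (fun i => Nat.ble 31671 i || Nat.beq (tq_i (tq_h (tq_i (tq_h (tq_i (tq_h i)))))) i) 8332 4166 = true := by decide +kernel
theorem cxr_i_h_3 : allFrom (fun i => Nat.ble 31671 i || Nat.beq (tq_i (tq_h (tq_i (tq_h (tq_i (tq_h i)))))) i) 12498 4166 = true := by decide +kernel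
theorem cxr_i_h_4 : allFrom (fun i => Nat.ble 31671 i || Nat.beq (tq_i (tq_h (tq_i (tq_h (tq_i (tq_h i)))))) i) 16664 4166 = true := by decide +kernel
theorem cxr_i_h_5 : allFrom (fun i => Nat.ble 31671 i || Nat.beq (tq_i (tq_h (tq_i (tq_h (tq_i (tq_h i)))))) i) 20830 4166 = true := by decide +kernel
theorem cxr_i_h_6 : allFrom (fun i => Nat.ble 31671 i || Nat.beq (tq_i (tq_h (tq_i (tq_h (tq_i (tq_h i)))))) i) 24996 4166 = true := by decide +kernel
theorem cxr_i_h_7 : allFrom (fun i => Nat.ble 31671 i || Nat.beq (tq_i (tq_h (tq_i (tq_h (tq_i (tq_h i)))))) i) 29162 4166 = true := by decide +kernel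
theorem cxr_i_h : ∀ i, i < 31671 → (Nat.beq (tq_i (tq_h (tq_i (tq_h (tq_i (tq_h i)))))) i) = true :=
  blocks_lt (fun i => Nat.beq (tq_i (tq_h (tq_i (tq_h (tq_i (tq_h i)))))) i) 31671 4166 8 (by norm_num) ⟨cxr_i_h_0, cxr_i_h_1, cxr_i_h_2, cxr_i_h_3, cxr_i_h_4, cxr_i_h_5, cxr_i_h_6, cxr_i_h_7, trivial⟩

theorem cx_i_h : ∀ i, i < 31671 → evalT tab [Gen.i, Gen.h, Gen.i, Gen.h, Gen.i, Gen.h] i = i := by
  intro i hi
  have h := Nat.eq_of_beq_eq_true (cxr_i_h i hi)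
  simp only [evalT_cons', evalT_nil', tab_a, tab_b, tab_c, tab_d, tab_e, tab_f, tab_g, tab_j, tab_h, tab_i]
  exact h

theorem cxr_i_i_0 : allFrom (fun i => Nat.ble 31671 i || Nat.beq (tq_i (tq_i i)) i) 0 12500 = true := by decide +kernel
theorem cxr_i_i_1 : allFrom (fun i => Nat.ble 31671 i || Nat.beq (tq_i (tq_i i)) i) 12500 12500 = true := by decide +kernel
theorem cxr_i_i_2 : allFrom (fun i => Nat.ble 31671 i || Nat.beq (tq_i (tq_i i)) i) 25000 12500 = true := by decide +kernel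
theorem cxr_i_i : ∀ i, i < 31671 → (Nat.beq (tq_i (tq_i i)) i) = true :=
  blocks_lt (fun i => Nat.beq (tq_i (tq_i i)) i) 31671 12500 3 (by norm_num) ⟨cxr_i_i_0, cxr_i_i_1, cxr_i_i_2, trivial⟩

theorem cx_i_i : ∀ i, i < 31671 → evalT tab [Gen.i, Gen.i] i = i := by
  intro i hi
  have h := Nat.eq_of_beq_eq_true (cxr_i_i i hi)
  simp only [evalT_cons', evalT_nil', tab_a, tab_b, tab_c, tab_d, tab_e, tab_f, tab_g, tab_j, tab_h, tab_i]
  exact h

end Cfsg.Agent.Helper28.FicA
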