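import Cfsg.Agent.Helper28.OctA
import Cfsg.Agent.Helper28.Code
import Cfsg.Agent.Helper3.Golay
import Cfsg.Agent.S0358
import Cfsg.Agent.S0363

set_option autoImplicit false
set_option linter.unusedSectionVars false
set_option linter.unusedVariables false

namespace Cfsg.Agent.Helper28.Hyp

open Cfsg Cfsg.Agent.Helper28.Code

/-- the weight-8 words of a `[24, 12, ≥ 8]` binary code form a Steiner system S(5, 8, 24) -/
theorem code_steiner {α : Type*} [Fintype α] [DecidableEq α] (hα : Fintype.card α = 24)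
    (C : Submodule (ZMod 2) (α → ZMod 2)) (hdim : Module.finrank (ZMod 2) C = 12)
    (hmin : ∀ w ∈ C, w ≠ 0 → 8 ≤ hammingNorm w) :
    Cfsg.IsSteinerSystem 5 8 (Cfsg.wordsOfWeight (C : Set (α → ZMod 2)) 8) := by
  constructor
  · intro b hb
    exact hb.2
  · intro s hs
    obtain ⟨c, hc, hc8, hsc⟩ := exists_octad hα C hdim hmin s hs
    refine ⟨support₂ c, ⟨⟨⟨c, hc, rfl⟩, hc8⟩, hsc⟩, ?_⟩
    rintro b' ⟨⟨⟨c', hc', rfl⟩, hc'8⟩, hsc'⟩
    by_contra hne
    have hcc : c' ≠ c := fun h => hne (by rw [h])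
    have h1 := hmin (c' - c) (C.sub_mem hc' hc) (sub_ne_zero.mpr hcc)
    rw [sub_eq_add] at h1
    have h2 := norm_add c' c
    have h3 : s ⊆ support₂ c' ∩ support₂ c := Finset.subset_inter hsc' hsc
    have h4 := Finset.card_le_card h3
    have hc8' : hammingNorm c = 8 := hc8
    have hc'8' : hammingNorm c' = 8 := hc'8
    omega

/-- uniqueness of the binary Golay code -/
theorem golay_unique (C : Submodule (ZMod 2) (Fin 24 → ZMod 2))
    (hdim : Module.finrank (ZMod 2) C = 12)
    (h4 : ∀ w ∈ C, 4 ∣ hammingNorm w) (hno4 : ∀ w ∈ C, hammingNorm w ≠ 4) :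
    ∃ e : Fin 24 ≃ Cfsg.GolayPt, ∀ w : Cfsg.GolayPt → ZMod 2,
      w ∈ Cfsg.golayCode ↔ (fun i => w (e i)) ∈ C := by
  classical
  have hmin : ∀ w ∈ C, w ≠ 0 → 8 ≤ hammingNorm w := by
    intro w hw hw0
    obtain ⟨k, hk⟩ := h4 w hw
    have h1 := hno4 w hw
    have h2 : hammingNorm w ≠ 0 := fun h => hw0 (hammingNorm_eq_zero.mp h)
    omega
  have hminG : ∀ w ∈ Cfsg.golayCode, w ≠ 0 → 8 ≤ hammingNorm w := by
    intro w hw hw0
    have h2 : hammingNorm w ≠ 0 := fun h => hw0 (hammingNorm_eq_zero.mp h)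
    rcases Cfsg.Agent.Helper3.golay_weights w hw with h | h | h | h | h <;> omega
  have hα : Fintype.card (Fin 24) = 24 := Fintype.card_fin 24
  have hβ : Fintype.card Cfsg.GolayPt = 24 := by decide
  have hSC := code_steiner hα C hdim hmin
  obtain ⟨e, he⟩ := s5824_iso hα hβ hSC Cfsg.Agent.S0363.result
  refine ⟨e, ?_⟩
  have hspanC := span_octads hα C hdim hmin
  have hspanG := span_octads hβ Cfsg.golayCode Cfsg.Agent.S0358.result hminG
  have hA : ∀ w ∈ Cfsg.golayCode, hammingNorm w = 8 → (fun i => w (e i)) ∈ C := by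
    intro w hw hw8
    have ho : support₂ w ∈ Cfsg.octads := by
      unfold Cfsg.octads Cfsg.wordsOfWeight
      exact ⟨⟨w, hw, rfl⟩, hw8⟩
    rw [← he] at ho
    obtain ⟨b, ⟨⟨c, hc, rfl⟩, -⟩, hbe⟩ := ho
    have hbe' : (support₂ c).image e = support₂ w := hbe
    have heq : (fun i => w (e i)) = c := by
      apply supp_injective
      ext i
      rw [mem_supp, mem_supp]
      have h1 : e i ∈ support₂ w ↔ i ∈ support₂ c := by
        rw [← hbe', Finset.mem_image]
        constructor
        · rintro ⟨j, hj, hje⟩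
          rw [← e.injective hje]
          exact hj
        · intro h
          exact ⟨i, h, rfl⟩
      rw [mem_supp, mem_supp] at h1
      exact h1
    rw [heq]
    exact hc
  have hB : ∀ c ∈ C, hammingNorm c = 8 → (fun x => c (e.symm x)) ∈ Cfsg.golayCode := by
    intro c hc hc8
    have hb : support₂ c ∈ Cfsg.wordsOfWeight (C : Set (Fin 24 → ZMod 2)) 8 :=
      ⟨⟨c, hc, rfl⟩, hc8⟩
    have ho : (support₂ c).image e ∈ Cfsg.octads := by
      rw [← he]
      exact ⟨_, hb, rfl⟩
    unfold Cfsg.octads Cfsg.wordsOfWeight at ho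
    obtain ⟨⟨w, hw, hws⟩, -⟩ := ho
    have heq : (fun x => c (e.symm x)) = w := by
      apply supp_injective
      rw [hws]
      ext x
      rw [mem_supp, Finset.mem_image]
      constructor
      · intro h
        exact ⟨e.symm x, (mem_supp c _).mpr h, e.apply_symm_apply x⟩
      · rintro ⟨j, hj, rfl⟩
        rw [e.symm_apply_apply]
        exact (mem_supp c j).mp hj
    rw [heq]
    exact hw
  intro w
  constructor
  · intro hw
    rw [← hspanG] at hw
    induction hw using Submodule.span_induction with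
    | mem x hx => exact hA x hx.1 hx.2
    | zero => exact C.zero_mem
    | add x y _ _ hx hy => exact C.add_mem hx hy
    | smul a x _ hx => exact C.smul_mem a hx
  · intro hw
    have key : ∀ c ∈ C, (fun x => c (e.symm x)) ∈ Cfsg.golayCode := by
      intro c hc
      rw [← hspanC] at hc
      induction hc using Submodule.span_induction with
      | mem x hx => exact hB x hx.1 hx.2
      | zero => exact Cfsg.golayCode.zero_mem
      | add x y _ _ hx hy => exact Cfsg.golayCode.add_mem hx hy
      | smul a x _ hx => exact Cfsg.golayCode.smul_mem a hx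
    have h1 := key _ hw
    have h2 : (fun x => (fun i => w (e i)) (e.symm x)) = w := by
      funext x
      simp
    rw [h2] at h1
    exact h1

end Cfsg.Agent.Helper28.Hyp
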