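import Cfsg.Agent.Helper28.HypL

set_option autoImplicit false
set_option linter.unusedSectionVars false

namespace Cfsg.Agent.Helper28.Hyp

variable {α : Type*} [Fintype α] [DecidableEq α]

/-- a line meets a hyperoval in 0 or 2 points -/
theorem line_hyp {L : Set (Finset α)} (hα : Fintype.card α = 21)
    (hL : Cfsg.IsSteinerSystem 2 5 L) {O : Finset α} (hO : O ∈ Arcs L 6) {l : Finset α}
    (hl : l ∈ L) : (l ∩ O).card = 0 ∨ (l ∩ O).card = 2 := by
  by_cases hne : (l ∩ O).Nonempty
  · right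
    obtain ⟨a, ha⟩ := hne
    rw [Finset.mem_inter] at ha
    obtain ⟨b, hb, hba, hbl⟩ := hyp_secant hα hL hO ha.2 hl ha.1
    have h1 : ({a, b} : Finset α) ⊆ l ∩ O := by
      intro x hx
      rw [Finset.mem_insert, Finset.mem_singleton] at hx
      rw [Finset.mem_inter]
      rcases hx with h | h
      · rw [h]; exact ha
      · rw [h]; exact ⟨hbl, hb⟩
    have h2 := Finset.card_le_card h1
    rw [Finset.card_pair hba.symm] at h2
    have h3 := (mem_Arcs.mp hO).2 l hl
    omega
  · left
    rw [Finset.not_nonempty_iff_eq_empty] at hne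
    rw [hne, Finset.card_empty]

theorem sub_card_mem (p : α) {s : Finset α} (hp : p ∈ s) :
    (Finset.subtype (fun a => a ≠ p) s).card = s.card - 1 := by
  rw [Finset.card_subtype]
  have h : s.filter (fun a => a ≠ p) = s.erase p := by
    ext x
    rw [Finset.mem_filter, Finset.mem_erase]
    exact and_comm
  rw [h, Finset.card_erase_of_mem hp]

theorem sub_insert_map (p : α) (H : Finset {a : α // a ≠ p}) :
    Finset.subtype (fun a => a ≠ p) (insert p (H.map (Function.Embedding.subtype _))) = H := by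
  ext x
  rw [Finset.mem_subtype, Finset.mem_insert, Finset.mem_map]
  constructor
  · rintro (h | ⟨y, hy, hyx⟩)
    · exact absurd h x.2
    · have hxy : y = x := Subtype.ext hyx
      rw [← hxy]
      exact hy
  · intro hx
    exact Or.inr ⟨x, hx, rfl⟩

variable {B : Set (Finset α)}

/-- heptads of an S(3, 6, 22): the 7-sets meeting every block in 1 or 3 points -/
noncomputable def Hep (B : Set (Finset α)) : Finset (Finset α) :=
  open Classical in
  Finset.univ.filter (fun Y => Y.card = 7 ∧ ∀ b ∈ B, (b ∩ Y).card = 1 ∨ (b ∩ Y).card = 3)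

theorem mem_Hep {Y : Finset α} :
    Y ∈ Hep B ↔ Y.card = 7 ∧ ∀ b ∈ B, (b ∩ Y).card = 1 ∨ (b ∩ Y).card = 3 := by
  unfold Hep
  simp

theorem hep_arc (hα : Fintype.card α = 22) (hB : Cfsg.IsSteinerSystem 3 6 B)
    {Y : Finset α} (hY : Y ∈ Hep B) {p : α} (hp : p ∈ Y) :
    Finset.subtype (fun a => a ≠ p) Y ∈ Arcs (dLines B p) 6 := by
  have hY' := mem_Hep.mp hY
  rw [mem_Arcs]
  refine ⟨by rw [sub_card_mem p hp, hY'.1], ?_⟩
  rintro l ⟨b, hb, hpb, rfl⟩
  rw [sub_inter, sub_card_mem p (Finset.mem_inter.mpr ⟨hpb, hp⟩)]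
  rcases hY'.2 b hb with h | h <;> omega

theorem hep_not_off (hα : Fintype.card α = 22) (hB : Cfsg.IsSteinerSystem 3 6 B)
    {Y : Finset α} (hY : Y ∈ Hep B) {p : α} (hp : p ∈ Y) :
    Finset.subtype (fun a => a ≠ p) Y ∉ offBlocks B p := by
  have hY' := mem_Hep.mp hY
  intro hoff
  unfold offBlocks at hoff
  rw [Finset.mem_image] at hoff
  obtain ⟨b, hb, hbeq⟩ := hoff
  rw [Finset.mem_filter, mem_blocksF] at hb
  have hsub : b ⊆ Y := by
    intro x hx
    have hxp : x ≠ p := fun h => hb.2 (h ▸ hx)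
    have h1 : (⟨x, hxp⟩ : {a : α // a ≠ p}) ∈ Finset.subtype (fun a => a ≠ p) b :=
      Finset.mem_subtype.mpr hx
    rw [hbeq] at h1
    exact Finset.mem_subtype.mp h1
  have h2 := hY'.2 b hb.1
  rw [Finset.inter_eq_left.mpr hsub, hB.1 b hb.1] at h2
  omega

theorem card_sub_add (p : α) (s : Finset α) :
    s.card = (Finset.subtype (fun a => a ≠ p) s).card + (if p ∈ s then 1 else 0) := by
  by_cases hp : p ∈ s
  · rw [sub_card_mem p hp, if_pos hp]
    have h1 : 0 < s.card := Finset.card_pos.mpr ⟨p, hp⟩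
    omega
  · rw [sub_card p hp, if_neg hp, add_zero]

theorem hep_of_hyp (hα : Fintype.card α = 22) (hB : Cfsg.IsSteinerSystem 3 6 B) {p : α}
    {H : Finset {a : α // a ≠ p}} (hH : H ∈ Arcs (dLines B p) 6) (hoff : H ∉ offBlocks B p) :
    insert p (H.map (Function.Embedding.subtype _)) ∈ Hep B := by
  have hH' := mem_Arcs.mp hH
  have hpn : p ∉ H.map (Function.Embedding.subtype (fun a => a ≠ p)) := by
    intro h
    rw [Finset.mem_map] at h
    obtain ⟨y, -, hy⟩ := h
    exact y.2 hy
  rw [mem_Hep]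
  refine ⟨by rw [Finset.card_insert_of_notMem hpn, Finset.card_map, hH'.1], ?_⟩
  intro b hb
  have hcount := card_sub_add p (b ∩ insert p (H.map (Function.Embedding.subtype _)))
  rw [← sub_inter, sub_insert_map] at hcount
  by_cases hpb : p ∈ b
  · have hpmem : p ∈ b ∩ insert p (H.map (Function.Embedding.subtype (fun a => a ≠ p))) :=
      Finset.mem_inter.mpr ⟨hpb, Finset.mem_insert_self _ _⟩
    rw [if_pos hpmem] at hcount
    have hl : Finset.subtype (fun a => a ≠ p) b ∈ dLines B p := ⟨b, hb, hpb, rfl⟩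
    rcases line_hyp (card_sub hα p) (dLines_steiner hB p) hH hl with h | h
    · left; omega
    · right; omega
  · have hpmem : p ∉ b ∩ insert p (H.map (Function.Embedding.subtype (fun a => a ≠ p))) :=
      fun h => hpb (Finset.mem_inter.mp h).1
    rw [if_neg hpmem, add_zero] at hcount
    have hbarc := block_arc hα hB hb hpb
    have hnot : H ∉ EvenHyp (dLines B p) (Finset.subtype (fun a => a ≠ p) b) := by
      rw [← offBlocks_eq hα hB hb hpb]
      exact hoff
    rw [mem_EvenHyp] at hnot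
    have hle : (H ∩ Finset.subtype (fun a => a ≠ p) b).card ≤ 3 := by
      by_contra hcon
      have h4 : 4 ≤ (H ∩ Finset.subtype (fun a => a ≠ p) b).card := by omega
      have heq := hyp_eq_of_four (card_sub hα p) (dLines_steiner hB p) hbarc hH h4
      apply hnot
      refine ⟨hH, Or.inr (Or.inr ?_)⟩
      rw [heq, Finset.inter_self, (mem_Arcs.mp hbarc).1]
    rw [Finset.inter_comm (Finset.subtype (fun a => a ≠ p) b) H] at hcount
    have h3 : ¬ ((H ∩ Finset.subtype (fun a => a ≠ p) b).card = 0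
        ∨ (H ∩ Finset.subtype (fun a => a ≠ p) b).card = 2
        ∨ (H ∩ Finset.subtype (fun a => a ≠ p) b).card = 6) := fun h => hnot ⟨hH, h⟩
    omega

/-- two heptads sharing five points coincide -/
theorem hep_eq_of_five (hα : Fintype.card α = 22) (hB : Cfsg.IsSteinerSystem 3 6 B)
    {Y Z : Finset α} (hY : Y ∈ Hep B) (hZ : Z ∈ Hep B) (h : 5 ≤ (Y ∩ Z).card) : Y = Z := by
  have hne : (Y ∩ Z).Nonempty := by
    rw [← Finset.card_pos]
    omega
  obtain ⟨p, hp⟩ := hne
  have hp' := Finset.mem_inter.mp hp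
  have hYa := hep_arc hα hB hY hp'.1
  have hZa := hep_arc hα hB hZ hp'.2
  have h4 : 4 ≤ (Finset.subtype (fun a => a ≠ p) Y ∩ Finset.subtype (fun a => a ≠ p) Z).card := by
    rw [sub_inter, sub_card_mem p hp]
    omega
  have heq := hyp_eq_of_four (card_sub hα p) (dLines_steiner hB p) hZa hYa h4
  exact sub_ext p ⟨fun _ => hp'.2, fun _ => hp'.1⟩ heq

/-- a 4-set contained in no block lies in exactly two heptads -/
theorem lam4_hep (hα : Fintype.card α = 22) (hB : Cfsg.IsSteinerSystem 3 6 B)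
    {F : Finset α} (hF : F.card = 4) (hFB : ∀ b ∈ B, ¬ F ⊆ b) : lamH (Hep B) F = 2 := by
  have hne : F.Nonempty := by
    rw [← Finset.card_pos, hF]
    norm_num
  obtain ⟨p, hp⟩ := hne
  have hLp := dLines_steiner hB p
  have hcp := card_sub hα p
  -- the 3-arc
  have hT3 : (Finset.subtype (fun a => a ≠ p) F).card = 3 := by
    rw [sub_card_mem p hp, hF]
  have hTarc : Finset.subtype (fun a => a ≠ p) F ∈ Arcs (dLines B p) 3 := by
    rw [mem_Arcs]
    refine ⟨hT3, ?_⟩
    rintro l ⟨b, hb, hpb, rfl⟩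
    rw [sub_inter, sub_card_mem p (Finset.mem_inter.mpr ⟨hpb, hp⟩)]
    have h1 : (b ∩ F).card ≤ 3 := by
      by_contra hcon
      have h2 : (b ∩ F).card ≤ F.card := Finset.card_le_card Finset.inter_subset_right
      have h3 : b ∩ F = F := Finset.eq_of_subset_of_card_le Finset.inter_subset_right (by omega)
      exact hFB b hb (Finset.inter_eq_right.mp h3)
    omega
  have h3 := lam3 hcp hLp _ hTarc
  -- the block through the three points other than p
  have hFe : (F.erase p).card = 3 := by rw [Finset.card_erase_of_mem hp, hF]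
  obtain ⟨b0, ⟨hb0, hFb0⟩, hb0u⟩ := hB.2 _ hFe
  have hpb0 : p ∉ b0 := by
    intro h
    apply hFB b0 hb0
    intro x hx
    by_cases hxp : x = p
    · rw [hxp]; exact h
    · exact hFb0 (Finset.mem_erase.mpr ⟨hxp, hx⟩)
  -- the hyperovals through the arc: those among the blocks missing p
  have hoffcard : (((Arcs (dLines B p) 6).filter
      (fun H => Finset.subtype (fun a => a ≠ p) F ⊆ H)).filter
        (fun H => H ∈ offBlocks B p)).card = 1 := by
    rw [Finset.card_eq_one]
    refine ⟨Finset.subtype (fun a => a ≠ p) b0, ?_⟩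
    ext H
    rw [Finset.mem_filter, Finset.mem_filter, Finset.mem_singleton]
    constructor
    · rintro ⟨⟨-, hTH⟩, hoff⟩
      unfold offBlocks at hoff
      rw [Finset.mem_image] at hoff
      obtain ⟨b, hb, rfl⟩ := hoff
      rw [Finset.mem_filter, mem_blocksF] at hb
      have hsub : F.erase p ⊆ b := by
        intro x hx
        rw [Finset.mem_erase] at hx
        have h1 : (⟨x, hx.1⟩ : {a : α // a ≠ p}) ∈ Finset.subtype (fun a => a ≠ p) F :=
          Finset.mem_subtype.mpr hx.2
        exact Finset.mem_subtype.mp (hTH h1)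
      rw [hb0u b ⟨hb.1, hsub⟩]
    · rintro rfl
      refine ⟨⟨block_arc hα hB hb0 hpb0, ?_⟩, ?_⟩
      · intro x hx
        rw [Finset.mem_subtype] at hx ⊢
        exact hFb0 (Finset.mem_erase.mpr ⟨x.2, hx⟩)
      · unfold offBlocks
        rw [Finset.mem_image]
        exact ⟨b0, Finset.mem_filter.mpr ⟨mem_blocksF.mpr hb0, hpb0⟩, rfl⟩
  have hsplit := Finset.card_filter_add_card_filter_not
    (s := (Arcs (dLines B p) 6).filter (fun H => Finset.subtype (fun a => a ≠ p) F ⊆ H))
    (fun H => H ∈ offBlocks B p)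
  unfold lamH at h3
  rw [h3, hoffcard] at hsplit
  have hnot2 : (((Arcs (dLines B p) 6).filter
      (fun H => Finset.subtype (fun a => a ≠ p) F ⊆ H)).filter
        (fun H => ¬ H ∈ offBlocks B p)).card = 2 := by omega
  -- bijection with the heptads through F
  unfold lamH
  rw [← hnot2]
  apply Finset.card_bij (fun Y _ => Finset.subtype (fun a => a ≠ p) Y)
  · intro Y hY
    rw [Finset.mem_filter] at hY
    have hpY : p ∈ Y := hY.2 hp
    rw [Finset.mem_filter, Finset.mem_filter]
    refine ⟨⟨hep_arc hα hB hY.1 hpY, ?_⟩, hep_not_off hα hB hY.1 hpY⟩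
    intro x hx
    rw [Finset.mem_subtype] at hx ⊢
    exact hY.2 hx
  · intro Y hY Z hZ hYZ
    rw [Finset.mem_filter] at hY hZ
    exact sub_ext p ⟨fun _ => hZ.2 hp, fun _ => hY.2 hp⟩ hYZ
  · intro H hH
    rw [Finset.mem_filter, Finset.mem_filter] at hH
    refine ⟨insert p (H.map (Function.Embedding.subtype _)), ?_, sub_insert_map p H⟩
    rw [Finset.mem_filter]
    refine ⟨hep_of_hyp hα hB hH.1.1 hH.2, ?_⟩
    intro x hx
    by_cases hxp : x = p
    · rw [hxp]; exact Finset.mem_insert_self _ _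
    · apply Finset.mem_insert_of_mem
      rw [Finset.mem_map]
      exact ⟨⟨x, hxp⟩, hH.1.2 (Finset.mem_subtype.mpr hx), rfl⟩

end Cfsg.Agent.Helper28.Hyp
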