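import Cfsg.Agent.Helper28.HepA

set_option autoImplicit false
set_option linter.unusedSectionVars false

namespace Cfsg.Agent.Helper28.Hyp

variable {α : Type*} [Fintype α] [DecidableEq α] {B : Set (Finset α)}

theorem stepG (Bf : Finset (Finset α)) (k : ℕ) (hk : ∀ b ∈ Bf, b.card = k) (S : Finset α) :
    lamH Bf S * (k - S.card) = ∑ x ∈ Sᶜ, lamH Bf (insert x S) := by
  have key := Finset.sum_card_bipartiteAbove_eq_sum_card_bipartiteBelow (s := Sᶜ)
    (t := Bf.filter (fun b => S ⊆ b)) (fun (x : α) (b : Finset α) => x ∈ b)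
  have h1 : ∀ x ∈ Sᶜ, ((Bf.filter (fun b => S ⊆ b)).bipartiteAbove
      (fun (x : α) (b : Finset α) => x ∈ b) x).card = lamH Bf (insert x S) := by
    intro x _
    unfold lamH Finset.bipartiteAbove
    congr 1
    ext b
    simp only [Finset.mem_filter, Finset.insert_subset_iff]
    tauto
  have h2 : ∀ b ∈ Bf.filter (fun b => S ⊆ b), ((Sᶜ).bipartiteBelow
      (fun (x : α) (b : Finset α) => x ∈ b) b).card = k - S.card := by
    intro b hb
    rw [Finset.mem_filter] at hb
    have h3 : (Sᶜ).bipartiteBelow (fun (x : α) (b : Finset α) => x ∈ b) b = b \ S := by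
      unfold Finset.bipartiteBelow
      ext x
      simp only [Finset.mem_filter, Finset.mem_compl, Finset.mem_sdiff]
      tauto
    rw [h3, Finset.card_sdiff_of_subset hb.2, hk b hb.1]
  rw [Finset.sum_congr rfl h1, Finset.sum_congr rfl h2, Finset.sum_const, smul_eq_mul] at key
  exact key.symm

theorem hep_card7 : ∀ Y ∈ Hep B, Y.card = 7 := fun _ hY => (mem_Hep.mp hY).1

theorem lam3_hep (hα : Fintype.card α = 22) (hB : Cfsg.IsSteinerSystem 3 6 B)
    {S : Finset α} (hS : S.card = 3) : lamH (Hep B) S = 8 := by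
  obtain ⟨b0, ⟨hb0, hSb0⟩, hb0u⟩ := hB.2 S hS
  have hstep := stepG (Hep B) 7 hep_card7 S
  have hterm : ∀ x ∈ Sᶜ, lamH (Hep B) (insert x S) = if x ∈ b0 then 0 else 2 := by
    intro x hx
    rw [Finset.mem_compl] at hx
    have hc4 : (insert x S).card = 4 := by rw [Finset.card_insert_of_notMem hx, hS]
    by_cases hxb : x ∈ b0
    · rw [if_pos hxb]
      unfold lamH
      rw [Finset.card_eq_zero, Finset.eq_empty_iff_forall_notMem]
      intro Y hY
      rw [Finset.mem_filter] at hY
      have h1 := (mem_Hep.mp hY.1).2 b0 hb0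
      have h2 : insert x S ⊆ b0 ∩ Y :=
        Finset.subset_inter (Finset.insert_subset hxb hSb0) hY.2
      have h3 := Finset.card_le_card h2
      omega
    · rw [if_neg hxb]
      apply lam4_hep hα hB hc4
      intro b hb hsub
      have hSb : S ⊆ b := (Finset.subset_insert x S).trans hsub
      have hbb : b = b0 := hb0u b ⟨hb, hSb⟩
      rw [hbb] at hsub
      exact hxb (hsub (Finset.mem_insert_self x S))
  have h16 : (Sᶜ.filter (fun x => ¬ x ∈ b0)).card = 16 := by
    have hfil : Sᶜ.filter (fun x => ¬ x ∈ b0) = b0ᶜ := by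
      ext x
      rw [Finset.mem_filter, Finset.mem_compl, Finset.mem_compl]
      constructor
      · exact fun h => h.2
      · exact fun h => ⟨fun hxS => h (hSb0 hxS), h⟩
    rw [hfil, Finset.card_compl, hα, hB.1 b0 hb0]
  rw [Finset.sum_congr rfl hterm, Finset.sum_ite, Finset.sum_const_zero, Finset.sum_const,
    zero_add, smul_eq_mul, hS, h16] at hstep
  omega

theorem lam2_hep (hα : Fintype.card α = 22) (hB : Cfsg.IsSteinerSystem 3 6 B)
    {S : Finset α} (hS : S.card = 2) : lamH (Hep B) S = 32 := by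
  have h := stepH (Hep B) 22 7 hα hep_card7 2 8 (fun S' hS' => lam3_hep hα hB hS') S hS
  omega

theorem lam1_hep (hα : Fintype.card α = 22) (hB : Cfsg.IsSteinerSystem 3 6 B)
    {S : Finset α} (hS : S.card = 1) : lamH (Hep B) S = 112 := by
  have h := stepH (Hep B) 22 7 hα hep_card7 1 32 (fun S' hS' => lam2_hep hα hB hS') S hS
  omega

/-- the heptads meeting `X` in an odd number of points -/
noncomputable def OddHep (B : Set (Finset α)) (X : Finset α) : Finset (Finset α) :=
  (Hep B).filter (fun Y => (Y ∩ X).card = 1 ∨ (Y ∩ X).card = 3 ∨ (Y ∩ X).card = 7)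

theorem mem_OddHep {X Y : Finset α} : Y ∈ OddHep B X ↔
    Y ∈ Hep B ∧ ((Y ∩ X).card = 1 ∨ (Y ∩ X).card = 3 ∨ (Y ∩ X).card = 7) := by
  unfold OddHep
  rw [Finset.mem_filter]

set_option maxHeartbeats 1000000 in
theorem card_OddHep (hα : Fintype.card α = 22) (hB : Cfsg.IsSteinerSystem 3 6 B)
    {X : Finset α} (hX : X ∈ Hep B) : (OddHep B X).card = 176 := by
  have hX' := mem_Hep.mp hX
  obtain ⟨f, hf⟩ : ∃ f : ℕ → ℕ, ∀ k, f k = ((Hep B).filter (fun Y => (Y ∩ X).card = k)).card :=
    ⟨_, fun _ => rfl⟩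
  have hfib : ∀ j, ∑ Y ∈ Hep B, (Y ∩ X).card.choose j
      = ∑ k ∈ Finset.range 8, f k * k.choose j := by
    intro j
    rw [← Finset.sum_fiberwise_of_maps_to (g := fun Y => (Y ∩ X).card) (t := Finset.range 8)]
    · apply Finset.sum_congr rfl
      intro k _
      rw [hf, Finset.card_eq_sum_ones, Finset.sum_mul]
      apply Finset.sum_congr rfl
      intro Y hY
      rw [Finset.mem_filter] at hY
      rw [hY.2, one_mul]
    · intro Y _
      rw [Finset.mem_range]
      have h1 : (Y ∩ X).card ≤ X.card := Finset.card_le_card Finset.inter_subset_right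
      omega
  have hsum : ∀ j N, (∀ Z : Finset α, Z ⊆ X → Z.card = j → lamH (Hep B) Z = N) →
      ∑ k ∈ Finset.range 8, f k * k.choose j = (Nat.choose 7 j) * N := by
    intro j N hN
    rw [← hfib, binom_countH, Finset.sum_congr rfl
      (fun Z hZ => hN Z (Finset.mem_powersetCard.mp hZ).1 (Finset.mem_powersetCard.mp hZ).2),
      Finset.sum_const, Finset.card_powersetCard, hX'.1, smul_eq_mul]
  have e1 := hsum 1 112 (fun Z _ hZ => lam1_hep hα hB hZ)
  have e2 := hsum 2 32 (fun Z _ hZ => lam2_hep hα hB hZ)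
  have e3 := hsum 3 8 (fun Z _ hZ => lam3_hep hα hB hZ)
  have e4 := hsum 4 2 (fun Z hZX hZ => lam4_hep hα hB hZ (fun b hb hsub => by
    have h1 := hX'.2 b hb
    have h2 := Finset.card_le_card (Finset.subset_inter hsub hZX)
    omega))
  have x5 : f 5 = 0 := by
    rw [hf, Finset.card_eq_zero, Finset.eq_empty_iff_forall_notMem]
    intro Y hY
    rw [Finset.mem_filter] at hY
    have h1 := hep_eq_of_five hα hB hY.1 hX (by omega)
    have h2 := hY.2
    rw [h1, Finset.inter_self, hX'.1] at h2
    omega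
  have x6 : f 6 = 0 := by
    rw [hf, Finset.card_eq_zero, Finset.eq_empty_iff_forall_notMem]
    intro Y hY
    rw [Finset.mem_filter] at hY
    have h1 := hep_eq_of_five hα hB hY.1 hX (by omega)
    have h2 := hY.2
    rw [h1, Finset.inter_self, hX'.1] at h2
    omega
  have x7 : f 7 = 1 := by
    rw [hf, Finset.card_eq_one]
    refine ⟨X, ?_⟩
    ext Y
    rw [Finset.mem_filter, Finset.mem_singleton]
    constructor
    · rintro ⟨hY, h7⟩
      exact hep_eq_of_five hα hB hY hX (by omega)
    · rintro rfl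
      exact ⟨hX, by rw [Finset.inter_self, hX'.1]⟩
  have hE : OddHep B X = (Hep B).filter (fun Y => (Y ∩ X).card = 1)
      ∪ ((Hep B).filter (fun Y => (Y ∩ X).card = 3)
        ∪ (Hep B).filter (fun Y => (Y ∩ X).card = 7)) := by
    ext Y
    simp only [OddHep, Finset.mem_filter, Finset.mem_union]
    tauto
  have d1 : Disjoint ((Hep B).filter (fun Y => (Y ∩ X).card = 1))
      ((Hep B).filter (fun Y => (Y ∩ X).card = 3)
        ∪ (Hep B).filter (fun Y => (Y ∩ X).card = 7)) := by
    rw [Finset.disjoint_left]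
    intro Y h1 h2
    simp only [Finset.mem_filter, Finset.mem_union] at h1 h2
    omega
  have d2 : Disjoint ((Hep B).filter (fun Y => (Y ∩ X).card = 3))
      ((Hep B).filter (fun Y => (Y ∩ X).card = 7)) := by
    rw [Finset.disjoint_left]
    intro Y h1 h2
    simp only [Finset.mem_filter] at h1 h2
    omega
  rw [hE, Finset.card_union_of_disjoint d1, Finset.card_union_of_disjoint d2,
    ← hf, ← hf, ← hf]
  clear hE d1 d2 hfib hsum hf
  have c1 : ∀ k, Nat.choose k 1 = k := Nat.choose_one_right
  have c72 : Nat.choose 7 2 = 21 := by decide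
  have c73 : Nat.choose 7 3 = 35 := by decide
  have c74 : Nat.choose 7 4 = 35 := by decide
  have c22 : Nat.choose 2 2 = 1 := by decide
  have c32 : Nat.choose 3 2 = 3 := by decide
  have c42 : Nat.choose 4 2 = 6 := by decide
  have c52 : Nat.choose 5 2 = 10 := by decide
  have c62 : Nat.choose 6 2 = 15 := by decide
  have c33 : Nat.choose 3 3 = 1 := by decide
  have c43 : Nat.choose 4 3 = 4 := by decide
  have c53 : Nat.choose 5 3 = 10 := by decide
  have c63 : Nat.choose 6 3 = 20 := by decide
  have c44 : Nat.choose 4 4 = 1 := by decide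
  have c54 : Nat.choose 5 4 = 5 := by decide
  have c64 : Nat.choose 6 4 = 15 := by decide
  have c02 : Nat.choose 0 2 = 0 := by decide
  have c12 : Nat.choose 1 2 = 0 := by decide
  have c03 : Nat.choose 0 3 = 0 := by decide
  have c13 : Nat.choose 1 3 = 0 := by decide
  have c23 : Nat.choose 2 3 = 0 := by decide
  have c04 : Nat.choose 0 4 = 0 := by decide
  have c14 : Nat.choose 1 4 = 0 := by decide
  have c24 : Nat.choose 2 4 = 0 := by decide
  have c34 : Nat.choose 3 4 = 0 := by decide
  simp only [Finset.sum_range_succ, Finset.sum_range_zero, c1, x5, x6, x7, c72, c73, c74,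
    c22, c32, c42, c52, c62, c33, c43, c53, c63, c44, c54, c64, c02, c12, c03, c13, c23,
    c04, c14, c24, c34] at e1 e2 e3 e4
  omega

end Cfsg.Agent.Helper28.Hyp
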