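import Cfsg.Agent.Helper28.HepB

set_option autoImplicit false
set_option linter.unusedSectionVars false
set_option linter.unusedVariables false

namespace Cfsg.Agent.Helper28.Hyp

variable {α : Type*} [Fintype α] [DecidableEq α]
variable {β : Type*} [Fintype β] [DecidableEq β]

theorem hep_image {B : Set (Finset α)} {B' : Set (Finset β)} {e : α ≃ β}
    (he : (fun b => b.image e) '' B = B') {Y : Finset α} (hY : Y ∈ Hep B) :
    Y.image e ∈ Hep B' := by
  have hY' := mem_Hep.mp hY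
  rw [mem_Hep]
  refine ⟨by rw [Finset.card_image_of_injective _ e.injective, hY'.1], ?_⟩
  intro b' hb'
  rw [← he] at hb'
  obtain ⟨b, hb, rfl⟩ := hb'
  show (b.image e ∩ Y.image e).card = 1 ∨ (b.image e ∩ Y.image e).card = 3
  rw [← Finset.image_inter _ _ e.injective, Finset.card_image_of_injective _ e.injective]
  exact hY'.2 b hb

theorem hep_config {B : Set (Finset α)} (hB : Cfsg.IsSteinerSystem 3 6 B) {X : Finset α}
    (hX : X ∈ Hep B) :
    ∃ (p a b c : α) (O : Finset α), p ∈ X ∧ a ∈ X ∧ b ∈ X ∧ c ∈ X ∧ a ≠ b ∧ a ≠ c ∧ b ≠ c ∧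
      O ∈ B ∧ a ∈ O ∧ b ∈ O ∧ c ∈ O ∧ p ∉ O ∧ (∀ x ∈ O, x ∈ X → x = a ∨ x = b ∨ x = c) := by
  have hX' := mem_Hep.mp hX
  obtain ⟨T, hTX, hT3⟩ := Finset.exists_subset_card_eq (show 3 ≤ X.card by omega)
  obtain ⟨a, b, c, hab, hac, hbc, rfl⟩ := Finset.card_eq_three.mp hT3
  obtain ⟨O, ⟨hO, hTO⟩, -⟩ := hB.2 _ hT3
  have hOX : O ∩ X = {a, b, c} := by
    symm
    apply Finset.eq_of_subset_of_card_le (Finset.subset_inter hTO hTX)
    rcases hX'.2 O hO with h | h <;> omega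
  have hne : (X \ {a, b, c}).Nonempty := by
    rw [← Finset.card_pos, Finset.card_sdiff_of_subset hTX, hT3, hX'.1]
    norm_num
  obtain ⟨p, hp⟩ := hne
  rw [Finset.mem_sdiff] at hp
  have ma : a ∈ ({a, b, c} : Finset α) := by simp
  have mb : b ∈ ({a, b, c} : Finset α) := by simp
  have mc : c ∈ ({a, b, c} : Finset α) := by simp
  refine ⟨p, a, b, c, O, hp.1, hTX ma, hTX mb, hTX mc, hab, hac, hbc, hO,
    hTO ma, hTO mb, hTO mc, ?_, ?_⟩
  · intro hpO
    apply hp.2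
    rw [← hOX]
    exact Finset.mem_inter.mpr ⟨hpO, hp.1⟩
  · intro x hxO hxX
    have h1 : x ∈ O ∩ X := Finset.mem_inter.mpr ⟨hxO, hxX⟩
    rw [hOX, Finset.mem_insert, Finset.mem_insert, Finset.mem_singleton] at h1
    exact h1

theorem hep_blk (hα : Fintype.card α = 22) {B : Set (Finset α)}
    (hB : Cfsg.IsSteinerSystem 3 6 B) {X : Finset α} (hX : X ∈ Hep B) {O : Finset α}
    (hO : O ∈ B) {p y z : α} (hp : p ∈ X) (hpO : p ∉ O) (hy : y ∈ X) (hyO : y ∈ O)
    (hz : z ∈ X) (hzO : z ∉ O) (hzp : z ≠ p) :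
    ∃ h ∈ B, ∃ o ∈ h, p ∈ h ∧ y ∈ h ∧ z ∈ h ∧ o ∈ O ∧ o ∉ X ∧
      (∀ t ∈ h, t ∈ X → t = p ∨ t = y ∨ t = z) := by
  have hX' := mem_Hep.mp hX
  have hyp : y ≠ p := fun h => hpO (h ▸ hyO)
  have hyz : y ≠ z := fun h => hzO (h ▸ hyO)
  have h3 : ({p, y, z} : Finset α).card = 3 :=
    Finset.card_eq_three.mpr ⟨p, y, z, hyp.symm, hzp.symm, hyz, rfl⟩
  obtain ⟨h, ⟨hh, hsub⟩, -⟩ := hB.2 _ h3
  have hph : p ∈ h := hsub (by simp)
  have hyh : y ∈ h := hsub (by simp)
  have hzh : z ∈ h := hsub (by simp)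
  have hhX : h ∩ X = {p, y, z} := by
    symm
    apply Finset.eq_of_subset_of_card_le
    · intro t ht
      rw [Finset.mem_insert, Finset.mem_insert, Finset.mem_singleton] at ht
      rw [Finset.mem_inter]
      rcases ht with h1 | h1 | h1 <;> rw [h1]
      · exact ⟨hph, hp⟩
      · exact ⟨hyh, hy⟩
      · exact ⟨hzh, hz⟩
    · rcases hX'.2 h hh with h1 | h1 <;> omega
  have hhO : h ≠ O := fun e => hpO (e ▸ hph)
  have h2 : (h ∩ O).card = 2 := by
    rcases Cfsg.Agent.S0356.result hα hB hh hO hhO with h0 | h2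
    · exfalso
      rw [Finset.card_eq_zero] at h0
      have h1 : y ∈ h ∩ O := Finset.mem_inter.mpr ⟨hyh, hyO⟩
      rw [h0] at h1
      exact absurd h1 (Finset.notMem_empty y)
    · exact h2
  obtain ⟨o, ho, hoy⟩ : ∃ o ∈ h ∩ O, o ≠ y := by
    by_contra hcon
    have hsub1 : h ∩ O ⊆ {y} := by
      intro t ht
      rw [Finset.mem_singleton]
      by_contra hty
      exact hcon ⟨t, ht, hty⟩
    have h1 := Finset.card_le_card hsub1
    rw [h2, Finset.card_singleton] at h1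
    omega
  rw [Finset.mem_inter] at ho
  refine ⟨h, hh, o, ho.1, hph, hyh, hzh, ho.2, ?_, ?_⟩
  · intro hoX
    have h1 : o ∈ h ∩ X := Finset.mem_inter.mpr ⟨ho.1, hoX⟩
    rw [hhX, Finset.mem_insert, Finset.mem_insert, Finset.mem_singleton] at h1
    rcases h1 with h1 | h1 | h1
    · exact hpO (h1 ▸ ho.2)
    · exact hoy h1
    · exact hzO (h1 ▸ ho.2)
  · intro t hth htX
    have h1 : t ∈ h ∩ X := Finset.mem_inter.mpr ⟨hth, htX⟩
    rw [hhX, Finset.mem_insert, Finset.mem_insert, Finset.mem_singleton] at h1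
    exact h1

theorem hep_fix {B : Set (Finset α)} (hB : Cfsg.IsSteinerSystem 3 6 B) {X : Finset α}
    {g : α ≃ α} (hgB : ∀ b ∈ B, b.image g ∈ B) (hgX : ∀ x ∈ X, g x ∈ X) {p : α}
    (hgp : g p = p) {h : Finset α} (hh : h ∈ B) {o w w' : α} (hph : p ∈ h) (hoh : o ∈ h)
    (hwh : w ∈ h) (hw'h : w' ∈ h) (hwX : w ∈ X) (hw'X : w' ∈ X) (hoX : o ∉ X) (hpX : p ∈ X)
    (hwp : w ≠ p) (hw'p : w' ≠ p) (hww' : w ≠ w')
    (hhX : ∀ t ∈ h, t ∈ X → t = p ∨ t = w ∨ t = w') (hgo : g o = o) (hgw : g w = w) :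
    g w' = w' := by
  have hop : o ≠ p := fun e => hoX (e ▸ hpX)
  have how : o ≠ w := fun e => hoX (e ▸ hwX)
  have h3 : ({p, w, o} : Finset α).card = 3 :=
    Finset.card_eq_three.mpr ⟨p, w, o, hwp.symm, hop.symm, how.symm, rfl⟩
  have hsub1 : ({p, w, o} : Finset α) ⊆ h := by
    intro t ht
    rw [Finset.mem_insert, Finset.mem_insert, Finset.mem_singleton] at ht
    rcases ht with h1 | h1 | h1 <;> rw [h1]
    · exact hph
    · exact hwh
    · exact hoh
  have hsub2 : ({p, w, o} : Finset α) ⊆ h.image g := by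
    intro t ht
    rw [Finset.mem_insert, Finset.mem_insert, Finset.mem_singleton] at ht
    rw [Finset.mem_image]
    rcases ht with h1 | h1 | h1 <;> rw [h1]
    · exact ⟨p, hph, hgp⟩
    · exact ⟨w, hwh, hgw⟩
    · exact ⟨o, hoh, hgo⟩
  have heq : h.image g = h := (hB.2 _ h3).unique ⟨hgB h hh, hsub2⟩ ⟨hh, hsub1⟩
  have h1 : g w' ∈ h := by
    rw [← heq]
    exact Finset.mem_image_of_mem g hw'h
  rcases hhX _ h1 (hgX w' hw'X) with h2 | h2 | h2
  · exact absurd (g.injective (h2.trans hgp.symm)) hw'p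
  · exact absurd (g.injective (h2.trans hgw.symm)) hww'.symm
  · exact h2

theorem psi_exists {O T : Finset α} {O' T' : Finset β} (hT : T ⊆ O) (hT' : T' ⊆ O')
    (hc : T.card = T'.card) (hcO : O.card = O'.card) (p' : β) :
    ∃ ψ : α → β, (∀ x ∈ O, ψ x ∈ O') ∧ (∀ x ∈ O, ∀ y ∈ O, ψ x = ψ y → x = y) ∧
      (∀ x ∈ T, ψ x ∈ T') := by
  classical
  have hcR : (O \ T).card = (O' \ T').card := by
    rw [Finset.card_sdiff_of_subset hT, Finset.card_sdiff_of_subset hT', hc, hcO]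
  obtain ⟨ε1⟩ : Nonempty (↥T ≃ ↥T') := ⟨Finset.equivOfCardEq hc⟩
  obtain ⟨ε2⟩ : Nonempty (↥(O \ T) ≃ ↥(O' \ T')) := ⟨Finset.equivOfCardEq hcR⟩
  obtain ⟨ψ, hψ1, hψ2⟩ : ∃ ψ : α → β, (∀ x (h : x ∈ T), ψ x = (ε1 ⟨x, h⟩ : β)) ∧
      (∀ x (h : x ∉ T) (h2 : x ∈ O \ T), ψ x = (ε2 ⟨x, h2⟩ : β)) :=
    ⟨fun x => if h : x ∈ T then (ε1 ⟨x, h⟩ : β) else
      if h2 : x ∈ O \ T then (ε2 ⟨x, h2⟩ : β) else p',
      fun x h => dif_pos h, fun x h h2 => by simp only [dif_neg h, dif_pos h2]⟩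
  refine ⟨ψ, ?_, ?_, ?_⟩
  · intro x hx
    by_cases h : x ∈ T
    · rw [hψ1 x h]
      exact hT' (ε1 ⟨x, h⟩).2
    · have h2 : x ∈ O \ T := Finset.mem_sdiff.mpr ⟨hx, h⟩
      rw [hψ2 x h h2]
      exact (Finset.mem_sdiff.mp (ε2 ⟨x, h2⟩).2).1
  · intro x hx y hy hxy
    by_cases h : x ∈ T <;> by_cases h' : y ∈ T
    · rw [hψ1 x h, hψ1 y h'] at hxy
      have h3 := ε1.injective (Subtype.ext hxy)
      exact congrArg Subtype.val h3
    · have h2 : y ∈ O \ T := Finset.mem_sdiff.mpr ⟨hy, h'⟩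
      rw [hψ1 x h, hψ2 y h' h2] at hxy
      exfalso
      have m1 := (ε1 ⟨x, h⟩).2
      have m2 := (Finset.mem_sdiff.mp (ε2 ⟨y, h2⟩).2).2
      rw [hxy] at m1
      exact m2 m1
    · have h2 : x ∈ O \ T := Finset.mem_sdiff.mpr ⟨hx, h⟩
      rw [hψ2 x h h2, hψ1 y h'] at hxy
      exfalso
      have m1 := (ε1 ⟨y, h'⟩).2
      have m2 := (Finset.mem_sdiff.mp (ε2 ⟨x, h2⟩).2).2
      rw [← hxy] at m1
      exact m2 m1
    · have h2 : x ∈ O \ T := Finset.mem_sdiff.mpr ⟨hx, h⟩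
      have h2' : y ∈ O \ T := Finset.mem_sdiff.mpr ⟨hy, h'⟩
      rw [hψ2 x h h2, hψ2 y h' h2'] at hxy
      have h3 := ε2.injective (Subtype.ext hxy)
      exact congrArg Subtype.val h3
  · intro x hx
    rw [hψ1 x hx]
    exact (ε1 ⟨x, hx⟩).2

theorem iso_comp_symm {B : Set (Finset α)} {B' : Set (Finset β)} {e1 e2 : α ≃ β}
    (h1 : (fun b => b.image e1) '' B = B') (h2 : (fun b => b.image e2) '' B = B') :
    ∀ b ∈ B, b.image (e1.trans e2.symm) ∈ B := by
  intro b0 hb0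
  have h3 : b0.image e1 ∈ B' := by
    rw [← h1]
    exact ⟨b0, hb0, rfl⟩
  rw [← h2] at h3
  obtain ⟨c0, hc0, hc0e⟩ := h3
  have hc0e' : c0.image e2 = b0.image e1 := hc0e
  have h4 : b0.image (e1.trans e2.symm) = c0 := by
    ext x
    rw [Finset.mem_image]
    constructor
    · rintro ⟨y, hy, rfl⟩
      have h5 : e1 y ∈ c0.image e2 := by
        rw [hc0e']
        exact Finset.mem_image_of_mem _ hy
      rw [Finset.mem_image] at h5
      obtain ⟨z, hz, hze⟩ := h5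
      rw [Equiv.trans_apply, ← hze, Equiv.symm_apply_apply]
      exact hz
    · intro hx
      have h5 : e2 x ∈ b0.image e1 := by
        rw [← hc0e']
        exact Finset.mem_image_of_mem _ hx
      rw [Finset.mem_image] at h5
      obtain ⟨y, hy, hye⟩ := h5
      exact ⟨y, hy, by rw [Equiv.trans_apply, hye, Equiv.symm_apply_apply]⟩
  rw [h4]
  exact hc0

/-- the automorphism group of an S(3, 6, 22), or rather the isomorphisms between two of them,
are transitive on heptads -/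
theorem hep_trans (hα : Fintype.card α = 22) (hβ : Fintype.card β = 22)
    {B : Set (Finset α)} {B' : Set (Finset β)} (hB : Cfsg.IsSteinerSystem 3 6 B)
    (hB' : Cfsg.IsSteinerSystem 3 6 B') {X : Finset α} {X' : Finset β} (hX : X ∈ Hep B)
    (hX' : X' ∈ Hep B') : ∃ e : α ≃ β, X.image e = X' ∧ (fun b => b.image e) '' B = B' := by
  classical
  obtain ⟨p, a, b, c, O, hpX, haX, hbX, hcX, hab, hac, hbc, hO, haO, hbO, hcO, hpO, hOX⟩ :=
    hep_config hB hX
  obtain ⟨p', a', b', c', O', hpX', haX', hbX', hcX', hab', hac', hbc', hO', haO', hbO', hcO',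
    hpO', hOX'⟩ := hep_config hB' hX'
  have hT3 : ({a, b, c} : Finset α).card = 3 :=
    Finset.card_eq_three.mpr ⟨a, b, c, hab, hac, hbc, rfl⟩
  have hT3' : ({a', b', c'} : Finset β).card = 3 :=
    Finset.card_eq_three.mpr ⟨a', b', c', hab', hac', hbc', rfl⟩
  have hTO : ({a, b, c} : Finset α) ⊆ O := by
    intro t ht
    rw [Finset.mem_insert, Finset.mem_insert, Finset.mem_singleton] at ht
    rcases ht with h | h | h <;> rw [h] <;> assumption
  have hTO' : ({a', b', c'} : Finset β) ⊆ O' := by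
    intro t ht
    rw [Finset.mem_insert, Finset.mem_insert, Finset.mem_singleton] at ht
    rcases ht with h | h | h <;> rw [h] <;> assumption
  have hTX : ({a, b, c} : Finset α) ⊆ X := by
    intro t ht
    rw [Finset.mem_insert, Finset.mem_insert, Finset.mem_singleton] at ht
    rcases ht with h | h | h <;> rw [h] <;> assumption
  have hTX' : ({a', b', c'} : Finset β) ⊆ X' := by
    intro t ht
    rw [Finset.mem_insert, Finset.mem_insert, Finset.mem_singleton] at ht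
    rcases ht with h | h | h <;> rw [h] <;> assumption
  obtain ⟨ψ, hψO, hψinj, hψT⟩ := psi_exists hTO hTO' (hT3.trans hT3'.symm)
    ((hB.1 O hO).trans (hB'.1 O' hO').symm) p'
  have hF4 : (insert p' ({a', b', c'} : Finset β)).card = 4 := by
    rw [Finset.card_insert_of_notMem (fun h => hpO' (hTO' h)), hT3']
  have hFB : ∀ b0 ∈ B', ¬ insert p' ({a', b', c'} : Finset β) ⊆ b0 := by
    intro b0 hb0 hsub
    have h1 : b0 = O' := (hB'.2 _ hT3').unique
      ⟨hb0, (Finset.subset_insert _ _).trans hsub⟩ ⟨hO', hTO'⟩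
    rw [h1] at hsub
    exact hpO' (hsub (Finset.mem_insert_self _ _))
  have hl4 := lam4_hep hβ hB' hF4 hFB
  have hX'mem : X' ∈ (Hep B').filter (fun Y => insert p' ({a', b', c'} : Finset β) ⊆ Y) := by
    rw [Finset.mem_filter]
    exact ⟨hX', Finset.insert_subset hpX' hTX'⟩
  have key : ∀ ψ' : α → β, (∀ x ∈ O, ψ' x ∈ O') → (∀ x ∈ O, ∀ y ∈ O, ψ' x = ψ' y → x = y) →
      (∀ x ∈ ({a, b, c} : Finset α), ψ' x ∈ ({a', b', c'} : Finset β)) →
      ∀ e : α ≃ β, e p = p' → (∀ x ∈ O, e x = ψ' x) → (fun b => b.image e) '' B = B' →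
      X.image e ∈ (Hep B').filter (fun Y => insert p' ({a', b', c'} : Finset β) ⊆ Y) := by
    intro ψ' h1 h2 h3 e hep heO heB
    rw [Finset.mem_filter]
    refine ⟨hep_image heB hX, ?_⟩
    have himg : ({a, b, c} : Finset α).image ψ' = {a', b', c'} := by
      apply Finset.eq_of_subset_of_card_le
      · intro y hy
        rw [Finset.mem_image] at hy
        obtain ⟨x, hx, rfl⟩ := hy
        exact h3 x hx
      · rw [Finset.card_image_of_injOn, hT3, hT3']
        intro x hx y hy hxy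
        exact h2 x (hTO (Finset.mem_coe.mp hx)) y (hTO (Finset.mem_coe.mp hy)) hxy
    intro y hy
    rw [Finset.mem_insert] at hy
    rw [Finset.mem_image]
    rcases hy with hy | hy
    · rw [hy]
      exact ⟨p, hpX, hep⟩
    · rw [← himg, Finset.mem_image] at hy
      obtain ⟨x, hx, rfl⟩ := hy
      exact ⟨x, hTX hx, heO x (hTO hx)⟩
  obtain ⟨e1, he1p, he1O, he1B⟩ := s3622_ext hα hβ hB hB' hO hpO hO' hpO' hψO hψinj
  have hm1 := key ψ hψO hψinj hψT e1 he1p he1O he1B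
  by_cases hc1 : X.image e1 = X'
  · exact ⟨e1, hc1, he1B⟩
  -- the second candidate
  have hswO : ∀ x ∈ O, Equiv.swap a b x ∈ O := by
    intro x hx
    by_cases hxa : x = a
    · rw [hxa, Equiv.swap_apply_left]
      exact hbO
    · by_cases hxb : x = b
      · rw [hxb, Equiv.swap_apply_right]
        exact haO
      · rw [Equiv.swap_apply_of_ne_of_ne hxa hxb]
        exact hx
  have hswT : ∀ x ∈ ({a, b, c} : Finset α), Equiv.swap a b x ∈ ({a, b, c} : Finset α) := by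
    intro x hx
    rw [Finset.mem_insert, Finset.mem_insert, Finset.mem_singleton] at hx
    rcases hx with h | h | h <;> rw [h]
    · rw [Equiv.swap_apply_left]
      simp
    · rw [Equiv.swap_apply_right]
      simp
    · rw [Equiv.swap_apply_of_ne_of_ne hac.symm hbc.symm]
      simp
  obtain ⟨ψ2, hψ2⟩ : ∃ ψ2 : α → β, ∀ x, ψ2 x = ψ (Equiv.swap a b x) := ⟨_, fun _ => rfl⟩
  have hψ2O : ∀ x ∈ O, ψ2 x ∈ O' := by
    intro x hx
    rw [hψ2]
    exact hψO _ (hswO x hx)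
  have hψ2inj : ∀ x ∈ O, ∀ y ∈ O, ψ2 x = ψ2 y → x = y := by
    intro x hx y hy hxy
    rw [hψ2, hψ2] at hxy
    exact (Equiv.swap a b).injective (hψinj _ (hswO x hx) _ (hswO y hy) hxy)
  have hψ2T : ∀ x ∈ ({a, b, c} : Finset α), ψ2 x ∈ ({a', b', c'} : Finset β) := by
    intro x hx
    rw [hψ2]
    exact hψT _ (hswT x hx)
  obtain ⟨e2, he2p, he2O, he2B⟩ := s3622_ext hα hβ hB hB' hO hpO hO' hpO' hψ2O hψ2inj
  have hm2 := key ψ2 hψ2O hψ2inj hψ2T e2 he2p he2O he2B
  by_cases hc2 : X.image e2 = X'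
  · exact ⟨e2, hc2, he2B⟩
  exfalso
  have h12 : X.image e1 = X.image e2 := by
    by_contra hne
    have hsub : ({X', X.image e1, X.image e2} : Finset (Finset β)) ⊆
        (Hep B').filter (fun Y => insert p' ({a', b', c'} : Finset β) ⊆ Y) := by
      intro Y hY
      rw [Finset.mem_insert, Finset.mem_insert, Finset.mem_singleton] at hY
      rcases hY with h | h | h <;> rw [h] <;> assumption
    have hc3 : ({X', X.image e1, X.image e2} : Finset (Finset β)).card = 3 :=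
      Finset.card_eq_three.mpr ⟨_, _, _, fun h => hc1 h.symm, fun h => hc2 h.symm, hne, rfl⟩
    have h1 := Finset.card_le_card hsub
    unfold lamH at hl4
    rw [hc3, hl4] at h1
    omega
  -- the automorphism `e2⁻¹ ∘ e1`
  have hgB := iso_comp_symm he1B he2B
  have hgX : ∀ x ∈ X, (e1.trans e2.symm) x ∈ X := by
    intro x hx
    have h1 : e1 x ∈ X.image e2 := by
      rw [← h12]
      exact Finset.mem_image_of_mem _ hx
    rw [Finset.mem_image] at h1
    obtain ⟨z, hz, hze⟩ := h1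
    rw [Equiv.trans_apply, ← hze, Equiv.symm_apply_apply]
    exact hz
  have hgp : (e1.trans e2.symm) p = p := by
    rw [Equiv.trans_apply, he1p, ← he2p, Equiv.symm_apply_apply]
  have hgO : ∀ x ∈ O, (e1.trans e2.symm) x = Equiv.swap a b x := by
    intro x hx
    rw [Equiv.trans_apply, Equiv.symm_apply_eq, he1O x hx, he2O _ (hswO x hx), hψ2,
      Equiv.swap_apply_self]
  have hgc : (e1.trans e2.symm) c = c := by
    rw [hgO c hcO, Equiv.swap_apply_of_ne_of_ne hac.symm hbc.symm]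
  have hga : (e1.trans e2.symm) a = b := by
    rw [hgO a haO, Equiv.swap_apply_left]
  have hgfix : ∀ o ∈ O, o ∉ X → (e1.trans e2.symm) o = o := by
    intro o ho hoX
    have hoa : o ≠ a := fun h => hoX (h ▸ haX)
    have hob : o ≠ b := fun h => hoX (h ▸ hbX)
    rw [hgO o ho, Equiv.swap_apply_of_ne_of_ne hoa hob]
  have hF4a : (insert p ({a, b, c} : Finset α)).card = 4 := by
    rw [Finset.card_insert_of_notMem (fun h => hpO (hTO h)), hT3]
  obtain ⟨x, hx⟩ : (X \ insert p ({a, b, c} : Finset α)).Nonempty := by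
    rw [← Finset.card_pos, Finset.card_sdiff_of_subset (Finset.insert_subset hpX hTX), hF4a,
      (mem_Hep.mp hX).1]
    norm_num
  rw [Finset.mem_sdiff, Finset.mem_insert, Finset.mem_insert, Finset.mem_insert,
    Finset.mem_singleton] at hx
  have hxX := hx.1
  have hxp : x ≠ p := fun h => hx.2 (Or.inl h)
  have hxO : x ∉ O := by
    intro h
    rcases hOX x h hxX with h1 | h1 | h1
    · exact hx.2 (Or.inr (Or.inl h1))
    · exact hx.2 (Or.inr (Or.inr (Or.inl h1)))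
    · exact hx.2 (Or.inr (Or.inr (Or.inr h1)))
  have hgx : (e1.trans e2.symm) x = x := by
    obtain ⟨h, hh, o, hoh, hph, hch, hxh, hoO, hoX, hhX⟩ :=
      hep_blk hα hB hX hO hpX hpO hcX hcO hxX hxO hxp
    exact hep_fix hB hgB hgX hgp hh hph hoh hch hxh hcX hxX hoX hpX
      (fun h => hpO (h ▸ hcO)) hxp (fun h => hxO (h ▸ hcO)) hhX (hgfix o hoO hoX) hgc
  have hga' : (e1.trans e2.symm) a = a := by
    obtain ⟨h, hh, o, hoh, hph, hah, hxh, hoO, hoX, hhX⟩ :=
      hep_blk hα hB hX hO hpX hpO haX haO hxX hxO hxp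
    have hhX' : ∀ t ∈ h, t ∈ X → t = p ∨ t = x ∨ t = a := by
      intro t ht htX
      rcases hhX t ht htX with h1 | h1 | h1
      · exact Or.inl h1
      · exact Or.inr (Or.inr h1)
      · exact Or.inr (Or.inl h1)
    exact hep_fix hB hgB hgX hgp hh hph hoh hxh hah hxX haX hoX hpX hxp
      (fun h => hpO (h ▸ haO)) (fun h => hxO (by rw [h]; exact haO)) hhX' (hgfix o hoO hoX) hgx
  exact hab (hga'.symm.trans hga)

end Cfsg.Agent.Helper28.Hyp
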