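import Cfsg.Agent.Helper28.HepC
import Cfsg.Agent.S0355

set_option autoImplicit false
set_option linter.unusedSectionVars false
set_option linter.unusedVariables false

namespace Cfsg.Agent.Helper28.Hyp

variable {α : Type*} [Fintype α] [DecidableEq α]
variable {β : Type*} [Fintype β] [DecidableEq β]

theorem card_sub23 (hα : Fintype.card α = 23) (p : α) :
    Fintype.card {a : α // a ≠ p} = 22 := by
  rw [Fintype.card_subtype]
  have h : Finset.univ.filter (fun a => a ≠ p) = Finset.univ.erase p := by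
    ext x
    simp
  rw [h, Finset.card_erase_of_mem (Finset.mem_univ p), Finset.card_univ, hα]

theorem dLines47 {W : Set (Finset α)} (hW : Cfsg.IsSteinerSystem 4 7 W) (q : α) :
    Cfsg.IsSteinerSystem 3 6 (dLines W q) := Cfsg.Agent.S0351.result hW q

theorem off_hep (hα : Fintype.card α = 23) {W : Set (Finset α)}
    (hW : Cfsg.IsSteinerSystem 4 7 W) {q : α} {c : Finset α} (hc : c ∈ W) (hqc : q ∉ c) :
    Finset.subtype (fun a => a ≠ q) c ∈ Hep (dLines W q) := by
  rw [mem_Hep]
  refine ⟨by rw [sub_card q hqc, hW.1 c hc], ?_⟩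
  rintro l ⟨b, hb, hqb, rfl⟩
  have hbc : b ≠ c := fun h => hqc (h ▸ hqb)
  rw [sub_inter, sub_card q (fun h => hqc (Finset.mem_inter.mp h).2)]
  exact Cfsg.Agent.S0355.result hα hW hb hc hbc

theorem off_odd (hα : Fintype.card α = 23) {W : Set (Finset α)}
    (hW : Cfsg.IsSteinerSystem 4 7 W) {q : α} {c X : Finset α} (hc : c ∈ W) (hqc : q ∉ c)
    (hX : X ∈ W) (hqX : q ∉ X) :
    Finset.subtype (fun a => a ≠ q) c
      ∈ OddHep (dLines W q) (Finset.subtype (fun a => a ≠ q) X) := by
  rw [mem_OddHep]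
  refine ⟨off_hep hα hW hc hqc, ?_⟩
  rw [sub_inter, sub_card q (fun h => hqc (Finset.mem_inter.mp h).1)]
  by_cases hcX : c = X
  · right; right
    rw [hcX, Finset.inter_self, hW.1 X hX]
  · rcases Cfsg.Agent.S0355.result hα hW hc hX hcX with h | h
    · left; exact h
    · right; left; exact h

theorem card_blocks_off23 (hα : Fintype.card α = 23) {W : Set (Finset α)}
    (hW : Cfsg.IsSteinerSystem 4 7 W) (q : α) :
    ((blocksF W).filter (fun b => q ∉ b)).card = 176 := by
  have hk : ∀ b ∈ blocksF W, b.card = 7 := fun b hb => hW.1 b (mem_blocksF.mp hb)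
  have l4 : ∀ S : Finset α, S.card = 3 + 1 → lamH (blocksF W) S = 1 := by
    intro S hS
    obtain ⟨b, ⟨hb1, hb2⟩, hbu⟩ := hW.2 S hS
    unfold lamH
    rw [Finset.card_eq_one]
    refine ⟨b, ?_⟩
    ext b'
    simp only [Finset.mem_filter, Finset.mem_singleton, mem_blocksF]
    constructor
    · intro h
      exact hbu b' h
    · rintro rfl
      exact ⟨hb1, hb2⟩
  have l3 : ∀ S : Finset α, S.card = 2 + 1 → lamH (blocksF W) S = 5 := by
    intro S hS
    have h := stepH (blocksF W) 23 7 hα hk 3 1 l4 S hS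
    omega
  have l2 : ∀ S : Finset α, S.card = 1 + 1 → lamH (blocksF W) S = 21 := by
    intro S hS
    have h := stepH (blocksF W) 23 7 hα hk 2 5 l3 S hS
    omega
  have l1 : ∀ S : Finset α, S.card = 0 + 1 → lamH (blocksF W) S = 77 := by
    intro S hS
    have h := stepH (blocksF W) 23 7 hα hk 1 21 l2 S hS
    omega
  have l0 : ∀ S : Finset α, S.card = 0 → lamH (blocksF W) S = 253 := by
    intro S hS
    have h := stepH (blocksF W) 23 7 hα hk 0 77 l1 S hS
    omega
  have h253 : (blocksF W).card = 253 := by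
    have h := l0 ∅ Finset.card_empty
    unfold lamH at h
    rw [Finset.filter_true_of_mem (fun b _ => Finset.empty_subset b)] at h
    exact h
  have h77 : ((blocksF W).filter (fun b => q ∈ b)).card = 77 := by
    have h := l1 {q} (Finset.card_singleton q)
    unfold lamH at h
    rw [← h]
    congr 1
    ext b
    simp only [Finset.mem_filter, Finset.singleton_subset_iff]
  have hsum := Finset.card_filter_add_card_filter_not (s := blocksF W) (fun b => q ∈ b)
  omega

theorem exists_block_off23 (hα : Fintype.card α = 23) {W : Set (Finset α)}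
    (hW : Cfsg.IsSteinerSystem 4 7 W) (q : α) : ∃ X ∈ W, q ∉ X := by
  have hne : ((blocksF W).filter (fun b => q ∉ b)).Nonempty := by
    rw [← Finset.card_pos, card_blocks_off23 hα hW q]
    norm_num
  obtain ⟨O, hO⟩ := hne
  rw [Finset.mem_filter, mem_blocksF] at hO
  exact ⟨O, hO.1, hO.2⟩

theorem off_eq_odd (hα : Fintype.card α = 23) {W : Set (Finset α)}
    (hW : Cfsg.IsSteinerSystem 4 7 W) {q : α} {X : Finset α} (hX : X ∈ W) (hqX : q ∉ X) :
    offBlocks W q = OddHep (dLines W q) (Finset.subtype (fun a => a ≠ q) X) := by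
  apply Finset.eq_of_subset_of_card_le
  · intro Y hY
    unfold offBlocks at hY
    rw [Finset.mem_image] at hY
    obtain ⟨c, hc, rfl⟩ := hY
    rw [Finset.mem_filter, mem_blocksF] at hc
    exact off_odd hα hW hc.1 hc.2 hX hqX
  · rw [card_OddHep (card_sub23 hα q) (dLines47 hW q) (off_hep hα hW hX hqX)]
    unfold offBlocks
    rw [Finset.card_image_of_injOn, card_blocks_off23 hα hW q]
    intro b hb b' hb' hbb'
    rw [Finset.mem_coe, Finset.mem_filter] at hb hb'
    exact sub_ext q ⟨fun h => absurd h hb.2, fun h => absurd h hb'.2⟩ hbb'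

theorem odd_image {B : Set (Finset α)} {B' : Set (Finset β)} {e : α ≃ β}
    (he : (fun b => b.image e) '' B = B') {X Y : Finset α} (hY : Y ∈ OddHep B X) :
    Y.image e ∈ OddHep B' (X.image e) := by
  rw [mem_OddHep] at hY ⊢
  refine ⟨hep_image he hY.1, ?_⟩
  rw [← Finset.image_inter _ _ e.injective, Finset.card_image_of_injective _ e.injective]
  exact hY.2

theorem iso4 {B : Set (Finset α)} {B' : Set (Finset β)} (hB : Cfsg.IsSteinerSystem 4 7 B)
    (hB' : Cfsg.IsSteinerSystem 4 7 B') {e : α ≃ β} (h : ∀ b ∈ B, b.image e ∈ B') :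
    (fun b => b.image e) '' B = B' := by
  apply Set.Subset.antisymm
  · rintro _ ⟨b, hb, rfl⟩
    exact h b hb
  · intro c hc
    have hc7 := hB'.1 c hc
    obtain ⟨T, hT, hT4⟩ := Finset.exists_subset_card_eq (by rw [hc7]; norm_num : 4 ≤ c.card)
    have hT' : (T.image e.symm).card = 4 := by
      rw [Finset.card_image_of_injective _ e.symm.injective, hT4]
    obtain ⟨b, ⟨hb, hTb⟩, -⟩ := hB.2 _ hT'
    refine ⟨b, hb, ?_⟩
    have hsub : T ⊆ b.image e := by
      intro y hy
      rw [Finset.mem_image]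
      exact ⟨e.symm y, hTb (Finset.mem_image_of_mem _ hy), e.apply_symm_apply y⟩
    exact (hB'.2 T hT4).unique ⟨h b hb, hsub⟩ ⟨hc, hT⟩

/-- uniqueness of the Steiner system S(4, 7, 23) -/
theorem s4723_iso (hα : Fintype.card α = 23) (hβ : Fintype.card β = 23)
    {W : Set (Finset α)} {W' : Set (Finset β)} (hW : Cfsg.IsSteinerSystem 4 7 W)
    (hW' : Cfsg.IsSteinerSystem 4 7 W') : Cfsg.SetSystemIso W W' := by
  classical
  obtain ⟨q⟩ : Nonempty α := Fintype.card_pos_iff.mp (by rw [hα]; norm_num)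
  obtain ⟨q'⟩ : Nonempty β := Fintype.card_pos_iff.mp (by rw [hβ]; norm_num)
  obtain ⟨X, hX, hqX⟩ := exists_block_off23 hα hW q
  obtain ⟨X', hX', hqX'⟩ := exists_block_off23 hβ hW' q'
  have hD := dLines47 hW q
  have hD' := dLines47 hW' q'
  have hcq := card_sub23 hα q
  have hcq' := card_sub23 hβ q'
  obtain ⟨e, heX, heB⟩ := hep_trans hcq hcq' hD hD' (off_hep hα hW hX hqX)
    (off_hep hβ hW' hX' hqX')
  obtain ⟨f, hfp, hfe⟩ : ∃ f : α → β, f q = q' ∧ ∀ a (ha : a ≠ q), f a = (e ⟨a, ha⟩ : β) :=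
    ⟨fun a => if h : a = q then q' else (e ⟨a, h⟩ : β), dif_pos rfl, fun a ha => dif_neg ha⟩
  have f_inj : Function.Injective f := by
    intro x y hxy
    by_cases hx : x = q <;> by_cases hy : y = q
    · rw [hx, hy]
    · exfalso
      rw [hx, hfp, hfe y hy] at hxy
      exact (e ⟨y, hy⟩).2 hxy.symm
    · exfalso
      rw [hy, hfp, hfe x hx] at hxy
      exact (e ⟨x, hx⟩).2 hxy
    · rw [hfe x hx, hfe y hy] at hxy
      have h2 := e.injective (Subtype.ext hxy)
      exact congrArg Subtype.val h2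
  have f_bij : Function.Bijective f :=
    (Fintype.bijective_iff_injective_and_card f).mpr ⟨f_inj, by rw [hα, hβ]⟩
  have hsubimg : ∀ b : Finset α, Finset.subtype (fun a => a ≠ q') (b.image f)
      = (Finset.subtype (fun a => a ≠ q) b).image e := by
    intro b
    ext y
    rw [Finset.mem_subtype, Finset.mem_image, Finset.mem_image]
    constructor
    · rintro ⟨x, hx, hxy⟩
      have hxp : x ≠ q := by
        intro h
        rw [h, hfp] at hxy
        exact y.2 hxy.symm
      refine ⟨⟨x, hxp⟩, Finset.mem_subtype.mpr hx, ?_⟩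
      apply Subtype.ext
      rw [← hfe x hxp]
      exact hxy
    · rintro ⟨x, hx, rfl⟩
      exact ⟨x.1, Finset.mem_subtype.mp hx, hfe x.1 x.2⟩
  have hpimg : ∀ b : Finset α, q' ∈ b.image f ↔ q ∈ b := by
    intro b
    rw [Finset.mem_image]
    constructor
    · rintro ⟨x, hx, hxy⟩
      have hxp : x = q := f_inj (hxy.trans hfp.symm)
      rw [← hxp]
      exact hx
    · intro h
      exact ⟨q, h, hfp⟩
  have hblocks : ∀ b ∈ W, b.image f ∈ W' := by
    intro b hb
    by_cases hqb : q ∈ b
    · have hl : Finset.subtype (fun a => a ≠ q) b ∈ dLines W q := ⟨b, hb, hqb, rfl⟩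
      have hl' : (Finset.subtype (fun a => a ≠ q) b).image e ∈ dLines W' q' := by
        rw [← heB]
        exact ⟨_, hl, rfl⟩
      obtain ⟨c, hc, hqc, hceq⟩ := hl'
      have hbc : b.image f = c :=
        sub_ext q' (by rw [hpimg]; exact ⟨fun _ => hqc, fun _ => hqb⟩)
          (by rw [hsubimg]; exact hceq)
      rw [hbc]
      exact hc
    · have hodd := off_odd hα hW hb hqb hX hqX
      have hodd' := odd_image heB hodd
      rw [heX, ← off_eq_odd hβ hW' hX' hqX'] at hodd'
      unfold offBlocks at hodd'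
      rw [Finset.mem_image] at hodd'
      obtain ⟨c, hc, hceq⟩ := hodd'
      rw [Finset.mem_filter, mem_blocksF] at hc
      have hbc : b.image f = c :=
        sub_ext q' (by rw [hpimg]; exact ⟨fun h => absurd h hqb, fun h => absurd h hc.2⟩)
          (by rw [hsubimg]; exact hceq.symm)
      rw [hbc]
      exact hc.1
  exact ⟨Equiv.ofBijective f f_bij, iso4 hW hW' (e := Equiv.ofBijective f f_bij) hblocks⟩

end Cfsg.Agent.Helper28.Hyp
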