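import Mathlib
import Cfsg.Prelude.Def_SporadicCombinatorics
import Cfsg.Agent.Helper12.Golay
import Cfsg.Agent.Helper28.Sext

/-!
The hexacode over a field with four elements: the list of its 64 words and their weights.
-/

set_option autoImplicit false

namespace Cfsg.Agent.Helper28.Hexa

open Cfsg Cfsg.Agent.Helper12 Cfsg.Agent.Helper28.Sext

variable {F : Type*} [Field F]

/-- the element of the field with a given number: `0`, `1`, `ω`, `ω + 1` -/
def enc (ω : F) (i : ℕ) : F := if i = 0 then 0 else if i = 1 then 1 else if i = 2 then ω else ω + 1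

/-- the multiplication of the numbers of the elements -/
def mulT (i j : ℕ) : ℕ :=
  bif Nat.beq i 0 then 0 else bif Nat.beq j 0 then 0 else
    Nat.succ (Nat.mod (Nat.add (Nat.pred i) (Nat.pred j)) 3)

theorem enc_add (ω : F) (h2 : (2 : F) = 0) (hω : ω ^ 2 + ω + 1 = 0) :
    ∀ i j, i < 4 → j < 4 → enc ω (Nat.xor i j) = enc ω i + enc ω j := by
  intro i j hi hj
  interval_cases i <;> interval_cases j
  · show (0 : F) = (0 : F) + (0 : F)
    linear_combination (0) * h2 + (0) * hω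
  · show (1 : F) = (0 : F) + (1 : F)
    linear_combination (0) * h2 + (0) * hω
  · show ω = (0 : F) + ω
    linear_combination (0) * h2 + (0) * hω
  · show (ω + 1) = (0 : F) + (ω + 1)
    linear_combination (0) * h2 + (0) * hω
  · show (1 : F) = (1 : F) + (0 : F)
    linear_combination (0) * h2 + (0) * hω
  · show (0 : F) = (1 : F) + (1 : F)
    linear_combination ((-1)) * h2 + (0) * hω
  · show (ω + 1) = (1 : F) + ω
    linear_combination (0) * h2 + (0) * hω
  · show ω = (1 : F) + (ω + 1)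
    linear_combination ((-1)) * h2 + (0) * hω
  · show ω = ω + (0 : F)
    linear_combination (0) * h2 + (0) * hω
  · show (ω + 1) = ω + (1 : F)
    linear_combination (0) * h2 + (0) * hω
  · show (0 : F) = ω + ω
    linear_combination ((-1) * ω) * h2 + (0) * hω
  · show (1 : F) = ω + (ω + 1)
    linear_combination ((-1) * ω) * h2 + (0) * hω
  · show (ω + 1) = (ω + 1) + (0 : F)
    linear_combination (0) * h2 + (0) * hω
  · show ω = (ω + 1) + (1 : F)
    linear_combination ((-1)) * h2 + (0) * hω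
  · show (1 : F) = (ω + 1) + ω
    linear_combination ((-1) * ω) * h2 + (0) * hω
  · show (0 : F) = (ω + 1) + (ω + 1)
    linear_combination ((-1) + (-1) * ω) * h2 + (0) * hω

theorem enc_mul (ω : F) (h2 : (2 : F) = 0) (hω : ω ^ 2 + ω + 1 = 0) :
    ∀ i j, i < 4 → j < 4 → enc ω (mulT i j) = enc ω i * enc ω j := by
  intro i j hi hj
  interval_cases i <;> interval_cases j
  · show (0 : F) = (0 : F) * (0 : F)
    linear_combination (0) * h2 + (0) * hω
  · show (0 : F) = (0 : F) * (1 : F)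
    linear_combination (0) * h2 + (0) * hω
  · show (0 : F) = (0 : F) * ω
    linear_combination (0) * h2 + (0) * hω
  · show (0 : F) = (0 : F) * (ω + 1)
    linear_combination (0) * h2 + (0) * hω
  · show (0 : F) = (1 : F) * (0 : F)
    linear_combination (0) * h2 + (0) * hω
  · show (1 : F) = (1 : F) * (1 : F)
    linear_combination (0) * h2 + (0) * hω
  · show ω = (1 : F) * ω
    linear_combination (0) * h2 + (0) * hω
  · show (ω + 1) = (1 : F) * (ω + 1)
    linear_combination (0) * h2 + (0) * hω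
  · show (0 : F) = ω * (0 : F)
    linear_combination (0) * h2 + (0) * hω
  · show ω = ω * (1 : F)
    linear_combination (0) * h2 + (0) * hω
  · show (ω + 1) = ω * ω
    linear_combination ((1) + (1) * ω) * h2 + ((-1)) * hω
  · show (1 : F) = ω * (ω + 1)
    linear_combination ((1)) * h2 + ((-1)) * hω
  · show (0 : F) = (ω + 1) * (0 : F)
    linear_combination (0) * h2 + (0) * hω
  · show (ω + 1) = (ω + 1) * (1 : F)
    linear_combination (0) * h2 + (0) * hω
  · show (1 : F) = (ω + 1) * ω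
    linear_combination ((1)) * h2 + ((-1)) * hω
  · show ω = (ω + 1) * (ω + 1)
    linear_combination (0) * h2 + ((-1)) * hω
theorem two_eq_zero [Fintype F] (hF : Fintype.card F = 4) : (2 : F) = 0 := by
  have h4 : ((Fintype.card F : ℕ) : F) = 0 := Nat.cast_card_eq_zero F
  rw [hF] at h4
  have h5 : (2 : F) * 2 = 0 := by
    have : ((4 : ℕ) : F) = 2 * 2 := by norm_num
    rw [← this]; exact h4
  exact mul_self_eq_zero.1 h5

theorem enc_zero (ω : F) (hω : ω ^ 2 + ω + 1 = 0) : ∀ i, i < 4 → enc ω i = 0 → i = 0 := by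
  intro i hi h
  interval_cases i
  · rfl
  · exfalso
    have h1 : (1 : F) = 0 := h
    exact one_ne_zero h1
  · exfalso
    have h1 : ω = 0 := h
    have h2 : (1 : F) = 0 := by linear_combination hω - (ω + 1) * h1
    exact one_ne_zero h2
  · exfalso
    have h1 : ω + 1 = 0 := h
    have h2 : (1 : F) = 0 := by linear_combination hω - ω * h1
    exact one_ne_zero h2

theorem xor_lt : ∀ i j, i < 4 → j < 4 → Nat.xor i j < 4 := by
  have h : ∀ i, i < 4 → ∀ j, j < 4 → Nat.xor i j < 4 := by decide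
  exact fun i j hi hj => h i hi j hj
theorem mulT_lt : ∀ i j, i < 4 → j < 4 → mulT i j < 4 := by
  have h : ∀ i, i < 4 → ∀ j, j < 4 → mulT i j < 4 := by decide
  exact fun i j hi hj => h i hi j hj
theorem xor_zero : ∀ i j, i < 4 → j < 4 → Nat.xor i j = 0 → i = j := by
  have h : ∀ i, i < 4 → ∀ j, j < 4 → Nat.xor i j = 0 → i = j := by decide
  exact fun i j hi hj => h i hi j hj

theorem enc_inj (ω : F) (h2 : (2 : F) = 0) (hω : ω ^ 2 + ω + 1 = 0) :
    ∀ i j, i < 4 → j < 4 → enc ω i = enc ω j → i = j := by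
  intro i j hi hj h
  apply xor_zero i j hi hj
  apply enc_zero ω hω _ (xor_lt i j hi hj)
  rw [enc_add ω h2 hω i j hi hj, h]
  linear_combination (enc ω j) * h2

theorem enc_surj [Fintype F] (hF : Fintype.card F = 4) (ω : F) (hω : ω ^ 2 + ω + 1 = 0) (a : F) :
    ∃ i, i < 4 ∧ a = enc ω i := by
  have h2 := two_eq_zero hF
  have hinj : Function.Injective (fun i : Fin 4 => enc ω i.val) := by
    intro i j h
    exact Fin.ext (enc_inj ω h2 hω _ _ i.2 j.2 h)
  have hbij := (Fintype.bijective_iff_injective_and_card _).2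
    ⟨hinj, by rw [Fintype.card_fin, hF]⟩
  obtain ⟨i, hi⟩ := hbij.2 a
  exact ⟨i.val, i.2, hi.symm⟩

/-! ## The words -/

/-- the numbers of the coordinates of the three generators -/
def gc (k t : ℕ) : ℕ :=
  Nat.land (Nat.shiftRight (bif Nat.beq k 0 then 0xbbe else bif Nat.beq k 1 then 0xbeb
    else 0xebb) (Nat.mul 2 t)) 3

theorem gc_lt : ∀ k t, k < 3 → t < 6 → gc k t < 4 := by
  have h : ∀ k, k < 3 → ∀ t, t < 6 → gc k t < 4 := by decide
  exact fun k t hk ht => h k hk t ht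

theorem sq_eq (ω : F) (h2 : (2 : F) = 0) (hω : ω ^ 2 + ω + 1 = 0) : ω ^ 2 = ω + 1 := by
  linear_combination hω - (ω + 1) * h2

theorem fin6 : ∀ t : Fin 6, t = 0 ∨ t = 1 ∨ t = 2 ∨ t = 3 ∨ t = 4 ∨ t = 5 := by decide

theorem v1_eq (ω : F) (h2 : (2 : F) = 0) (hω : ω ^ 2 + ω + 1 = 0) (t : Fin 6) :
    (![ω, ω ^ 2, ω ^ 2, ω, ω ^ 2, ω] : Fin 6 → F) t = enc ω (gc 0 t.val) := by
  have e := sq_eq ω h2 hω
  rcases fin6 t with rfl | rfl | rfl | rfl | rfl | rfl
  · rfl
  · exact e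
  · exact e
  · rfl
  · exact e
  · rfl

theorem v2_eq (ω : F) (h2 : (2 : F) = 0) (hω : ω ^ 2 + ω + 1 = 0) (t : Fin 6) :
    (![ω ^ 2, ω, ω, ω ^ 2, ω ^ 2, ω] : Fin 6 → F) t = enc ω (gc 1 t.val) := by
  have e := sq_eq ω h2 hω
  rcases fin6 t with rfl | rfl | rfl | rfl | rfl | rfl
  · exact e
  · rfl
  · rfl
  · exact e
  · exact e
  · rfl

theorem v3_eq (ω : F) (h2 : (2 : F) = 0) (hω : ω ^ 2 + ω + 1 = 0) (t : Fin 6) :
    (![ω ^ 2, ω, ω ^ 2, ω, ω, ω ^ 2] : Fin 6 → F) t = enc ω (gc 2 t.val) := by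
  have e := sq_eq ω h2 hω
  rcases fin6 t with rfl | rfl | rfl | rfl | rfl | rfl
  · exact e
  · rfl
  · exact e
  · rfl
  · rfl
  · exact e

/-- the number of coordinate `t` of the word number `n` -/
def cwH (n t : ℕ) : ℕ :=
  Nat.xor (Nat.xor (mulT (Nat.mod n 4) (gc 0 t)) (mulT (Nat.mod (Nat.div n 4) 4) (gc 1 t)))
    (mulT (Nat.div n 16) (gc 2 t))

theorem cwH_lt : ∀ n t, n < 64 → t < 6 → cwH n t < 4 := by
  have h : ∀ n, n < 64 → ∀ t, t < 6 → cwH n t < 4 := by decide +kernel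
  exact fun n t hn ht => h n hn t ht

/-- the word number `n` -/
def W (ω : F) (n : ℕ) : Fin 6 → F := fun t => enc ω (cwH n t.val)

theorem comb (ω : F) (h2 : (2 : F) = 0) (hω : ω ^ 2 + ω + 1 = 0) {i j k : ℕ} (hi : i < 4)
    (hj : j < 4) (hk : k < 4) :
    enc ω i • (![ω, ω ^ 2, ω ^ 2, ω, ω ^ 2, ω] : Fin 6 → F) +
      enc ω j • (![ω ^ 2, ω, ω, ω ^ 2, ω ^ 2, ω] : Fin 6 → F) +
      enc ω k • (![ω ^ 2, ω, ω ^ 2, ω, ω, ω ^ 2] : Fin 6 → F) = W ω (i + 4 * j + 16 * k) := by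
  funext t
  have g0 := gc_lt 0 t.val (by norm_num) t.2
  have g1 := gc_lt 1 t.val (by norm_num) t.2
  have g2 := gc_lt 2 t.val (by norm_num) t.2
  have e0 : (i + 4 * j + 16 * k) % 4 = i := by omega
  have e1 : (i + 4 * j + 16 * k) / 4 % 4 = j := by omega
  have e2 : (i + 4 * j + 16 * k) / 16 = k := by omega
  show enc ω i * (![ω, ω ^ 2, ω ^ 2, ω, ω ^ 2, ω] : Fin 6 → F) t +
      enc ω j * (![ω ^ 2, ω, ω, ω ^ 2, ω ^ 2, ω] : Fin 6 → F) t +
      enc ω k * (![ω ^ 2, ω, ω ^ 2, ω, ω, ω ^ 2] : Fin 6 → F) t =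
    enc ω (Nat.xor (Nat.xor (mulT ((i + 4 * j + 16 * k) % 4) (gc 0 t.val))
      (mulT ((i + 4 * j + 16 * k) / 4 % 4) (gc 1 t.val)))
      (mulT ((i + 4 * j + 16 * k) / 16) (gc 2 t.val)))
  rw [e0, e1, e2, v1_eq ω h2 hω, v2_eq ω h2 hω, v3_eq ω h2 hω,
    enc_add ω h2 hω _ _ (xor_lt _ _ (mulT_lt _ _ hi g0) (mulT_lt _ _ hj g1)) (mulT_lt _ _ hk g2),
    enc_add ω h2 hω _ _ (mulT_lt _ _ hi g0) (mulT_lt _ _ hj g1),
    enc_mul ω h2 hω _ _ hi g0, enc_mul ω h2 hω _ _ hj g1, enc_mul ω h2 hω _ _ hk g2]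

theorem mem_hexa [Fintype F] (hF : Fintype.card F = 4) (ω : F) (hω : ω ^ 2 + ω + 1 = 0)
    (x : Fin 6 → F) : x ∈ hexacode F ω ↔ ∃ n, n < 64 ∧ x = W ω n := by
  have h2 := two_eq_zero hF
  rw [hexacode, Submodule.mem_span_triple]
  constructor
  · rintro ⟨a, b, c, rfl⟩
    obtain ⟨i, hi, rfl⟩ := enc_surj hF ω hω a
    obtain ⟨j, hj, rfl⟩ := enc_surj hF ω hω b
    obtain ⟨k, hk, rfl⟩ := enc_surj hF ω hω c
    exact ⟨i + 4 * j + 16 * k, by omega, comb ω h2 hω hi hj hk⟩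
  · rintro ⟨n, hn, rfl⟩
    refine ⟨enc ω (n % 4), enc ω (n / 4 % 4), enc ω (n / 16), ?_⟩
    rw [comb ω h2 hω (Nat.mod_lt _ (by norm_num)) (Nat.mod_lt _ (by norm_num))
      (by omega : n / 16 < 4)]
    congr 1
    omega

theorem k_inj : allB 64 (fun n => allB 64 (fun m => bif allB 6 (fun t =>
    Nat.beq (cwH n t) (cwH m t)) then Nat.beq n m else true)) = true := by decide +kernel

theorem allB_of' {n : ℕ} {f : ℕ → Bool} (h : ∀ k, k < n → f k = true) : allB n f = true := by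
  induction n with
  | zero => rfl
  | succ n ih =>
    rw [allB_succ, ih (fun k hk => h k (Nat.lt_succ_of_lt hk)), h n (Nat.lt_succ_self n)]
    rfl

theorem W_inj [Fintype F] (hF : Fintype.card F = 4) (ω : F) (hω : ω ^ 2 + ω + 1 = 0) :
    ∀ n m, n < 64 → m < 64 → W ω n = W ω m → n = m := by
  have h2 := two_eq_zero hF
  intro n m hn hm e
  have h1 := allB_spec (allB_spec k_inj n hn) m hm
  have h3 : allB 6 (fun t => Nat.beq (cwH n t) (cwH m t)) = true := by
    apply allB_of'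
    intro t ht
    rw [Nat.beq_eq]
    exact enc_inj ω h2 hω _ _ (cwH_lt n t hn ht) (cwH_lt m t hm ht) (congrFun e ⟨t, ht⟩)
  rw [h3, cond_true, Nat.beq_eq] at h1
  exact h1

theorem card_hexa [Fintype F] (hF : Fintype.card F = 4) (ω : F) (hω : ω ^ 2 + ω + 1 = 0) :
    Nat.card ↥(hexacode F ω) = 64 := by
  have h1 : Nat.card ↥(hexacode F ω) = ((hexacode F ω : Submodule F (Fin 6 → F)) :
      Set (Fin 6 → F)).ncard := by
    rw [← Nat.card_coe_set_eq]; rfl
  rw [h1]
  refine (ncard_eq_cnt (W ω) 64 (W_inj hF ω hω) _ (fun _ => true) (fun s => ?_)).trans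
    (cnt_true 64)
  rw [SetLike.mem_coe, mem_hexa hF ω hω]
  constructor
  · rintro ⟨n, hn, e⟩; exact ⟨n, hn, rfl, e⟩
  · rintro ⟨n, hn, -, e⟩; exact ⟨n, hn, e⟩

/-- the weight of the word number `n` -/
def wtH (n : ℕ) : ℕ := cntB 6 (fun t => !(Nat.beq (cwH n t) 0))

theorem card_filter_fin6 (f : ℕ → Bool) :
    (Finset.univ.filter (fun t : Fin 6 => f t.val = true)).card = cntB 6 f := by
  rw [cntB_eq, Finset.card_filter, Finset.card_filter,
    Fin.sum_univ_eq_sum_range (fun i => if f i = true then 1 else 0) 6]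

theorem wt_W [Fintype F] [DecidableEq F] (hF : Fintype.card F = 4) (ω : F)
    (hω : ω ^ 2 + ω + 1 = 0) {n : ℕ} (hn : n < 64) :
    (Finset.univ.filter fun i => W ω n i ≠ 0).card = wtH n := by
  rw [wtH, ← card_filter_fin6]
  congr 1
  apply Finset.filter_congr
  intro t _
  show enc ω (cwH n t.val) ≠ 0 ↔ (!(Nat.beq (cwH n t.val) 0)) = true
  constructor
  · intro h
    cases hb : Nat.beq (cwH n t.val) 0 with
    | false => rfl
    | true =>
      exfalso
      apply h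
      rw [Nat.eq_of_beq_eq_true hb]
      rfl
  · intro h h0
    have h1 := enc_zero ω hω _ (cwH_lt n t.val hn t.2) h0
    rw [h1] at h
    exact absurd h (by decide)

theorem k_wt : allB 64 (fun n => (fun w => Nat.beq w 0 || Nat.beq w 4 || Nat.beq w 6) (wtH n))
    = true := by decide +kernel
theorem k_c4 : cntB 64 (fun n => Nat.beq (wtH n) 4) = 45 := by decide +kernel
theorem k_c6 : cntB 64 (fun n => Nat.beq (wtH n) 6) = 18 := by decide +kernel

theorem weight_cases [Fintype F] [DecidableEq F] (hF : Fintype.card F = 4) (ω : F)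
    (hω : ω ^ 2 + ω + 1 = 0) {x : Fin 6 → F} (hx : x ∈ hexacode F ω) :
    (Finset.univ.filter fun i => x i ≠ 0).card = 0 ∨ (Finset.univ.filter fun i => x i ≠ 0).card = 4 ∨
      (Finset.univ.filter fun i => x i ≠ 0).card = 6 := by
  obtain ⟨n, hn, rfl⟩ := (mem_hexa hF ω hω x).1 hx
  rw [wt_W hF ω hω hn]
  have h := allB_spec k_wt n hn
  simp only [Bool.or_eq_true, Nat.beq_eq] at h
  rcases h with (h | h) | h
  · exact Or.inl h
  · exact Or.inr (Or.inl h)
  · exact Or.inr (Or.inr h)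

theorem count_wt [Fintype F] [DecidableEq F] (hF : Fintype.card F = 4) (ω : F)
    (hω : ω ^ 2 + ω + 1 = 0) (w : ℕ) :
    {x : Fin 6 → F | x ∈ hexacode F ω ∧ (Finset.univ.filter fun i => x i ≠ 0).card = w}.ncard =
      cntB 64 (fun n => Nat.beq (wtH n) w) := by
  apply ncard_eq_cnt (W ω) 64 (W_inj hF ω hω)
  intro s
  constructor
  · rintro ⟨hs, hw⟩
    obtain ⟨n, hn, rfl⟩ := (mem_hexa hF ω hω s).1 hs
    refine ⟨n, hn, ?_, rfl⟩
    rw [wt_W hF ω hω hn] at hw
    rw [Nat.beq_eq]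
    exact hw
  · rintro ⟨n, hn, hf, rfl⟩
    refine ⟨(mem_hexa hF ω hω _).2 ⟨n, hn, rfl⟩, ?_⟩
    rw [wt_W hF ω hω hn]
    exact Nat.eq_of_beq_eq_true hf

theorem main [Fintype F] [DecidableEq F] (hF : Fintype.card F = 4) (ω : F)
    (hω : ω ^ 2 + ω + 1 = 0) :
    Nat.card ↥(hexacode F ω) = 64 ∧ (∀ x ∈ hexacode F ω, x ≠ 0 →
      (Finset.univ.filter fun i => x i ≠ 0).card = 4 ∨
        (Finset.univ.filter fun i => x i ≠ 0).card = 6) ∧
    {x : Fin 6 → F | x ∈ hexacode F ω ∧ (Finset.univ.filter fun i => x i ≠ 0).card = 4}.ncard = 45 ∧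
    {x : Fin 6 → F | x ∈ hexacode F ω ∧ (Finset.univ.filter fun i => x i ≠ 0).card = 6}.ncard = 18 := by
  refine ⟨card_hexa hF ω hω, ?_, (count_wt hF ω hω 4).trans k_c4, (count_wt hF ω hω 6).trans k_c6⟩
  intro x hx hne
  rcases weight_cases hF ω hω hx with h | h | h
  · exfalso
    apply hne
    rw [Finset.card_eq_zero, Finset.filter_eq_empty_iff] at h
    funext t
    exact not_not.1 (h (Finset.mem_univ t))
  · exact Or.inl h
  · exact Or.inr h

end Cfsg.Agent.Helper28.Hexa
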