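import Mathlib
import Cfsg.Prelude.Def_SporadicCombinatorics

/-!
Monomial maps preserving a linear code: composition, the diagonal part, and the count of the
monomial automorphisms through their permutation parts.
-/

set_option autoImplicit false

namespace Cfsg.Agent.Helper28.Monomial

open Cfsg

variable {α F : Type*} [Field F]

theorem mono_apply (σ : Equiv.Perm α) (c : α → Fˣ) (x : α → F) (i : α) :
    monomialMap σ c x i = (c i : F) * x (σ.symm i) := rfl

/-- the monomial map as a linear map -/
def monoLin (σ : Equiv.Perm α) (c : α → Fˣ) : (α → F) →ₗ[F] (α → F) where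
  toFun := monomialMap σ c
  map_add' x y := by
    funext i
    simp only [mono_apply, Pi.add_apply]
    ring
  map_smul' a x := by
    funext i
    simp only [mono_apply, Pi.smul_apply, smul_eq_mul, RingHom.id_apply]
    ring

/-- the monomial map preserves the code -/
def Pres (C : Submodule F (α → F)) (σ : Equiv.Perm α) (c : α → Fˣ) : Prop :=
  ∀ x ∈ C, monomialMap σ c x ∈ C

theorem pres_of_span {S : Set (α → F)} (σ : Equiv.Perm α) (c : α → Fˣ)
    (h : ∀ v ∈ S, monomialMap σ c v ∈ Submodule.span F S) : Pres (Submodule.span F S) σ c := by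
  intro x hx
  have h1 : Submodule.span F S ≤ (Submodule.span F S).comap (monoLin σ c) :=
    Submodule.span_le.2 (fun v hv => h v hv)
  exact h1 hx

theorem mono_comp (σ τ : Equiv.Perm α) (c d : α → Fˣ) (x : α → F) :
    monomialMap σ c (monomialMap τ d x) =
      monomialMap (σ * τ) (fun i => c i * d (σ.symm i)) x := by
  funext i
  simp only [mono_apply, Units.val_mul]
  rw [mul_assoc]
  rfl

theorem pres_mul {C : Submodule F (α → F)} {σ τ : Equiv.Perm α} {c d : α → Fˣ}
    (h1 : Pres C σ c) (h2 : Pres C τ d) : Pres C (σ * τ) (fun i => c i * d (σ.symm i)) := by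
  intro x hx
  rw [← mono_comp]
  exact h1 _ (h2 x hx)

theorem pres_one (C : Submodule F (α → F)) : Pres C (1 : Equiv.Perm α) (fun _ => 1) := by
  intro x hx
  have h1 : monomialMap (1 : Equiv.Perm α) (fun _ => (1 : Fˣ)) x = x := by
    funext i
    show ((1 : Fˣ) : F) * x i = x i
    rw [Units.val_one, one_mul]
  rw [h1]
  exact hx

theorem pres_smul {C : Submodule F (α → F)} {σ : Equiv.Perm α} {c : α → Fˣ} (u : Fˣ)
    (h : Pres C σ c) : Pres C σ (fun i => u * c i) := by
  intro x hx
  have h1 : monomialMap σ (fun i => u * c i) x = (u : F) • monomialMap σ c x := by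
    funext i
    simp only [mono_apply, Units.val_mul, Pi.smul_apply, smul_eq_mul]
    ring
  rw [h1]
  exact C.smul_mem _ (h x hx)

theorem mono_inj (σ : Equiv.Perm α) (c : α → Fˣ) :
    Function.Injective (monomialMap (F := F) σ c) := by
  intro x y h
  funext j
  have h1 := congrFun h (σ j)
  simp only [mono_apply, Equiv.symm_apply_apply] at h1
  exact mul_left_cancel₀ (Units.ne_zero _) h1

theorem pres_surj {C : Submodule F (α → F)} [Finite ↥C] {σ : Equiv.Perm α} {c : α → Fˣ}
    (h : Pres C σ c) {y : α → F} (hy : y ∈ C) : ∃ x ∈ C, monomialMap σ c x = y := by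
  have hinj : Function.Injective (fun x : ↥C => (⟨monomialMap σ c x.1, h x.1 x.2⟩ : ↥C)) :=
    fun x y hxy => Subtype.ext (mono_inj σ c (congrArg Subtype.val hxy))
  obtain ⟨x, hx⟩ := (Finite.injective_iff_surjective.1 hinj) ⟨y, hy⟩
  exact ⟨x.1, x.2, congrArg Subtype.val hx⟩

theorem pres_div {C : Submodule F (α → F)} [Finite ↥C] {σ : Equiv.Perm α} {c c' : α → Fˣ}
    (h : Pres C σ c) (h' : Pres C σ c') : Pres C 1 (fun i => c' i * (c i)⁻¹) := by
  intro y hy
  obtain ⟨x, hx, rfl⟩ := pres_surj h hy
  have h1 : monomialMap 1 (fun i => c' i * (c i)⁻¹) (monomialMap σ c x) = monomialMap σ c' x := by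
    funext i
    show (((c' i * (c i)⁻¹ : Fˣ) : F)) * ((c i : F) * x (σ.symm i)) = (c' i : F) * x (σ.symm i)
    rw [Units.val_mul, mul_assoc, ← mul_assoc (((c i)⁻¹ : Fˣ) : F), Units.inv_mul, one_mul]
  rw [h1]
  exact h' x hx

/-- the number of monomial automorphisms through the permutation parts and the diagonal part -/
theorem card_pres (C : Submodule F (α → F)) [Finite ↥C] :
    Nat.card {f : Equiv.Perm α × (α → Fˣ) // Pres C f.1 f.2} =
      Nat.card {σ : Equiv.Perm α // ∃ c, Pres C σ c} * Nat.card {d : α → Fˣ // Pres C 1 d} := by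
  rw [← Nat.card_prod]
  apply Nat.card_congr
  exact {
    toFun := fun f => (⟨f.1.1, f.1.2, f.2⟩,
      ⟨fun i => f.1.2 i * (Classical.choose (⟨f.1.2, f.2⟩ : ∃ c, Pres C f.1.1 c) i)⁻¹,
        pres_div (Classical.choose_spec (⟨f.1.2, f.2⟩ : ∃ c, Pres C f.1.1 c)) f.2⟩)
    invFun := fun p => ⟨(p.1.1, fun i => p.2.1 i * Classical.choose p.1.2 i), by
      have h1 := pres_mul p.2.2 (Classical.choose_spec p.1.2)
      rw [one_mul] at h1
      exact h1⟩
    left_inv := fun f => by
      apply Subtype.ext
      apply Prod.ext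
      · rfl
      · funext i
        exact inv_mul_cancel_right _ _
    right_inv := fun p => by
      apply Prod.ext
      · rfl
      · apply Subtype.ext
        funext i
        exact mul_inv_cancel_right _ _ }

/-- the diagonal part when it consists of the scalars -/
theorem card_diag (C : Submodule F (α → F)) (a0 : α)
    (h : ∀ d : α → Fˣ, Pres C 1 d → ∀ i j, d i = d j) :
    Nat.card {d : α → Fˣ // Pres C 1 d} = Nat.card Fˣ := by
  apply Nat.card_congr
  exact {
    toFun := fun d => d.1 a0
    invFun := fun u => ⟨fun _ => u, by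
      have h1 := pres_smul u (pres_one C)
      simp only [mul_one] at h1
      exact h1⟩
    left_inv := fun d => by
      apply Subtype.ext
      funext i
      exact h d.1 d.2 a0 i
    right_inv := fun u => rfl }

/-- a set of permutations closed under products and containing the products of two
transpositions contains the even permutations -/
theorem even_mem {β : Type*} [Fintype β] [DecidableEq β] (P : Set (Equiv.Perm β))
    (h1 : (1 : Equiv.Perm β) ∈ P) (hmul : ∀ σ τ, σ ∈ P → τ ∈ P → σ * τ ∈ P)
    (hpair : ∀ a b c d : β, a ≠ b → c ≠ d → Equiv.swap a b * Equiv.swap c d ∈ P) :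
    ∀ σ : Equiv.Perm β, Equiv.Perm.sign σ = 1 → σ ∈ P := by
  have key : ∀ (n : ℕ) (l : List (Equiv.Perm β)), l.length = 2 * n → (∀ g ∈ l, g.IsSwap) →
      l.prod ∈ P := by
    intro n
    induction n with
    | zero =>
      intro l hl _
      have h2 : l = [] := List.length_eq_zero_iff.1 (by omega)
      rw [h2]
      exact h1
    | succ n ih =>
      intro l hl hs
      rcases l with _ | ⟨g1, _ | ⟨g2, l'⟩⟩
      · simp at hl
      · simp at hl
        omega
      · rw [List.prod_cons, List.prod_cons, ← mul_assoc]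
        obtain ⟨a, b, hab, e1⟩ := hs g1 (by simp)
        obtain ⟨c, d, hcd, e2⟩ := hs g2 (by simp)
        rw [e1, e2]
        refine hmul _ _ (hpair a b c d hab hcd) (ih l' ?_ (fun g hg => hs g (by simp [hg])))
        simp at hl
        omega
  intro σ hσ
  obtain ⟨l, hl1, hl2⟩ := (Equiv.Perm.truncSwapFactors σ).out
  have hsign := Equiv.Perm.sign_prod_list_swap hl2
  rw [hl1, hσ] at hsign
  have hev : Even l.length := by
    by_contra hodd
    rw [Nat.not_even_iff_odd] at hodd
    rw [hodd.neg_one_pow] at hsign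
    exact absurd hsign (by decide)
  obtain ⟨n, hn⟩ := hev
  rw [← hl1]
  exact key n l (by omega) hl2

end Cfsg.Agent.Helper28.Monomial
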