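import Mathlib
import Cfsg.Prelude.Def_SporadicCombinatorics
import Cfsg.Agent.Helper28.Hexa
import Cfsg.Agent.Helper28.Monomial
import Cfsg.Agent.Helper28.HexaAutData

/-!
The monomial automorphisms of the hexacode: the diagonal ones are the scalars, the permutation
parts are the even permutations, and there are 1080 of them.
-/

set_option autoImplicit false

namespace Cfsg.Agent.Helper28.HexaAut

open Cfsg Cfsg.Agent.Helper12 Cfsg.Agent.Helper28.Sext Cfsg.Agent.Helper28.Hexa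
  Cfsg.Agent.Helper28.Monomial Cfsg.Agent.Helper28.HexaAutData

variable {F : Type*} [Field F]

/-- some number below `n` satisfies `f` -/
def anyB (n : ℕ) (f : ℕ → Bool) : Bool :=
  Nat.rec (motive := fun _ => Bool) false (fun k ih => bif f k then true else ih) n

theorem anyB_succ (n : ℕ) (f : ℕ → Bool) :
    anyB (n + 1) f = (bif f n then true else anyB n f) := rfl

theorem anyB_spec {n : ℕ} {f : ℕ → Bool} (h : anyB n f = true) : ∃ k, k < n ∧ f k = true := by
  induction n with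
  | zero => exact absurd (show false = true from h) (by decide)
  | succ n ih =>
    rw [anyB_succ] at h
    cases hf : f n with
    | true => exact ⟨n, Nat.lt_succ_self n, hf⟩
    | false =>
      rw [hf, cond_false] at h
      obtain ⟨k, hk, hk2⟩ := ih h
      exact ⟨k, Nat.lt_succ_of_lt hk, hk2⟩

theorem anyB_of {n : ℕ} {f : ℕ → Bool} {k : ℕ} (hk : k < n) (hf : f k = true) :
    anyB n f = true := by
  induction n with
  | zero => omega
  | succ n ih =>
    rw [anyB_succ]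
    cases hfn : f n with
    | true => rfl
    | false =>
      rw [cond_false]
      have hne : k ≠ n := by
        rintro rfl
        rw [hf] at hfn
        exact absurd hfn (by decide)
      exact ih (by omega)

/-- the packed form of a word of numbers -/
def pk (v : ℕ → ℕ) : ℕ := Nat.add (Nat.add (Nat.add (Nat.add (Nat.add (v 0) (Nat.mul 4 (v 1)))
  (Nat.mul 16 (v 2))) (Nat.mul 64 (v 3))) (Nat.mul 256 (v 4))) (Nat.mul 1024 (v 5))

theorem pk_eq (v : ℕ → ℕ) :
    pk v = v 0 + 4 * v 1 + 16 * v 2 + 64 * v 3 + 256 * v 4 + 1024 * v 5 := rfl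

theorem pk_inj {v w : ℕ → ℕ} (hv : ∀ t, t < 6 → v t < 4) (hw : ∀ t, t < 6 → w t < 4)
    (h : pk v = pk w) : ∀ t, t < 6 → v t = w t := by
  rw [pk_eq, pk_eq] at h
  have v0 := hv 0 (by norm_num)
  have v1 := hv 1 (by norm_num)
  have v2 := hv 2 (by norm_num)
  have v3 := hv 3 (by norm_num)
  have v4 := hv 4 (by norm_num)
  have v5 := hv 5 (by norm_num)
  have w0 := hw 0 (by norm_num)
  have w1 := hw 1 (by norm_num)
  have w2 := hw 2 (by norm_num)
  have w3 := hw 3 (by norm_num)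
  have w4 := hw 4 (by norm_num)
  have w5 := hw 5 (by norm_num)
  intro t ht
  interval_cases t <;> omega

/-- membership in the code for packed words -/
def isC (w : ℕ) : Bool := anyB 64 (fun m => Nat.beq (get24 CT m) w)

theorem k_ct : allB 64 (fun m => Nat.beq (get24 CT m) (pk (cwH m))) = true := by decide +kernel

theorem mem_iff_isC [Fintype F] (hF : Fintype.card F = 4) (ω : F) (hω : ω ^ 2 + ω + 1 = 0)
    {v : ℕ → ℕ} (hv : ∀ t, t < 6 → v t < 4) :
    (fun t : Fin 6 => enc ω (v t.val)) ∈ hexacode F ω ↔ isC (pk v) = true := by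
  have h2 := two_eq_zero hF
  rw [mem_hexa hF ω hω]
  constructor
  · rintro ⟨m, hm, e⟩
    apply anyB_of hm
    rw [Nat.beq_eq, Nat.eq_of_beq_eq_true (allB_spec k_ct m hm)]
    have hvm : ∀ t, t < 6 → v t = cwH m t := fun t ht =>
      enc_inj ω h2 hω _ _ (hv t ht) (cwH_lt m t hm ht) (congrFun e ⟨t, ht⟩)
    rw [pk_eq, pk_eq, hvm 0 (by norm_num), hvm 1 (by norm_num), hvm 2 (by norm_num),
      hvm 3 (by norm_num), hvm 4 (by norm_num), hvm 5 (by norm_num)]
  · intro h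
    obtain ⟨m, hm, hb⟩ := anyB_spec h
    rw [Nat.beq_eq, Nat.eq_of_beq_eq_true (allB_spec k_ct m hm)] at hb
    have hvm := pk_inj (fun t ht => cwH_lt m t hm ht) hv hb
    refine ⟨m, hm, ?_⟩
    funext t
    show enc ω (v t.val) = enc ω (cwH m t.val)
    rw [hvm t.val t.2]

/-- digit `t` of a number in base 3 -/
def dg (e t : ℕ) : ℕ := Nat.mod (Nat.div e (Nat.pow 3 t)) 3

theorem dg_lt (e t : ℕ) : Nat.succ (dg e t) < 4 :=
  Nat.succ_lt_succ (Nat.mod_lt _ (by norm_num))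

/-- coordinate `t` of the image of the word number `n` -/
def iw (sv : ℕ → ℕ) (e n t : ℕ) : ℕ := mulT (Nat.succ (dg e t)) (cwH n (sv t))

/-- the images of the three generators are in the code -/
def gensOK (sv : ℕ → ℕ) (e : ℕ) : Bool :=
  isC (pk (iw sv e 1)) && isC (pk (iw sv e 4)) && isC (pk (iw sv e 16))

theorem iw_lt {sv : ℕ → ℕ} (hsv : ∀ t, t < 6 → sv t < 6) (e : ℕ) {n : ℕ} (hn : n < 64) :
    ∀ t, t < 6 → iw sv e n t < 4 := fun t ht =>
  mulT_lt _ _ (dg_lt e t) (cwH_lt n _ hn (hsv t ht))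

theorem img_eq (ω : F) (h2 : (2 : F) = 0) (hω : ω ^ 2 + ω + 1 = 0) (σ : Equiv.Perm (Fin 6))
    (c : Fin 6 → Fˣ) (sv : ℕ → ℕ) (e : ℕ) (hsv : ∀ t : Fin 6, (σ.symm t).val = sv t.val)
    (hc : ∀ t : Fin 6, (c t : F) = enc ω (Nat.succ (dg e t.val))) {n : ℕ} (hn : n < 64) :
    monomialMap σ c (W ω n) = fun t : Fin 6 => enc ω (iw sv e n t.val) := by
  funext t
  show (c t : F) * enc ω (cwH n (σ.symm t).val) =
    enc ω (mulT (Nat.succ (dg e t.val)) (cwH n (sv t.val)))
  rw [hc, hsv, enc_mul ω h2 hω _ _ (dg_lt e t.val)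
    (cwH_lt n _ hn (by rw [← hsv]; exact (σ.symm t).2))]

theorem gen_eq (ω : F) (h2 : (2 : F) = 0) (hω : ω ^ 2 + ω + 1 = 0) :
    (![ω, ω ^ 2, ω ^ 2, ω, ω ^ 2, ω] : Fin 6 → F) = W ω 1 ∧
    (![ω ^ 2, ω, ω, ω ^ 2, ω ^ 2, ω] : Fin 6 → F) = W ω 4 ∧
    (![ω ^ 2, ω, ω ^ 2, ω, ω, ω ^ 2] : Fin 6 → F) = W ω 16 := by
  have e1 : enc ω 1 = (1 : F) := rfl
  have e0 : enc ω 0 = (0 : F) := rfl
  refine ⟨?_, ?_, ?_⟩
  · have h := comb ω h2 hω (i := 1) (j := 0) (k := 0) (by norm_num) (by norm_num) (by norm_num)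
    rw [e1, e0, one_smul, zero_smul, zero_smul, add_zero, add_zero] at h
    exact h
  · have h := comb ω h2 hω (i := 0) (j := 1) (k := 0) (by norm_num) (by norm_num) (by norm_num)
    rw [e1, e0, one_smul, zero_smul, zero_smul, add_zero, zero_add] at h
    exact h
  · have h := comb ω h2 hω (i := 0) (j := 0) (k := 1) (by norm_num) (by norm_num) (by norm_num)
    rw [e1, e0, one_smul, zero_smul, zero_smul, zero_add, zero_add] at h
    exact h

theorem sv_lt {σ : Equiv.Perm (Fin 6)} {sv : ℕ → ℕ} (hsv : ∀ t : Fin 6, (σ.symm t).val = sv t.val) :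
    ∀ t, t < 6 → sv t < 6 := by
  intro t ht
  have h := hsv ⟨t, ht⟩
  rw [← h]
  exact (σ.symm ⟨t, ht⟩).2

theorem pres_gens [Fintype F] (hF : Fintype.card F = 4) (ω : F) (hω : ω ^ 2 + ω + 1 = 0)
    (σ : Equiv.Perm (Fin 6)) (c : Fin 6 → Fˣ) (sv : ℕ → ℕ) (e : ℕ)
    (hsv : ∀ t : Fin 6, (σ.symm t).val = sv t.val)
    (hc : ∀ t : Fin 6, (c t : F) = enc ω (Nat.succ (dg e t.val)))
    (h : Pres (hexacode F ω) σ c) : gensOK sv e = true := by
  have h2 := two_eq_zero hF
  have key : ∀ n, n < 64 → isC (pk (iw sv e n)) = true := by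
    intro n hn
    have h1 := h (W ω n) ((mem_hexa hF ω hω _).2 ⟨n, hn, rfl⟩)
    rw [img_eq ω h2 hω σ c sv e hsv hc hn] at h1
    exact (mem_iff_isC hF ω hω (iw_lt (sv_lt hsv) e hn)).1 h1
  rw [gensOK, key 1 (by norm_num), key 4 (by norm_num), key 16 (by norm_num)]
  rfl

theorem gens_pres [Fintype F] (hF : Fintype.card F = 4) (ω : F) (hω : ω ^ 2 + ω + 1 = 0)
    (σ : Equiv.Perm (Fin 6)) (c : Fin 6 → Fˣ) (sv : ℕ → ℕ) (e : ℕ)
    (hsv : ∀ t : Fin 6, (σ.symm t).val = sv t.val)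
    (hc : ∀ t : Fin 6, (c t : F) = enc ω (Nat.succ (dg e t.val)))
    (h : gensOK sv e = true) : Pres (hexacode F ω) σ c := by
  have h2 := two_eq_zero hF
  rw [gensOK, Bool.and_eq_true, Bool.and_eq_true] at h
  obtain ⟨⟨g1, g4⟩, g16⟩ := h
  have key : ∀ n, n < 64 → isC (pk (iw sv e n)) = true → monomialMap σ c (W ω n) ∈ hexacode F ω := by
    intro n hn hg
    rw [img_eq ω h2 hω σ c sv e hsv hc hn]
    exact (mem_iff_isC hF ω hω (iw_lt (sv_lt hsv) e hn)).2 hg
  obtain ⟨q1, q4, q16⟩ := gen_eq ω h2 hω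
  apply pres_of_span
  intro v hv
  show monomialMap σ c v ∈ hexacode F ω
  rcases hv with rfl | rfl | rfl
  · rw [q1]; exact key 1 (by norm_num) g1
  · rw [q4]; exact key 4 (by norm_num) g4
  · rw [q16]; exact key 16 (by norm_num) g16

/-- the number of a diagonal part -/
theorem exists_code [Fintype F] (hF : Fintype.card F = 4) (ω : F) (hω : ω ^ 2 + ω + 1 = 0)
    (c : Fin 6 → Fˣ) : ∃ e, e < 729 ∧ ∀ t : Fin 6, (c t : F) = enc ω (Nat.succ (dg e t.val)) := by
  have h1 : ∀ t : Fin 6, ∃ i, i < 3 ∧ (c t : F) = enc ω (Nat.succ i) := by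
    intro t
    obtain ⟨i, hi, e⟩ := enc_surj hF ω hω (c t : F)
    have hi0 : i ≠ 0 := by
      rintro rfl
      exact Units.ne_zero (c t) e
    obtain ⟨j, rfl⟩ := Nat.exists_eq_succ_of_ne_zero hi0
    exact ⟨j, by omega, e⟩
  choose ci hci1 hci2 using h1
  have b0 := hci1 0
  have b1 := hci1 1
  have b2 := hci1 2
  have b3 := hci1 3
  have b4 := hci1 4
  have b5 := hci1 5
  refine ⟨ci 0 + 3 * ci 1 + 9 * ci 2 + 27 * ci 3 + 81 * ci 4 + 243 * ci 5, by omega, ?_⟩
  intro t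
  rw [hci2 t]
  congr 2
  rcases fin6 t with rfl | rfl | rfl | rfl | rfl | rfl
  · show ci 0 = (ci 0 + 3 * ci 1 + 9 * ci 2 + 27 * ci 3 + 81 * ci 4 + 243 * ci 5) / 1 % 3
    omega
  · show ci 1 = (ci 0 + 3 * ci 1 + 9 * ci 2 + 27 * ci 3 + 81 * ci 4 + 243 * ci 5) / 3 % 3
    omega
  · show ci 2 = (ci 0 + 3 * ci 1 + 9 * ci 2 + 27 * ci 3 + 81 * ci 4 + 243 * ci 5) / 9 % 3
    omega
  · show ci 3 = (ci 0 + 3 * ci 1 + 9 * ci 2 + 27 * ci 3 + 81 * ci 4 + 243 * ci 5) / 27 % 3
    omega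
  · show ci 4 = (ci 0 + 3 * ci 1 + 9 * ci 2 + 27 * ci 3 + 81 * ci 4 + 243 * ci 5) / 81 % 3
    omega
  · show ci 5 = (ci 0 + 3 * ci 1 + 9 * ci 2 + 27 * ci 3 + 81 * ci 4 + 243 * ci 5) / 243 % 3
    omega

/-! ## The diagonal part -/

theorem k_diag : allB 729 (fun e => bif gensOK (fun t => t) e then
    allB 6 (fun t => Nat.beq (dg e t) (dg e 0)) else true) = true := by decide +kernel

theorem diag [Fintype F] (hF : Fintype.card F = 4) (ω : F) (hω : ω ^ 2 + ω + 1 = 0)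
    (c : Fin 6 → Fˣ) (h : Pres (hexacode F ω) 1 c) : ∀ i j, c i = c j := by
  obtain ⟨e, he, hc⟩ := exists_code hF ω hω c
  have h1 := pres_gens hF ω hω 1 c (fun t => t) e (fun t => rfl) hc h
  have h3 := allB_spec k_diag e he
  rw [h1, cond_true] at h3
  have key : ∀ i : Fin 6, (c i : F) = enc ω (Nat.succ (dg e 0)) := by
    intro i
    rw [hc i, Nat.eq_of_beq_eq_true (allB_spec h3 i.val i.2)]
  intro i j
  apply Units.ext
  rw [key i, key j]

/-! ## The permutation parts -/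

/-- the transposition of two numbers -/
def swapN (a b t : ℕ) : ℕ := bif Nat.beq t a then b else bif Nat.beq t b then a else t

theorem swap_val : ∀ a b t : Fin 6, ((Equiv.swap a b) t).val = swapN a.val b.val t.val := by
  decide

theorem k_odd : allB 729 (fun e => !(gensOK (swapN 0 1) e)) = true := by decide +kernel

theorem k_pairs : allB 6 (fun a => allB 6 (fun b => allB 6 (fun c => allB 6 (fun d =>
    Nat.beq a b || Nat.beq c d ||
      gensOK (fun t => swapN c d (swapN a b t))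
        (get24 WE (Nat.add (Nat.add (Nat.add (Nat.mul 216 a) (Nat.mul 36 b)) (Nat.mul 6 c)) d))))))
    = true := by decide +kernel

theorem enc_succ_ne (ω : F) (hω : ω ^ 2 + ω + 1 = 0) (e t : ℕ) : enc ω (Nat.succ (dg e t)) ≠ 0 :=
  fun h => absurd (enc_zero ω hω _ (dg_lt e t) h) (Nat.succ_ne_zero _)

theorem pair_mem [Fintype F] (hF : Fintype.card F = 4) (ω : F) (hω : ω ^ 2 + ω + 1 = 0)
    (a b c d : Fin 6) (hab : a ≠ b) (hcd : c ≠ d) :
    ∃ c' : Fin 6 → Fˣ, Pres (hexacode F ω) (Equiv.swap a b * Equiv.swap c d) c' := by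
  have h1 := allB_spec (allB_spec (allB_spec (allB_spec k_pairs a.val a.2) b.val b.2) c.val c.2)
    d.val d.2
  have hab' : Nat.beq a.val b.val = false := by
    cases hb : Nat.beq a.val b.val with
    | false => rfl
    | true => exact absurd (Fin.ext (Nat.eq_of_beq_eq_true hb)) hab
  have hcd' : Nat.beq c.val d.val = false := by
    cases hb : Nat.beq c.val d.val with
    | false => rfl
    | true => exact absurd (Fin.ext (Nat.eq_of_beq_eq_true hb)) hcd
  rw [hab', hcd', Bool.false_or, Bool.false_or] at h1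
  refine ⟨fun t => Units.mk0 (enc ω (Nat.succ (dg (get24 WE (Nat.add (Nat.add (Nat.add
    (Nat.mul 216 a.val) (Nat.mul 36 b.val)) (Nat.mul 6 c.val)) d.val)) t.val)))
    (enc_succ_ne ω hω _ _), ?_⟩
  refine gens_pres hF ω hω _ _ (fun t => swapN c.val d.val (swapN a.val b.val t)) _ ?_
    (fun t => rfl) h1
  intro t
  show ((Equiv.swap c d).symm ((Equiv.swap a b).symm t)).val = _
  rw [Equiv.symm_swap, Equiv.symm_swap, swap_val, swap_val]

theorem perm_parts [Fintype F] (hF : Fintype.card F = 4) (ω : F) (hω : ω ^ 2 + ω + 1 = 0) :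
    {σ : Equiv.Perm (Fin 6) | ∃ c : Fin 6 → Fˣ, Pres (hexacode F ω) σ c} =
      (alternatingGroup (Fin 6) : Set (Equiv.Perm (Fin 6))) := by
  have hsup : ∀ σ : Equiv.Perm (Fin 6), Equiv.Perm.sign σ = 1 →
      σ ∈ {σ : Equiv.Perm (Fin 6) | ∃ c : Fin 6 → Fˣ, Pres (hexacode F ω) σ c} := by
    apply even_mem
    · exact ⟨_, pres_one _⟩
    · rintro σ τ ⟨c, hc⟩ ⟨d, hd⟩
      exact ⟨_, pres_mul hc hd⟩
    · intro a b c d hab hcd
      exact pair_mem hF ω hω a b c d hab hcd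
  ext σ
  rw [SetLike.mem_coe, Equiv.Perm.mem_alternatingGroup]
  constructor
  · rintro ⟨c, hc⟩
    by_contra hne
    have hs : Equiv.Perm.sign σ = -1 := (Int.units_eq_one_or _).resolve_left hne
    have h1 : Equiv.Perm.sign (Equiv.swap (0 : Fin 6) 1 * σ⁻¹) = 1 := by
      rw [Equiv.Perm.sign_mul, Equiv.Perm.sign_swap (by decide), Equiv.Perm.sign_inv, hs]
      decide
    obtain ⟨d, hd⟩ := hsup _ h1
    have h3 := pres_mul hd hc
    rw [inv_mul_cancel_right] at h3
    obtain ⟨e, he, hce⟩ := exists_code hF ω hω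
      (fun i => d i * c ((Equiv.swap (0 : Fin 6) 1 * σ⁻¹).symm i))
    have h4 := pres_gens hF ω hω _ _ (swapN 0 1) e (fun t => by
      rw [Equiv.symm_swap, swap_val]; rfl) hce h3
    have h5 := allB_spec k_odd e he
    rw [h4] at h5
    exact absurd h5 (by decide)
  · intro hs
    exact hsup σ hs

/-! ## The count -/

theorem main [Fintype F] [DecidableEq F] (hF : Fintype.card F = 4) (ω : F)
    (hω : ω ^ 2 + ω + 1 = 0) :
    Nat.card {f : Equiv.Perm (Fin 6) × (Fin 6 → Fˣ) //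
      (∀ x ∈ hexacode F ω, monomialMap f.1 f.2 x ∈ hexacode F ω)} = 1080 ∧
    (∀ c : Fin 6 → Fˣ, (∀ x ∈ hexacode F ω, monomialMap 1 c x ∈ hexacode F ω) →
      ∀ i j, c i = c j) ∧
    {σ : Equiv.Perm (Fin 6) | ∃ c : Fin 6 → Fˣ,
      (∀ x ∈ hexacode F ω, monomialMap σ c x ∈ hexacode F ω)} =
      (alternatingGroup (Fin 6) : Set (Equiv.Perm (Fin 6))) := by
  refine ⟨?_, fun c h => diag hF ω hω c h, perm_parts hF ω hω⟩
  have h1 := card_pres (hexacode F ω)
  have h2 := card_diag (hexacode F ω) (0 : Fin 6) (fun c h => diag hF ω hω c h)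
  have h3 : Nat.card {σ : Equiv.Perm (Fin 6) // ∃ c : Fin 6 → Fˣ, Pres (hexacode F ω) σ c} =
      Nat.card ↥(alternatingGroup (Fin 6)) := by
    apply Nat.card_congr
    apply Equiv.subtypeEquivRight
    intro σ
    exact Set.ext_iff.1 (perm_parts hF ω hω) σ
  have h4 : Nat.card Fˣ = 3 := by
    rw [Nat.card_eq_fintype_card, Fintype.card_units, hF]
  have h5 : Nat.card ↥(alternatingGroup (Fin 6)) = 360 := by
    rw [nat_card_alternatingGroup, Nat.card_eq_fintype_card, Fintype.card_fin]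
    decide
  rw [h2, h3, h4, h5] at h1
  exact h1

end Cfsg.Agent.Helper28.HexaAut
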