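import Cfsg.Agent.Helper28.HypJ

set_option autoImplicit false
set_option linter.unusedSectionVars false

namespace Cfsg.Agent.Helper28.Hyp

variable {α : Type*} [Fintype α] [DecidableEq α] {L : Set (Finset α)}
variable {β : Type*} [Fintype β] [DecidableEq β] {L' : Set (Finset β)}

/-- an isomorphism of planes maps arcs to arcs -/
theorem arc_image (hL : Cfsg.IsSteinerSystem 2 5 L) (hL' : Cfsg.IsSteinerSystem 2 5 L')
    {e : α ≃ β} (hel : ∀ l ∈ L, l.image e ∈ L') {H : Finset α} {k : ℕ}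
    (hH : H ∈ Arcs L k) : H.image e ∈ Arcs L' k := by
  have hH' := mem_Arcs.mp hH
  rw [mem_Arcs]
  refine ⟨by rw [Finset.card_image_of_injective _ e.injective, hH'.1], ?_⟩
  intro l' hl'
  have hiso := iso_of_ext hL hL' hel
  rw [← hiso] at hl'
  obtain ⟨l, hl, rfl⟩ := hl'
  show (l.image e ∩ H.image e).card ≤ 2
  rw [← Finset.image_inter _ _ e.injective, Finset.card_image_of_injective _ e.injective]
  exact hH'.2 l hl

theorem even_image (hL : Cfsg.IsSteinerSystem 2 5 L) (hL' : Cfsg.IsSteinerSystem 2 5 L')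
    {e : α ≃ β} (hel : ∀ l ∈ L, l.image e ∈ L') {O H : Finset α}
    (hH : H ∈ EvenHyp L O) : H.image e ∈ EvenHyp L' (O.image e) := by
  rw [mem_EvenHyp] at hH ⊢
  refine ⟨arc_image hL hL' hel hH.1, ?_⟩
  rw [← Finset.image_inter _ _ e.injective, Finset.card_image_of_injective _ e.injective]
  exact hH.2

theorem iso3 {B : Set (Finset α)} {B' : Set (Finset β)} (hB : Cfsg.IsSteinerSystem 3 6 B)
    (hB' : Cfsg.IsSteinerSystem 3 6 B') {e : α ≃ β} (h : ∀ b ∈ B, b.image e ∈ B') :
    (fun b => b.image e) '' B = B' := by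
  apply Set.Subset.antisymm
  · rintro _ ⟨b, hb, rfl⟩
    exact h b hb
  · intro c hc
    have hc6 := hB'.1 c hc
    obtain ⟨T, hT, hT3⟩ := Finset.exists_subset_card_eq (by rw [hc6]; norm_num : 3 ≤ c.card)
    have hT' : (T.image e.symm).card = 3 := by
      rw [Finset.card_image_of_injective _ e.symm.injective, hT3]
    obtain ⟨b, ⟨hb, hTb⟩, -⟩ := hB.2 _ hT'
    refine ⟨b, hb, ?_⟩
    have hsub : T ⊆ b.image e := by
      intro y hy
      rw [Finset.mem_image]
      exact ⟨e.symm y, hTb (Finset.mem_image_of_mem _ hy), e.apply_symm_apply y⟩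
    exact (hB'.2 T hT3).unique ⟨h b hb, hsub⟩ ⟨hc, hT⟩

/-- uniqueness of the Steiner system S(3, 6, 22) -/
theorem s3622_iso (hα : Fintype.card α = 22) (hβ : Fintype.card β = 22)
    {B : Set (Finset α)} {B' : Set (Finset β)} (hB : Cfsg.IsSteinerSystem 3 6 B)
    (hB' : Cfsg.IsSteinerSystem 3 6 B') : Cfsg.SetSystemIso B B' := by
  classical
  obtain ⟨p⟩ : Nonempty α := Fintype.card_pos_iff.mp (by rw [hα]; norm_num)
  obtain ⟨p'⟩ : Nonempty β := Fintype.card_pos_iff.mp (by rw [hβ]; norm_num)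
  obtain ⟨O, hO, hpO⟩ := exists_block_off hα hB p
  obtain ⟨O', hO', hpO'⟩ := exists_block_off hβ hB' p'
  have hLp := dLines_steiner hB p
  have hLp' := dLines_steiner hB' p'
  have hcp := card_sub hα p
  have hcp' := card_sub hβ p'
  have hOa := block_arc hα hB hO hpO
  have hOa' := block_arc hβ hB' hO' hpO'
  have hcard : (Finset.subtype (fun a => a ≠ p) O).card
      = (Finset.subtype (fun a => a ≠ p') O').card := by
    rw [(mem_Arcs.mp hOa).1, (mem_Arcs.mp hOa').1]
  obtain ⟨b0, hb0⟩ : (Finset.subtype (fun a => a ≠ p') O').Nonempty := by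
    rw [← Finset.card_pos, (mem_Arcs.mp hOa').1]
    norm_num
  obtain ⟨e0⟩ : Nonempty (↥(Finset.subtype (fun a => a ≠ p) O)
      ≃ ↥(Finset.subtype (fun a => a ≠ p') O')) := ⟨Finset.equivOfCardEq hcard⟩
  obtain ⟨φ, hφdef⟩ : ∃ φ : {a : α // a ≠ p} → {b : β // b ≠ p'},
      ∀ a (ha : a ∈ Finset.subtype (fun a => a ≠ p) O),
        φ a = (e0 ⟨a, ha⟩ : {b : β // b ≠ p'}) :=
    ⟨fun x => if h : x ∈ Finset.subtype (fun a => a ≠ p) O
      then (e0 ⟨x, h⟩ : {b : β // b ≠ p'}) else b0, fun a ha => dif_pos ha⟩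
  have hφ : ∀ a ∈ Finset.subtype (fun a => a ≠ p) O,
      φ a ∈ Finset.subtype (fun a => a ≠ p') O' := by
    intro a ha
    rw [hφdef a ha]
    exact (e0 ⟨a, ha⟩).2
  have hinj : ∀ a ∈ Finset.subtype (fun a => a ≠ p) O,
      ∀ b ∈ Finset.subtype (fun a => a ≠ p) O, φ a = φ b → a = b := by
    intro a ha b hb h
    rw [hφdef a ha, hφdef b hb] at h
    have h2 := e0.injective (Subtype.ext h)
    exact congrArg Subtype.val h2
  obtain ⟨e, he, hel⟩ := ext_exists hcp hLp hOa hcp' hLp' hOa' hφ hinj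
  have hOimg : (Finset.subtype (fun a => a ≠ p) O).image e
      = Finset.subtype (fun a => a ≠ p') O' := by
    apply Finset.eq_of_subset_of_card_le
    · intro y hy
      rw [Finset.mem_image] at hy
      obtain ⟨a, ha, rfl⟩ := hy
      rw [he a ha]
      exact hφ a ha
    · rw [Finset.card_image_of_injective _ e.injective, hcard]
  obtain ⟨f, hfp, hfe⟩ : ∃ f : α → β, f p = p' ∧ ∀ a (ha : a ≠ p), f a = (e ⟨a, ha⟩ : β) :=
    ⟨fun a => if h : a = p then p' else (e ⟨a, h⟩ : β), dif_pos rfl, fun a ha => dif_neg ha⟩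
  have f_inj : Function.Injective f := by
    intro x y hxy
    by_cases hx : x = p <;> by_cases hy : y = p
    · rw [hx, hy]
    · exfalso
      rw [hx, hfp, hfe y hy] at hxy
      exact (e ⟨y, hy⟩).2 hxy.symm
    · exfalso
      rw [hy, hfp, hfe x hx] at hxy
      exact (e ⟨x, hx⟩).2 hxy
    · rw [hfe x hx, hfe y hy] at hxy
      have h2 := e.injective (Subtype.ext hxy)
      exact congrArg Subtype.val h2
  have f_bij : Function.Bijective f :=
    (Fintype.bijective_iff_injective_and_card f).mpr ⟨f_inj, by rw [hα, hβ]⟩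
  have hsubimg : ∀ b : Finset α, Finset.subtype (fun a => a ≠ p') (b.image f)
      = (Finset.subtype (fun a => a ≠ p) b).image e := by
    intro b
    ext y
    rw [Finset.mem_subtype, Finset.mem_image, Finset.mem_image]
    constructor
    · rintro ⟨x, hx, hxy⟩
      have hxp : x ≠ p := by
        intro h
        rw [h, hfp] at hxy
        exact y.2 hxy.symm
      refine ⟨⟨x, hxp⟩, Finset.mem_subtype.mpr hx, ?_⟩
      apply Subtype.ext
      rw [← hfe x hxp]
      exact hxy
    · rintro ⟨x, hx, rfl⟩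
      exact ⟨x.1, Finset.mem_subtype.mp hx, hfe x.1 x.2⟩
  have hpimg : ∀ b : Finset α, p' ∈ b.image f ↔ p ∈ b := by
    intro b
    rw [Finset.mem_image]
    constructor
    · rintro ⟨x, hx, hxy⟩
      have hxp : x = p := f_inj (hxy.trans hfp.symm)
      rw [← hxp]
      exact hx
    · intro h
      exact ⟨p, h, hfp⟩
  have hblocks : ∀ b ∈ B, b.image f ∈ B' := by
    intro b hb
    by_cases hpb : p ∈ b
    · have hl : Finset.subtype (fun a => a ≠ p) b ∈ dLines B p := ⟨b, hb, hpb, rfl⟩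
      obtain ⟨c, hc, hpc, hceq⟩ := hel _ hl
      have hbc : b.image f = c :=
        sub_ext p' (by rw [hpimg]; exact ⟨fun _ => hpc, fun _ => hpb⟩)
          (by rw [hsubimg]; exact hceq)
      rw [hbc]
      exact hc
    · have hev := block_even hα hB hO hb hpb
      have hev' := even_image hLp hLp' hel hev
      rw [hOimg] at hev'
      obtain ⟨c, hc, hpc, hceq⟩ := even_is_block hβ hB' hO' hpO' hev'
      have hbc : b.image f = c :=
        sub_ext p' (by rw [hpimg]; exact ⟨fun h => absurd h hpb, fun h => absurd h hpc⟩)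
          (by rw [hsubimg]; exact hceq)
      rw [hbc]
      exact hc
  exact ⟨Equiv.ofBijective f f_bij, iso3 hB hB' (e := Equiv.ofBijective f f_bij) hblocks⟩

end Cfsg.Agent.Helper28.Hyp
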