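import Cfsg.Agent.Helper28.SrgB
import Cfsg.Agent.Helper28.HypK

set_option autoImplicit false
set_option linter.unusedSectionVars false

namespace Cfsg.Agent.Helper28.Srg

variable {V : Type*} [Fintype V] [DecidableEq V] {G : SimpleGraph V} [DecidableRel G.Adj]

/-- the block of `w` as a set of points (the points being the neighbours of `o`) -/
def blkS (G : SimpleGraph V) [DecidableRel G.Adj] (o w : V) : Finset {x // x ∈ nb G o} :=
  (blk G o w).subtype (fun x => x ∈ nb G o)

theorem mem_blkS {o w : V} {x : {x // x ∈ nb G o}} :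
    x ∈ blkS G o w ↔ (x : V) ∈ blk G o w := by
  unfold blkS
  rw [Finset.mem_subtype]

/-- the local block system at `o` -/
def locB (G : SimpleGraph V) [DecidableRel G.Adj] (o : V) : Set (Finset {x // x ∈ nb G o}) :=
  {b | ∃ w ∈ Qs G o, b = blkS G o w}

theorem card_pts (h : Srg100 G) (o : V) : Fintype.card {x // x ∈ nb G o} = 22 := by
  rw [Fintype.card_coe, h.deg o]

theorem card_blkS (h : Srg100 G) {o w : V} (hw : w ∈ Qs G o) : (blkS G o w).card = 6 := by
  unfold blkS
  rw [Finset.card_subtype, Finset.filter_true_of_mem (fun x hx => blk_sub o w hx),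
    card_blk h hw]

theorem locB_steiner (h : Srg100 G) (o : V) : Cfsg.IsSteinerSystem 3 6 (locB G o) := by
  constructor
  · rintro b ⟨w, hw, rfl⟩
    exact card_blkS h hw
  · intro T hT
    have hT' : (T.map (Function.Embedding.subtype _)).card = 3 := by
      rw [Finset.card_map, hT]
    have hTsub : T.map (Function.Embedding.subtype _) ⊆ nb G o := by
      intro x hx
      rw [Finset.mem_map] at hx
      obtain ⟨y, -, rfl⟩ := hx
      exact y.2
    obtain ⟨w, ⟨hw, hTw⟩, huniq⟩ := steiner_V h o hTsub hT'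
    have key : ∀ w', T ⊆ blkS G o w'
        ↔ T.map (Function.Embedding.subtype _) ⊆ blk G o w' := by
      intro w'
      constructor
      · intro hsub x hx
        rw [Finset.mem_map] at hx
        obtain ⟨y, hy, rfl⟩ := hx
        exact mem_blkS.mp (hsub hy)
      · intro hsub y hy
        exact mem_blkS.mpr (hsub (Finset.mem_map_of_mem _ hy))
    refine ⟨blkS G o w, ⟨⟨w, hw, rfl⟩, (key w).mpr hTw⟩, ?_⟩
    rintro b ⟨⟨w', hw', rfl⟩, hTb⟩
    rw [huniq w' ⟨hw', (key w').mp hTb⟩]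

theorem blkS_inj (h : Srg100 G) {o w w' : V} (hw : w ∈ Qs G o) (hw' : w' ∈ Qs G o)
    (heq : blkS G o w = blkS G o w') : w = w' := by
  by_contra hne
  have h1 := blk_inter_le h hw' hw hne
  have h2 : blk G o w ⊆ blk G o w' := by
    intro x hx
    have hx' : (⟨x, blk_sub o w hx⟩ : {x // x ∈ nb G o}) ∈ blkS G o w := mem_blkS.mpr hx
    rw [heq] at hx'
    exact mem_blkS.mp hx'
  have h3 : blk G o w ∩ blk G o w' = blk G o w := Finset.inter_eq_left.mpr h2
  rw [h3, card_blk h hw] at h1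
  omega

theorem adj_pt_blk {o p w : V} (hp : p ∈ nb G o) :
    G.Adj p w ↔ (⟨p, hp⟩ : {x // x ∈ nb G o}) ∈ blkS G o w := by
  rw [mem_blkS, mem_blk]
  constructor
  · intro hpw
    exact ⟨hpw.symm, (mem_nb G).mp hp⟩
  · intro hh
    exact hh.1.symm

theorem adjQ_iff (h : Srg100 G) {o v w : V} (hv : v ∈ Qs G o) (hw : w ∈ Qs G o)
    (hne : w ≠ v) : G.Adj v w ↔ ∀ x, x ∈ blkS G o w → x ∉ blkS G o v := by
  rw [adj_iff_disjoint h hv hw hne, Finset.eq_empty_iff_forall_notMem]
  constructor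
  · intro hh x hxw hxv
    exact hh x.1 (Finset.mem_inter.mpr ⟨mem_blkS.mp hxw, mem_blkS.mp hxv⟩)
  · intro hh x hx
    rw [Finset.mem_inter] at hx
    exact hh ⟨x, blk_sub o w hx.1⟩ (mem_blkS.mpr hx.1) (mem_blkS.mpr hx.2)

theorem tri (G : SimpleGraph V) [DecidableRel G.Adj] (o x : V) :
    x = o ∨ x ∈ nb G o ∨ x ∈ Qs G o := by
  by_cases hx : x = o
  · exact Or.inl hx
  by_cases hp : x ∈ nb G o
  · exact Or.inr (Or.inl hp)
  · exact Or.inr (Or.inr (mem_Qs.mpr ⟨hx, fun hadj => hp ((mem_nb G).mpr hadj)⟩))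

theorem graph_iso {W : Type*} [Fintype W] [DecidableEq W] {H : SimpleGraph W}
    [DecidableRel H.Adj] (hG : Srg100 G) (hH : Srg100 H) (o : V) (o' : W)
    (e : {x // x ∈ nb G o} ≃ {y // y ∈ nb H o'})
    (he : (fun b => b.image e) '' locB G o = locB H o') : Nonempty (G ≃g H) := by
  have hmatch : ∀ w ∈ Qs G o, ∃ w' ∈ Qs H o', blkS H o' w' = (blkS G o w).image e := by
    intro w hw
    have h1 : (blkS G o w).image e ∈ locB H o' := by
      rw [← he]
      exact ⟨_, ⟨w, hw, rfl⟩, rfl⟩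
    obtain ⟨w', hw', heq⟩ := h1
    exact ⟨w', hw', heq.symm⟩
  obtain ⟨F, hFo, hFP, hFQ⟩ : ∃ F : V → W, F o = o' ∧
      (∀ p (hp : p ∈ nb G o), F p = (e ⟨p, hp⟩ : W)) ∧
      (∀ w ∈ Qs G o, F w ∈ Qs H o' ∧ blkS H o' (F w) = (blkS G o w).image e) := by
    refine ⟨fun x => if hx : x = o then o' else if hp : x ∈ nb G o then (e ⟨x, hp⟩ : W)
      else if hq : x ∈ Qs G o then (hmatch x hq).choose else o', ?_, ?_, ?_⟩
    · exact dif_pos rfl
    · intro p hp
      have hpo : p ≠ o := by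
        intro hpo
        rw [hpo, mem_nb] at hp
        exact G.irrefl hp
      simp only [dif_neg hpo, dif_pos hp]
    · intro w hw
      have hw' := mem_Qs.mp hw
      have hwp : w ∉ nb G o := by
        rw [mem_nb]
        exact hw'.2
      simp only [dif_neg hw'.1, dif_neg hwp, dif_pos hw]
      exact (hmatch w hw).choose_spec
  -- images of the three classes
  have hFPmem : ∀ p, p ∈ nb G o → F p ∈ nb H o' := by
    intro p hp
    rw [hFP p hp]
    exact (e ⟨p, hp⟩).2
  have ho'1 : o' ∉ nb H o' := by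
    rw [mem_nb]
    exact H.irrefl
  have ho'2 : o' ∉ Qs H o' := by
    rw [mem_Qs]
    exact fun hh => hh.1 rfl
  have hPQ' : ∀ y, y ∈ nb H o' → y ∉ Qs H o' := by
    intro y hy hyQ
    rw [mem_Qs] at hyQ
    exact hyQ.2 ((mem_nb H).mp hy)
  have hFinj : Function.Injective F := by
    intro x y hxy
    rcases tri G o x with hx | hx | hx <;> rcases tri G o y with hy | hy | hy
    · rw [hx, hy]
    · exfalso
      rw [hx, hFo] at hxy
      exact ho'1 (hxy ▸ hFPmem y hy)
    · exfalso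
      rw [hx, hFo] at hxy
      exact ho'2 (hxy ▸ (hFQ y hy).1)
    · exfalso
      rw [hy, hFo] at hxy
      exact ho'1 (hxy ▸ hFPmem x hx)
    · rw [hFP x hx, hFP y hy] at hxy
      have h2 := e.injective (Subtype.ext hxy)
      exact congrArg Subtype.val h2
    · exfalso
      exact hPQ' (F x) (hFPmem x hx) (hxy ▸ (hFQ y hy).1)
    · exfalso
      rw [hy, hFo] at hxy
      exact ho'2 (hxy ▸ (hFQ x hx).1)
    · exfalso
      exact hPQ' (F y) (hFPmem y hy) (hxy ▸ (hFQ x hx).1)
    · have h1 : (blkS G o x).image e = (blkS G o y).image e := by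
        rw [← (hFQ x hx).2, ← (hFQ y hy).2, hxy]
      exact blkS_inj hG hx hy (Finset.image_injective e.injective h1)
  have hFbij : Function.Bijective F :=
    (Fintype.bijective_iff_injective_and_card F).mpr ⟨hFinj, by rw [hG.card, hH.card]⟩
  -- adjacency, case by case
  have adj_op : ∀ p, p ∈ nb G o → (G.Adj o p ↔ H.Adj (F o) (F p)) := by
    intro p hp
    rw [hFo]
    exact ⟨fun _ => (mem_nb H).mp (hFPmem p hp), fun _ => (mem_nb G).mp hp⟩
  have adj_ow : ∀ w, w ∈ Qs G o → (G.Adj o w ↔ H.Adj (F o) (F w)) := by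
    intro w hw
    rw [hFo]
    exact ⟨fun hh => absurd hh (mem_Qs.mp hw).2,
      fun hh => absurd hh (mem_Qs.mp (hFQ w hw).1).2⟩
  have adj_pp : ∀ p p', p ∈ nb G o → p' ∈ nb G o → (G.Adj p p' ↔ H.Adj (F p) (F p')) := by
    intro p p' hp hp'
    exact ⟨fun hh => absurd hh (no_tri hG ((mem_nb G).mp hp) ((mem_nb G).mp hp')),
      fun hh => absurd hh (no_tri hH ((mem_nb H).mp (hFPmem p hp))
        ((mem_nb H).mp (hFPmem p' hp')))⟩
  have adj_pw : ∀ p w, p ∈ nb G o → w ∈ Qs G o → (G.Adj p w ↔ H.Adj (F p) (F w)) := by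
    intro p w hp hw
    have hFp : F p ∈ nb H o' := hFPmem p hp
    rw [adj_pt_blk hp, adj_pt_blk hFp, (hFQ w hw).2, Finset.mem_image]
    constructor
    · intro hh
      exact ⟨⟨p, hp⟩, hh, Subtype.ext (hFP p hp).symm⟩
    · rintro ⟨x, hx, hxe⟩
      have h1 : e x = e ⟨p, hp⟩ := by
        rw [hxe]
        exact Subtype.ext (hFP p hp)
      rw [← e.injective h1]
      exact hx
  have adj_ww : ∀ v w, v ∈ Qs G o → w ∈ Qs G o → (G.Adj v w ↔ H.Adj (F v) (F w)) := by
    intro v w hv hw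
    by_cases hvw : w = v
    · rw [hvw]
      exact ⟨fun hh => absurd hh G.irrefl, fun hh => absurd hh H.irrefl⟩
    · have hFne : F w ≠ F v := fun hh => hvw (hFinj hh)
      rw [adjQ_iff hG hv hw hvw, adjQ_iff hH (hFQ v hv).1 (hFQ w hw).1 hFne, (hFQ v hv).2,
        (hFQ w hw).2]
      constructor
      · intro hh y hyw hyv
        rw [Finset.mem_image] at hyw hyv
        obtain ⟨x, hx, rfl⟩ := hyw
        obtain ⟨x', hx', hxx⟩ := hyv
        rw [e.injective hxx] at hx'
        exact hh x hx hx'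
      · intro hh x hxw hxv
        exact hh (e x) (Finset.mem_image_of_mem e hxw) (Finset.mem_image_of_mem e hxv)
  have hadj : ∀ x y, G.Adj x y ↔ H.Adj (F x) (F y) := by
    intro x y
    rcases tri G o x with hx | hx | hx <;> rcases tri G o y with hy | hy | hy
    · rw [hx, hy]
      exact ⟨fun hh => absurd hh G.irrefl, fun hh => absurd hh H.irrefl⟩
    · rw [hx]
      exact adj_op y hy
    · rw [hx]
      exact adj_ow y hy
    · rw [hy, G.adj_comm, H.adj_comm]
      exact adj_op x hx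
    · exact adj_pp x y hx hy
    · exact adj_pw x y hx hy
    · rw [hy, G.adj_comm, H.adj_comm]
      exact adj_ow x hx
    · rw [G.adj_comm, H.adj_comm]
      exact adj_pw y x hy hx
    · exact adj_ww x y hx hy
  exact ⟨⟨Equiv.ofBijective F hFbij, fun {a b} => (hadj a b).symm⟩⟩

/-- uniqueness of the strongly regular graph with parameters (100, 22, 0, 6) -/
theorem srg_unique {V W : Type*} [Fintype V] [Fintype W] {G : SimpleGraph V}
    {H : SimpleGraph W} [DecidableRel G.Adj] [DecidableRel H.Adj]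
    (hG : G.IsSRGWith 100 22 0 6) (hH : H.IsSRGWith 100 22 0 6) : Nonempty (G ≃g H) := by
  classical
  have hG' := srg100_of G hG
  have hH' := srg100_of H hH
  obtain ⟨o⟩ : Nonempty V := Fintype.card_pos_iff.mp (by rw [hG'.card]; norm_num)
  obtain ⟨o'⟩ : Nonempty W := Fintype.card_pos_iff.mp (by rw [hH'.card]; norm_num)
  obtain ⟨e, he⟩ := Hyp.s3622_iso (card_pts hG' o) (card_pts hH' o')
    (locB_steiner hG' o) (locB_steiner hH' o')
  exact graph_iso hG' hH' o o' e he

end Cfsg.Agent.Helper28.Srg
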