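import Cfsg.Agent.Helper3.HSFinal
import Cfsg.Agent.Helper28.SrgC

set_option autoImplicit false
set_option linter.unusedSectionVars false
set_option linter.unusedVariables false

namespace Cfsg.Agent.Helper28.HsG

open Cfsg Cfsg.Agent.Helper28.Leech Cfsg.Agent.Helper3

/-- the 100 vectors, as a type -/
abbrev XV : Type := ↥XS

noncomputable instance xsFintype : Fintype XV :=
  (Set.finite_of_ncard_ne_zero (by rw [XS_ncard]; norm_num)).fintype

/-- the Higman–Sims graph on the 100 vectors -/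
def Gam : SimpleGraph XV :=
  SimpleGraph.fromRel (fun x y =>
    dotInt ((x : leechLattice) : GolayPt → ℤ) ((y : leechLattice) : GolayPt → ℤ) = 8)

theorem dot_comm' (a b : GolayPt → ℤ) : dotInt a b = dotInt b a := by
  unfold dotInt
  apply Finset.sum_congr rfl
  intro i _
  ring

theorem dot_self' (a : GolayPt → ℤ) : dotInt a a = sqNorm a := by
  unfold dotInt sqNorm
  apply Finset.sum_congr rfl
  intro i _
  ring

theorem gam_adj (x y : XV) : Gam.Adj x y ↔
    dotInt ((x : leechLattice) : GolayPt → ℤ) ((y : leechLattice) : GolayPt → ℤ) = 8 := by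
  unfold Gam
  rw [SimpleGraph.fromRel_adj]
  constructor
  · rintro ⟨-, h | h⟩
    · exact h
    · rw [dot_comm']
      exact h
  · intro h
    refine ⟨?_, Or.inl h⟩
    intro hxy
    rw [hxy, dot_self'] at h
    have h2 := y.2.1
    omega

theorem card_XV : Fintype.card XV = 100 := by
  rw [← Nat.card_eq_fintype_card, Nat.card_coe_set_eq, XS_ncard]

theorem card_filter_XV (P : leechLattice → Prop) [DecidablePred fun y : XV => P y.1] :
    (Finset.univ.filter (fun y : XV => P y.1)).card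
      = {y : leechLattice | y ∈ XS ∧ P y}.ncard := by
  rw [← Set.ncard_coe_finset, ← Set.ncard_image_of_injective _ Subtype.val_injective]
  congr 1
  ext y
  constructor
  · rintro ⟨z, hz, rfl⟩
    rw [Finset.mem_coe, Finset.mem_filter] at hz
    exact ⟨z.2, hz.2⟩
  · rintro ⟨h1, h2⟩
    exact ⟨⟨y, h1⟩, Finset.mem_coe.mpr (Finset.mem_filter.mpr ⟨Finset.mem_univ _, h2⟩), rfl⟩

theorem gam_deg [DecidableEq XV] [DecidableRel Gam.Adj] (x : XV) :
    (Srg.nb Gam x).card = 22 := by
  have h := (hs_rank3 u5L (-u5bL) x.1 std_v std_w std_vw ((XS_iff x.1).mpr x.2)).1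
  rw [← h]
  have h1 : Srg.nb Gam x = Finset.univ.filter (fun y : XV =>
      dotInt ((x : leechLattice) : GolayPt → ℤ) ((y : leechLattice) : GolayPt → ℤ) = 8) := by
    ext y
    rw [Srg.mem_nb, Finset.mem_filter, gam_adj]
    simp
  rw [h1, card_filter_XV (fun y =>
    dotInt ((x : leechLattice) : GolayPt → ℤ) (y : GolayPt → ℤ) = 8)]
  congr 1
  ext y
  constructor
  · rintro ⟨h2, h3⟩
    exact ⟨(XS_iff y).mpr h2, h3⟩
  · rintro ⟨h2, h3⟩
    exact ⟨(XS_iff y).mp h2, h3⟩

theorem norm5 (X Y Z U Ub : GolayPt → ℤ) :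
    sqNorm (X + Y + Z - U - Ub) = sqNorm X + sqNorm Y + sqNorm Z + sqNorm U + sqNorm Ub
      + 2 * dotInt X Y + 2 * dotInt X Z + 2 * dotInt Y Z - 2 * dotInt U X - 2 * dotInt U Y
      - 2 * dotInt U Z - 2 * dotInt Ub X - 2 * dotInt Ub Y - 2 * dotInt Ub Z
      + 2 * dotInt U Ub := by
  unfold sqNorm dotInt
  simp only [Pi.add_apply, Pi.sub_apply, Finset.mul_sum, ← Finset.sum_add_distrib,
    ← Finset.sum_sub_distrib]
  apply Finset.sum_congr rfl
  intro i _
  ring

/-- the graph has no triangles -/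
theorem gam_no_tri (x y z : XV)
    (hxy : dotInt ((x : leechLattice) : GolayPt → ℤ) ((y : leechLattice) : GolayPt → ℤ) = 8)
    (hxz : dotInt ((x : leechLattice) : GolayPt → ℤ) ((z : leechLattice) : GolayPt → ℤ) = 8)
    (hyz : dotInt ((y : leechLattice) : GolayPt → ℤ) ((z : leechLattice) : GolayPt → ℤ) = 8) :
    False := by
  have hmem : ((x : leechLattice) : GolayPt → ℤ) + ((y : leechLattice) : GolayPt → ℤ)
      + ((z : leechLattice) : GolayPt → ℤ) - u5 - u5b ∈ leechLattice :=
    leechLattice.sub_mem (leechLattice.sub_mem (leechLattice.add_mem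
      (leechLattice.add_mem x.1.2 y.1.2) z.1.2) u5L.2) u5bL.2
  have key : sqNorm (((x : leechLattice) : GolayPt → ℤ) + ((y : leechLattice) : GolayPt → ℤ)
      + ((z : leechLattice) : GolayPt → ℤ) - u5 - u5b) = 16 := by
    rw [norm5, x.2.1, y.2.1, z.2.1, x.2.2.1, x.2.2.2, y.2.2.1, y.2.2.2, z.2.2.1, z.2.2.2,
      hxy, hxz, hyz, u5_u5b_dot, sqNorm_u5, u5b_norm]
    norm_num
  by_cases h0 : ((x : leechLattice) : GolayPt → ℤ) + ((y : leechLattice) : GolayPt → ℤ)
      + ((z : leechLattice) : GolayPt → ℤ) - u5 - u5b = 0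
  · rw [h0] at key
    have h1 : sqNorm (0 : GolayPt → ℤ) = 0 := by
      unfold sqNorm
      simp
    omega
  · have h1 := leech_min_norm _ hmem h0
    omega

end Cfsg.Agent.Helper28.HsG
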