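import Mathlib
import Cfsg.Prelude.Def_Sporadic_a

set_option autoImplicit false

namespace Cfsg.Agent.Helper28.Hyp

variable {α : Type*} [Fintype α] [DecidableEq α] {L : Set (Finset α)}

theorem line_card (hL : Cfsg.IsSteinerSystem 2 5 L) {l : Finset α} (hl : l ∈ L) :
    l.card = 5 := hL.1 l hl

theorem exists_line (hL : Cfsg.IsSteinerSystem 2 5 L) {p q : α} (hpq : p ≠ q) :
    ∃ l ∈ L, p ∈ l ∧ q ∈ l := by
  obtain ⟨b, ⟨hb, hsub⟩, -⟩ := hL.2 {p, q} (Finset.card_pair hpq)
  exact ⟨b, hb, hsub (by simp), hsub (by simp)⟩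

theorem line_unique (hL : Cfsg.IsSteinerSystem 2 5 L) {p q : α} (hpq : p ≠ q)
    {l m : Finset α} (hl : l ∈ L) (hm : m ∈ L) (hpl : p ∈ l) (hql : q ∈ l)
    (hpm : p ∈ m) (hqm : q ∈ m) : l = m := by
  obtain ⟨b, -, huniq⟩ := hL.2 {p, q} (Finset.card_pair hpq)
  have h1 := huniq l ⟨hl, by
    intro x hx
    rw [Finset.mem_insert, Finset.mem_singleton] at hx
    rcases hx with rfl | rfl <;> assumption⟩
  have h2 := huniq m ⟨hm, by
    intro x hx
    rw [Finset.mem_insert, Finset.mem_singleton] at hx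
    rcases hx with rfl | rfl <;> assumption⟩
  rw [h1, h2]

/-- The line through two points (junk when the points coincide). -/
noncomputable def ln (L : Set (Finset α)) (p q : α) : Finset α :=
  open Classical in if h : ∃ l ∈ L, p ∈ l ∧ q ∈ l then h.choose else ∅

theorem ln_spec (hL : Cfsg.IsSteinerSystem 2 5 L) {p q : α} (hpq : p ≠ q) :
    ln L p q ∈ L ∧ p ∈ ln L p q ∧ q ∈ ln L p q := by
  have h := exists_line hL hpq
  unfold ln
  rw [dif_pos h]
  exact h.choose_spec

theorem ln_eq (hL : Cfsg.IsSteinerSystem 2 5 L) {p q : α} (hpq : p ≠ q) {l : Finset α}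
    (hl : l ∈ L) (hp : p ∈ l) (hq : q ∈ l) : ln L p q = l :=
  line_unique hL hpq (ln_spec hL hpq).1 hl (ln_spec hL hpq).2.1 (ln_spec hL hpq).2.2 hp hq

theorem ln_comm (hL : Cfsg.IsSteinerSystem 2 5 L) (p q : α) : ln L p q = ln L q p := by
  by_cases hpq : p = q
  · subst hpq; rfl
  · exact ln_eq hL hpq (ln_spec hL (Ne.symm hpq)).1 (ln_spec hL (Ne.symm hpq)).2.2
      (ln_spec hL (Ne.symm hpq)).2.1

/-- two distinct lines through `p` meet only in `p` -/
theorem inter_eq_singleton (hL : Cfsg.IsSteinerSystem 2 5 L) {l m : Finset α} (hl : l ∈ L)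
    (hm : m ∈ L) (hne : l ≠ m) {p : α} (hpl : p ∈ l) (hpm : p ∈ m) : l ∩ m = {p} := by
  ext x
  rw [Finset.mem_inter, Finset.mem_singleton]
  constructor
  · rintro ⟨hxl, hxm⟩
    by_contra hxp
    exact hne (line_unique hL hxp hl hm hxl hpl hxm hpm)
  · rintro rfl
    exact ⟨hpl, hpm⟩

/-- lines through `p`, as a finset -/
noncomputable def pen (L : Set (Finset α)) (p : α) : Finset (Finset α) :=
  open Classical in Finset.univ.filter (fun l => l ∈ L ∧ p ∈ l)

theorem mem_pen {p : α} {l : Finset α} : l ∈ pen L p ↔ l ∈ L ∧ p ∈ l := by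
  unfold pen
  simp

theorem card_pen (hα : Fintype.card α = 21) (hL : Cfsg.IsSteinerSystem 2 5 L) (p : α) :
    (pen L p).card = 5 := by
  have h1 : (Finset.univ.erase p : Finset α) = (pen L p).biUnion (fun l => l.erase p) := by
    ext x
    simp only [Finset.mem_erase, Finset.mem_univ, and_true, Finset.mem_biUnion, mem_pen]
    constructor
    · intro hx
      exact ⟨ln L p x, ⟨(ln_spec hL (Ne.symm hx)).1, (ln_spec hL (Ne.symm hx)).2.1⟩, hx,
        (ln_spec hL (Ne.symm hx)).2.2⟩
    · rintro ⟨l, -, hx, -⟩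
      exact hx
  have h2 : ((pen L p).biUnion (fun l => l.erase p)).card
      = ∑ l ∈ pen L p, (l.erase p).card := by
    apply Finset.card_biUnion
    intro l hl m hm hlm
    have hl' := mem_pen.mp (Finset.mem_coe.mp hl)
    have hm' := mem_pen.mp (Finset.mem_coe.mp hm)
    show Disjoint (l.erase p) (m.erase p)
    rw [Finset.disjoint_left]
    intro x hxl hxm
    rw [Finset.mem_erase] at hxl hxm
    exact hlm (line_unique hL (Ne.symm hxl.1) hl'.1 hm'.1 hl'.2 hxl.2 hm'.2 hxm.2)
  have h3 : ∀ l ∈ pen L p, (l.erase p).card = 4 := by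
    intro l hl
    rw [mem_pen] at hl
    rw [Finset.card_erase_of_mem hl.2, line_card hL hl.1]
  rw [Finset.sum_congr rfl h3, Finset.sum_const, smul_eq_mul] at h2
  have h4 : (Finset.univ.erase p : Finset α).card = 20 := by
    rw [Finset.card_erase_of_mem (Finset.mem_univ p), Finset.card_univ, hα]
  rw [h1, h2] at h4
  omega

/-- any two lines meet -/
theorem meet (hα : Fintype.card α = 21) (hL : Cfsg.IsSteinerSystem 2 5 L) {l m : Finset α}
    (hl : l ∈ L) (hm : m ∈ L) : ∃ x, x ∈ l ∧ x ∈ m := by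
  by_cases hlm : l = m
  · subst hlm
    have hne : l.Nonempty := by
      rw [← Finset.card_pos, line_card hL hl]
      norm_num
    obtain ⟨x, hx⟩ := hne
    exact ⟨x, hx, hx⟩
  have hex : ∃ p ∈ m, p ∉ l := by
    by_contra hcon
    push_neg at hcon
    exact hlm (Finset.eq_of_subset_of_card_le hcon
      (by rw [line_card hL hl, line_card hL hm])).symm
  obtain ⟨p, hpm, hpl⟩ := hex
  have himg : l.image (fun x => ln L p x) = pen L p := by
    apply Finset.eq_of_subset_of_card_le
    · intro k hk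
      rw [Finset.mem_image] at hk
      obtain ⟨x, hx, rfl⟩ := hk
      have hpx : p ≠ x := fun h => hpl (h ▸ hx)
      exact mem_pen.mpr ⟨(ln_spec hL hpx).1, (ln_spec hL hpx).2.1⟩
    · rw [card_pen hα hL, Finset.card_image_of_injOn, line_card hL hl]
      intro x hx y hy hxy
      by_contra hne
      have hx' : x ∈ l := Finset.mem_coe.mp hx
      have hy' : y ∈ l := Finset.mem_coe.mp hy
      have hpx : p ≠ x := fun h => hpl (h ▸ hx')
      have hpy : p ≠ y := fun h => hpl (h ▸ hy')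
      have hxy' : ln L p x = ln L p y := hxy
      have h1 := ln_spec hL hpx
      have h2 := ln_spec hL hpy
      have h3 : ln L p x = l :=
        line_unique hL hne h1.1 hl h1.2.2 (hxy' ▸ h2.2.2) hx' hy'
      exact hpl (h3 ▸ h1.2.1)
  have hmem : m ∈ l.image (fun x => ln L p x) := by
    rw [himg]
    exact mem_pen.mpr ⟨hm, hpm⟩
  rw [Finset.mem_image] at hmem
  obtain ⟨x, hx, rfl⟩ := hmem
  have hpx : p ≠ x := fun h => hpl (h ▸ hx)
  exact ⟨x, hx, (ln_spec hL hpx).2.2⟩

end Cfsg.Agent.Helper28.Hyp
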