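import Cfsg.Agent.Helper28.HypA

set_option autoImplicit false
set_option linter.unusedSectionVars false

namespace Cfsg.Agent.Helper28.Hyp

variable {α : Type*} [Fintype α] [DecidableEq α] {L : Set (Finset α)}

/-- no line meets `S` in more than two points -/
def IsArc (L : Set (Finset α)) (S : Finset α) : Prop := ∀ l ∈ L, (l ∩ S).card ≤ 2

theorem IsArc.mono {S T : Finset α} (h : IsArc L T) (hST : S ⊆ T) : IsArc L S :=
  fun l hl => le_trans (Finset.card_le_card (Finset.inter_subset_inter_left hST)) (h l hl)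

theorem arc_not_collinear {S : Finset α} (hS : IsArc L S) {a b c : α} (ha : a ∈ S)
    (hb : b ∈ S) (hc : c ∈ S) (hab : a ≠ b) (hac : a ≠ c) (hbc : b ≠ c) {l : Finset α}
    (hl : l ∈ L) (hal : a ∈ l) (hbl : b ∈ l) : c ∉ l := by
  intro hcl
  have h1 := hS l hl
  have h3 : ({a, b, c} : Finset α) ⊆ l ∩ S := by
    intro x hx
    rw [Finset.mem_insert, Finset.mem_insert, Finset.mem_singleton] at hx
    rw [Finset.mem_inter]
    rcases hx with rfl | rfl | rfl
    · exact ⟨hal, ha⟩
    · exact ⟨hbl, hb⟩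
    · exact ⟨hcl, hc⟩
  have h4 : ({a, b, c} : Finset α).card = 3 := by
    rw [Finset.card_insert_of_notMem, Finset.card_pair hbc]
    rw [Finset.mem_insert, Finset.mem_singleton]
    rintro (h | h)
    · exact hab h
    · exact hac h
  have h5 := Finset.card_le_card h3
  omega

theorem arc_ln (hL : Cfsg.IsSteinerSystem 2 5 L) {S : Finset α} (hS : IsArc L S) {a b c : α}
    (ha : a ∈ S) (hb : b ∈ S) (hc : c ∈ S) (hab : a ≠ b) (hac : a ≠ c) (hbc : b ≠ c) :
    c ∉ ln L a b :=
  arc_not_collinear hS ha hb hc hab hac hbc (ln_spec hL hab).1 (ln_spec hL hab).2.1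
    (ln_spec hL hab).2.2

/-- points not on any secant of `S` (and not in `S`) -/
noncomputable def Free (L : Set (Finset α)) (S : Finset α) : Finset α :=
  open Classical in
  Finset.univ.filter (fun x => x ∉ S ∧ ∀ a ∈ S, ∀ b ∈ S, a ≠ b → x ∉ ln L a b)

theorem mem_Free {S : Finset α} {x : α} :
    x ∈ Free L S ↔ x ∉ S ∧ ∀ a ∈ S, ∀ b ∈ S, a ≠ b → x ∉ ln L a b := by
  unfold Free
  simp

theorem mem_Free' (hL : Cfsg.IsSteinerSystem 2 5 L) {S : Finset α} (h2 : 1 < S.card) {x : α} :
    x ∈ Free L S ↔ ∀ a ∈ S, ∀ b ∈ S, a ≠ b → x ∉ ln L a b := by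
  rw [mem_Free]
  constructor
  · exact fun h => h.2
  · intro h
    refine ⟨?_, h⟩
    intro hx
    obtain ⟨b, hb, hbx⟩ := Finset.exists_mem_ne h2 x
    exact h x hx b hb (Ne.symm hbx) (ln_spec hL (Ne.symm hbx)).2.1

theorem arc_insert (hL : Cfsg.IsSteinerSystem 2 5 L) {S : Finset α} (hS : IsArc L S) {x : α}
    (hx : x ∈ Free L S) : IsArc L (insert x S) := by
  intro l hl
  by_cases hxl : x ∈ l
  · have h1 : (l ∩ S).card ≤ 1 := by
      by_contra hcon
      have hcon' : 1 < (l ∩ S).card := by omega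
      obtain ⟨a, ha, b, hb, hab⟩ := Finset.one_lt_card.mp hcon'
      rw [Finset.mem_inter] at ha hb
      have h := (mem_Free.mp hx).2 a ha.2 b hb.2 hab
      rw [ln_eq hL hab hl ha.1 hb.1] at h
      exact h hxl
    calc (l ∩ insert x S).card ≤ (insert x (l ∩ S)).card := Finset.card_le_card (by
          intro y hy
          rw [Finset.mem_inter, Finset.mem_insert] at hy
          rw [Finset.mem_insert, Finset.mem_inter]
          tauto)
      _ ≤ (l ∩ S).card + 1 := Finset.card_insert_le _ _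
      _ ≤ 2 := by omega
  · have h : l ∩ insert x S = l ∩ S := by
      ext y
      simp only [Finset.mem_inter, Finset.mem_insert]
      constructor
      · rintro ⟨hy, rfl | hyS⟩
        · exact absurd hy hxl
        · exact ⟨hy, hyS⟩
      · rintro ⟨hy, hyS⟩
        exact ⟨hy, Or.inr hyS⟩
    rw [h]
    exact hS l hl

theorem free_of_arc_insert (hL : Cfsg.IsSteinerSystem 2 5 L) {S : Finset α} {x : α}
    (hx : x ∉ S) (h : IsArc L (insert x S)) : x ∈ Free L S := by
  rw [mem_Free]
  refine ⟨hx, ?_⟩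
  intro a ha b hb hab hxl
  have hxa : a ≠ x := fun h => hx (h ▸ ha)
  have hxb : b ≠ x := fun h => hx (h ▸ hb)
  exact arc_ln hL h (Finset.mem_insert_of_mem ha) (Finset.mem_insert_of_mem hb)
    (Finset.mem_insert_self x S) hab hxa hxb hxl

/-- the arcs of a given size -/
noncomputable def Arcs (L : Set (Finset α)) (k : ℕ) : Finset (Finset α) :=
  open Classical in Finset.univ.filter (fun S => S.card = k ∧ IsArc L S)

theorem mem_Arcs {k : ℕ} {S : Finset α} : S ∈ Arcs L k ↔ S.card = k ∧ IsArc L S := by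
  unfold Arcs
  simp

theorem up_deg (hL : Cfsg.IsSteinerSystem 2 5 L) {k : ℕ} {S : Finset α} (hS : S ∈ Arcs L k) :
    ((Arcs L (k + 1)).bipartiteAbove (· ⊆ ·) S).card = (Free L S).card := by
  have hS' := mem_Arcs.mp hS
  have h : (Arcs L (k + 1)).bipartiteAbove (· ⊆ ·) S
      = (Free L S).image (fun x => insert x S) := by
    ext T
    rw [Finset.mem_bipartiteAbove, mem_Arcs, Finset.mem_image]
    constructor
    · rintro ⟨⟨hc, hT⟩, hST⟩
      have h1 : (T \ S).card = 1 := by
        rw [Finset.card_sdiff_of_subset hST]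
        omega
      obtain ⟨x, hx⟩ := Finset.card_eq_one.mp h1
      have hTx : insert x S = T := by
        rw [Finset.insert_eq, ← hx, Finset.sdiff_union_of_subset hST]
      have hxS : x ∉ S := by
        have : x ∈ T \ S := by rw [hx]; exact Finset.mem_singleton_self x
        exact (Finset.mem_sdiff.mp this).2
      refine ⟨x, ?_, hTx⟩
      apply free_of_arc_insert hL hxS
      rw [hTx]
      exact hT
    · rintro ⟨x, hx, rfl⟩
      refine ⟨⟨?_, arc_insert hL hS'.2 hx⟩, Finset.subset_insert x S⟩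
      rw [Finset.card_insert_of_notMem (mem_Free.mp hx).1, hS'.1]
  rw [h, Finset.card_image_of_injOn]
  intro x hx y hy hxy
  have hx' := (mem_Free.mp (Finset.mem_coe.mp hx)).1
  have hxy' : insert x S = insert y S := hxy
  have h1 : x ∈ insert y S := by
    rw [← hxy']
    exact Finset.mem_insert_self x S
  rcases Finset.mem_insert.mp h1 with h2 | h2
  · exact h2
  · exact absurd h2 hx'

theorem down_deg {n : ℕ} {T : Finset α} (hT : T ∈ Arcs L n) (k : ℕ) :
    ((Arcs L k).bipartiteBelow (· ⊆ ·) T).card = n.choose k := by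
  have h : (Arcs L k).bipartiteBelow (· ⊆ ·) T = T.powersetCard k := by
    ext S
    rw [Finset.mem_bipartiteBelow, mem_Arcs, Finset.mem_powersetCard]
    constructor
    · rintro ⟨⟨hc, -⟩, hST⟩
      exact ⟨hST, hc⟩
    · rintro ⟨hST, hc⟩
      exact ⟨⟨hc, (mem_Arcs.mp hT).2.mono hST⟩, hST⟩
  rw [h, Finset.card_powersetCard, (mem_Arcs.mp hT).1]

end Cfsg.Agent.Helper28.Hyp
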