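import Cfsg.Agent.Helper28.HypB

set_option autoImplicit false
set_option linter.unusedSectionVars false

namespace Cfsg.Agent.Helper28.Hyp

variable {α : Type*} [Fintype α] [DecidableEq α] {L : Set (Finset α)}

theorem card_arcs2 (hα : Fintype.card α = 21) : (Arcs L 2).card = 210 := by
  have h : Arcs L 2 = (Finset.univ : Finset α).powersetCard 2 := by
    ext S
    rw [mem_Arcs, Finset.mem_powersetCard]
    constructor
    · rintro ⟨hc, -⟩
      exact ⟨Finset.subset_univ S, hc⟩
    · rintro ⟨-, hc⟩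
      refine ⟨hc, fun l _ => ?_⟩
      exact le_trans (Finset.card_le_card Finset.inter_subset_right) hc.le
  rw [h, Finset.card_powersetCard, Finset.card_univ, hα]
  rfl

theorem card_free2 (hα : Fintype.card α = 21) (hL : Cfsg.IsSteinerSystem 2 5 L)
    {S : Finset α} (hS : S ∈ Arcs L 2) : (Free L S).card = 16 := by
  have hS' := mem_Arcs.mp hS
  obtain ⟨p, q, hpq, rfl⟩ := Finset.card_eq_two.mp hS'.1
  have h : Free L {p, q} = (ln L p q)ᶜ := by
    ext x
    rw [mem_Free' hL (by rw [hS'.1]; norm_num), Finset.mem_compl]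
    constructor
    · intro h
      exact h p (by simp) q (by simp) hpq
    · intro h a ha b hb hab
      rw [Finset.mem_insert, Finset.mem_singleton] at ha hb
      rcases ha with h1 | h1 <;> rcases hb with h2 | h2
      · exact absurd (h1.trans h2.symm) hab
      · rw [h1, h2]; exact h
      · rw [h1, h2, ln_comm hL]; exact h
      · exact absurd (h1.trans h2.symm) hab
  rw [h, Finset.card_compl, hα, line_card hL (ln_spec hL hpq).1]

theorem card_free3 (hα : Fintype.card α = 21) (hL : Cfsg.IsSteinerSystem 2 5 L)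
    {S : Finset α} (hS : S ∈ Arcs L 3) : (Free L S).card = 9 := by
  have hS' := mem_Arcs.mp hS
  obtain ⟨p, q, r, hpq, hpr, hqr, rfl⟩ := Finset.card_eq_three.mp hS'.1
  have hp : p ∈ ({p, q, r} : Finset α) := by simp
  have hq : q ∈ ({p, q, r} : Finset α) := by simp
  have hr : r ∈ ({p, q, r} : Finset α) := by simp
  have hA := ln_spec hL hpq
  have hB := ln_spec hL hpr
  have hC := ln_spec hL hqr
  have h : Free L {p, q, r} = (ln L p q ∪ ln L p r ∪ ln L q r)ᶜ := by
    ext x
    rw [mem_Free' hL (by rw [hS'.1]; norm_num), Finset.mem_compl, Finset.mem_union,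
      Finset.mem_union]
    constructor
    · intro h hx
      rcases hx with (hx | hx) | hx
      · exact h p hp q hq hpq hx
      · exact h p hp r hr hpr hx
      · exact h q hq r hr hqr hx
    · intro h a ha b hb hab hx
      rw [Finset.mem_insert, Finset.mem_insert, Finset.mem_singleton] at ha hb
      apply h
      rcases ha with h1 | h1 | h1 <;> rcases hb with h2 | h2 | h2
      · exact absurd (h1.trans h2.symm) hab
      · rw [h1, h2] at hx; exact Or.inl (Or.inl hx)
      · rw [h1, h2] at hx; exact Or.inl (Or.inr hx)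
      · rw [h1, h2, ln_comm hL] at hx; exact Or.inl (Or.inl hx)
      · exact absurd (h1.trans h2.symm) hab
      · rw [h1, h2] at hx; exact Or.inr hx
      · rw [h1, h2, ln_comm hL] at hx; exact Or.inl (Or.inr hx)
      · rw [h1, h2, ln_comm hL] at hx; exact Or.inr hx
      · exact absurd (h1.trans h2.symm) hab
  have hr_A : r ∉ ln L p q := arc_ln hL hS'.2 hp hq hr hpq hpr hqr
  have hq_B : q ∉ ln L p r := arc_ln hL hS'.2 hp hr hq hpr hpq hqr.symm
  have hAB : ln L p q ≠ ln L p r := fun h => hr_A (h ▸ hB.2.2)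
  have hAC : ln L p q ≠ ln L q r := fun h => hr_A (h ▸ hC.2.2)
  have hBC : ln L p r ≠ ln L q r := fun h => hq_B (h ▸ hC.2.1)
  have i1 : ln L p q ∩ ln L p r = {p} := inter_eq_singleton hL hA.1 hB.1 hAB hA.2.1 hB.2.1
  have i2 : ln L p q ∩ ln L q r = {q} := inter_eq_singleton hL hA.1 hC.1 hAC hA.2.2 hC.2.1
  have i3 : ln L p r ∩ ln L q r = {r} := inter_eq_singleton hL hB.1 hC.1 hBC hB.2.2 hC.2.2
  have c1 := Finset.card_union_add_card_inter (ln L p q) (ln L p r)
  have c2 := Finset.card_union_add_card_inter (ln L p q ∪ ln L p r) (ln L q r)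
  rw [Finset.union_inter_distrib_right, i2, i3] at c2
  rw [i1] at c1
  have c3 : (({q} : Finset α) ∪ {r}).card = 2 := by
    rw [← Finset.insert_eq]
    exact Finset.card_pair hqr
  rw [c3] at c2
  rw [Finset.card_singleton, line_card hL hA.1, line_card hL hB.1] at c1
  rw [line_card hL hC.1] at c2
  rw [h, Finset.card_compl, hα]
  omega

/-- a tangent line at a point of a 4-arc carries exactly one free point -/
theorem tangent_card (hα : Fintype.card α = 21) (hL : Cfsg.IsSteinerSystem 2 5 L)
    {S : Finset α} (hS : S ∈ Arcs L 4) {p : α} (hp : p ∈ S) {m : Finset α} (hm : m ∈ L)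
    (hpm : p ∈ m) (htan : ∀ s ∈ S, s ∈ m → s = p) : (m ∩ Free L S).card = 1 := by
  have hS' := mem_Arcs.mp hS
  have h3 : (S.erase p).card = 3 := by rw [Finset.card_erase_of_mem hp, hS'.1]
  obtain ⟨a, b, c, hab, hac, hbc, habc⟩ := Finset.card_eq_three.mp h3
  have ha' : a ∈ S.erase p := by rw [habc]; simp
  have hb' : b ∈ S.erase p := by rw [habc]; simp
  have hc' : c ∈ S.erase p := by rw [habc]; simp
  have ha := Finset.mem_of_mem_erase ha'
  have hb := Finset.mem_of_mem_erase hb'
  have hc := Finset.mem_of_mem_erase hc'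
  have hap : a ≠ p := Finset.ne_of_mem_erase ha'
  have hbp : b ≠ p := Finset.ne_of_mem_erase hb'
  have hcp : c ≠ p := Finset.ne_of_mem_erase hc'
  have hcases : ∀ s ∈ S, s = p ∨ s = a ∨ s = b ∨ s = c := by
    intro s hs
    by_cases hsp : s = p
    · exact Or.inl hsp
    · right
      have h : s ∈ S.erase p := Finset.mem_erase.mpr ⟨hsp, hs⟩
      rw [habc, Finset.mem_insert, Finset.mem_insert, Finset.mem_singleton] at h
      exact h
  have ham : a ∉ m := fun h => hap (htan a ha h)
  have hbm : b ∉ m := fun h => hbp (htan b hb h)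
  have hcm : c ∉ m := fun h => hcp (htan c hc h)
  have hB1 := ln_spec hL hbc
  have hB2 := ln_spec hL hac
  have hB3 := ln_spec hL hab
  obtain ⟨x1, hx1, hx1m⟩ := meet hα hL hB1.1 hm
  obtain ⟨x2, hx2, hx2m⟩ := meet hα hL hB2.1 hm
  obtain ⟨x3, hx3, hx3m⟩ := meet hα hL hB3.1 hm
  have hpB1 : p ∉ ln L b c := arc_ln hL hS'.2 hb hc hp hbc hbp hcp
  have hpB2 : p ∉ ln L a c := arc_ln hL hS'.2 ha hc hp hac hap hcp
  have hpB3 : p ∉ ln L a b := arc_ln hL hS'.2 ha hb hp hab hap hbp
  have haB1 : a ∉ ln L b c := arc_ln hL hS'.2 hb hc ha hbc hab.symm hac.symm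
  have hbB2 : b ∉ ln L a c := arc_ln hL hS'.2 ha hc hb hac hab hbc.symm
  have hx1p : x1 ≠ p := fun h => hpB1 (h ▸ hx1)
  have hx2p : x2 ≠ p := fun h => hpB2 (h ▸ hx2)
  have hx3p : x3 ≠ p := fun h => hpB3 (h ▸ hx3)
  have hx12 : x1 ≠ x2 := by
    intro h
    have hxc : x1 ≠ c := fun h' => hcm (h' ▸ hx1m)
    have h' : ln L b c = ln L a c :=
      line_unique hL hxc hB1.1 hB2.1 hx1 hB1.2.2 (h ▸ hx2) hB2.2.2
    exact haB1 (h' ▸ hB2.2.1)
  have hx13 : x1 ≠ x3 := by
    intro h
    have hxb : x1 ≠ b := fun h' => hbm (h' ▸ hx1m)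
    have h' : ln L b c = ln L a b :=
      line_unique hL hxb hB1.1 hB3.1 hx1 hB1.2.1 (h ▸ hx3) hB3.2.2
    exact haB1 (h' ▸ hB3.2.1)
  have hx23 : x2 ≠ x3 := by
    intro h
    have hxa : x2 ≠ a := fun h' => ham (h' ▸ hx2m)
    have h' : ln L a c = ln L a b :=
      line_unique hL hxa hB2.1 hB3.1 hx2 hB2.2.1 (h ▸ hx3) hB3.2.1
    exact hbB2 (h' ▸ hB3.2.2)
  have hXsub : ({p, x1, x2, x3} : Finset α) ⊆ m := by
    intro y hy
    simp only [Finset.mem_insert, Finset.mem_singleton] at hy
    rcases hy with rfl | rfl | rfl | rfl <;> assumption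
  have hXcard : ({p, x1, x2, x3} : Finset α).card = 4 := by
    rw [Finset.card_insert_of_notMem, Finset.card_insert_of_notMem, Finset.card_pair hx23]
    · simp only [Finset.mem_insert, Finset.mem_singleton]
      rintro (h | h)
      · exact hx12 h
      · exact hx13 h
    · simp only [Finset.mem_insert, Finset.mem_singleton]
      rintro (h | h | h)
      · exact hx1p h.symm
      · exact hx2p h.symm
      · exact hx3p h.symm
  have hkey : m ∩ Free L S = m \ {p, x1, x2, x3} := by
    ext y
    rw [Finset.mem_inter, Finset.mem_sdiff, mem_Free' hL (by rw [hS'.1]; norm_num)]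
    constructor
    · rintro ⟨hym, hy⟩
      refine ⟨hym, ?_⟩
      simp only [Finset.mem_insert, Finset.mem_singleton]
      rintro (h | h | h | h)
      · exact hy p hp a ha hap.symm (h ▸ (ln_spec hL hap.symm).2.1)
      · exact hy b hb c hc hbc (h ▸ hx1)
      · exact hy a ha c hc hac (h ▸ hx2)
      · exact hy a ha b hb hab (h ▸ hx3)
    · rintro ⟨hym, hyX⟩
      refine ⟨hym, ?_⟩
      simp only [Finset.mem_insert, Finset.mem_singleton, not_or] at hyX
      obtain ⟨hyp, hy1, hy2, hy3⟩ := hyX
      have hP : ∀ s ∈ S, s ≠ p → y ∉ ln L p s := by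
        intro s hs hsp hy
        have hl := ln_spec hL (Ne.symm hsp)
        have h' : ln L p s = m := line_unique hL hyp hl.1 hm hy hl.2.1 hym hpm
        exact hsp (htan s hs (h' ▸ hl.2.2))
      have hQ1 : y ∉ ln L b c := by
        intro hy
        have h' : ln L b c = m := line_unique hL hy1 hB1.1 hm hy hx1 hym hx1m
        exact hbm (h' ▸ hB1.2.1)
      have hQ2 : y ∉ ln L a c := by
        intro hy
        have h' : ln L a c = m := line_unique hL hy2 hB2.1 hm hy hx2 hym hx2m
        exact ham (h' ▸ hB2.2.1)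
      have hQ3 : y ∉ ln L a b := by
        intro hy
        have h' : ln L a b = m := line_unique hL hy3 hB3.1 hm hy hx3 hym hx3m
        exact ham (h' ▸ hB3.2.1)
      intro s hs t ht hst
      rcases hcases s hs with h1 | h1 | h1 | h1 <;>
        rcases hcases t ht with h2 | h2 | h2 | h2
      · exact absurd (h1.trans h2.symm) hst
      · rw [h1, h2]; exact hP a ha hap
      · rw [h1, h2]; exact hP b hb hbp
      · rw [h1, h2]; exact hP c hc hcp
      · rw [h1, h2, ln_comm hL]; exact hP a ha hap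
      · exact absurd (h1.trans h2.symm) hst
      · rw [h1, h2]; exact hQ3
      · rw [h1, h2]; exact hQ2
      · rw [h1, h2, ln_comm hL]; exact hP b hb hbp
      · rw [h1, h2, ln_comm hL]; exact hQ3
      · exact absurd (h1.trans h2.symm) hst
      · rw [h1, h2]; exact hQ1
      · rw [h1, h2, ln_comm hL]; exact hP c hc hcp
      · rw [h1, h2, ln_comm hL]; exact hQ2
      · rw [h1, h2, ln_comm hL]; exact hQ1
      · exact absurd (h1.trans h2.symm) hst
  rw [hkey, Finset.card_sdiff_of_subset hXsub, hXcard, line_card hL hm]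

end Cfsg.Agent.Helper28.Hyp
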