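import Cfsg.Agent.Helper28.HypC

set_option autoImplicit false
set_option linter.unusedSectionVars false

namespace Cfsg.Agent.Helper28.Hyp

variable {α : Type*} [Fintype α] [DecidableEq α] {L : Set (Finset α)}

theorem card_free4 (hα : Fintype.card α = 21) (hL : Cfsg.IsSteinerSystem 2 5 L)
    {S : Finset α} (hS : S ∈ Arcs L 4) : (Free L S).card = 2 := by
  have hS' := mem_Arcs.mp hS
  have hne : S.Nonempty := by
    rw [← Finset.card_pos, hS'.1]
    norm_num
  obtain ⟨p, hp⟩ := hne
  have h3 : (S.erase p).card = 3 := by rw [Finset.card_erase_of_mem hp, hS'.1]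
  obtain ⟨a, b, c, hab, hac, hbc, habc⟩ := Finset.card_eq_three.mp h3
  have ha' : a ∈ S.erase p := by rw [habc]; simp
  have hb' : b ∈ S.erase p := by rw [habc]; simp
  have hc' : c ∈ S.erase p := by rw [habc]; simp
  have ha := Finset.mem_of_mem_erase ha'
  have hb := Finset.mem_of_mem_erase hb'
  have hc := Finset.mem_of_mem_erase hc'
  have hap : a ≠ p := Finset.ne_of_mem_erase ha'
  have hbp : b ≠ p := Finset.ne_of_mem_erase hb'
  have hcp : c ≠ p := Finset.ne_of_mem_erase hc'
  have hcases : ∀ s ∈ S, s = p ∨ s = a ∨ s = b ∨ s = c := by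
    intro s hs
    by_cases hsp : s = p
    · exact Or.inl hsp
    · right
      have h : s ∈ S.erase p := Finset.mem_erase.mpr ⟨hsp, hs⟩
      rw [habc, Finset.mem_insert, Finset.mem_insert, Finset.mem_singleton] at h
      exact h
  have hA1 := ln_spec hL hap.symm
  have hA2 := ln_spec hL hbp.symm
  have hA3 := ln_spec hL hcp.symm
  have hbA1 : b ∉ ln L p a := arc_ln hL hS'.2 hp ha hb hap.symm hbp.symm hab
  have hcA1 : c ∉ ln L p a := arc_ln hL hS'.2 hp ha hc hap.symm hcp.symm hac
  have hcA2 : c ∉ ln L p b := arc_ln hL hS'.2 hp hb hc hbp.symm hcp.symm hbc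
  have h12 : ln L p a ≠ ln L p b := fun h => hbA1 (h ▸ hA2.2.2)
  have h13 : ln L p a ≠ ln L p c := fun h => hcA1 (h ▸ hA3.2.2)
  have h23 : ln L p b ≠ ln L p c := fun h => hcA2 (h ▸ hA3.2.2)
  have hsub : ({ln L p a, ln L p b, ln L p c} : Finset (Finset α)) ⊆ pen L p := by
    intro k hk
    simp only [Finset.mem_insert, Finset.mem_singleton] at hk
    rcases hk with rfl | rfl | rfl
    · exact mem_pen.mpr ⟨hA1.1, hA1.2.1⟩
    · exact mem_pen.mpr ⟨hA2.1, hA2.2.1⟩
    · exact mem_pen.mpr ⟨hA3.1, hA3.2.1⟩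
  have hcard3 : ({ln L p a, ln L p b, ln L p c} : Finset (Finset α)).card = 3 := by
    rw [Finset.card_insert_of_notMem, Finset.card_pair h23]
    simp only [Finset.mem_insert, Finset.mem_singleton]
    rintro (h | h)
    · exact h12 h
    · exact h13 h
  have hT : (pen L p \ {ln L p a, ln L p b, ln L p c}).card = 2 := by
    rw [Finset.card_sdiff_of_subset hsub, hcard3, card_pen hα hL]
  obtain ⟨m1, m2, hm12, hTeq⟩ := Finset.card_eq_two.mp hT
  have htanlines : ∀ m ∈ pen L p \ {ln L p a, ln L p b, ln L p c},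
      m ∈ L ∧ p ∈ m ∧ ∀ s ∈ S, s ∈ m → s = p := by
    intro m hmT
    rw [Finset.mem_sdiff] at hmT
    obtain ⟨hmpen, hmA⟩ := hmT
    rw [mem_pen] at hmpen
    simp only [Finset.mem_insert, Finset.mem_singleton, not_or] at hmA
    refine ⟨hmpen.1, hmpen.2, ?_⟩
    intro s hs hsm
    by_contra hsp
    have hms : ln L p s = m := ln_eq hL (Ne.symm hsp) hmpen.1 hmpen.2 hsm
    rcases hcases s hs with h | h | h | h
    · exact hsp h
    · rw [h] at hms; exact hmA.1 hms.symm
    · rw [h] at hms; exact hmA.2.1 hms.symm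
    · rw [h] at hms; exact hmA.2.2 hms.symm
  have hm1 := htanlines m1 (by rw [hTeq]; simp)
  have hm2 := htanlines m2 (by rw [hTeq]; simp)
  have c1 := tangent_card hα hL hS hp hm1.1 hm1.2.1 hm1.2.2
  have c2 := tangent_card hα hL hS hp hm2.1 hm2.2.1 hm2.2.2
  have hF : Free L S = (m1 ∩ Free L S) ∪ (m2 ∩ Free L S) := by
    ext x
    rw [Finset.mem_union, Finset.mem_inter, Finset.mem_inter]
    constructor
    · intro hx
      have hx' := (mem_Free.mp hx)
      have hxp : p ≠ x := fun h => hx'.1 (h ▸ hp)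
      have hk := ln_spec hL hxp
      have hkT : ln L p x ∈ pen L p \ {ln L p a, ln L p b, ln L p c} := by
        rw [Finset.mem_sdiff]
        refine ⟨mem_pen.mpr ⟨hk.1, hk.2.1⟩, ?_⟩
        simp only [Finset.mem_insert, Finset.mem_singleton]
        rintro (h | h | h)
        · exact hx'.2 p hp a ha hap.symm (by rw [← h]; exact hk.2.2)
        · exact hx'.2 p hp b hb hbp.symm (by rw [← h]; exact hk.2.2)
        · exact hx'.2 p hp c hc hcp.symm (by rw [← h]; exact hk.2.2)
      rw [hTeq, Finset.mem_insert, Finset.mem_singleton] at hkT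
      rcases hkT with h | h
      · exact Or.inl ⟨by rw [← h]; exact hk.2.2, hx⟩
      · exact Or.inr ⟨by rw [← h]; exact hk.2.2, hx⟩
    · rintro (⟨-, hx⟩ | ⟨-, hx⟩) <;> exact hx
  have hdisj : Disjoint (m1 ∩ Free L S) (m2 ∩ Free L S) := by
    rw [Finset.disjoint_left]
    intro x hx1 hx2
    rw [Finset.mem_inter] at hx1 hx2
    have hxp : x ≠ p := fun h => (mem_Free.mp hx1.2).1 (h ▸ hp)
    exact hm12 (line_unique hL hxp hm1.1 hm2.1 hx1.1 hm1.2.1 hx2.1 hm2.2.1)
  have hfin : ((m1 ∩ Free L S) ∪ (m2 ∩ Free L S)).card = 2 := by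
    rw [Finset.card_union_of_disjoint hdisj, c1, c2]
  rw [hF]
  exact hfin

theorem arc_union_free (hα : Fintype.card α = 21) (hL : Cfsg.IsSteinerSystem 2 5 L)
    {S : Finset α} (hS : S ∈ Arcs L 4) : IsArc L (S ∪ Free L S) := by
  have hS' := mem_Arcs.mp hS
  intro l hl
  rw [Finset.inter_union_distrib_left]
  have hle := Finset.card_union_le (l ∩ S) (l ∩ Free L S)
  have h2 := hS'.2 l hl
  by_cases hc2 : 1 < (l ∩ S).card
  · obtain ⟨a, ha, b, hb, hab⟩ := Finset.one_lt_card.mp hc2
    rw [Finset.mem_inter] at ha hb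
    have hempty : l ∩ Free L S = ∅ := by
      rw [Finset.eq_empty_iff_forall_notMem]
      intro x hx
      rw [Finset.mem_inter] at hx
      have h := (mem_Free.mp hx.2).2 a ha.2 b hb.2 hab
      rw [ln_eq hL hab hl ha.1 hb.1] at h
      exact h hx.1
    rw [hempty, Finset.union_empty]
    exact h2
  · by_cases hc1 : (l ∩ S).card = 1
    · obtain ⟨t, ht⟩ := Finset.card_eq_one.mp hc1
      have htl : t ∈ l ∩ S := by
        rw [ht]
        exact Finset.mem_singleton_self t
      rw [Finset.mem_inter] at htl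
      have htan : ∀ s ∈ S, s ∈ l → s = t := by
        intro s hs hsl
        have h : s ∈ l ∩ S := Finset.mem_inter.mpr ⟨hsl, hs⟩
        rw [ht] at h
        exact Finset.mem_singleton.mp h
      have h := tangent_card hα hL hS htl.2 hl htl.1 htan
      omega
    · have h0 : (l ∩ S).card = 0 := by omega
      have h := Finset.card_le_card (Finset.inter_subset_right : l ∩ Free L S ⊆ Free L S)
      rw [card_free4 hα hL hS] at h
      omega

theorem unique_hyperoval (hα : Fintype.card α = 21) (hL : Cfsg.IsSteinerSystem 2 5 L)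
    {S : Finset α} (hS : S ∈ Arcs L 4) : ∃! H : Finset α, H ∈ Arcs L 6 ∧ S ⊆ H := by
  have hS' := mem_Arcs.mp hS
  have hdisj : Disjoint S (Free L S) := by
    rw [Finset.disjoint_left]
    intro x hx hxF
    exact (mem_Free.mp hxF).1 hx
  refine ⟨S ∪ Free L S,
    ⟨mem_Arcs.mpr ⟨?_, arc_union_free hα hL hS⟩, Finset.subset_union_left⟩, ?_⟩
  · rw [Finset.card_union_of_disjoint hdisj, hS'.1, card_free4 hα hL hS]
  · rintro H ⟨hH, hSH⟩
    have hH' := mem_Arcs.mp hH
    have hsub : H \ S ⊆ Free L S := by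
      intro x hx
      rw [Finset.mem_sdiff] at hx
      apply free_of_arc_insert hL hx.2
      exact hH'.2.mono (Finset.insert_subset hx.1 hSH)
    have hcard : (H \ S).card = 2 := by
      rw [Finset.card_sdiff_of_subset hSH, hH'.1, hS'.1]
    have heq : H \ S = Free L S :=
      Finset.eq_of_subset_of_card_le hsub (by rw [hcard, card_free4 hα hL hS])
    rw [← heq, Finset.union_sdiff_of_subset hSH]

theorem card_arcs3 (hα : Fintype.card α = 21) (hL : Cfsg.IsSteinerSystem 2 5 L) :
    (Arcs L 3).card = 1120 := by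
  have h := Finset.card_mul_eq_card_mul (r := (· ⊆ ·)) (s := Arcs L 2) (t := Arcs L 3)
    (m := 16) (n := 3)
    (fun S hS => (up_deg hL hS).trans (card_free2 hα hL hS))
    (fun T hT => (down_deg hT 2).trans rfl)
  rw [card_arcs2 hα] at h
  omega

theorem card_arcs4 (hα : Fintype.card α = 21) (hL : Cfsg.IsSteinerSystem 2 5 L) :
    (Arcs L 4).card = 2520 := by
  have h := Finset.card_mul_eq_card_mul (r := (· ⊆ ·)) (s := Arcs L 3) (t := Arcs L 4)
    (m := 9) (n := 4)
    (fun S hS => (up_deg hL hS).trans (card_free3 hα hL hS))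
    (fun T hT => (down_deg hT 3).trans rfl)
  rw [card_arcs3 hα hL] at h
  omega

theorem card_arcs6 (hα : Fintype.card α = 21) (hL : Cfsg.IsSteinerSystem 2 5 L) :
    (Arcs L 6).card = 168 := by
  have h := Finset.card_mul_eq_card_mul (r := (· ⊆ ·)) (s := Arcs L 4) (t := Arcs L 6)
    (m := 1) (n := 15)
    (fun S hS => by
      obtain ⟨H, ⟨hH, hSH⟩, huniq⟩ := unique_hyperoval hα hL hS
      rw [Finset.card_eq_one]
      refine ⟨H, ?_⟩
      ext H'
      rw [Finset.mem_bipartiteAbove, Finset.mem_singleton]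
      constructor
      · intro h
        exact huniq H' h
      · rintro rfl
        exact ⟨hH, hSH⟩)
    (fun T hT => (down_deg hT 4).trans rfl)
  rw [card_arcs4 hα hL] at h
  omega

end Cfsg.Agent.Helper28.Hyp
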