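import Cfsg.Agent.Helper28.HypD

set_option autoImplicit false
set_option linter.unusedSectionVars false

namespace Cfsg.Agent.Helper28.Hyp

variable {α : Type*} [Fintype α] [DecidableEq α] {L : Set (Finset α)}

theorem exists_mem_ne2 {O : Finset α} (h : 2 < O.card) (a b : α) :
    ∃ c ∈ O, c ≠ a ∧ c ≠ b := by
  by_contra hcon
  have hsub : O ⊆ {a, b} := by
    intro z hz
    rw [Finset.mem_insert, Finset.mem_singleton]
    by_cases h1 : z = a
    · exact Or.inl h1
    · right
      by_contra h2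
      exact hcon ⟨z, hz, h1, h2⟩
  have h1 := Finset.card_le_card hsub
  have h2 := Finset.card_le_two (a := a) (b := b)
  omega

/-- a line through a point of a hyperoval contains a second point of it -/
theorem hyp_secant (hα : Fintype.card α = 21) (hL : Cfsg.IsSteinerSystem 2 5 L)
    {O : Finset α} (hO : O ∈ Arcs L 6) {a : α} (ha : a ∈ O) {l : Finset α} (hl : l ∈ L)
    (hal : a ∈ l) : ∃ b ∈ O, b ≠ a ∧ b ∈ l := by
  have hO' := mem_Arcs.mp hO
  have himg : (O.erase a).image (fun b => ln L a b) = pen L a := by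
    apply Finset.eq_of_subset_of_card_le
    · intro k hk
      rw [Finset.mem_image] at hk
      obtain ⟨b, hb, rfl⟩ := hk
      have hab : a ≠ b := (Finset.ne_of_mem_erase hb).symm
      exact mem_pen.mpr ⟨(ln_spec hL hab).1, (ln_spec hL hab).2.1⟩
    · rw [card_pen hα hL, Finset.card_image_of_injOn, Finset.card_erase_of_mem ha, hO'.1]
      intro b hb c hc hbc
      by_contra hne
      have hb' := Finset.mem_coe.mp hb
      have hc' := Finset.mem_coe.mp hc
      have hab : a ≠ b := (Finset.ne_of_mem_erase hb').symm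
      have hac : a ≠ c := (Finset.ne_of_mem_erase hc').symm
      have hbc' : ln L a b = ln L a c := hbc
      have h2 := ln_spec hL hac
      exact arc_ln hL hO'.2 ha (Finset.mem_of_mem_erase hb') (Finset.mem_of_mem_erase hc')
        hab hac hne (by rw [hbc']; exact h2.2.2)
  have hmem : l ∈ (O.erase a).image (fun b => ln L a b) := by
    rw [himg]
    exact mem_pen.mpr ⟨hl, hal⟩
  rw [Finset.mem_image] at hmem
  obtain ⟨b, hb, rfl⟩ := hmem
  have hab : a ≠ b := (Finset.ne_of_mem_erase hb).symm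
  exact ⟨b, Finset.mem_of_mem_erase hb, hab.symm, (ln_spec hL hab).2.2⟩

/-- the partner of `a ∈ O` with respect to a point `x ∉ O`: the second point of `O` on the
line through `x` and `a` -/
noncomputable def par (L : Set (Finset α)) (O : Finset α) (x a : α) : α :=
  open Classical in if h : ∃ b ∈ O, b ≠ a ∧ b ∈ ln L x a then h.choose else a

theorem par_spec (hα : Fintype.card α = 21) (hL : Cfsg.IsSteinerSystem 2 5 L)
    {O : Finset α} (hO : O ∈ Arcs L 6) {x a : α} (hx : x ∉ O) (ha : a ∈ O) :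
    par L O x a ∈ O ∧ par L O x a ≠ a ∧ par L O x a ∈ ln L x a := by
  have hxa : x ≠ a := fun h => hx (h ▸ ha)
  have h := hyp_secant hα hL hO ha (ln_spec hL hxa).1 (ln_spec hL hxa).2.2
  unfold par
  rw [dif_pos h]
  exact h.choose_spec

theorem par_eq (hα : Fintype.card α = 21) (hL : Cfsg.IsSteinerSystem 2 5 L)
    {O : Finset α} (hO : O ∈ Arcs L 6) {x a b : α} (hx : x ∉ O) (ha : a ∈ O) (hb : b ∈ O)
    (hba : b ≠ a) (hbl : b ∈ ln L x a) : par L O x a = b := by
  have h := par_spec hα hL hO hx ha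
  have hO' := mem_Arcs.mp hO
  by_contra hne
  have hxa : x ≠ a := fun h => hx (h ▸ ha)
  exact arc_not_collinear hO'.2 ha h.1 hb h.2.1.symm hba.symm hne (ln_spec hL hxa).1
    (ln_spec hL hxa).2.2 h.2.2 hbl

theorem par_par (hα : Fintype.card α = 21) (hL : Cfsg.IsSteinerSystem 2 5 L)
    {O : Finset α} (hO : O ∈ Arcs L 6) {x a : α} (hx : x ∉ O) (ha : a ∈ O) :
    par L O x (par L O x a) = a := by
  have h := par_spec hα hL hO hx ha
  have hxa : x ≠ a := fun h => hx (h ▸ ha)
  have hxp : x ≠ par L O x a := fun h' => hx (h' ▸ h.1)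
  have hline : ln L x (par L O x a) = ln L x a :=
    ln_eq hL hxp (ln_spec hL hxa).1 (ln_spec hL hxa).2.1 h.2.2
  apply par_eq hα hL hO hx h.1 ha h.2.1.symm
  rw [hline]
  exact (ln_spec hL hxa).2.2

theorem mem_secant_iff (hα : Fintype.card α = 21) (hL : Cfsg.IsSteinerSystem 2 5 L)
    {O : Finset α} (hO : O ∈ Arcs L 6) {a b : α} (ha : a ∈ O) (hb : b ∈ O) (hab : a ≠ b)
    {x : α} (hx : x ∉ O) : x ∈ ln L a b ↔ par L O x a = b := by
  have hxa : x ≠ a := fun h => hx (h ▸ ha)
  constructor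
  · intro hxl
    have hline : ln L x a = ln L a b :=
      ln_eq hL hxa (ln_spec hL hab).1 hxl (ln_spec hL hab).2.1
    apply par_eq hα hL hO hx ha hb hab.symm
    rw [hline]
    exact (ln_spec hL hab).2.2
  · intro h
    have hp := par_spec hα hL hO hx ha
    rw [h] at hp
    have hline : ln L a b = ln L x a :=
      ln_eq hL hab (ln_spec hL hxa).1 (ln_spec hL hxa).2.2 hp.2.2
    rw [hline]
    exact (ln_spec hL hxa).2.1

/-- a point off the hyperoval is determined by its partner function -/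
theorem par_inj (hα : Fintype.card α = 21) (hL : Cfsg.IsSteinerSystem 2 5 L)
    {O : Finset α} (hO : O ∈ Arcs L 6) {x x' : α} (hx : x ∉ O) (hx' : x' ∉ O)
    (h : ∀ a ∈ O, par L O x a = par L O x' a) : x = x' := by
  have hO' := mem_Arcs.mp hO
  by_contra hne
  obtain ⟨a1, ha1⟩ : O.Nonempty := by
    rw [← Finset.card_pos, hO'.1]
    norm_num
  have p1 := par_spec hα hL hO hx ha1
  obtain ⟨a2, ha2, h21, h2b⟩ :=
    exists_mem_ne2 (by rw [hO'.1]; norm_num : 2 < O.card) a1 (par L O x a1)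
  have p2 := par_spec hα hL hO hx ha2
  have hx1 : x ∈ ln L a1 (par L O x a1) :=
    (mem_secant_iff hα hL hO ha1 p1.1 p1.2.1.symm hx).mpr rfl
  have hx1' : x' ∈ ln L a1 (par L O x a1) :=
    (mem_secant_iff hα hL hO ha1 p1.1 p1.2.1.symm hx').mpr (h a1 ha1).symm
  have hx2 : x ∈ ln L a2 (par L O x a2) :=
    (mem_secant_iff hα hL hO ha2 p2.1 p2.2.1.symm hx).mpr rfl
  have hx2' : x' ∈ ln L a2 (par L O x a2) :=
    (mem_secant_iff hα hL hO ha2 p2.1 p2.2.1.symm hx').mpr (h a2 ha2).symm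
  have s1 := ln_spec hL p1.2.1.symm
  have s2 := ln_spec hL p2.2.1.symm
  have hlines : ln L a1 (par L O x a1) = ln L a2 (par L O x a2) :=
    line_unique hL hne s1.1 s2.1 hx1 hx1' hx2 hx2'
  exact arc_ln hL hO'.2 ha1 p1.1 ha2 p1.2.1.symm (Ne.symm h21) (Ne.symm h2b)
    (by rw [hlines]; exact s2.2.1)

/-- at most two lines through a point off the hyperoval miss the hyperoval -/
theorem ext_lines (hα : Fintype.card α = 21) (hL : Cfsg.IsSteinerSystem 2 5 L)
    {O : Finset α} (hO : O ∈ Arcs L 6) {x : α} (hx : x ∉ O) {E1 E2 E3 : Finset α}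
    (h1 : E1 ∈ L) (h2 : E2 ∈ L) (h3 : E3 ∈ L) (hx1 : x ∈ E1) (hx2 : x ∈ E2) (hx3 : x ∈ E3)
    (e1 : ∀ a ∈ O, a ∉ E1) (e2 : ∀ a ∈ O, a ∉ E2) (e3 : ∀ a ∈ O, a ∉ E3)
    (h12 : E1 ≠ E2) (h13 : E1 ≠ E3) (h23 : E2 ≠ E3) : False := by
  have hO' := mem_Arcs.mp hO
  obtain ⟨Sec, hSec⟩ : ∃ S : Finset (Finset α), S = O.image (fun a => ln L x a) := ⟨_, rfl⟩
  have hxa : ∀ a ∈ O, x ≠ a := fun a ha h => hx (h ▸ ha)
  have hSecsub : Sec ⊆ pen L x := by
    intro k hk
    rw [hSec, Finset.mem_image] at hk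
    obtain ⟨a, ha, rfl⟩ := hk
    exact mem_pen.mpr ⟨(ln_spec hL (hxa a ha)).1, (ln_spec hL (hxa a ha)).2.1⟩
  have hcov : O ⊆ Sec.biUnion (fun m => m ∩ O) := by
    intro a ha
    rw [Finset.mem_biUnion]
    refine ⟨ln L x a, ?_, Finset.mem_inter.mpr ⟨(ln_spec hL (hxa a ha)).2.2, ha⟩⟩
    rw [hSec]
    exact Finset.mem_image_of_mem _ ha
  have hc1 : O.card ≤ Sec.card * 2 := by
    calc O.card ≤ (Sec.biUnion (fun m => m ∩ O)).card := Finset.card_le_card hcov
      _ ≤ Sec.card * 2 := Finset.card_biUnion_le_card_mul _ _ _ (fun m hm => by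
          have hm' := hSecsub hm
          rw [mem_pen] at hm'
          exact hO'.2 m hm'.1)
  have key : ∀ E : Finset α, E ∈ L → x ∈ E → (∀ a ∈ O, a ∉ E) → E ∈ pen L x \ Sec := by
    intro E hE hxE heE
    rw [Finset.mem_sdiff]
    refine ⟨mem_pen.mpr ⟨hE, hxE⟩, ?_⟩
    intro hES
    rw [hSec, Finset.mem_image] at hES
    obtain ⟨a, ha, rfl⟩ := hES
    exact heE a ha (ln_spec hL (hxa a ha)).2.2
  have hsub3 : ({E1, E2, E3} : Finset (Finset α)) ⊆ pen L x \ Sec := by
    intro k hk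
    simp only [Finset.mem_insert, Finset.mem_singleton] at hk
    rcases hk with rfl | rfl | rfl
    · exact key _ h1 hx1 e1
    · exact key _ h2 hx2 e2
    · exact key _ h3 hx3 e3
  have hcard3 : ({E1, E2, E3} : Finset (Finset α)).card = 3 := by
    rw [Finset.card_insert_of_notMem, Finset.card_pair h23]
    simp only [Finset.mem_insert, Finset.mem_singleton]
    rintro (h | h)
    · exact h12 h
    · exact h13 h
  have h5 := Finset.card_le_card hsub3
  rw [Finset.card_sdiff_of_subset hSecsub, card_pen hα hL, hcard3] at h5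
  rw [hO'.1] at hc1
  omega

/-- five points off the hyperoval, no two on a common secant, form a line -/
theorem clique_line (hα : Fintype.card α = 21) (hL : Cfsg.IsSteinerSystem 2 5 L)
    {O : Finset α} (hO : O ∈ Arcs L 6) {C : Finset α} (hC : C.card = 5)
    (hCO : ∀ u ∈ C, u ∉ O)
    (hext : ∀ u ∈ C, ∀ v ∈ C, u ≠ v → ∀ a ∈ O, a ∉ ln L u v) : C ∈ L := by
  have hcol : ∀ u ∈ C, ∀ v ∈ C, ∀ w ∈ C, u ≠ v → u ≠ w → v ≠ w → w ∈ ln L u v := by
    intro u hu v hv w hw huv huw hvw
    by_contra hw_not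
    obtain ⟨t, ht, htu, htv, htw⟩ : ∃ t ∈ C, t ≠ u ∧ t ≠ v ∧ t ≠ w := by
      by_contra hcon
      have hsub : C ⊆ {u, v, w} := by
        intro z hz
        simp only [Finset.mem_insert, Finset.mem_singleton]
        by_cases h1 : z = u
        · exact Or.inl h1
        by_cases h2 : z = v
        · exact Or.inr (Or.inl h2)
        right; right
        by_contra h3
        exact hcon ⟨z, hz, h1, h2, h3⟩
      have h1 := Finset.card_le_card hsub
      have h2 := Finset.card_le_three (a := u) (b := v) (c := w)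
      omega
    have sUV := ln_spec hL huv
    have sUW := ln_spec hL huw
    have sVW := ln_spec hL hvw
    have sUT := ln_spec hL (Ne.symm htu)
    have sVT := ln_spec hL (Ne.symm htv)
    have sWT := ln_spec hL (Ne.symm htw)
    have nUVUW : ln L u v ≠ ln L u w := fun h => hw_not (by rw [h]; exact sUW.2.2)
    have nUVVW : ln L u v ≠ ln L v w := fun h => hw_not (by rw [h]; exact sVW.2.2)
    have nUWVW : ln L u w ≠ ln L v w := by
      intro h
      have hv' : v ∈ ln L u w := by rw [h]; exact sVW.2.1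
      have h' : ln L u v = ln L u w := ln_eq hL huv sUW.1 sUW.2.1 hv'
      exact nUVUW h'
    have atU : t ∈ ln L u v ∨ t ∈ ln L u w := by
      by_contra hcon
      rw [not_or] at hcon
      apply ext_lines hα hL hO (hCO u hu) sUV.1 sUW.1 sUT.1 sUV.2.1 sUW.2.1 sUT.2.1
        (hext u hu v hv huv) (hext u hu w hw huw) (hext u hu t ht (Ne.symm htu)) nUVUW
      · intro h; exact hcon.1 (by rw [h]; exact sUT.2.2)
      · intro h; exact hcon.2 (by rw [h]; exact sUT.2.2)
    have atV : t ∈ ln L u v ∨ t ∈ ln L v w := by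
      by_contra hcon
      rw [not_or] at hcon
      apply ext_lines hα hL hO (hCO v hv) sUV.1 sVW.1 sVT.1 sUV.2.2 sVW.2.1 sVT.2.1
        (hext u hu v hv huv) (hext v hv w hw hvw) (hext v hv t ht (Ne.symm htv)) nUVVW
      · intro h; exact hcon.1 (by rw [h]; exact sVT.2.2)
      · intro h; exact hcon.2 (by rw [h]; exact sVT.2.2)
    have atW : t ∈ ln L u w ∨ t ∈ ln L v w := by
      by_contra hcon
      rw [not_or] at hcon
      apply ext_lines hα hL hO (hCO w hw) sUW.1 sVW.1 sWT.1 sUW.2.2 sVW.2.2 sWT.2.1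
        (hext u hu w hw huw) (hext v hv w hw hvw) (hext w hw t ht (Ne.symm htw)) nUWVW
      · intro h; exact hcon.1 (by rw [h]; exact sWT.2.2)
      · intro h; exact hcon.2 (by rw [h]; exact sWT.2.2)
    have iU : ln L u v ∩ ln L u w = {u} :=
      inter_eq_singleton hL sUV.1 sUW.1 nUVUW sUV.2.1 sUW.2.1
    have iV : ln L u v ∩ ln L v w = {v} :=
      inter_eq_singleton hL sUV.1 sVW.1 nUVVW sUV.2.2 sVW.2.1
    have iW : ln L u w ∩ ln L v w = {w} :=
      inter_eq_singleton hL sUW.1 sVW.1 nUWVW sUW.2.2 sVW.2.2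
    have mk : ∀ {A B : Finset α} {z : α}, A ∩ B = {z} → t ∈ A → t ∈ B → t = z := by
      intro A B z h hA hB
      have h' : t ∈ A ∩ B := Finset.mem_inter.mpr ⟨hA, hB⟩
      rw [h] at h'
      exact Finset.mem_singleton.mp h'
    by_cases hUV : t ∈ ln L u v
    · rcases atW with h | h
      · exact htu (mk iU hUV h)
      · exact htv (mk iV hUV h)
    · have h1 : t ∈ ln L u w := atU.resolve_left hUV
      have h2 : t ∈ ln L v w := atV.resolve_left hUV
      exact htw (mk iW h1 h2)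
  obtain ⟨u, hu, v, hv, huv⟩ := Finset.one_lt_card.mp (by rw [hC]; norm_num : 1 < C.card)
  have hsub : C ⊆ ln L u v := by
    intro w hw
    by_cases h1 : w = u
    · rw [h1]; exact (ln_spec hL huv).2.1
    by_cases h2 : w = v
    · rw [h2]; exact (ln_spec hL huv).2.2
    exact hcol u hu v hv w hw huv (Ne.symm h1) (Ne.symm h2)
  have hCeq : C = ln L u v :=
    Finset.eq_of_subset_of_card_le hsub (by rw [hC, line_card hL (ln_spec hL huv).1])
  rw [hCeq]
  exact (ln_spec hL huv).1

theorem exists_hyperoval (hα : Fintype.card α = 21) (hL : Cfsg.IsSteinerSystem 2 5 L) :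
    ∃ O : Finset α, O ∈ Arcs L 6 := by
  have hne : (Arcs L 4).Nonempty := by
    rw [← Finset.card_pos, card_arcs4 hα hL]
    norm_num
  obtain ⟨S, hS⟩ := hne
  obtain ⟨H, ⟨hH, -⟩, -⟩ := unique_hyperoval hα hL hS
  exact ⟨H, hH⟩

end Cfsg.Agent.Helper28.Hyp
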