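import Cfsg.Agent.Helper28.HypE

set_option autoImplicit false
set_option linter.unusedSectionVars false

namespace Cfsg.Agent.Helper28.Hyp

variable {α : Type*} [Fintype α] [DecidableEq α] {L : Set (Finset α)}
variable {β : Type*} [Fintype β] [DecidableEq β] {L' : Set (Finset β)}

theorem phi_surj {O : Finset α} {O' : Finset β} (hO : O ∈ Arcs L 6) (hO' : O' ∈ Arcs L' 6)
    {φ : α → β} (hφ : ∀ a ∈ O, φ a ∈ O') (hinj : ∀ a ∈ O, ∀ b ∈ O, φ a = φ b → a = b) :
    ∀ b' ∈ O', ∃ a ∈ O, φ a = b' := by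
  have himg : O.image φ = O' := by
    apply Finset.eq_of_subset_of_card_le
    · intro y hy
      rw [Finset.mem_image] at hy
      obtain ⟨a, ha, rfl⟩ := hy
      exact hφ a ha
    · rw [Finset.card_image_of_injOn, (mem_Arcs.mp hO).1, (mem_Arcs.mp hO').1]
      intro a ha b hb hab
      exact hinj a (Finset.mem_coe.mp ha) b (Finset.mem_coe.mp hb) hab
  intro b' hb'
  rw [← himg, Finset.mem_image] at hb'
  exact hb'

/-- `y` (off `O'`) matches `x` (off `O`) when their partner functions correspond under `φ` -/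
def Match (L : Set (Finset α)) (O : Finset α) (L' : Set (Finset β)) (O' : Finset β)
    (φ : α → β) (x : α) (y : β) : Prop :=
  ∀ a ∈ O, par L' O' y (φ a) = φ (par L O x a)

theorem match_exists (hα : Fintype.card α = 21) (hL : Cfsg.IsSteinerSystem 2 5 L)
    {O : Finset α} (hO : O ∈ Arcs L 6) (hβ : Fintype.card β = 21)
    (hL' : Cfsg.IsSteinerSystem 2 5 L') {O' : Finset β} (hO' : O' ∈ Arcs L' 6)
    {φ : α → β} (hφ : ∀ a ∈ O, φ a ∈ O') (hinj : ∀ a ∈ O, ∀ b ∈ O, φ a = φ b → a = b)
    {x : α} (hx : x ∉ O) : ∃ y, y ∉ O' ∧ Match L O L' O' φ x y := by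
  have hOc := mem_Arcs.mp hO
  have hOc' := mem_Arcs.mp hO'
  have hsurj := phi_surj hO hO' hφ hinj
  obtain ⟨a1, ha1⟩ : O.Nonempty := by
    rw [← Finset.card_pos, hOc.1]
    norm_num
  have p1 := par_spec hα hL hO hx ha1
  obtain ⟨a2, ha2, h21, h2b⟩ :=
    exists_mem_ne2 (by rw [hOc.1]; norm_num : 2 < O.card) a1 (par L O x a1)
  have p2 := par_spec hα hL hO hx ha2
  have hb2a1 : par L O x a2 ≠ a1 := by
    intro h
    have h' := par_par hα hL hO hx ha2
    rw [h] at h'
    exact h2b h'.symm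
  have hb2b1 : par L O x a2 ≠ par L O x a1 := by
    intro h
    have e1 := par_par hα hL hO hx ha2
    have e2 := par_par hα hL hO hx ha1
    rw [h, e2] at e1
    exact h21 e1.symm
  have hφne : ∀ a ∈ O, ∀ b ∈ O, a ≠ b → φ a ≠ φ b :=
    fun a ha b hb hab h => hab (hinj a ha b hb h)
  have q1 := hφne a1 ha1 _ p1.1 p1.2.1.symm
  have q2 := hφne a2 ha2 _ p2.1 p2.2.1.symm
  have sA1 := ln_spec hL' q1
  have sA2 := ln_spec hL' q2
  obtain ⟨y, hy1, hy2⟩ := meet hβ hL' sA1.1 sA2.1
  have hyO : y ∉ O' := by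
    intro hy
    have c1 : y = φ a1 ∨ y = φ (par L O x a1) := by
      by_contra hcon
      rw [not_or] at hcon
      exact arc_ln hL' hOc'.2 (hφ a1 ha1) (hφ _ p1.1) hy q1 (Ne.symm hcon.1)
        (Ne.symm hcon.2) hy1
    have c2 : y = φ a2 ∨ y = φ (par L O x a2) := by
      by_contra hcon
      rw [not_or] at hcon
      exact arc_ln hL' hOc'.2 (hφ a2 ha2) (hφ _ p2.1) hy q2 (Ne.symm hcon.1)
        (Ne.symm hcon.2) hy2
    rcases c1 with c1 | c1 <;> rcases c2 with c2 | c2
    · exact hφne a1 ha1 a2 ha2 (Ne.symm h21) (c1.symm.trans c2)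
    · exact hφne a1 ha1 _ p2.1 (Ne.symm hb2a1) (c1.symm.trans c2)
    · exact hφne _ p1.1 a2 ha2 (Ne.symm h2b) (c1.symm.trans c2)
    · exact hφne _ p1.1 _ p2.1 (Ne.symm hb2b1) (c1.symm.trans c2)
  refine ⟨y, hyO, ?_⟩
  -- agreement
  have ag1 : par L' O' y (φ a1) = φ (par L O x a1) :=
    (mem_secant_iff hβ hL' hO' (hφ a1 ha1) (hφ _ p1.1) q1 hyO).mp hy1
  have ag2 : par L' O' y (φ a2) = φ (par L O x a2) :=
    (mem_secant_iff hβ hL' hO' (hφ a2 ha2) (hφ _ p2.1) q2 hyO).mp hy2
  have closed : ∀ a ∈ O, par L' O' y (φ a) = φ (par L O x a) →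
      par L' O' y (φ (par L O x a)) = φ (par L O x (par L O x a)) := by
    intro a ha h
    rw [par_par hα hL hO hx ha, ← h, par_par hβ hL' hO' hyO (hφ a ha)]
  have ag1' := closed a1 ha1 ag1
  have ag2' := closed a2 ha2 ag2
  -- the four known points
  have hfour : ({a1, par L O x a1, a2, par L O x a2} : Finset α) ⊆ O := by
    intro z hz
    simp only [Finset.mem_insert, Finset.mem_singleton] at hz
    rcases hz with rfl | rfl | rfl | rfl
    · exact ha1
    · exact p1.1
    · exact ha2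
    · exact p2.1
  have hfour_card : ({a1, par L O x a1, a2, par L O x a2} : Finset α).card = 4 := by
    rw [Finset.card_insert_of_notMem, Finset.card_insert_of_notMem,
      Finset.card_pair p2.2.1.symm]
    · simp only [Finset.mem_insert, Finset.mem_singleton]
      rintro (h | h)
      · exact h2b h.symm
      · exact hb2b1 h.symm
    · simp only [Finset.mem_insert, Finset.mem_singleton]
      rintro (h | h | h)
      · exact p1.2.1 h.symm
      · exact h21 h.symm
      · exact hb2a1 h.symm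
  have hrest : (O \ {a1, par L O x a1, a2, par L O x a2}).card = 2 := by
    rw [Finset.card_sdiff_of_subset hfour, hfour_card, hOc.1]
  intro c hc
  by_contra hbad
  -- c is not among the four
  have hc4 : c ∉ ({a1, par L O x a1, a2, par L O x a2} : Finset α) := by
    simp only [Finset.mem_insert, Finset.mem_singleton]
    rintro (h | h | h | h)
    · rw [h] at hbad; exact hbad ag1
    · rw [h] at hbad; exact hbad ag1'
    · rw [h] at hbad; exact hbad ag2
    · rw [h] at hbad; exact hbad ag2'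
  have pc := par_spec hα hL hO hx hc
  -- d = par x c is also bad
  have hbad_d : par L' O' y (φ (par L O x c)) ≠ φ (par L O x (par L O x c)) := by
    intro h
    have h' := closed _ pc.1 h
    rw [par_par hα hL hO hx hc] at h'
    exact hbad h'
  have hd4 : par L O x c ∉ ({a1, par L O x a1, a2, par L O x a2} : Finset α) := by
    simp only [Finset.mem_insert, Finset.mem_singleton]
    rintro (h | h | h | h)
    · rw [h] at hbad_d; exact hbad_d ag1
    · rw [h] at hbad_d; exact hbad_d ag1'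
    · rw [h] at hbad_d; exact hbad_d ag2
    · rw [h] at hbad_d; exact hbad_d ag2'
  -- c' with φ c' = par' y (φ c)
  have pyc := par_spec hβ hL' hO' hyO (hφ c hc)
  obtain ⟨c', hc', hφc'⟩ := hsurj _ pyc.1
  have hc'c : c' ≠ c := by
    intro h
    rw [h] at hφc'
    exact pyc.2.1 hφc'.symm
  have hbad_c' : par L' O' y (φ c') ≠ φ (par L O x c') := by
    intro h
    rw [hφc', par_par hβ hL' hO' hyO (hφ c hc)] at h
    have h2 : c = par L O x c' := hinj c hc _ (par_spec hα hL hO hx hc').1 h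
    have h3 := closed c' hc' (by rw [hφc', par_par hβ hL' hO' hyO (hφ c hc)]; exact h)
    rw [← h2] at h3
    exact hbad h3
  have hc'4 : c' ∉ ({a1, par L O x a1, a2, par L O x a2} : Finset α) := by
    simp only [Finset.mem_insert, Finset.mem_singleton]
    rintro (h | h | h | h)
    · rw [h] at hbad_c'; exact hbad_c' ag1
    · rw [h] at hbad_c'; exact hbad_c' ag1'
    · rw [h] at hbad_c'; exact hbad_c' ag2
    · rw [h] at hbad_c'; exact hbad_c' ag2'
  -- d = c'
  have hdc' : par L O x c = c' := by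
    by_contra hne
    have hsub3 : ({c, par L O x c, c'} : Finset α)
        ⊆ O \ {a1, par L O x a1, a2, par L O x a2} := by
      intro z hz
      simp only [Finset.mem_insert, Finset.mem_singleton] at hz
      rw [Finset.mem_sdiff]
      rcases hz with rfl | rfl | rfl
      · exact ⟨hc, hc4⟩
      · exact ⟨pc.1, hd4⟩
      · exact ⟨hc', hc'4⟩
    have hcard3 : ({c, par L O x c, c'} : Finset α).card = 3 := by
      rw [Finset.card_insert_of_notMem, Finset.card_pair hne]
      simp only [Finset.mem_insert, Finset.mem_singleton]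
      rintro (h | h)
      · exact pc.2.1 h.symm
      · exact hc'c h.symm
    have h5 := Finset.card_le_card hsub3
    omega
  apply hbad
  rw [hdc', hφc']

theorem match_unique_right (hα : Fintype.card α = 21) (hL : Cfsg.IsSteinerSystem 2 5 L)
    {O : Finset α} (hO : O ∈ Arcs L 6) (hβ : Fintype.card β = 21)
    (hL' : Cfsg.IsSteinerSystem 2 5 L') {O' : Finset β} (hO' : O' ∈ Arcs L' 6)
    {φ : α → β} (hφ : ∀ a ∈ O, φ a ∈ O') (hinj : ∀ a ∈ O, ∀ b ∈ O, φ a = φ b → a = b)
    {x : α} {y y' : β} (hy : y ∉ O') (hy' : y' ∉ O')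
    (h : Match L O L' O' φ x y) (h' : Match L O L' O' φ x y') : y = y' := by
  apply par_inj hβ hL' hO' hy hy'
  intro b hb
  obtain ⟨a, ha, rfl⟩ := phi_surj hO hO' hφ hinj b hb
  rw [h a ha, h' a ha]

theorem match_unique_left (hα : Fintype.card α = 21) (hL : Cfsg.IsSteinerSystem 2 5 L)
    {O : Finset α} (hO : O ∈ Arcs L 6) {O' : Finset β}
    {φ : α → β} (hinj : ∀ a ∈ O, ∀ b ∈ O, φ a = φ b → a = b)
    {x x' : α} (hx : x ∉ O) (hx' : x' ∉ O) {y : β}
    (h : Match L O L' O' φ x y) (h' : Match L O L' O' φ x' y) : x = x' := by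
  apply par_inj hα hL hO hx hx'
  intro a ha
  apply hinj _ (par_spec hα hL hO hx ha).1 _ (par_spec hα hL hO hx' ha).1
  rw [← h a ha, ← h' a ha]

end Cfsg.Agent.Helper28.Hyp
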