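import Cfsg.Agent.Helper28.HypF

set_option autoImplicit false
set_option linter.unusedSectionVars false

namespace Cfsg.Agent.Helper28.Hyp

variable {α : Type*} [Fintype α] [DecidableEq α] {L : Set (Finset α)}
variable {β : Type*} [Fintype β] [DecidableEq β] {L' : Set (Finset β)}

/-- a bijection between hyperovals of two planes of order 4 extends to an isomorphism -/
theorem ext_exists (hα : Fintype.card α = 21) (hL : Cfsg.IsSteinerSystem 2 5 L)
    {O : Finset α} (hO : O ∈ Arcs L 6) (hβ : Fintype.card β = 21)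
    (hL' : Cfsg.IsSteinerSystem 2 5 L') {O' : Finset β} (hO' : O' ∈ Arcs L' 6)
    {φ : α → β} (hφ : ∀ a ∈ O, φ a ∈ O') (hinj : ∀ a ∈ O, ∀ b ∈ O, φ a = φ b → a = b) :
    ∃ e : α ≃ β, (∀ a ∈ O, e a = φ a) ∧ ∀ l ∈ L, l.image e ∈ L' := by
  classical
  have hOc := mem_Arcs.mp hO
  have hsurj := phi_surj hO hO' hφ hinj
  have hφne : ∀ a ∈ O, ∀ b ∈ O, a ≠ b → φ a ≠ φ b :=
    fun a ha b hb hab h => hab (hinj a ha b hb h)
  obtain ⟨f, f_in, f_out⟩ : ∃ f : α → β, (∀ a ∈ O, f a = φ a) ∧
      ∀ x, x ∉ O → f x ∉ O' ∧ Match L O L' O' φ x (f x) := by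
    refine ⟨fun x => if hx : x ∈ O then φ x
      else (match_exists hα hL hO hβ hL' hO' hφ hinj hx).choose, ?_, ?_⟩
    · intro a ha
      exact dif_pos ha
    · intro x hx
      have h := (match_exists hα hL hO hβ hL' hO' hφ hinj hx).choose_spec
      simp only [dif_neg hx]
      exact h
  have f_inj : Function.Injective f := by
    intro x x' hxx
    by_cases hx : x ∈ O <;> by_cases hx' : x' ∈ O
    · rw [f_in x hx, f_in x' hx'] at hxx
      exact hinj x hx x' hx' hxx
    · exfalso
      have h := (f_out x' hx').1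
      rw [← hxx, f_in x hx] at h
      exact h (hφ x hx)
    · exfalso
      have h := (f_out x hx).1
      rw [hxx, f_in x' hx'] at h
      exact h (hφ x' hx')
    · have h := (f_out x' hx').2
      rw [← hxx] at h
      exact match_unique_left hα hL hO hinj hx hx' (f_out x hx).2 h
  have f_bij : Function.Bijective f :=
    (Fintype.bijective_iff_injective_and_card f).mpr ⟨f_inj, by rw [hα, hβ]⟩
  refine ⟨Equiv.ofBijective f f_bij, fun a ha => f_in a ha, ?_⟩
  intro l hl
  have himg_card : (l.image f).card = 5 := by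
    rw [Finset.card_image_of_injective _ f_inj, line_card hL hl]
  show l.image f ∈ L'
  by_cases hmeet : ∃ a ∈ O, a ∈ l
  · obtain ⟨a, ha, hal⟩ := hmeet
    obtain ⟨b, hb, hba, hbl⟩ := hyp_secant hα hL hO ha hl hal
    have hab : a ≠ b := hba.symm
    have hφab : φ a ≠ φ b := hφne a ha b hb hab
    have hl_eq : ln L a b = l := ln_eq hL hab hl hal hbl
    have hsub : l.image f ⊆ ln L' (φ a) (φ b) := by
      intro y hy
      rw [Finset.mem_image] at hy
      obtain ⟨z, hz, rfl⟩ := hy
      by_cases hzO : z ∈ O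
      · have hzab : z = a ∨ z = b := by
          by_contra hcon
          rw [not_or] at hcon
          exact arc_not_collinear hOc.2 ha hb hzO hab (Ne.symm hcon.1) (Ne.symm hcon.2)
            hl hal hbl hz
        rcases hzab with h | h
        · rw [f_in z hzO, h]; exact (ln_spec hL' hφab).2.1
        · rw [f_in z hzO, h]; exact (ln_spec hL' hφab).2.2
      · have hm := f_out z hzO
        have hz' : z ∈ ln L a b := by rw [hl_eq]; exact hz
        have hp : par L O z a = b := (mem_secant_iff hα hL hO ha hb hab hzO).mp hz'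
        have h := hm.2 a ha
        rw [hp] at h
        exact (mem_secant_iff hβ hL' hO' (hφ a ha) (hφ b hb) hφab hm.1).mpr h
    have heq : l.image f = ln L' (φ a) (φ b) :=
      Finset.eq_of_subset_of_card_le hsub
        (by rw [himg_card, line_card hL' (ln_spec hL' hφab).1])
    rw [heq]
    exact (ln_spec hL' hφab).1
  · have hmeet' : ∀ a ∈ O, a ∉ l := fun a ha hal => hmeet ⟨a, ha, hal⟩
    apply clique_line hβ hL' hO' himg_card
    · intro u hu
      rw [Finset.mem_image] at hu
      obtain ⟨z, hz, rfl⟩ := hu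
      exact (f_out z (fun h => hmeet' z h hz)).1
    · intro u' hu' v' hv' huv' a' ha' ha'l
      rw [Finset.mem_image] at hu' hv'
      obtain ⟨u, hu, rfl⟩ := hu'
      obtain ⟨v, hv, rfl⟩ := hv'
      have huO : u ∉ O := fun h => hmeet' u h hu
      have hvO : v ∉ O := fun h => hmeet' v h hv
      have huv : u ≠ v := fun h => huv' (by rw [h])
      have sl := ln_spec hL' huv'
      obtain ⟨b', hb', hb'a', hb'l⟩ := hyp_secant hβ hL' hO' ha' sl.1 ha'l
      obtain ⟨a, ha, rfl⟩ := hsurj a' ha'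
      obtain ⟨b, hb, rfl⟩ := hsurj b' hb'
      have hab : a ≠ b := fun h => hb'a' (by rw [h])
      have hline : ln L' (φ a) (φ b) = ln L' (f u) (f v) :=
        ln_eq hL' (Ne.symm hb'a') sl.1 ha'l hb'l
      have hu1 : f u ∈ ln L' (φ a) (φ b) := by rw [hline]; exact sl.2.1
      have hv1 : f v ∈ ln L' (φ a) (φ b) := by rw [hline]; exact sl.2.2
      have mu := f_out u huO
      have mv := f_out v hvO
      have pu := (mem_secant_iff hβ hL' hO' (hφ a ha) (hφ b hb) (Ne.symm hb'a') mu.1).mp hu1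
      have pv := (mem_secant_iff hβ hL' hO' (hφ a ha) (hφ b hb) (Ne.symm hb'a') mv.1).mp hv1
      rw [mu.2 a ha] at pu
      rw [mv.2 a ha] at pv
      have pu' : par L O u a = b := hinj _ (par_spec hα hL hO huO ha).1 _ hb pu
      have pv' : par L O v a = b := hinj _ (par_spec hα hL hO hvO ha).1 _ hb pv
      have hu2 : u ∈ ln L a b := (mem_secant_iff hα hL hO ha hb hab huO).mpr pu'
      have hv2 : v ∈ ln L a b := (mem_secant_iff hα hL hO ha hb hab hvO).mpr pv'
      have hl2 : ln L a b = l := line_unique hL huv (ln_spec hL hab).1 hl hu2 hv2 hu hv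
      exact hmeet' a ha (by rw [← hl2]; exact (ln_spec hL hab).2.1)

theorem iso_of_ext (hL : Cfsg.IsSteinerSystem 2 5 L) (hL' : Cfsg.IsSteinerSystem 2 5 L')
    {e : α ≃ β} (h : ∀ l ∈ L, l.image e ∈ L') : (fun b => b.image e) '' L = L' := by
  apply Set.Subset.antisymm
  · rintro _ ⟨l, hl, rfl⟩
    exact h l hl
  · intro m hm
    have hc := line_card hL' hm
    obtain ⟨y1, hy1, y2, hy2, hy12⟩ :=
      Finset.one_lt_card.mp (by rw [hc]; norm_num : 1 < m.card)
    have hx12 : e.symm y1 ≠ e.symm y2 := fun h => hy12 (e.symm.injective h)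
    have sl := ln_spec hL hx12
    refine ⟨ln L (e.symm y1) (e.symm y2), sl.1, ?_⟩
    have him := h _ sl.1
    apply line_unique hL' hy12 him hm _ _ hy1 hy2
    · rw [Finset.mem_image]
      exact ⟨e.symm y1, sl.2.1, e.apply_symm_apply y1⟩
    · rw [Finset.mem_image]
      exact ⟨e.symm y2, sl.2.2, e.apply_symm_apply y2⟩

theorem ext_unique (hα : Fintype.card α = 21) (hL : Cfsg.IsSteinerSystem 2 5 L)
    {O : Finset α} (hO : O ∈ Arcs L 6) (hβ : Fintype.card β = 21)
    (hL' : Cfsg.IsSteinerSystem 2 5 L') {O' : Finset β} (hO' : O' ∈ Arcs L' 6)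
    {φ : α → β} (hφ : ∀ a ∈ O, φ a ∈ O') (hinj : ∀ a ∈ O, ∀ b ∈ O, φ a = φ b → a = b)
    {e e' : α ≃ β} (he : ∀ a ∈ O, e a = φ a) (hel : ∀ l ∈ L, l.image e ∈ L')
    (he' : ∀ a ∈ O, e' a = φ a) (hel' : ∀ l ∈ L, l.image e' ∈ L') : e = e' := by
  have hsurj := phi_surj hO hO' hφ hinj
  have key : ∀ (g : α ≃ β), (∀ a ∈ O, g a = φ a) → (∀ l ∈ L, l.image g ∈ L') →
      ∀ x, x ∉ O → g x ∉ O' ∧ Match L O L' O' φ x (g x) := by
    intro g hg hgl x hx
    have hgx : g x ∉ O' := by
      intro h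
      obtain ⟨a, ha, hφa⟩ := hsurj (g x) h
      rw [← hg a ha] at hφa
      have hax : a = x := g.injective hφa
      exact hx (hax ▸ ha)
    refine ⟨hgx, ?_⟩
    intro a ha
    have p := par_spec hα hL hO hx ha
    have hxa : x ≠ a := fun h => hx (h ▸ ha)
    have sl := ln_spec hL hxa
    have him := hgl _ sl.1
    have hgxa : g x ≠ φ a := fun h => hgx (h ▸ hφ a ha)
    have e1 : ln L' (g x) (φ a) = (ln L x a).image g :=
      ln_eq hL' hgxa him (Finset.mem_image_of_mem g sl.2.1)
        (by rw [← hg a ha]; exact Finset.mem_image_of_mem g sl.2.2)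
    apply par_eq hβ hL' hO' hgx (hφ a ha) (hφ _ p.1)
      (fun h => p.2.1 (hinj _ p.1 a ha h))
    rw [e1, ← hg _ p.1]
    exact Finset.mem_image_of_mem g p.2.2
  ext x
  by_cases hx : x ∈ O
  · rw [he x hx, he' x hx]
  · exact match_unique_right hα hL hO hβ hL' hO' hφ hinj (key e he hel x hx).1
      (key e' he' hel' x hx).1 (key e he hel x hx).2 (key e' he' hel' x hx).2

end Cfsg.Agent.Helper28.Hyp
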