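import Cfsg.Agent.Helper28.HypG

set_option autoImplicit false
set_option linter.unusedSectionVars false

namespace Cfsg.Agent.Helper28.Hyp

open scoped Pointwise

variable {α : Type*} [Fintype α] [DecidableEq α] {L : Set (Finset α)}

theorem smul_set_eq_image (g : Equiv.Perm α) (L : Set (Finset α)) :
    g • L = (fun b => b.image g) '' L := rfl

theorem mem_aut_iff {g : Equiv.Perm α} :
    g ∈ Cfsg.setSystemAut L ↔ (fun b => b.image g) '' L = L := by
  rw [MulAction.mem_stabilizer_iff, smul_set_eq_image]

theorem aut_image {g : Equiv.Perm α} (hg : g ∈ Cfsg.setSystemAut L) {l : Finset α}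
    (hl : l ∈ L) : l.image g ∈ L := by
  have h := mem_aut_iff.mp hg
  rw [← h]
  exact ⟨l, hl, rfl⟩

end Cfsg.Agent.Helper28.Hyp
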