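import Cfsg.Agent.Helper28.HypH

set_option autoImplicit false
set_option linter.unusedSectionVars false

namespace Cfsg.Agent.Helper28.Hyp

variable {α : Type*} [Fintype α] [DecidableEq α] {L : Set (Finset α)}

/-- number of members of `Bf` containing `S` -/
def lamH (Bf : Finset (Finset α)) (S : Finset α) : ℕ := (Bf.filter (fun b => S ⊆ b)).card

theorem binom_countH (Bf : Finset (Finset α)) (Y : Finset α) (j : ℕ) :
    ∑ blk ∈ Bf, (blk ∩ Y).card.choose j = ∑ Z ∈ Y.powersetCard j, lamH Bf Z := by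
  have key := Finset.sum_card_bipartiteAbove_eq_sum_card_bipartiteBelow (s := Y.powersetCard j)
    (t := Bf) (fun (Z : Finset α) (b : Finset α) => Z ⊆ b)
  have h0 : ∑ Z ∈ Y.powersetCard j, lamH Bf Z = ∑ Z ∈ Y.powersetCard j,
      (Bf.bipartiteAbove (fun (Z : Finset α) (b : Finset α) => Z ⊆ b) Z).card := rfl
  rw [h0, key]
  apply Finset.sum_congr rfl
  intro blk _
  rw [← Finset.card_powersetCard]
  congr 1
  ext Z
  simp only [Finset.bipartiteBelow, Finset.mem_filter, Finset.mem_powersetCard,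
    Finset.subset_inter_iff]
  tauto

/-- One step of the recursion for the number of blocks through a set in a design. -/
theorem stepH (Bf : Finset (Finset α)) (n k : ℕ) (hα : Fintype.card α = n)
    (hk : ∀ b ∈ Bf, b.card = k) (i N : ℕ)
    (h : ∀ S' : Finset α, S'.card = i + 1 → lamH Bf S' = N) (S : Finset α) (hS : S.card = i) :
    lamH Bf S * (k - i) = (n - i) * N := by
  have key := Finset.sum_card_bipartiteAbove_eq_sum_card_bipartiteBelow (s := Sᶜ)
    (t := Bf.filter (fun b => S ⊆ b)) (fun (x : α) (b : Finset α) => x ∈ b)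
  have h1 : ∀ x ∈ Sᶜ, ((Bf.filter (fun b => S ⊆ b)).bipartiteAbove
      (fun (x : α) (b : Finset α) => x ∈ b) x).card = N := by
    intro x hx
    rw [Finset.mem_compl] at hx
    rw [← h (insert x S) (by rw [Finset.card_insert_of_notMem hx, hS])]
    unfold lamH Finset.bipartiteAbove
    congr 1
    ext b
    simp only [Finset.mem_filter, Finset.insert_subset_iff]
    tauto
  have h2 : ∀ b ∈ Bf.filter (fun b => S ⊆ b), ((Sᶜ).bipartiteBelow
      (fun (x : α) (b : Finset α) => x ∈ b) b).card = k - i := by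
    intro b hb
    rw [Finset.mem_filter] at hb
    have h3 : (Sᶜ).bipartiteBelow (fun (x : α) (b : Finset α) => x ∈ b) b = b \ S := by
      unfold Finset.bipartiteBelow
      ext x
      simp only [Finset.mem_filter, Finset.mem_compl, Finset.mem_sdiff]
      tauto
    rw [h3, Finset.card_sdiff_of_subset hb.2, hk b hb.1, hS]
  rw [Finset.sum_congr rfl h1, Finset.sum_congr rfl h2, Finset.sum_const, Finset.sum_const,
    Finset.card_compl, hα, hS, smul_eq_mul, smul_eq_mul] at key
  unfold lamH
  exact key.symm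

/-- the number of hyperovals through a `k`-arc, from the number through `(k+1)`-arcs -/
theorem arc_step (hL : Cfsg.IsSteinerSystem 2 5 L) {k : ℕ} {S : Finset α}
    (hS : S ∈ Arcs L k) (hk : k ≤ 6) (N : ℕ)
    (h : ∀ T ∈ Arcs L (k + 1), lamH (Arcs L 6) T = N) :
    lamH (Arcs L 6) S * (6 - k) = (Free L S).card * N := by
  have hS' := mem_Arcs.mp hS
  have key := Finset.sum_card_bipartiteAbove_eq_sum_card_bipartiteBelow
    (s := (Arcs L (k + 1)).bipartiteAbove (· ⊆ ·) S)
    (t := (Arcs L 6).filter (fun H => S ⊆ H)) (fun (T : Finset α) (H : Finset α) => T ⊆ H)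
  have h1 : ∀ T ∈ (Arcs L (k + 1)).bipartiteAbove (· ⊆ ·) S,
      (((Arcs L 6).filter (fun H => S ⊆ H)).bipartiteAbove
        (fun (T : Finset α) (H : Finset α) => T ⊆ H) T).card = N := by
    intro T hT
    rw [Finset.mem_bipartiteAbove] at hT
    rw [← h T hT.1]
    unfold lamH Finset.bipartiteAbove
    congr 1
    ext H
    simp only [Finset.mem_filter]
    constructor
    · rintro ⟨⟨hH, -⟩, hTH⟩
      exact ⟨hH, hTH⟩
    · rintro ⟨hH, hTH⟩
      exact ⟨⟨hH, hT.2.trans hTH⟩, hTH⟩
  have h2 : ∀ H ∈ (Arcs L 6).filter (fun H => S ⊆ H),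
      (((Arcs L (k + 1)).bipartiteAbove (· ⊆ ·) S).bipartiteBelow
        (fun (T : Finset α) (H : Finset α) => T ⊆ H) H).card = 6 - k := by
    intro H hH
    rw [Finset.mem_filter] at hH
    have hH' := mem_Arcs.mp hH.1
    have h3 : ((Arcs L (k + 1)).bipartiteAbove (· ⊆ ·) S).bipartiteBelow
        (fun (T : Finset α) (H : Finset α) => T ⊆ H) H
        = (H \ S).image (fun x => insert x S) := by
      ext T
      rw [Finset.mem_bipartiteBelow, Finset.mem_bipartiteAbove, mem_Arcs, Finset.mem_image]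
      constructor
      · rintro ⟨⟨⟨hc, -⟩, hST⟩, hTH⟩
        have hc1 : (T \ S).card = 1 := by
          rw [Finset.card_sdiff_of_subset hST]
          omega
        obtain ⟨x, hx⟩ := Finset.card_eq_one.mp hc1
        have hTx : insert x S = T := by
          rw [Finset.insert_eq, ← hx, Finset.sdiff_union_of_subset hST]
        have hxT : x ∈ T \ S := by rw [hx]; exact Finset.mem_singleton_self x
        rw [Finset.mem_sdiff] at hxT
        exact ⟨x, Finset.mem_sdiff.mpr ⟨hTH hxT.1, hxT.2⟩, hTx⟩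
      · rintro ⟨x, hx, rfl⟩
        rw [Finset.mem_sdiff] at hx
        have hsub : insert x S ⊆ H := Finset.insert_subset hx.1 hH.2
        refine ⟨⟨⟨?_, hH'.2.mono hsub⟩, Finset.subset_insert x S⟩, hsub⟩
        rw [Finset.card_insert_of_notMem hx.2, hS'.1]
    rw [h3, Finset.card_image_of_injOn, Finset.card_sdiff_of_subset hH.2, hH'.1, hS'.1]
    intro x hx y hy hxy
    have hx' := (Finset.mem_sdiff.mp (Finset.mem_coe.mp hx)).2
    have hxy' : insert x S = insert y S := hxy
    have h4 : x ∈ insert y S := by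
      rw [← hxy']
      exact Finset.mem_insert_self x S
    rcases Finset.mem_insert.mp h4 with h5 | h5
    · exact h5
    · exact absurd h5 hx'
  rw [Finset.sum_congr rfl h1, Finset.sum_congr rfl h2, Finset.sum_const, Finset.sum_const,
    smul_eq_mul, smul_eq_mul, up_deg hL hS] at key
  unfold lamH
  exact key.symm

theorem lam4 (hα : Fintype.card α = 21) (hL : Cfsg.IsSteinerSystem 2 5 L) :
    ∀ T ∈ Arcs L 4, lamH (Arcs L 6) T = 1 := by
  intro T hT
  obtain ⟨H, ⟨hH, hSH⟩, huniq⟩ := unique_hyperoval hα hL hT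
  unfold lamH
  rw [Finset.card_eq_one]
  refine ⟨H, ?_⟩
  ext H'
  rw [Finset.mem_filter, Finset.mem_singleton]
  constructor
  · intro h
    exact huniq H' h
  · rintro rfl
    exact ⟨hH, hSH⟩

theorem lam3 (hα : Fintype.card α = 21) (hL : Cfsg.IsSteinerSystem 2 5 L) :
    ∀ T ∈ Arcs L 3, lamH (Arcs L 6) T = 3 := by
  intro T hT
  have h := arc_step hL hT (by norm_num) 1 (lam4 hα hL)
  rw [card_free3 hα hL hT] at h
  omega

theorem lam2 (hα : Fintype.card α = 21) (hL : Cfsg.IsSteinerSystem 2 5 L) :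
    ∀ T ∈ Arcs L 2, lamH (Arcs L 6) T = 12 := by
  intro T hT
  have h := arc_step hL hT (by norm_num) 3 (lam3 hα hL)
  rw [card_free2 hα hL hT] at h
  omega

theorem card_free1 (hα : Fintype.card α = 21) {S : Finset α} (hS : S ∈ Arcs L 1) :
    (Free L S).card = 20 := by
  have hS' := mem_Arcs.mp hS
  obtain ⟨a, rfl⟩ := Finset.card_eq_one.mp hS'.1
  have h : Free L {a} = Finset.univ.erase a := by
    ext x
    rw [mem_Free, Finset.mem_erase, Finset.mem_singleton]
    constructor
    · intro h
      exact ⟨h.1, Finset.mem_univ x⟩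
    · intro h
      refine ⟨h.1, ?_⟩
      intro a' ha' b' hb' hab
      rw [Finset.mem_singleton] at ha' hb'
      exact absurd (ha'.trans hb'.symm) hab
  rw [h, Finset.card_erase_of_mem (Finset.mem_univ a), Finset.card_univ, hα]

theorem lam1 (hα : Fintype.card α = 21) (hL : Cfsg.IsSteinerSystem 2 5 L) :
    ∀ T ∈ Arcs L 1, lamH (Arcs L 6) T = 48 := by
  intro T hT
  have h := arc_step hL hT (by norm_num) 12 (lam2 hα hL)
  rw [card_free1 hα hT] at h
  omega

theorem lam0 (hα : Fintype.card α = 21) (hL : Cfsg.IsSteinerSystem 2 5 L) :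
    ∀ T ∈ Arcs L 0, lamH (Arcs L 6) T = 168 := by
  intro T hT
  have hT' := mem_Arcs.mp hT
  have hT0 : T = ∅ := Finset.card_eq_zero.mp hT'.1
  unfold lamH
  rw [hT0, Finset.filter_true_of_mem (fun H _ => Finset.empty_subset H), card_arcs6 hα hL]

/-- a hyperoval sharing four points with the hyperoval `O` is `O` -/
theorem hyp_eq_of_four (hα : Fintype.card α = 21) (hL : Cfsg.IsSteinerSystem 2 5 L)
    {O H : Finset α} (hO : O ∈ Arcs L 6) (hH : H ∈ Arcs L 6) (h : 4 ≤ (H ∩ O).card) :
    H = O := by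
  obtain ⟨S, hS, hSc⟩ := Finset.exists_subset_card_eq h
  have hSO : S ⊆ O := hS.trans Finset.inter_subset_right
  have hSH : S ⊆ H := hS.trans Finset.inter_subset_left
  have hSarc : S ∈ Arcs L 4 := mem_Arcs.mpr ⟨hSc, (mem_Arcs.mp hO).2.mono hSO⟩
  exact (unique_hyperoval hα hL hSarc).unique ⟨hH, hSH⟩ ⟨hO, hSO⟩

/-- the hyperovals meeting `O` in an even number of points -/
noncomputable def EvenHyp (L : Set (Finset α)) (O : Finset α) : Finset (Finset α) :=
  (Arcs L 6).filter (fun H => (H ∩ O).card = 0 ∨ (H ∩ O).card = 2 ∨ (H ∩ O).card = 6)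

theorem mem_EvenHyp {O H : Finset α} : H ∈ EvenHyp L O ↔
    H ∈ Arcs L 6 ∧ ((H ∩ O).card = 0 ∨ (H ∩ O).card = 2 ∨ (H ∩ O).card = 6) := by
  unfold EvenHyp
  rw [Finset.mem_filter]

theorem card_EvenHyp (hα : Fintype.card α = 21) (hL : Cfsg.IsSteinerSystem 2 5 L)
    {O : Finset α} (hO : O ∈ Arcs L 6) : (EvenHyp L O).card = 56 := by
  have hO' := mem_Arcs.mp hO
  have hfib : ∀ j, ∑ H ∈ Arcs L 6, (H ∩ O).card.choose j
      = ∑ k ∈ Finset.range 7, ((Arcs L 6).filter (fun H => (H ∩ O).card = k)).card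
          * k.choose j := by
    intro j
    rw [← Finset.sum_fiberwise_of_maps_to (g := fun H => (H ∩ O).card) (t := Finset.range 7)]
    · apply Finset.sum_congr rfl
      intro k _
      rw [Finset.card_eq_sum_ones, Finset.sum_mul]
      apply Finset.sum_congr rfl
      intro H hH
      rw [Finset.mem_filter] at hH
      rw [hH.2, one_mul]
    · intro H _
      rw [Finset.mem_range]
      have h1 : (H ∩ O).card ≤ O.card := Finset.card_le_card Finset.inter_subset_right
      omega
  have hsum : ∀ j N, (∀ T ∈ Arcs L j, lamH (Arcs L 6) T = N) →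
      ∑ k ∈ Finset.range 7, ((Arcs L 6).filter (fun H => (H ∩ O).card = k)).card * k.choose j
        = (Nat.choose 6 j) * N := by
    intro j N hN
    rw [← hfib, binom_countH, Finset.sum_congr rfl
      (fun Z hZ => hN Z (mem_Arcs.mpr ⟨(Finset.mem_powersetCard.mp hZ).2,
        hO'.2.mono (Finset.mem_powersetCard.mp hZ).1⟩)), Finset.sum_const,
      Finset.card_powersetCard, hO'.1, smul_eq_mul]
  have e0 := hsum 0 168 (lam0 hα hL)
  have e1 := hsum 1 48 (lam1 hα hL)
  have e2 := hsum 2 12 (lam2 hα hL)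
  have e3 := hsum 3 3 (lam3 hα hL)
  have x4 : ((Arcs L 6).filter (fun H => (H ∩ O).card = 4)).card = 0 := by
    rw [Finset.card_eq_zero, Finset.eq_empty_iff_forall_notMem]
    intro H hH
    rw [Finset.mem_filter] at hH
    have h1 := hyp_eq_of_four hα hL hO hH.1 (by omega)
    have h2 := hH.2
    rw [h1, Finset.inter_self, hO'.1] at h2
    omega
  have x5 : ((Arcs L 6).filter (fun H => (H ∩ O).card = 5)).card = 0 := by
    rw [Finset.card_eq_zero, Finset.eq_empty_iff_forall_notMem]
    intro H hH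
    rw [Finset.mem_filter] at hH
    have h1 := hyp_eq_of_four hα hL hO hH.1 (by omega)
    have h2 := hH.2
    rw [h1, Finset.inter_self, hO'.1] at h2
    omega
  have x6 : ((Arcs L 6).filter (fun H => (H ∩ O).card = 6)).card = 1 := by
    rw [Finset.card_eq_one]
    refine ⟨O, ?_⟩
    ext H
    rw [Finset.mem_filter, Finset.mem_singleton]
    constructor
    · rintro ⟨hH, h6⟩
      exact hyp_eq_of_four hα hL hO hH (by omega)
    · rintro rfl
      exact ⟨hO, by rw [Finset.inter_self, hO'.1]⟩
  have hE : EvenHyp L O = (Arcs L 6).filter (fun H => (H ∩ O).card = 0)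
      ∪ ((Arcs L 6).filter (fun H => (H ∩ O).card = 2)
        ∪ (Arcs L 6).filter (fun H => (H ∩ O).card = 6)) := by
    ext H
    simp only [EvenHyp, Finset.mem_filter, Finset.mem_union]
    tauto
  have d1 : Disjoint ((Arcs L 6).filter (fun H => (H ∩ O).card = 0))
      ((Arcs L 6).filter (fun H => (H ∩ O).card = 2)
        ∪ (Arcs L 6).filter (fun H => (H ∩ O).card = 6)) := by
    rw [Finset.disjoint_left]
    intro H h1 h2
    simp only [Finset.mem_filter, Finset.mem_union] at h1 h2
    omega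
  have d2 : Disjoint ((Arcs L 6).filter (fun H => (H ∩ O).card = 2))
      ((Arcs L 6).filter (fun H => (H ∩ O).card = 6)) := by
    rw [Finset.disjoint_left]
    intro H h1 h2
    simp only [Finset.mem_filter] at h1 h2
    omega
  rw [hE, Finset.card_union_of_disjoint d1, Finset.card_union_of_disjoint d2]
  simp only [Finset.sum_range_succ, Finset.sum_range_zero] at e0 e1 e2 e3
  generalize ((Arcs L 6).filter (fun H => (H ∩ O).card = 0)).card = N0 at *
  generalize ((Arcs L 6).filter (fun H => (H ∩ O).card = 1)).card = N1 at *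
  generalize ((Arcs L 6).filter (fun H => (H ∩ O).card = 2)).card = N2 at *
  generalize ((Arcs L 6).filter (fun H => (H ∩ O).card = 3)).card = N3 at *
  generalize ((Arcs L 6).filter (fun H => (H ∩ O).card = 4)).card = N4 at *
  generalize ((Arcs L 6).filter (fun H => (H ∩ O).card = 5)).card = N5 at *
  generalize ((Arcs L 6).filter (fun H => (H ∩ O).card = 6)).card = N6 at *
  norm_num [Nat.choose] at e0 e1 e2 e3
  omega

end Cfsg.Agent.Helper28.Hyp
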