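import Cfsg.Agent.Helper28.HypI
import Cfsg.Agent.S0351
import Cfsg.Agent.S0356

set_option autoImplicit false
set_option linter.unusedSectionVars false

namespace Cfsg.Agent.Helper28.Hyp

variable {α : Type*} [Fintype α] [DecidableEq α] {B : Set (Finset α)}

/-- the derived line set at `p` -/
def dLines (B : Set (Finset α)) (p : α) : Set (Finset {a : α // a ≠ p}) :=
  {b' | ∃ b ∈ B, p ∈ b ∧ b' = Finset.subtype (fun a => a ≠ p) b}

theorem dLines_steiner (hB : Cfsg.IsSteinerSystem 3 6 B) (p : α) :
    Cfsg.IsSteinerSystem 2 5 (dLines B p) := Cfsg.Agent.S0351.result hB p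

theorem card_sub (hα : Fintype.card α = 22) (p : α) :
    Fintype.card {a : α // a ≠ p} = 21 := by
  rw [Fintype.card_subtype]
  have h : Finset.univ.filter (fun a => a ≠ p) = Finset.univ.erase p := by
    ext x
    simp
  rw [h, Finset.card_erase_of_mem (Finset.mem_univ p), Finset.card_univ, hα]

theorem sub_inter (p : α) (s t : Finset α) :
    Finset.subtype (fun a => a ≠ p) s ∩ Finset.subtype (fun a => a ≠ p) t
      = Finset.subtype (fun a => a ≠ p) (s ∩ t) := by
  ext x
  simp only [Finset.mem_inter, Finset.mem_subtype]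

theorem sub_card_le (p : α) (s : Finset α) :
    (Finset.subtype (fun a => a ≠ p) s).card ≤ s.card := by
  rw [Finset.card_subtype]
  exact Finset.card_filter_le _ _

theorem sub_card (p : α) {s : Finset α} (hp : p ∉ s) :
    (Finset.subtype (fun a => a ≠ p) s).card = s.card := by
  rw [Finset.card_subtype, Finset.filter_true_of_mem]
  intro x hx h
  exact hp (h ▸ hx)

theorem sub_ext (p : α) {s t : Finset α} (hp : p ∈ s ↔ p ∈ t)
    (h : Finset.subtype (fun a => a ≠ p) s = Finset.subtype (fun a => a ≠ p) t) : s = t := by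
  ext x
  by_cases hx : x = p
  · rw [hx]
    exact hp
  · have h1 : (⟨x, hx⟩ : {a : α // a ≠ p}) ∈ Finset.subtype (fun a => a ≠ p) s
        ↔ (⟨x, hx⟩ : {a : α // a ≠ p}) ∈ Finset.subtype (fun a => a ≠ p) t := by rw [h]
    rw [Finset.mem_subtype, Finset.mem_subtype] at h1
    exact h1

theorem block_arc (hα : Fintype.card α = 22) (hB : Cfsg.IsSteinerSystem 3 6 B) {p : α}
    {b : Finset α} (hb : b ∈ B) (hpb : p ∉ b) :
    Finset.subtype (fun a => a ≠ p) b ∈ Arcs (dLines B p) 6 := by
  rw [mem_Arcs]
  refine ⟨by rw [sub_card p hpb, hB.1 b hb], ?_⟩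
  rintro l ⟨b', hb', hpb', rfl⟩
  rw [sub_inter]
  have hne : b' ≠ b := fun h => hpb (h ▸ hpb')
  have h1 := Cfsg.Agent.S0356.result hα hB hb' hb hne
  have h2 := sub_card_le p (b' ∩ b)
  omega

theorem block_even (hα : Fintype.card α = 22) (hB : Cfsg.IsSteinerSystem 3 6 B) {p : α}
    {O b : Finset α} (hO : O ∈ B) (hb : b ∈ B) (hpb : p ∉ b) :
    Finset.subtype (fun a => a ≠ p) b
      ∈ EvenHyp (dLines B p) (Finset.subtype (fun a => a ≠ p) O) := by
  rw [mem_EvenHyp]
  refine ⟨block_arc hα hB hb hpb, ?_⟩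
  rw [sub_inter, sub_card p (fun h => hpb (Finset.mem_inter.mp h).1)]
  by_cases hbO : b = O
  · right; right
    rw [hbO, Finset.inter_self, hB.1 O hO]
  · rcases Cfsg.Agent.S0356.result hα hB hb hO hbO with h | h
    · left; exact h
    · right; left; exact h

/-- the blocks, as a finset -/
noncomputable def blocksF (B : Set (Finset α)) : Finset (Finset α) :=
  open Classical in Finset.univ.filter (fun b => b ∈ B)

theorem mem_blocksF {b : Finset α} : b ∈ blocksF B ↔ b ∈ B := by
  unfold blocksF
  simp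

/-- the blocks missing `p`, as subsets of the points other than `p` -/
noncomputable def offBlocks (B : Set (Finset α)) (p : α) : Finset (Finset {a : α // a ≠ p}) :=
  ((blocksF B).filter (fun b => p ∉ b)).image (fun b => Finset.subtype (fun a => a ≠ p) b)

theorem card_blocks_off (hα : Fintype.card α = 22) (hB : Cfsg.IsSteinerSystem 3 6 B) (p : α) :
    ((blocksF B).filter (fun b => p ∉ b)).card = 56 := by
  have hk : ∀ b ∈ blocksF B, b.card = 6 := fun b hb => hB.1 b (mem_blocksF.mp hb)
  have l3 : ∀ S : Finset α, S.card = 2 + 1 → lamH (blocksF B) S = 1 := by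
    intro S hS
    obtain ⟨b, ⟨hb1, hb2⟩, hbu⟩ := hB.2 S hS
    unfold lamH
    rw [Finset.card_eq_one]
    refine ⟨b, ?_⟩
    ext b'
    simp only [Finset.mem_filter, Finset.mem_singleton, mem_blocksF]
    constructor
    · intro h
      exact hbu b' h
    · rintro rfl
      exact ⟨hb1, hb2⟩
  have l2 : ∀ S : Finset α, S.card = 1 + 1 → lamH (blocksF B) S = 5 := by
    intro S hS
    have h := stepH (blocksF B) 22 6 hα hk 2 1 l3 S hS
    omega
  have l1 : ∀ S : Finset α, S.card = 0 + 1 → lamH (blocksF B) S = 21 := by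
    intro S hS
    have h := stepH (blocksF B) 22 6 hα hk 1 5 l2 S hS
    omega
  have l0 : ∀ S : Finset α, S.card = 0 → lamH (blocksF B) S = 77 := by
    intro S hS
    have h := stepH (blocksF B) 22 6 hα hk 0 21 l1 S hS
    omega
  have h77 : (blocksF B).card = 77 := by
    have h := l0 ∅ Finset.card_empty
    unfold lamH at h
    rw [Finset.filter_true_of_mem (fun b _ => Finset.empty_subset b)] at h
    exact h
  have h21 : ((blocksF B).filter (fun b => p ∈ b)).card = 21 := by
    have h := l1 {p} (Finset.card_singleton p)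
    unfold lamH at h
    rw [← h]
    congr 1
    ext b
    simp only [Finset.mem_filter, Finset.singleton_subset_iff]
  have hsum := Finset.card_filter_add_card_filter_not (s := blocksF B) (fun b => p ∈ b)
  omega

theorem exists_block_off (hα : Fintype.card α = 22) (hB : Cfsg.IsSteinerSystem 3 6 B) (p : α) :
    ∃ O ∈ B, p ∉ O := by
  have hne : ((blocksF B).filter (fun b => p ∉ b)).Nonempty := by
    rw [← Finset.card_pos, card_blocks_off hα hB p]
    norm_num
  obtain ⟨O, hO⟩ := hne
  rw [Finset.mem_filter, mem_blocksF] at hO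
  exact ⟨O, hO.1, hO.2⟩

/-- the blocks missing `p` are exactly the hyperovals of the derived plane that meet a fixed
one of them evenly -/
theorem offBlocks_eq (hα : Fintype.card α = 22) (hB : Cfsg.IsSteinerSystem 3 6 B) {p : α}
    {O : Finset α} (hO : O ∈ B) (hpO : p ∉ O) :
    offBlocks B p = EvenHyp (dLines B p) (Finset.subtype (fun a => a ≠ p) O) := by
  apply Finset.eq_of_subset_of_card_le
  · intro H hH
    unfold offBlocks at hH
    rw [Finset.mem_image] at hH
    obtain ⟨b, hb, rfl⟩ := hH
    rw [Finset.mem_filter, mem_blocksF] at hb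
    exact block_even hα hB hO hb.1 hb.2
  · rw [card_EvenHyp (card_sub hα p) (dLines_steiner hB p) (block_arc hα hB hO hpO)]
    unfold offBlocks
    rw [Finset.card_image_of_injOn, card_blocks_off hα hB p]
    intro b hb c hc hbc
    have hb' := (Finset.mem_filter.mp (Finset.mem_coe.mp hb)).2
    have hc' := (Finset.mem_filter.mp (Finset.mem_coe.mp hc)).2
    exact sub_ext p ⟨fun h => absurd h hb', fun h => absurd h hc'⟩ hbc

theorem even_is_block (hα : Fintype.card α = 22) (hB : Cfsg.IsSteinerSystem 3 6 B) {p : α}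
    {O : Finset α} (hO : O ∈ B) (hpO : p ∉ O) {H : Finset {a : α // a ≠ p}}
    (hH : H ∈ EvenHyp (dLines B p) (Finset.subtype (fun a => a ≠ p) O)) :
    ∃ c ∈ B, p ∉ c ∧ H = Finset.subtype (fun a => a ≠ p) c := by
  rw [← offBlocks_eq hα hB hO hpO] at hH
  unfold offBlocks at hH
  rw [Finset.mem_image] at hH
  obtain ⟨b, hb, rfl⟩ := hH
  rw [Finset.mem_filter, mem_blocksF] at hb
  exact ⟨b, hb.1, hb.2, rfl⟩

end Cfsg.Agent.Helper28.Hyp
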