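import Cfsg.Agent.Helper28.HypK

set_option autoImplicit false
set_option linter.unusedSectionVars false

namespace Cfsg.Agent.Helper28.Hyp

variable {α : Type*} [Fintype α] [DecidableEq α]
variable {β : Type*} [Fintype β] [DecidableEq β]

/-- isomorphisms of Steiner systems S(3, 6, 22) with prescribed values on a point and on a
block missing it -/
theorem s3622_ext (hα : Fintype.card α = 22) (hβ : Fintype.card β = 22)
    {B : Set (Finset α)} {B' : Set (Finset β)} (hB : Cfsg.IsSteinerSystem 3 6 B)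
    (hB' : Cfsg.IsSteinerSystem 3 6 B') {p : α} {p' : β} {O : Finset α} {O' : Finset β}
    (hO : O ∈ B) (hpO : p ∉ O) (hO' : O' ∈ B') (hpO' : p' ∉ O')
    {ψ : α → β} (hψ : ∀ a ∈ O, ψ a ∈ O') (hψinj : ∀ a ∈ O, ∀ b ∈ O, ψ a = ψ b → a = b) :
    ∃ e : α ≃ β, e p = p' ∧ (∀ a ∈ O, e a = ψ a) ∧ (fun b => b.image e) '' B = B' := by
  classical
  have hLp := dLines_steiner hB p
  have hLp' := dLines_steiner hB' p'
  have hcp := card_sub hα p
  have hcp' := card_sub hβ p'
  have hOa := block_arc hα hB hO hpO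
  have hOa' := block_arc hβ hB' hO' hpO'
  have hcard : (Finset.subtype (fun a => a ≠ p) O).card
      = (Finset.subtype (fun a => a ≠ p') O').card := by
    rw [(mem_Arcs.mp hOa).1, (mem_Arcs.mp hOa').1]
  obtain ⟨b0, hb0⟩ : (Finset.subtype (fun a => a ≠ p') O').Nonempty := by
    rw [← Finset.card_pos, (mem_Arcs.mp hOa').1]
    norm_num
  obtain ⟨φ, hφdef⟩ : ∃ φ : {a : α // a ≠ p} → {b : β // b ≠ p'},
      ∀ a : {a : α // a ≠ p}, a.1 ∈ O → (φ a : β) = ψ a.1 :=
    ⟨fun x => if h : x.1 ∈ O then ⟨ψ x.1, fun hh => hpO' (hh ▸ hψ x.1 h)⟩ else b0,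
      fun a ha => by simp only [dif_pos ha]⟩
  have hφ : ∀ a ∈ Finset.subtype (fun a => a ≠ p) O,
      φ a ∈ Finset.subtype (fun a => a ≠ p') O' := by
    intro a ha
    rw [Finset.mem_subtype] at ha ⊢
    rw [hφdef a ha]
    exact hψ a.1 ha
  have hinj : ∀ a ∈ Finset.subtype (fun a => a ≠ p) O,
      ∀ b ∈ Finset.subtype (fun a => a ≠ p) O, φ a = φ b → a = b := by
    intro a ha b hb h
    rw [Finset.mem_subtype] at ha hb
    have h1 : (φ a : β) = (φ b : β) := congrArg Subtype.val h
    rw [hφdef a ha, hφdef b hb] at h1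
    exact Subtype.ext (hψinj a.1 ha b.1 hb h1)
  obtain ⟨e, he, hel⟩ := ext_exists hcp hLp hOa hcp' hLp' hOa' hφ hinj
  have hOimg : (Finset.subtype (fun a => a ≠ p) O).image e
      = Finset.subtype (fun a => a ≠ p') O' := by
    apply Finset.eq_of_subset_of_card_le
    · intro y hy
      rw [Finset.mem_image] at hy
      obtain ⟨a, ha, rfl⟩ := hy
      rw [he a ha]
      exact hφ a ha
    · rw [Finset.card_image_of_injective _ e.injective, hcard]
  obtain ⟨f, hfp, hfe⟩ : ∃ f : α → β, f p = p' ∧ ∀ a (ha : a ≠ p), f a = (e ⟨a, ha⟩ : β) :=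
    ⟨fun a => if h : a = p then p' else (e ⟨a, h⟩ : β), dif_pos rfl, fun a ha => dif_neg ha⟩
  have f_inj : Function.Injective f := by
    intro x y hxy
    by_cases hx : x = p <;> by_cases hy : y = p
    · rw [hx, hy]
    · exfalso
      rw [hx, hfp, hfe y hy] at hxy
      exact (e ⟨y, hy⟩).2 hxy.symm
    · exfalso
      rw [hy, hfp, hfe x hx] at hxy
      exact (e ⟨x, hx⟩).2 hxy
    · rw [hfe x hx, hfe y hy] at hxy
      have h2 := e.injective (Subtype.ext hxy)
      exact congrArg Subtype.val h2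
  have f_bij : Function.Bijective f :=
    (Fintype.bijective_iff_injective_and_card f).mpr ⟨f_inj, by rw [hα, hβ]⟩
  have hsubimg : ∀ b : Finset α, Finset.subtype (fun a => a ≠ p') (b.image f)
      = (Finset.subtype (fun a => a ≠ p) b).image e := by
    intro b
    ext y
    rw [Finset.mem_subtype, Finset.mem_image, Finset.mem_image]
    constructor
    · rintro ⟨x, hx, hxy⟩
      have hxp : x ≠ p := by
        intro h
        rw [h, hfp] at hxy
        exact y.2 hxy.symm
      refine ⟨⟨x, hxp⟩, Finset.mem_subtype.mpr hx, ?_⟩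
      apply Subtype.ext
      rw [← hfe x hxp]
      exact hxy
    · rintro ⟨x, hx, rfl⟩
      exact ⟨x.1, Finset.mem_subtype.mp hx, hfe x.1 x.2⟩
  have hpimg : ∀ b : Finset α, p' ∈ b.image f ↔ p ∈ b := by
    intro b
    rw [Finset.mem_image]
    constructor
    · rintro ⟨x, hx, hxy⟩
      have hxp : x = p := f_inj (hxy.trans hfp.symm)
      rw [← hxp]
      exact hx
    · intro h
      exact ⟨p, h, hfp⟩
  have hblocks : ∀ b ∈ B, b.image f ∈ B' := by
    intro b hb
    by_cases hpb : p ∈ b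
    · have hl : Finset.subtype (fun a => a ≠ p) b ∈ dLines B p := ⟨b, hb, hpb, rfl⟩
      obtain ⟨c, hc, hpc, hceq⟩ := hel _ hl
      have hbc : b.image f = c :=
        sub_ext p' (by rw [hpimg]; exact ⟨fun _ => hpc, fun _ => hpb⟩)
          (by rw [hsubimg]; exact hceq)
      rw [hbc]
      exact hc
    · have hev := block_even hα hB hO hb hpb
      have hev' := even_image hLp hLp' hel hev
      rw [hOimg] at hev'
      obtain ⟨c, hc, hpc, hceq⟩ := even_is_block hβ hB' hO' hpO' hev'
      have hbc : b.image f = c :=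
        sub_ext p' (by rw [hpimg]; exact ⟨fun h => absurd h hpb, fun h => absurd h hpc⟩)
          (by rw [hsubimg]; exact hceq)
      rw [hbc]
      exact hc
  refine ⟨Equiv.ofBijective f f_bij, hfp, ?_, iso3 hB hB' (e := Equiv.ofBijective f f_bij) hblocks⟩
  intro a ha
  have hap : a ≠ p := fun h => hpO (h ▸ ha)
  show f a = ψ a
  rw [hfe a hap, he ⟨a, hap⟩ (Finset.mem_subtype.mpr ha)]
  exact hφdef ⟨a, hap⟩ ha

/-- an automorphism of an S(3, 6, 22) fixing a point and, pointwise, a block missing it is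
the identity -/
theorem s3622_unique (hα : Fintype.card α = 22) {B : Set (Finset α)}
    (hB : Cfsg.IsSteinerSystem 3 6 B) {p : α} {O : Finset α} (hO : O ∈ B) (hpO : p ∉ O)
    {e : α ≃ α} (hep : e p = p) (heO : ∀ a ∈ O, e a = a) (heB : ∀ b ∈ B, b.image e ∈ B) :
    ∀ a, e a = a := by
  have hne : ∀ a : α, a ≠ p ↔ e a ≠ p := by
    intro a
    constructor
    · intro ha h
      exact ha (e.injective (h.trans hep.symm))
    · intro ha h
      exact ha (by rw [h, hep])
  obtain ⟨ê, hêval⟩ : ∃ ê : {a : α // a ≠ p} ≃ {a : α // a ≠ p},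
      ∀ x : {a : α // a ≠ p}, (ê x : α) = e x.1 := ⟨e.subtypeEquiv hne, fun x => rfl⟩
  have hLp := dLines_steiner hB p
  have hcp := card_sub hα p
  have hOa := block_arc hα hB hO hpO
  have hel : ∀ l ∈ dLines B p, l.image ê ∈ dLines B p := by
    rintro l ⟨b, hb, hpb, rfl⟩
    refine ⟨b.image e, heB b hb, ?_, ?_⟩
    · rw [Finset.mem_image]
      exact ⟨p, hpb, hep⟩
    · ext y
      rw [Finset.mem_image, Finset.mem_subtype, Finset.mem_image]
      constructor
      · rintro ⟨x, hx, rfl⟩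
        exact ⟨x.1, Finset.mem_subtype.mp hx, (hêval x).symm⟩
      · rintro ⟨a, ha, hay⟩
        have hap : a ≠ p := by
          intro h
          rw [h, hep] at hay
          exact y.2 hay.symm
        refine ⟨⟨a, hap⟩, Finset.mem_subtype.mpr ha, ?_⟩
        apply Subtype.ext
        rw [hêval]
        exact hay
  have hrefl : ∀ l ∈ dLines B p, l.image (Equiv.refl {a : α // a ≠ p}) ∈ dLines B p := by
    intro l hl
    rw [Equiv.coe_refl, Finset.image_id]
    exact hl
  have hφ : ∀ a ∈ Finset.subtype (fun a => a ≠ p) O,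
      (id a : {a : α // a ≠ p}) ∈ Finset.subtype (fun a => a ≠ p) O := fun a ha => ha
  have hinj : ∀ a ∈ Finset.subtype (fun a => a ≠ p) O,
      ∀ b ∈ Finset.subtype (fun a => a ≠ p) O,
        (id a : {a : α // a ≠ p}) = id b → a = b := fun a _ b _ h => h
  have he1 : ∀ a ∈ Finset.subtype (fun a => a ≠ p) O, ê a = id a := by
    intro a ha
    apply Subtype.ext
    rw [hêval]
    exact heO a.1 (Finset.mem_subtype.mp ha)
  have he2 : ∀ a ∈ Finset.subtype (fun a => a ≠ p) O,
      (Equiv.refl {a : α // a ≠ p}) a = id a := fun a _ => rfl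
  have heq := ext_unique hcp hLp hOa hcp hLp hOa hφ hinj he1 hel he2 hrefl
  intro a
  by_cases ha : a = p
  · rw [ha, hep]
  · have h1 := hêval ⟨a, ha⟩
    rw [heq] at h1
    exact h1.symm

end Cfsg.Agent.Helper28.Hyp
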