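import Mathlib

/-!
Tables for the explicit permutation group of degree 12 generated by eight permutations: the
relabelling of the twelve points, the generators and their inverses in the numbering of the
positions of the array, and words in the generators for a transversal.
-/

set_option autoImplicit false

namespace Cfsg.Agent.Helper28.M12FinData

def LB : ℕ := 0x876ba9543102

def NB : ℕ := 0x876ba9543021

def GT : ℕ := 0x7689ba543012876ba954312079a6b854123049865ab7321095746b8a32108b57a4693210876543ba92109ba687354210

def GQ : ℕ := 0x7689ba543012876ba954312079a6b854123056a9487b321064b597a83210a74b85963210543ba9876210a9b768435210

def WD : ℕ := 0x1300000300000200002200000400001c00001200000000000000000000000000000000010000088000005c0000c00004c0000080000000000012000000000000000000000000020175008bab001bac021bac031172031972000175005d52000175000000000000000000006605001c2c0003ab0043ab0033ab006362000c050061520000350000060000000000001b9bbc22ef7206ef2edd9bbc66ef2e18ddf3005dee177b92005dee00003e0001be000000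

def WL : ℕ := 0x2000001000001000002000001000002000002000000000000000000000000000000000003000004000003000003000004000003000002000003000000000000000000000000000006000006000005000006000006000006000005000006000003000000000000000000000005000005000004000005000005000005000004000005000002000001000000000000000007000008000007000008000008000007000007000008000005000002000003000000

end Cfsg.Agent.Helper28.M12FinData
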