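import Mathlib
import Cfsg.Prelude.Def_SporadicCombinatorics
import Cfsg.Agent.Helper12.Golay
import Cfsg.Agent.Helper28.Sext
import Cfsg.Agent.Helper28.TGolayData

/-!
The ternary code of length 12 on the 4 × 3 array: the list of its 729 words, their weights, the
132 supports of size 6 and the Steiner system they form.
-/

set_option autoImplicit false

namespace Cfsg.Agent.Helper28.TGolay

open Cfsg Cfsg.Agent.Helper12 Cfsg.Agent.Helper28.Sext Cfsg.Agent.Helper28.TGolayData

/-! ## Positions -/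

/-- the number of a position of the array -/
def ai (p : ArrayPt) : ℕ := 3 * p.1.val + ZMod.val p.2

/-- the position with a given number -/
def ap (j : ℕ) : ArrayPt := ((⟨j / 3 % 4, Nat.mod_lt _ (by norm_num)⟩ : Fin 4), ((j % 3 : ℕ) : ZMod 3))

theorem ai_lt : ∀ p : ArrayPt, ai p < 12 := by decide
theorem ap_ai : ∀ p : ArrayPt, ap (ai p) = p := by decide
theorem ai_ap : ∀ j, j < 12 → ai (ap j) = j := by decide

theorem ai_col : ∀ i : Fin 4, ai (i, 0) = 3 * i.val ∧ ai (i, 1) = 3 * i.val + 1 ∧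
    ai (i, 2) = 3 * i.val + 2 := by decide
theorem ai0 : ∀ u : ZMod 3, ai (0, u) = u.val := by decide
theorem ai1 : ∀ v : ZMod 3, ai (1, v) = 3 + v.val := by decide
theorem ai2 : ∀ u v : ZMod 3, ai (2, u + v) = 6 + (u.val + v.val) % 3 := by decide
theorem ai3 : ∀ u v : ZMod 3, ai (3, v - u) = 9 + (v.val + 2 * u.val) % 3 := by decide

/-- the positions in bijection with `Fin 12` -/
def apEquiv : ArrayPt ≃ Fin 12 where
  toFun := fun p => ⟨ai p, ai_lt p⟩
  invFun := fun i => ap i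
  left_inv := fun p => ap_ai p
  right_inv := fun i => Fin.ext (ai_ap i i.2)

/-! ## The defining conditions -/

theorem tet_mem (u v : ZMod 3) : ![u, v, u + v, v - u] ∈ tetracode := by
  have h : ∀ u v : ZMod 3, ![u, v, u + v, v - u] = v • ![0, 1, 1, 1] + u • ![1, 0, 1, 2] := by
    decide
  rw [h]
  exact Submodule.add_mem _ (Submodule.smul_mem _ _ (Submodule.subset_span (by simp)))
    (Submodule.smul_mem _ _ (Submodule.subset_span (by simp)))

theorem tet_cases {t : Fin 4 → ZMod 3} (ht : t ∈ tetracode) :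
    ∃ u v : ZMod 3, t = ![u, v, u + v, v - u] := by
  rw [tetracode, Submodule.mem_span_pair] at ht
  obtain ⟨a, b, rfl⟩ := ht
  have h : ∀ a b : ZMod 3, a • ![0, 1, 1, 1] + b • ![1, 0, 1, 2] = ![b, a, b + a, a - b] := by
    decide
  exact ⟨b, a, h a b⟩

theorem sum_z3 {M : Type*} [AddCommMonoid M] (F : ZMod 3 → M) :
    ∑ r : ZMod 3, F r = F 0 + F 1 + F 2 := Fin.sum_univ_three F

/-- the defining conditions with the scalar `s` -/
def IsW (x : ArrayPt → ZMod 3) (s : ZMod 3) : Prop :=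
  (∀ i : Fin 4, x (i, 0) + x (i, 1) + x (i, 2) = -s) ∧
    ∀ u v : ZMod 3, x (0, u) + x (1, v) + x (2, u + v) + x (3, v - u) = s

theorem mem_code (x : ArrayPt → ZMod 3) : x ∈ ternaryGolayCode ↔ ∃ s, IsW x s := by
  show IsTernaryGolayWord x ↔ _
  constructor
  · rintro ⟨s, h1, h2⟩
    refine ⟨s, fun i => ?_, fun u v => ?_⟩
    · rw [← h1 i, sum_z3]
    · have h3 := h2 _ (tet_mem u v)
      rw [Fin.sum_univ_four] at h3
      exact h3
  · rintro ⟨s, h1, h2⟩
    refine ⟨s, fun i => ?_, fun t ht => ?_⟩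
    · rw [sum_z3]; exact h1 i
    · obtain ⟨u, v, rfl⟩ := tet_cases ht
      rw [Fin.sum_univ_four]
      exact h2 u v

theorem z3_cases : ∀ u : ZMod 3, u = 0 ∨ u = 1 ∨ u = 2 := by decide

/-- a word of the code vanishing at six positions is zero -/
theorem zero_of_info {y : ArrayPt → ZMod 3} (hy : y ∈ ternaryGolayCode)
    (h0 : y (0, 0) = 0) (h1 : y (0, 1) = 0) (h2 : y (0, 2) = 0) (h3 : y (1, 0) = 0)
    (h4 : y (1, 1) = 0) (h5 : y (2, 0) = 0) : y = 0 := by
  obtain ⟨s, hc, ht⟩ := (mem_code y).1 hy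
  have hs : s = 0 := by
    have h6 := hc 0
    rw [h0, h1, h2, add_zero, add_zero] at h6
    exact neg_eq_zero.1 h6.symm
  subst hs
  have hA : ∀ u : ZMod 3, y (0, u) = 0 := by
    intro u
    rcases z3_cases u with rfl | rfl | rfl
    · exact h0
    · exact h1
    · exact h2
  have h7 : y (1, 2) = 0 := by
    have h6 := hc 1
    rw [h3, h4, zero_add, zero_add, neg_zero] at h6
    exact h6
  have hB : ∀ v : ZMod 3, y (1, v) = 0 := by
    intro v
    rcases z3_cases v with rfl | rfl | rfl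
    · exact h3
    · exact h4
    · exact h7
  have e1 : ∀ w z : ZMod 3, (w - -(w + z)) + -(w + z) = w := by decide
  have e2 : ∀ w z : ZMod 3, -(w + z) - (w - -(w + z)) = z := by decide
  have hCD : ∀ w z : ZMod 3, y (2, w) + y (3, z) = 0 := by
    intro w z
    have h6 := ht (w - -(w + z)) (-(w + z))
    rw [e1, e2, hA, hB, zero_add, zero_add] at h6
    exact h6
  have hD : ∀ z : ZMod 3, y (3, z) = 0 := by
    intro z
    have h6 := hCD 0 z
    rw [h5, zero_add] at h6
    exact h6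
  have hC : ∀ w : ZMod 3, y (2, w) = 0 := by
    intro w
    have h6 := hCD w 0
    rw [hD, add_zero] at h6
    exact h6
  funext p
  obtain ⟨i, r⟩ := p
  have hi : ∀ i : Fin 4, i = 0 ∨ i = 1 ∨ i = 2 ∨ i = 3 := by decide
  rcases hi i with rfl | rfl | rfl | rfl
  · exact hA r
  · exact hB r
  · exact hC r
  · exact hD r

/-! ## The list of the words -/

/-- coordinate `j` of the word number `a` -/
def cw (a j : ℕ) : ℕ := Nat.land (Nat.shiftRight (get24 TW a) (Nat.mul 2 j)) 3

/-- the word number `a` -/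
def wd (a : ℕ) : ArrayPt → ZMod 3 := fun p => ((cw a (ai p) : ℕ) : ZMod 3)

theorem wd_apply (a : ℕ) (p : ArrayPt) : wd a p = ((cw a (ai p) : ℕ) : ZMod 3) := rfl

/-- the defining conditions for the word number `a` with the scalar `s` -/
def eqOK (a s : ℕ) : Bool :=
  allB 4 (fun i => Nat.beq (Nat.mod (Nat.add (Nat.add (Nat.add (cw a (Nat.mul 3 i))
    (cw a (Nat.add (Nat.mul 3 i) 1))) (cw a (Nat.add (Nat.mul 3 i) 2))) s) 3) 0) &&
  allB 3 (fun u => allB 3 (fun v => Nat.beq (Nat.mod (Nat.add (Nat.add (Nat.add (cw a u)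
    (cw a (Nat.add 3 v))) (cw a (Nat.add 6 (Nat.mod (Nat.add u v) 3))))
    (cw a (Nat.add 9 (Nat.mod (Nat.add v (Nat.mul 2 u)) 3)))) 3) s))

theorem k_lt : allB 729 (fun a => allB 12 (fun j => Nat.blt (cw a j) 3)) = true := by
  decide +kernel
theorem k_word : allB 729 (fun a => eqOK a 0 || eqOK a 1 || eqOK a 2) = true := by
  decide +kernel
theorem k_info : allB 729 (fun a => Nat.beq (cw a 0) (Nat.mod a 3) &&
    Nat.beq (cw a 1) (Nat.mod (Nat.div a 3) 3) && Nat.beq (cw a 2) (Nat.mod (Nat.div a 9) 3) &&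
    Nat.beq (cw a 3) (Nat.mod (Nat.div a 27) 3) && Nat.beq (cw a 4) (Nat.mod (Nat.div a 81) 3) &&
    Nat.beq (cw a 6) (Nat.mod (Nat.div a 243) 3)) = true := by decide +kernel

theorem cw_lt {a : ℕ} (ha : a < 729) {j : ℕ} (hj : j < 12) : cw a j < 3 := by
  have h := allB_spec (allB_spec k_lt a ha) j hj
  rw [Nat.blt_eq] at h
  exact h

theorem eq_isW {a s : ℕ} (hs : s < 3) (he : eqOK a s = true) : IsW (wd a) ((s : ℕ) : ZMod 3) := by
  rw [eqOK, Bool.and_eq_true] at he
  obtain ⟨he1, he2⟩ := he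
  constructor
  · intro i
    have h1 : (cw a (3 * i.val) + cw a (3 * i.val + 1) + cw a (3 * i.val + 2) + s) % 3 = 0 :=
      Nat.eq_of_beq_eq_true (allB_spec he1 i.val i.isLt)
    have h2 := (ZMod.natCast_eq_zero_iff _ 3).2 (Nat.dvd_of_mod_eq_zero h1)
    rw [eq_neg_iff_add_eq_zero, wd_apply, wd_apply, wd_apply, (ai_col i).1, (ai_col i).2.1,
      (ai_col i).2.2]
    exact_mod_cast h2
  · intro u v
    have h1 : (cw a u.val + cw a (3 + v.val) + cw a (6 + (u.val + v.val) % 3) +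
        cw a (9 + (v.val + 2 * u.val) % 3)) % 3 = s :=
      Nat.eq_of_beq_eq_true (allB_spec (allB_spec he2 u.val (ZMod.val_lt u)) v.val (ZMod.val_lt v))
    have h2 := (ZMod.natCast_eq_natCast_iff' _ s 3).2 (h1.trans (Nat.mod_eq_of_lt hs).symm)
    rw [wd_apply, wd_apply, wd_apply, wd_apply, ai0, ai1, ai2, ai3]
    exact_mod_cast h2

theorem wd_mem {a : ℕ} (ha : a < 729) : wd a ∈ ternaryGolayCode := by
  rw [mem_code]
  have h := allB_spec k_word a ha
  rw [Bool.or_eq_true, Bool.or_eq_true] at h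
  rcases h with (h | h) | h
  · exact ⟨_, eq_isW (by norm_num) h⟩
  · exact ⟨_, eq_isW (by norm_num) h⟩
  · exact ⟨_, eq_isW (by norm_num) h⟩

theorem info {a : ℕ} (ha : a < 729) : cw a 0 = a % 3 ∧ cw a 1 = a / 3 % 3 ∧ cw a 2 = a / 9 % 3 ∧
    cw a 3 = a / 27 % 3 ∧ cw a 4 = a / 81 % 3 ∧ cw a 6 = a / 243 % 3 := by
  have h := allB_spec k_info a ha
  rw [Bool.and_eq_true, Bool.and_eq_true, Bool.and_eq_true, Bool.and_eq_true, Bool.and_eq_true]
    at h
  obtain ⟨⟨⟨⟨⟨h0, h1⟩, h2⟩, h3⟩, h4⟩, h5⟩ := h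
  exact ⟨Nat.eq_of_beq_eq_true h0, Nat.eq_of_beq_eq_true h1, Nat.eq_of_beq_eq_true h2,
    Nat.eq_of_beq_eq_true h3, Nat.eq_of_beq_eq_true h4, Nat.eq_of_beq_eq_true h5⟩

theorem ai_info : ai (0, 0) = 0 ∧ ai (0, 1) = 1 ∧ ai (0, 2) = 2 ∧ ai (1, 0) = 3 ∧ ai (1, 1) = 4 ∧
    ai (2, 0) = 6 := by decide

theorem cast_inj3 {m n : ℕ} (hm : m < 3) (hn : n < 3) (h : ((m : ℕ) : ZMod 3) = (n : ZMod 3)) :
    m = n := by
  have h1 := (ZMod.natCast_eq_natCast_iff' m n 3).1 h
  rw [Nat.mod_eq_of_lt hm, Nat.mod_eq_of_lt hn] at h1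
  exact h1

theorem wd_inj : ∀ a b, a < 729 → b < 729 → wd a = wd b → a = b := by
  intro a b ha hb e
  have key : ∀ p : ArrayPt, cw a (ai p) = cw b (ai p) := fun p =>
    cast_inj3 (cw_lt ha (ai_lt p)) (cw_lt hb (ai_lt p)) (congrFun e p)
  obtain ⟨a0, a1, a2, a3, a4, a5⟩ := info ha
  obtain ⟨b0, b1, b2, b3, b4, b5⟩ := info hb
  have k0 := key (0, 0)
  have k1 := key (0, 1)
  have k2 := key (0, 2)
  have k3 := key (1, 0)
  have k4 := key (1, 1)
  have k5 := key (2, 0)
  rw [ai_info.1, a0, b0] at k0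
  rw [ai_info.2.1, a1, b1] at k1
  rw [ai_info.2.2.1, a2, b2] at k2
  rw [ai_info.2.2.2.1, a3, b3] at k3
  rw [ai_info.2.2.2.2.1, a4, b4] at k4
  rw [ai_info.2.2.2.2.2, a5, b5] at k5
  omega

/-- every word of the code is in the list -/
theorem code_enum {x : ArrayPt → ZMod 3} (hx : x ∈ ternaryGolayCode) :
    ∃ a, a < 729 ∧ x = wd a := by
  have v0 := ZMod.val_lt (x (0, 0))
  have v1 := ZMod.val_lt (x (0, 1))
  have v2 := ZMod.val_lt (x (0, 2))
  have v3 := ZMod.val_lt (x (1, 0))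
  have v4 := ZMod.val_lt (x (1, 1))
  have v5 := ZMod.val_lt (x (2, 0))
  have ha : (x (0, 0)).val + 3 * (x (0, 1)).val + 9 * (x (0, 2)).val + 27 * (x (1, 0)).val +
      81 * (x (1, 1)).val + 243 * (x (2, 0)).val < 729 := by omega
  refine ⟨_, ha, ?_⟩
  obtain ⟨a0, a1, a2, a3, a4, a5⟩ := info ha
  apply sub_eq_zero.1
  apply zero_of_info (Submodule.sub_mem _ hx (wd_mem ha))
  · rw [Pi.sub_apply, wd_apply, ai_info.1, a0, sub_eq_zero]
    rw [show ((x (0, 0)).val + 3 * (x (0, 1)).val + 9 * (x (0, 2)).val + 27 * (x (1, 0)).val +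
      81 * (x (1, 1)).val + 243 * (x (2, 0)).val) % 3 = (x (0, 0)).val by omega]
    exact (ZMod.natCast_zmod_val _).symm
  · rw [Pi.sub_apply, wd_apply, ai_info.2.1, a1, sub_eq_zero]
    rw [show ((x (0, 0)).val + 3 * (x (0, 1)).val + 9 * (x (0, 2)).val + 27 * (x (1, 0)).val +
      81 * (x (1, 1)).val + 243 * (x (2, 0)).val) / 3 % 3 = (x (0, 1)).val by omega]
    exact (ZMod.natCast_zmod_val _).symm
  · rw [Pi.sub_apply, wd_apply, ai_info.2.2.1, a2, sub_eq_zero]
    rw [show ((x (0, 0)).val + 3 * (x (0, 1)).val + 9 * (x (0, 2)).val + 27 * (x (1, 0)).val +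
      81 * (x (1, 1)).val + 243 * (x (2, 0)).val) / 9 % 3 = (x (0, 2)).val by omega]
    exact (ZMod.natCast_zmod_val _).symm
  · rw [Pi.sub_apply, wd_apply, ai_info.2.2.2.1, a3, sub_eq_zero]
    rw [show ((x (0, 0)).val + 3 * (x (0, 1)).val + 9 * (x (0, 2)).val + 27 * (x (1, 0)).val +
      81 * (x (1, 1)).val + 243 * (x (2, 0)).val) / 27 % 3 = (x (1, 0)).val by omega]
    exact (ZMod.natCast_zmod_val _).symm
  · rw [Pi.sub_apply, wd_apply, ai_info.2.2.2.2.1, a4, sub_eq_zero]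
    rw [show ((x (0, 0)).val + 3 * (x (0, 1)).val + 9 * (x (0, 2)).val + 27 * (x (1, 0)).val +
      81 * (x (1, 1)).val + 243 * (x (2, 0)).val) / 81 % 3 = (x (1, 1)).val by omega]
    exact (ZMod.natCast_zmod_val _).symm
  · rw [Pi.sub_apply, wd_apply, ai_info.2.2.2.2.2, a5, sub_eq_zero]
    rw [show ((x (0, 0)).val + 3 * (x (0, 1)).val + 9 * (x (0, 2)).val + 27 * (x (1, 0)).val +
      81 * (x (1, 1)).val + 243 * (x (2, 0)).val) / 243 % 3 = (x (2, 0)).val by omega]
    exact (ZMod.natCast_zmod_val _).symm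

theorem card_code : Nat.card ↥ternaryGolayCode = 729 := by
  have h1 : Nat.card ↥ternaryGolayCode = ((ternaryGolayCode : Submodule (ZMod 3) (ArrayPt → ZMod 3)) :
      Set (ArrayPt → ZMod 3)).ncard := by
    rw [← Nat.card_coe_set_eq]; rfl
  rw [h1]
  refine (ncard_eq_cnt wd 729 wd_inj _ (fun _ => true) (fun s => ?_)).trans (cnt_true 729)
  rw [SetLike.mem_coe]
  constructor
  · intro hs
    obtain ⟨a, ha, e⟩ := code_enum hs
    exact ⟨a, ha, rfl, e⟩
  · rintro ⟨a, ha, -, rfl⟩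
    exact wd_mem ha

/-! ## Masks and supports -/

/-- the set of positions coded by a mask -/
def ofM (m : ℕ) : Finset ArrayPt := Finset.univ.filter (fun p => m.testBit (ai p) = true)

theorem mem_ofM {m : ℕ} {p : ArrayPt} : p ∈ ofM m ↔ m.testBit (ai p) = true := by
  simp [ofM]

theorem ofM_inj {a b : ℕ} (ha : a < 4096) (hb : b < 4096) (h : ofM a = ofM b) : a = b := by
  apply Nat.eq_of_testBit_eq
  intro i
  by_cases hi : i < 12
  · have h1 : ap i ∈ ofM a ↔ ap i ∈ ofM b := by rw [h]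
    rw [mem_ofM, mem_ofM, ai_ap i hi] at h1
    exact Bool.eq_iff_iff.mpr h1
  · have hi' : 12 ≤ i := by omega
    have h2 : (2 : ℕ) ^ 12 ≤ 2 ^ i := Nat.pow_le_pow_right (by norm_num) hi'
    have ha' : a < 2 ^ 12 := by norm_num; exact ha
    have hb' : b < 2 ^ 12 := by norm_num; exact hb
    rw [Nat.testBit_lt_two_pow (lt_of_lt_of_le ha' h2),
      Nat.testBit_lt_two_pow (lt_of_lt_of_le hb' h2)]

theorem exists_maskA (s : Finset ArrayPt) : ∃ m, m < 4096 ∧ ofM m = s := by
  refine ⟨Nat.ofBits (fun i : Fin 12 => decide (ap i ∈ s)), Nat.ofBits_lt_two_pow _, ?_⟩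
  ext p
  rw [mem_ofM, Nat.testBit_ofBits_lt _ _ (ai_lt p)]
  simp [ap_ai]

theorem ofM_and (a b : ℕ) : ofM (a &&& b) = ofM a ∩ ofM b := by
  ext p; simp [mem_ofM, Nat.testBit_and]

theorem ofM_subset_iff {a b : ℕ} (ha : a < 4096) : ofM a ⊆ ofM b ↔ a &&& b = a := by
  rw [← Finset.inter_eq_left, ← ofM_and]
  constructor
  · intro h
    exact ofM_inj (lt_of_le_of_lt Nat.and_le_left ha) ha h
  · intro h; rw [h]

theorem card_ofM {m : ℕ} (hm : m < 4096) : (ofM m).card = popc m := by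
  rw [popc_eq, ofM, Finset.card_filter]
  have h1 : ∑ i ∈ Finset.range 12, (if m.testBit i = true then 1 else 0) =
      ∑ i ∈ Finset.range 24, (if m.testBit i = true then 1 else 0) := by
    apply Finset.sum_subset (Finset.range_subset_range.2 (by norm_num))
    intro i _ hi
    rw [Finset.mem_range, not_lt] at hi
    have h2 : (2 : ℕ) ^ 12 ≤ 2 ^ i := Nat.pow_le_pow_right (by norm_num) hi
    have hm' : m < 2 ^ 12 := by norm_num; exact hm
    rw [Nat.testBit_lt_two_pow (lt_of_lt_of_le hm' h2)]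
    simp
  rw [← h1, ← Fin.sum_univ_eq_sum_range (fun i => if m.testBit i = true then 1 else 0) 12]
  exact Fintype.sum_equiv apEquiv _ _ (fun p => rfl)

theorem beq_of_eq {a b : ℕ} (h : a = b) : Nat.beq a b = true := by
  rw [h]; exact Nat.beq_refl b

/-- equality of booleans -/
def beqB (a b : Bool) : Bool := bif a then b else !b

theorem beqB_spec {a b : Bool} (h : beqB a b = true) : a = b := by
  cases a <;> cases b <;> simp_all [beqB]

theorem k_supp : allB 729 (fun a => allB 12 (fun j =>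
    beqB (tb (get24 TS a) j) (!(Nat.beq (cw a j) 0)))) = true := by decide +kernel
theorem k_ts_lt : allB 729 (fun a => Nat.blt (get24 TS a) 4096) = true := by decide +kernel

theorem ts_lt {a : ℕ} (ha : a < 729) : get24 TS a < 4096 := by
  have h := allB_spec k_ts_lt a ha
  rw [Nat.blt_eq] at h
  exact h

theorem supp_wd {a : ℕ} (ha : a < 729) : ternarySupport (wd a) = ofM (get24 TS a) := by
  ext p
  rw [ternarySupport, Finset.mem_filter, mem_ofM, ← tb_eq,
    beqB_spec (allB_spec (allB_spec k_supp a ha) (ai p) (ai_lt p)), wd_apply]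
  have hlt := cw_lt ha (ai_lt p)
  constructor
  · rintro ⟨-, h⟩
    cases hb : Nat.beq (cw a (ai p)) 0 with
    | false => rfl
    | true =>
      exfalso
      apply h
      rw [Nat.eq_of_beq_eq_true hb]
      rfl
  · intro h
    refine ⟨Finset.mem_univ _, fun h0 => ?_⟩
    have h1 : cw a (ai p) = 0 := cast_inj3 hlt (by norm_num) (h0.trans Nat.cast_zero.symm)
    rw [h1] at h
    exact absurd h (by decide)

theorem wt_wd {a : ℕ} (ha : a < 729) : (ternarySupport (wd a)).card = popc (get24 TS a) := by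
  rw [supp_wd ha, card_ofM (ts_lt ha)]

theorem k_wt : allB 729 (fun a => (fun w => Nat.beq w 0 || Nat.beq w 6 || Nat.beq w 9 ||
    Nat.beq w 12) (popc (get24 TS a))) = true := by decide +kernel
theorem k_c6 : cntB 729 (fun a => Nat.beq (popc (get24 TS a)) 6) = 264 := by decide +kernel
theorem k_c9 : cntB 729 (fun a => Nat.beq (popc (get24 TS a)) 9) = 440 := by decide +kernel
theorem k_c12 : cntB 729 (fun a => Nat.beq (popc (get24 TS a)) 12) = 24 := by decide +kernel

/-- the weights of the words of the code -/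
theorem weight_cases {x : ArrayPt → ZMod 3} (hx : x ∈ ternaryGolayCode) :
    (ternarySupport x).card = 0 ∨ (ternarySupport x).card = 6 ∨ (ternarySupport x).card = 9 ∨
      (ternarySupport x).card = 12 := by
  obtain ⟨a, ha, rfl⟩ := code_enum hx
  rw [wt_wd ha]
  have h := allB_spec k_wt a ha
  simp only [Bool.or_eq_true, Nat.beq_eq] at h
  rcases h with ((h | h) | h) | h
  · exact Or.inl h
  · exact Or.inr (Or.inl h)
  · exact Or.inr (Or.inr (Or.inl h))
  · exact Or.inr (Or.inr (Or.inr h))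

theorem supp_zero {x : ArrayPt → ZMod 3} (h : (ternarySupport x).card = 0) : x = 0 := by
  rw [Finset.card_eq_zero, ternarySupport, Finset.filter_eq_empty_iff] at h
  funext p
  exact not_not.1 (h (Finset.mem_univ p))

/-- the number of words of a given weight -/
theorem count_wt (w : ℕ) : {x : ArrayPt → ZMod 3 | x ∈ ternaryGolayCode ∧
    (ternarySupport x).card = w}.ncard = cntB 729 (fun a => Nat.beq (popc (get24 TS a)) w) := by
  apply ncard_eq_cnt wd 729 wd_inj
  intro s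
  constructor
  · rintro ⟨hs, hw⟩
    obtain ⟨a, ha, rfl⟩ := code_enum hs
    refine ⟨a, ha, ?_, rfl⟩
    rw [wt_wd ha] at hw
    rw [Nat.beq_eq]
    exact hw
  · rintro ⟨a, ha, hf, rfl⟩
    refine ⟨wd_mem ha, ?_⟩
    rw [wt_wd ha]
    exact Nat.eq_of_beq_eq_true hf

/-! ## The supports of size six -/

/-- the supports of the words of weight 6 -/
def Hex : Set (Finset ArrayPt) :=
  {h : Finset ArrayPt | ∃ x ∈ ternaryGolayCode, ternarySupport x = h ∧ h.card = 6}

theorem k_hx1 : allB 132 (fun k => Nat.beq (get24 TS (get24 HW k)) (get24 HX k) &&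
    Nat.beq (popc (get24 HX k)) 6 && Nat.blt (get24 HW k) 729) = true := by decide +kernel
theorem k_hx2 : allB 729 (fun a => bif Nat.beq (popc (get24 TS a)) 6 then
    Nat.beq (get24 HX (get24 WH a)) (get24 TS a) && Nat.blt (get24 WH a) 132 else true) = true := by
  decide +kernel
theorem k_hx3 : allB 131 (fun k => Nat.blt (get24 HX k) (get24 HX (Nat.succ k))) = true := by
  decide +kernel
theorem k_hx_lt : allB 132 (fun k => Nat.blt (get24 HX k) 4096) = true := by decide +kernel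

theorem hx_lt {k : ℕ} (hk : k < 132) : get24 HX k < 4096 := by
  have h := allB_spec k_hx_lt k hk
  rw [Nat.blt_eq] at h
  exact h

theorem hx_mem {k : ℕ} (hk : k < 132) : ofM (get24 HX k) ∈ Hex := by
  have h := allB_spec k_hx1 k hk
  rw [Bool.and_eq_true, Bool.and_eq_true, Nat.beq_eq, Nat.beq_eq, Nat.blt_eq] at h
  obtain ⟨⟨h1, h2⟩, h3⟩ := h
  refine ⟨wd (get24 HW k), wd_mem h3, ?_, ?_⟩
  · rw [supp_wd h3, h1]
  · rw [card_ofM (hx_lt hk), h2]

theorem mem_Hex_iff (h : Finset ArrayPt) : h ∈ Hex ↔ ∃ k, k < 132 ∧ h = ofM (get24 HX k) := by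
  constructor
  · rintro ⟨x, hx, rfl, hc⟩
    obtain ⟨a, ha, rfl⟩ := code_enum hx
    rw [wt_wd ha] at hc
    have h2 := allB_spec k_hx2 a ha
    rw [beq_of_eq hc, cond_true, Bool.and_eq_true, Nat.beq_eq, Nat.blt_eq] at h2
    exact ⟨get24 WH a, h2.2, by rw [supp_wd ha, h2.1]⟩
  · rintro ⟨k, hk, rfl⟩
    exact hx_mem hk

theorem hx_inj : ∀ k l, k < 132 → l < 132 → ofM (get24 HX k) = ofM (get24 HX l) → k = l := by
  have hmono := Sext.mono_of_chain (f := fun k => get24 HX k) (n := 131) (fun k hk' => by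
    have := allB_spec k_hx3 k hk'
    rw [Nat.blt_eq] at this
    exact this)
  intro k l hk hl e
  have e' := ofM_inj (hx_lt hk) (hx_lt hl) e
  by_contra hne
  rcases Nat.lt_or_gt_of_ne hne with hlt | hlt
  · have := hmono k l hlt hl; omega
  · have := hmono l k hlt hk; omega

theorem ncard_Hex : Hex.ncard = 132 := by
  refine (ncard_eq_cnt (fun k => ofM (get24 HX k)) 132 hx_inj _ (fun _ => true)
    (fun s => ?_)).trans (cnt_true 132)
  rw [mem_Hex_iff]
  constructor
  · rintro ⟨k, hk, e⟩; exact ⟨k, hk, rfl, e⟩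
  · rintro ⟨k, hk, -, e⟩; exact ⟨k, hk, e⟩

theorem k_st : allB 4096 (fun m => bif Nat.beq (popc m) 5 then
    (Nat.beq (Nat.land m (get24 HX (get24 WT m))) m && Nat.blt (get24 WT m) 132 &&
      allB 132 (fun l => bif Nat.beq (Nat.land m (get24 HX l)) m then Nat.beq l (get24 WT m)
        else true)) else true) = true := by decide +kernel

/-- the supports of size six form a Steiner system -/
theorem steiner : IsSteinerSystem 5 6 Hex := by
  refine ⟨fun b hb => ?_, fun s hs => ?_⟩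
  · obtain ⟨x, -, -, hc⟩ := hb
    exact hc
  · obtain ⟨m, hm, rfl⟩ := exists_maskA s
    rw [card_ofM hm] at hs
    have h := allB_spec k_st m hm
    rw [beq_of_eq hs, cond_true, Bool.and_eq_true, Bool.and_eq_true, Nat.beq_eq,
      Nat.blt_eq] at h
    obtain ⟨⟨h1, h2⟩, h3⟩ := h
    refine ⟨ofM (get24 HX (get24 WT m)), ⟨hx_mem h2, (ofM_subset_iff hm).2 h1⟩, ?_⟩
    rintro b ⟨hb, hsub⟩
    obtain ⟨l, hl, rfl⟩ := (mem_Hex_iff b).1 hb
    have h4 := allB_spec h3 l hl
    have h5 : m &&& get24 HX l = m := (ofM_subset_iff hm).1 hsub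
    have h6 : Nat.beq (Nat.land m (get24 HX l)) m = true := beq_of_eq h5
    rw [h6, cond_true, Nat.beq_eq] at h4
    rw [h4]

/-- any two positions lie in a common support of size six -/
theorem pair_cover (p q : ArrayPt) : ∃ b ∈ Hex, p ∈ b ∧ q ∈ b := by
  have hc : ({p, q} : Finset ArrayPt).card ≤ 5 :=
    (Finset.card_insert_le _ _).trans (by rw [Finset.card_singleton]; norm_num)
  have hcard : 5 ≤ Fintype.card ArrayPt := by
    rw [Fintype.card_prod, Fintype.card_fin, ZMod.card]; norm_num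
  obtain ⟨t, ht, htc⟩ := Finset.exists_superset_card_eq hc hcard
  obtain ⟨b, ⟨hb, hsub⟩, -⟩ := steiner.2 t htc
  exact ⟨b, hb, hsub (ht (Finset.mem_insert_self _ _)),
    hsub (ht (Finset.mem_insert_of_mem (Finset.mem_singleton_self _)))⟩

/-! ## Self-orthogonality -/

theorem sq3 : ∀ z : ZMod 3, z * z = if z ≠ 0 then 1 else 0 := by decide

theorem norm_zero {x : ArrayPt → ZMod 3} (hx : x ∈ ternaryGolayCode) : ∑ p, x p * x p = 0 := by
  have h1 : ∑ p, x p * x p = (((ternarySupport x).card : ℕ) : ZMod 3) := by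
    rw [ternarySupport, Finset.card_filter, Nat.cast_sum]
    apply Finset.sum_congr rfl
    intro p _
    rw [sq3]
    split_ifs <;> simp
  rw [h1]
  rcases weight_cases hx with h | h | h | h <;> rw [h] <;> decide

theorem two_mul3 : ∀ z : ZMod 3, z + z = 0 → z = 0 := by decide

theorem orthogonal {x y : ArrayPt → ZMod 3} (hx : x ∈ ternaryGolayCode)
    (hy : y ∈ ternaryGolayCode) : ∑ p, x p * y p = 0 := by
  have h1 := norm_zero (Submodule.add_mem _ hx hy)
  have h2 : ∑ p, (x + y) p * (x + y) p = ∑ p, x p * x p + ∑ p, y p * y p +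
      (∑ p, x p * y p + ∑ p, x p * y p) := by
    rw [← Finset.sum_add_distrib, ← Finset.sum_add_distrib, ← Finset.sum_add_distrib]
    apply Finset.sum_congr rfl
    intro p _
    rw [Pi.add_apply]
    ring
  rw [h2, norm_zero hx, norm_zero hy, zero_add, zero_add] at h1
  exact two_mul3 _ h1

/-! ## Sign changes -/

theorem unit3 : ∀ z : ZMod 3, z ≠ 0 → z = 1 ∨ z = -1 := by decide

theorem sign_const (c : ArrayPt → (ZMod 3)ˣ)
    (h : ∀ x ∈ ternaryGolayCode, monomialMap 1 c x ∈ ternaryGolayCode) {b : Finset ArrayPt}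
    (hb : b ∈ Hex) : (∀ p ∈ b, (c p : ZMod 3) = 1) ∨ (∀ p ∈ b, (c p : ZMod 3) = -1) := by
  obtain ⟨x, hx, rfl, hc⟩ := hb
  have hz := Submodule.sub_mem _ (h x hx) hx
  have hzp : ∀ p, (monomialMap 1 c x - x) p = ((c p : ZMod 3) - 1) * x p := by
    intro p
    show (c p : ZMod 3) * x p - x p = _
    ring
  have hsub : ternarySupport (monomialMap 1 c x - x) ⊆ ternarySupport x := by
    intro p hp
    rw [ternarySupport, Finset.mem_filter] at hp ⊢
    refine ⟨Finset.mem_univ _, fun h0 => hp.2 ?_⟩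
    rw [hzp, h0, mul_zero]
  have hle := Finset.card_le_card hsub
  rw [hc] at hle
  have k1 : ∀ u z : ZMod 3, u ≠ 0 → z ≠ 0 → (u - 1) * z = 0 → u = 1 := by decide
  have k2 : ∀ u z : ZMod 3, u ≠ 0 → z ≠ 0 → (u - 1) * z ≠ 0 → u = -1 := by decide
  rcases weight_cases hz with h0 | h6 | h9 | h12
  · left
    intro p hp
    have hxp : x p ≠ 0 := by
      rw [ternarySupport, Finset.mem_filter] at hp
      exact hp.2
    have h1 := congrFun (supp_zero h0) p
    rw [hzp] at h1
    exact k1 _ _ (Units.ne_zero (c p)) hxp h1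
  · right
    intro p hp
    have hxp : x p ≠ 0 := by
      rw [ternarySupport, Finset.mem_filter] at hp
      exact hp.2
    have heq := Finset.eq_of_subset_of_card_le hsub (by rw [hc, h6])
    rw [← heq, ternarySupport, Finset.mem_filter, hzp] at hp
    exact k2 _ _ (Units.ne_zero (c p)) hxp hp.2
  · omega
  · omega

/-- the sign changes preserving the code -/
theorem sign_changes (c : ArrayPt → (ZMod 3)ˣ)
    (h : ∀ x ∈ ternaryGolayCode, monomialMap 1 c x ∈ ternaryGolayCode) :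
    (∀ p, c p = 1) ∨ (∀ p, c p = -1) := by
  have key : ∀ p q, (c p : ZMod 3) = (c q : ZMod 3) := by
    intro p q
    obtain ⟨b, hb, hp, hq⟩ := pair_cover p q
    rcases sign_const c h hb with h1 | h1
    · rw [h1 p hp, h1 q hq]
    · rw [h1 p hp, h1 q hq]
  rcases unit3 _ (Units.ne_zero (c (0, 0))) with h1 | h1
  · left
    intro p
    apply Units.ext
    rw [key p (0, 0), h1]
    rfl
  · right
    intro p
    apply Units.ext
    rw [key p (0, 0), h1]
    rfl

end Cfsg.Agent.Helper28.TGolay
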