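import Mathlib
import Cfsg.Prelude.Def_SporadicCombinatorics
import Cfsg.Agent.Helper28.TGolay
import Cfsg.Agent.Helper28.HexaAut
import Cfsg.Agent.Helper28.Monomial
import Cfsg.Agent.Helper28.TGolayAutData

/-!
The monomial automorphisms of the ternary code of length 12: their permutation parts are the
automorphisms of the system of the supports of size six, a group of order 95040 acting sharply
five-fold transitively, and there are 190080 of them.
-/

set_option autoImplicit false

namespace Cfsg.Agent.Helper28.TGolayAut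

open Cfsg Cfsg.Agent.Helper12 Cfsg.Agent.Helper28.Sext Cfsg.Agent.Helper28.TGolay
  Cfsg.Agent.Helper28.TGolayData Cfsg.Agent.Helper28.Monomial Cfsg.Agent.Helper28.TGolayAutData
open Cfsg.Agent.Helper28.Hexa (allB_of')
open scoped Pointwise

/-! ## Permutations of the positions from tables -/

/-- entry `j` of the table number `k` -/
def tp (T k j : ℕ) : ℕ :=
  Nat.land (Nat.shiftRight T (Nat.mul 4 (Nat.add (Nat.mul 12 k) j))) 15

/-- the table number `k` and its inverse -/
def permOKA (k : ℕ) : Bool := allB 12 (fun j => Nat.blt (tp UT k j) 12 && Nat.blt (tp UQ k j) 12 &&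
  Nat.beq (tp UQ k (tp UT k j)) j && Nat.beq (tp UT k (tp UQ k j)) j)

theorem k_sys : allB 60 permOKA = true := by decide +kernel

theorem tab_spec {k : ℕ} (hk : k < 60) {j : ℕ} (hj : j < 12) :
    tp UT k j < 12 ∧ tp UQ k j < 12 ∧ tp UQ k (tp UT k j) = j ∧ tp UT k (tp UQ k j) = j := by
  have h := allB_spec (allB_spec k_sys k hk) j hj
  rw [Bool.and_eq_true, Bool.and_eq_true, Bool.and_eq_true, Nat.blt_eq, Nat.blt_eq, Nat.beq_eq,
    Nat.beq_eq] at h
  exact ⟨h.1.1.1, h.1.1.2, h.1.2, h.2⟩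

/-- the permutation number `k` of the table -/
def uel (k : ℕ) : Equiv.Perm ArrayPt :=
  if hk : k < 60 then
    { toFun := fun p => ap (tp UT k (ai p))
      invFun := fun p => ap (tp UQ k (ai p))
      left_inv := fun p => by
        have h := tab_spec hk (ai_lt p)
        show ap (tp UQ k (ai (ap (tp UT k (ai p))))) = p
        rw [ai_ap _ h.1, h.2.2.1, ap_ai]
      right_inv := fun p => by
        have h := tab_spec hk (ai_lt p)
        show ap (tp UT k (ai (ap (tp UQ k (ai p))))) = p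
        rw [ai_ap _ h.2.1, h.2.2.2, ap_ai] }
  else 1

theorem uel_apply {k : ℕ} (hk : k < 60) (p : ArrayPt) : uel k p = ap (tp UT k (ai p)) := by
  rw [uel, dif_pos hk]
  rfl

theorem uel_symm_apply {k : ℕ} (hk : k < 60) (p : ArrayPt) :
    (uel k).symm p = ap (tp UQ k (ai p)) := by
  rw [uel, dif_pos hk]
  rfl

/-! ## Masks under permutations -/

theorem mem_smul_finset' {α : Type*} [DecidableEq α] (σ : Equiv.Perm α) (p : α) (s : Finset α) :
    p ∈ σ • s ↔ σ.symm p ∈ s := by
  rw [← Finset.inv_smul_mem_iff]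
  rfl

/-- the pull-back of a mask along a map of the numbers, up to `n` -/
def pullA (g : ℕ → ℕ) (m n : ℕ) : ℕ :=
  Nat.rec (motive := fun _ => ℕ) 0
    (fun j acc => bif tb m (g j) then Nat.lor acc (Nat.shiftLeft 1 j) else acc) n

/-- the pull-back of a mask along a map of the numbers -/
def pullM (g : ℕ → ℕ) (m : ℕ) : ℕ := pullA g m 12

theorem pullA_testBit (g : ℕ → ℕ) (m : ℕ) :
    ∀ n j, (pullA g m n).testBit j = (decide (j < n) && tb m (g j)) := by
  intro n
  induction n with
  | zero =>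
    intro j
    show (0 : ℕ).testBit j = _
    simp
  | succ n ih =>
    intro j
    have e : pullA g m (n + 1) = bif tb m (g n) then pullA g m n ||| (1 <<< n) else pullA g m n :=
      rfl
    rw [e]
    cases hb : tb m (g n) with
    | true =>
      rw [cond_true, Nat.testBit_or, ih, Nat.one_shiftLeft, Nat.testBit_two_pow]
      by_cases hj : n = j
      · subst hj
        simp [hb]
      · have h1 : decide (n = j) = false := decide_eq_false hj
        rw [h1, Bool.or_false]
        congr 1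
        apply Bool.eq_iff_iff.2
        rw [decide_eq_true_iff, decide_eq_true_iff]
        omega
    | false =>
      rw [cond_false, ih]
      by_cases hj : n = j
      · subst hj
        simp [hb]
      · congr 1
        apply Bool.eq_iff_iff.2
        rw [decide_eq_true_iff, decide_eq_true_iff]
        omega

theorem pullM_testBit (g : ℕ → ℕ) (m : ℕ) {j : ℕ} (hj : j < 12) :
    (pullM g m).testBit j = tb m (g j) := by
  rw [pullM, pullA_testBit, decide_eq_true hj, Bool.true_and]

theorem pullM_lt (g : ℕ → ℕ) (m : ℕ) : pullM g m < 4096 := by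
  have h : pullM g m < 2 ^ 12 := by
    apply Nat.lt_pow_two_of_testBit
    intro i hi
    rw [pullM, pullA_testBit, decide_eq_false (by omega), Bool.false_and]
  exact h

theorem pullM_congr {g g' : ℕ → ℕ} (h : ∀ j, j < 12 → g j = g' j) (m : ℕ) :
    pullM g m = pullM g' m := by
  apply Nat.eq_of_testBit_eq
  intro i
  rw [pullM, pullM, pullA_testBit, pullA_testBit]
  by_cases hi : i < 12
  · rw [h i hi]
  · rw [decide_eq_false hi, Bool.false_and, Bool.false_and]

theorem smul_ofM (σ : Equiv.Perm ArrayPt) (g : ℕ → ℕ) (hg : ∀ p, ai (σ.symm p) = g (ai p))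
    (m : ℕ) : σ • ofM m = ofM (pullM g m) := by
  ext p
  rw [mem_smul_finset', mem_ofM, mem_ofM, pullM_testBit _ _ (ai_lt p), hg, tb_eq]

/-! ## The supports of size six as a bitmap -/

theorem k_hb : allB 4096 (fun w => beqB (tb HB w) (anyB 132 (fun i => Nat.beq (get24 HX i) w)))
    = true := by decide +kernel

theorem mem_Hex_of_hb {w : ℕ} (hw : w < 4096) (h : tb HB w = true) : ofM w ∈ Hex := by
  rw [beqB_spec (allB_spec k_hb w hw)] at h
  obtain ⟨i, hi, e⟩ := anyB_iff.1 h
  rw [← Nat.eq_of_beq_eq_true e]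
  exact hx_mem hi

theorem hb_of_mem {w : ℕ} (hw : w < 4096) (h : ofM w ∈ Hex) : tb HB w = true := by
  rw [beqB_spec (allB_spec k_hb w hw)]
  obtain ⟨k, hk, e⟩ := (mem_Hex_iff _).1 h
  refine anyB_iff.2 ⟨k, hk, ?_⟩
  rw [Nat.beq_eq]
  exact (ofM_inj hw (hx_lt hk) e).symm

/-! ## The automorphisms of the system -/

theorem mem_K_of_sub {σ : Equiv.Perm ArrayPt} (h : ∀ b ∈ Hex, σ • b ∈ Hex) :
    σ ∈ setSystemAut Hex := by
  rw [MulAction.mem_stabilizer_iff]
  apply Set.eq_of_subset_of_ncard_le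
  · rintro _ ⟨b, hb, rfl⟩
    exact h b hb
  · exact le_of_eq (Set.ncard_image_of_injective Hex (MulAction.injective σ)).symm
  · exact Set.toFinite _

theorem K_smul {σ : Equiv.Perm ArrayPt} (hσ : σ ∈ setSystemAut Hex) {b : Finset ArrayPt}
    (hb : b ∈ Hex) : σ • b ∈ Hex := by
  have h1 : σ • Hex = Hex := MulAction.mem_stabilizer_iff.1 hσ
  have h2 : σ • b ∈ σ • Hex := Set.smul_mem_smul_set hb
  rwa [h1] at h2

theorem k_uh : allB 60 (fun k => allB 132 (fun i => tb HB (pullM (tp UQ k) (get24 HX i)))) = true := by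
  decide +kernel

theorem uel_symm_ai {k : ℕ} (hk : k < 60) (p : ArrayPt) :
    ai ((uel k).symm p) = tp UQ k (ai p) := by
  rw [uel_symm_apply hk, ai_ap _ (tab_spec hk (ai_lt p)).2.1]

theorem uel_mem_K {k : ℕ} (hk : k < 60) : uel k ∈ setSystemAut Hex := by
  apply mem_K_of_sub
  intro b hb
  obtain ⟨i, hi, rfl⟩ := (mem_Hex_iff b).1 hb
  rw [smul_ofM (uel k) (tp UQ k) (uel_symm_ai hk)]
  exact mem_Hex_of_hb (pullM_lt _ _) (allB_spec (allB_spec k_uh k hk) i hi)

/-! ## The diagonal parts of the listed permutations -/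

/-- the sign of the position `j` for the permutation number `k` -/
def sg (k j : ℕ) : ℕ := tp US k j

/-- coordinate `j` of the image of the word number `a` -/
def imc (k a j : ℕ) : ℕ := Nat.mod (Nat.mul (sg k j) (cw a (tp UQ k j))) 3

/-- the number of the image of the word number `a` -/
def ima (k a : ℕ) : ℕ := Nat.add (Nat.add (Nat.add (Nat.add (Nat.add (imc k a 0)
  (Nat.mul 3 (imc k a 1))) (Nat.mul 9 (imc k a 2))) (Nat.mul 27 (imc k a 3)))
  (Nat.mul 81 (imc k a 4))) (Nat.mul 243 (imc k a 6))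

theorem k_pres : allB 60 (fun k => allB 12 (fun j => Nat.beq (sg k j) 1 || Nat.beq (sg k j) 2) &&
    allB 729 (fun a => allB 12 (fun j => Nat.beq (imc k a j) (cw (ima k a) j)))) = true := by
  decide +kernel

theorem ima_lt (k a : ℕ) : ima k a < 729 := by
  have h0 : imc k a 0 < 3 := Nat.mod_lt _ (by norm_num)
  have h1 : imc k a 1 < 3 := Nat.mod_lt _ (by norm_num)
  have h2 : imc k a 2 < 3 := Nat.mod_lt _ (by norm_num)
  have h3 : imc k a 3 < 3 := Nat.mod_lt _ (by norm_num)
  have h4 : imc k a 4 < 3 := Nat.mod_lt _ (by norm_num)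
  have h6 : imc k a 6 < 3 := Nat.mod_lt _ (by norm_num)
  show imc k a 0 + 3 * imc k a 1 + 9 * imc k a 2 + 27 * imc k a 3 + 81 * imc k a 4 +
    243 * imc k a 6 < 729
  omega

/-- the diagonal part for the permutation number `k` -/
def sgv (k : ℕ) : ArrayPt → (ZMod 3)ˣ := fun p => if sg k (ai p) = 1 then 1 else -1

theorem sgv_val {k : ℕ} (hk : k < 60) (p : ArrayPt) :
    ((sgv k p : (ZMod 3)ˣ) : ZMod 3) = ((sg k (ai p) : ℕ) : ZMod 3) := by
  have h := allB_spec k_pres k hk
  rw [Bool.and_eq_true] at h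
  have h1 := allB_spec h.1 (ai p) (ai_lt p)
  rw [Bool.or_eq_true, Nat.beq_eq, Nat.beq_eq] at h1
  rcases h1 with h1 | h1
  · rw [sgv, if_pos h1, h1]
    rfl
  · rw [sgv, if_neg (by omega), h1]
    rfl

theorem uel_pres {k : ℕ} (hk : k < 60) : Pres ternaryGolayCode (uel k) (sgv k) := by
  intro x hx
  obtain ⟨a, ha, rfl⟩ := code_enum hx
  have h := allB_spec k_pres k hk
  rw [Bool.and_eq_true] at h
  have h1 : monomialMap (uel k) (sgv k) (wd a) = wd (ima k a) := by
    funext p
    have h2 : imc k a (ai p) = cw (ima k a) (ai p) :=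
      Nat.eq_of_beq_eq_true (allB_spec (allB_spec h.2 a ha) (ai p) (ai_lt p))
    show ((sgv k p : (ZMod 3)ˣ) : ZMod 3) * wd a ((uel k).symm p) = wd (ima k a) p
    rw [sgv_val hk, wd_apply, wd_apply, uel_symm_ai hk, ← Nat.cast_mul, ← h2]
    exact (ZMod.natCast_mod _ 3).symm
  rw [h1]
  exact wd_mem (ima_lt k a)

/-! ## The transversal -/

theorem k_trans : allB 5 (fun l => allB 12 (fun q => bif Nat.blt q l then true else
    (Nat.beq (tp UT (Nat.add (Nat.mul 12 l) q) l) q &&
      allB l (fun i => Nat.beq (tp UT (Nat.add (Nat.mul 12 l) q) i) i)))) = true := by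
  decide +kernel

theorem uel_trans {l q : ℕ} (hl : l < 5) (hq : q < 12) (hlq : l ≤ q) :
    uel (12 * l + q) (ap l) = ap q ∧ ∀ i, i < l → uel (12 * l + q) (ap i) = ap i := by
  have hk : 12 * l + q < 60 := by omega
  have h := allB_spec (allB_spec k_trans l hl) q hq
  have hb : Nat.blt q l = false := by
    cases hb : Nat.blt q l with
    | false => rfl
    | true =>
      rw [Nat.blt_eq] at hb
      omega
  rw [hb, cond_false, Bool.and_eq_true, Nat.beq_eq] at h
  constructor
  · rw [uel_apply hk, ai_ap l (by omega)]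
    exact congrArg ap h.1
  · intro i hi
    rw [uel_apply hk, ai_ap i (by omega)]
    exact congrArg ap (Nat.eq_of_beq_eq_true (allB_spec h.2 i hi))

theorem img_ge {τ : Equiv.Perm ArrayPt} {l j : ℕ} (hj : j < 12) (hlj : l ≤ j)
    (hfix : ∀ i, i < l → τ (ap i) = ap i) : l ≤ ai (τ (ap j)) := by
  by_contra hlt
  rw [not_le] at hlt
  have h1 := hfix _ hlt
  rw [ap_ai] at h1
  have h2 := τ.injective h1
  have h3 : ai (τ (ap j)) = j := by
    rw [h2, ai_ap j hj]
  omega

/-- one step of the reduction along the transversal -/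
theorem step {σ : Equiv.Perm ArrayPt} {l : ℕ} (hl : l < 5)
    (hfix : ∀ i, i < l → σ (ap i) = ap i) :
    ∃ k, k < 60 ∧ (∀ i, i < l → uel k (ap i) = ap i) ∧
      ∀ i, i < l + 1 → ((uel k)⁻¹ * σ) (ap i) = ap i := by
  have hq : ai (σ (ap l)) < 12 := ai_lt _
  have hlq : l ≤ ai (σ (ap l)) := img_ge (by omega) le_rfl hfix
  obtain ⟨h1, h2⟩ := uel_trans hl hq hlq
  refine ⟨12 * l + ai (σ (ap l)), by omega, h2, ?_⟩
  intro i hi
  rw [Equiv.Perm.mul_apply, Equiv.Perm.inv_eq_iff_eq]
  rcases Nat.lt_succ_iff_lt_or_eq.1 hi with hi' | rfl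
  · rw [hfix i hi', h2 i hi']
  · rw [h1, ap_ai]

/-! ## An automorphism fixing five positions is trivial -/

/-- the map of the numbers given by a map of the last six numbers -/
def gS (s j : ℕ) : ℕ :=
  bif Nat.blt j 6 then j else Nat.add 6 (Nat.mod (Nat.div s (Nat.pow 6 (Nat.sub j 6))) 6)

theorem k_triv : allB 46656 (fun s => bif allB 132 (fun i => tb HB (pullM (gS s) (get24 HX i)))
    then Nat.beq s 44790 else true) = true := by decide +kernel

theorem k_h0 : tb HB 63 = true := by decide +kernel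

theorem h0_lt : ∀ p : ArrayPt, p ∈ ofM 63 → ai p < 6 := by decide
theorem h0_mem : ∀ i, i < 6 → ap i ∈ ofM 63 := by decide

theorem triv {σ : Equiv.Perm ArrayPt} (hσ : σ ∈ setSystemAut Hex)
    (hfix : ∀ i, i < 5 → σ (ap i) = ap i) : σ = 1 := by
  -- the support through the five positions is fixed
  have hb : σ • ofM 63 ∈ Hex := K_smul hσ (mem_Hex_of_hb (by norm_num) k_h0)
  have h5 : (ofM 31).card = 5 := by decide
  have hs1 : ofM 31 ⊆ ofM 63 := by decide
  have hs2 : ofM 31 ⊆ σ • ofM 63 := by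
    intro p hp
    have hp5 : ai p < 5 := by
      revert p
      decide
    have h6 := hfix (ai p) hp5
    rw [ap_ai] at h6
    rw [mem_smul_finset', (Equiv.symm_apply_eq σ).2 h6.symm]
    exact hs1 hp
  have hun := (steiner.2 (ofM 31) h5).unique ⟨hb, hs2⟩ ⟨mem_Hex_of_hb (by norm_num) k_h0, hs1⟩
  have hfix5 : σ (ap 5) = ap 5 := by
    have h1 : σ (ap 5) ∈ σ • ofM 63 := by
      rw [mem_smul_finset', Equiv.symm_apply_apply]
      exact h0_mem 5 (by norm_num)
    rw [hun] at h1
    have h2 := h0_lt _ h1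
    have h3 := img_ge (τ := σ) (l := 5) (j := 5) (by norm_num) le_rfl hfix
    have h4 : ai (σ (ap 5)) = 5 := by omega
    have h6 : ap (ai (σ (ap 5))) = σ (ap 5) := ap_ai _
    rw [h4] at h6
    exact h6.symm
  have hfix6 : ∀ i, i < 6 → σ (ap i) = ap i := by
    intro i hi
    rcases Nat.lt_succ_iff_lt_or_eq.1 hi with hi' | rfl
    · exact hfix i hi'
    · exact hfix5
  have hfix6' : ∀ i, i < 6 → σ.symm (ap i) = ap i := fun i hi =>
    (Equiv.symm_apply_eq σ).2 (hfix6 i hi).symm
  -- the map of the numbers given by the inverse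
  have hg : ∀ p, ai (σ.symm p) = (fun j => ai (σ.symm (ap j))) (ai p) := by
    intro p
    show ai (σ.symm p) = ai (σ.symm (ap (ai p)))
    rw [ap_ai]
  have g_lt : ∀ j, ai (σ.symm (ap j)) < 12 := fun j => ai_lt _
  have g_ge : ∀ j, j < 12 → 6 ≤ j → 6 ≤ ai (σ.symm (ap j)) := fun j hj h6 =>
    img_ge (τ := σ.symm) hj h6 hfix6'
  have g6 := g_ge 6 (by norm_num) le_rfl
  have g7 := g_ge 7 (by norm_num) (by norm_num)
  have g8 := g_ge 8 (by norm_num) (by norm_num)
  have g9 := g_ge 9 (by norm_num) (by norm_num)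
  have g10 := g_ge 10 (by norm_num) (by norm_num)
  have g11 := g_ge 11 (by norm_num) (by norm_num)
  have l6 := g_lt 6
  have l7 := g_lt 7
  have l8 := g_lt 8
  have l9 := g_lt 9
  have l10 := g_lt 10
  have l11 := g_lt 11
  have hs : (ai (σ.symm (ap 6)) - 6) + 6 * (ai (σ.symm (ap 7)) - 6) +
      36 * (ai (σ.symm (ap 8)) - 6) + 216 * (ai (σ.symm (ap 9)) - 6) +
      1296 * (ai (σ.symm (ap 10)) - 6) + 7776 * (ai (σ.symm (ap 11)) - 6) < 46656 := by omega
  have hagree : ∀ j, j < 12 → (fun j => ai (σ.symm (ap j))) j =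
      gS ((ai (σ.symm (ap 6)) - 6) + 6 * (ai (σ.symm (ap 7)) - 6) +
      36 * (ai (σ.symm (ap 8)) - 6) + 216 * (ai (σ.symm (ap 9)) - 6) +
      1296 * (ai (σ.symm (ap 10)) - 6) + 7776 * (ai (σ.symm (ap 11)) - 6)) j := by
    intro j hj
    show ai (σ.symm (ap j)) = _
    by_cases h6 : j < 6
    · rw [hfix6' j h6, ai_ap j hj]
      have hb : Nat.blt j 6 = true := by rw [Nat.blt_eq]; exact h6
      rw [gS, hb, cond_true]
    · have hb : Nat.blt j 6 = false := by
        cases hb : Nat.blt j 6 with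
        | false => rfl
        | true => rw [Nat.blt_eq] at hb; omega
      rw [gS, hb, cond_false]
      have hj' : j = 6 ∨ j = 7 ∨ j = 8 ∨ j = 9 ∨ j = 10 ∨ j = 11 := by omega
      rcases hj' with rfl | rfl | rfl | rfl | rfl | rfl
      · show _ = 6 + (_ / 1) % 6
        omega
      · show _ = 6 + (_ / 6) % 6
        omega
      · show _ = 6 + (_ / 36) % 6
        omega
      · show _ = 6 + (_ / 216) % 6
        omega
      · show _ = 6 + (_ / 1296) % 6
        omega
      · show _ = 6 + (_ / 7776) % 6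
        omega
  have hall : allB 132 (fun i => tb HB (pullM (gS ((ai (σ.symm (ap 6)) - 6) +
      6 * (ai (σ.symm (ap 7)) - 6) + 36 * (ai (σ.symm (ap 8)) - 6) +
      216 * (ai (σ.symm (ap 9)) - 6) + 1296 * (ai (σ.symm (ap 10)) - 6) +
      7776 * (ai (σ.symm (ap 11)) - 6))) (get24 HX i))) = true := by
    apply allB_of'
    intro i hi
    rw [← pullM_congr hagree]
    apply hb_of_mem (pullM_lt _ _)
    rw [← smul_ofM σ _ hg]
    exact K_smul hσ (hx_mem hi)
  have hk := allB_spec k_triv _ hs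
  rw [hall, cond_true, Nat.beq_eq] at hk
  -- all the positions are fixed
  have key : ∀ j, j < 12 → ai (σ.symm (ap j)) = j := by
    intro j hj
    by_cases h6 : j < 6
    · rw [hfix6' j h6, ai_ap j hj]
    · have hj' : j = 6 ∨ j = 7 ∨ j = 8 ∨ j = 9 ∨ j = 10 ∨ j = 11 := by omega
      rcases hj' with rfl | rfl | rfl | rfl | rfl | rfl <;> omega
  have hsymm : σ.symm = 1 := by
    ext p
    · have h1 := key (ai p) (ai_lt p)
      rw [ap_ai] at h1
      have h2 := congrArg ap h1
      rw [ap_ai, ap_ai] at h2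
      rw [h2]
      rfl
    · have h1 := key (ai p) (ai_lt p)
      rw [ap_ai] at h1
      have h2 := congrArg ap h1
      rw [ap_ai, ap_ai] at h2
      rw [h2]
      rfl
  have h1 : σ⁻¹ = 1 := hsymm
  exact inv_eq_one.1 h1

/-! ## The permutation parts -/

theorem chain (Q : Equiv.Perm ArrayPt → Prop)
    (hQ : ∀ k, k < 60 → ∀ τ, τ ∈ setSystemAut Hex → Q τ → Q (uel k * τ)) (h1 : Q 1) :
    ∀ σ, σ ∈ setSystemAut Hex → Q σ := by
  have key : ∀ d l, l + d = 5 → ∀ σ, σ ∈ setSystemAut Hex →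
      (∀ i, i < l → σ (ap i) = ap i) → Q σ := by
    intro d
    induction d with
    | zero =>
      intro l hl σ hσ hfix
      have hl5 : l = 5 := by omega
      subst hl5
      rw [triv hσ hfix]
      exact h1
    | succ d ih =>
      intro l hl σ hσ hfix
      obtain ⟨k, hk, -, hk2⟩ := step (by omega : l < 5) hfix
      have hτ : (uel k)⁻¹ * σ ∈ setSystemAut Hex := mul_mem (inv_mem (uel_mem_K hk)) hσ
      have h2 := hQ k hk _ hτ (ih (l + 1) (by omega) _ hτ hk2)
      rw [mul_inv_cancel_left] at h2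
      exact h2
  intro σ hσ
  exact key 5 0 rfl σ hσ (fun i hi => absurd hi (Nat.not_lt_zero i))

theorem supp_mono (σ : Equiv.Perm ArrayPt) (c : ArrayPt → (ZMod 3)ˣ) (x : ArrayPt → ZMod 3) :
    ternarySupport (monomialMap σ c x) = σ • ternarySupport x := by
  ext p
  rw [mem_smul_finset', ternarySupport, ternarySupport, Finset.mem_filter, Finset.mem_filter]
  simp only [Finset.mem_univ, true_and, mono_apply]
  constructor
  · intro h h0
    apply h
    rw [h0, mul_zero]
  · intro h h0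
    rcases mul_eq_zero.1 h0 with h1 | h1
    · exact Units.ne_zero _ h1
    · exact h h1

theorem perm_parts : {σ : Equiv.Perm ArrayPt | ∃ c : ArrayPt → (ZMod 3)ˣ,
    Pres ternaryGolayCode σ c} = (setSystemAut Hex : Set (Equiv.Perm ArrayPt)) := by
  ext σ
  rw [SetLike.mem_coe]
  constructor
  · rintro ⟨c, hc⟩
    apply mem_K_of_sub
    rintro b ⟨x, hx, rfl, hcard⟩
    refine ⟨monomialMap σ c x, hc x hx, supp_mono σ c x, ?_⟩
    rw [Finset.card_smul_finset]
    exact hcard
  · intro hσ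
    refine chain (fun σ => ∃ c : ArrayPt → (ZMod 3)ˣ, Pres ternaryGolayCode σ c) ?_ ?_ σ hσ
    · rintro k hk τ - ⟨c, hc⟩
      exact ⟨_, pres_mul (uel_pres hk) hc⟩
    · exact ⟨_, pres_one _⟩

/-! ## The order -/

theorem card_orbit_mul' {α : Type*} [Fintype α] [DecidableEq α] (K : Subgroup (Equiv.Perm α))
    (p : α) (O : Finset α) (hO : ∀ q, q ∈ O ↔ ∃ c ∈ K, c p = q) :
    Nat.card K = O.card * Nat.card ↥(K ⊓ MulAction.stabilizer (Equiv.Perm α) p) := by
  have h1 := Subgroup.card_mul_index (MulAction.stabilizer ↥K p)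
  have h2 : (MulAction.stabilizer ↥K p).index = O.card := by
    have : MulAction.orbit ↥K p = ↑O := by
      ext q
      rw [Finset.mem_coe, hO, MulAction.mem_orbit_iff]
      constructor
      · rintro ⟨c, rfl⟩; exact ⟨c.1, c.2, rfl⟩
      · rintro ⟨c, hc, rfl⟩; exact ⟨⟨c, hc⟩, rfl⟩
    rw [MulAction.index_stabilizer, this, Set.ncard_coe_finset]
  have h3 : Nat.card (MulAction.stabilizer ↥K p) =
      Nat.card ↥(K ⊓ MulAction.stabilizer (Equiv.Perm α) p) := by
    apply Nat.card_congr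
    exact { toFun := fun x => ⟨x.1.1, ⟨x.1.2, x.2⟩⟩
            invFun := fun y => ⟨⟨y.1, y.2.1⟩, y.2.2⟩
            left_inv := fun _ => rfl
            right_inv := fun _ => rfl }
  rw [← h1, h2, h3, mul_comm]

/-- the automorphisms fixing the first `l` positions -/
def KS : ℕ → Subgroup (Equiv.Perm ArrayPt)
  | 0 => setSystemAut Hex
  | (l + 1) => KS l ⊓ MulAction.stabilizer (Equiv.Perm ArrayPt) (ap l)

theorem mem_KS (l : ℕ) (σ : Equiv.Perm ArrayPt) :
    σ ∈ KS l ↔ σ ∈ setSystemAut Hex ∧ ∀ i, i < l → σ (ap i) = ap i := by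
  induction l with
  | zero =>
    show σ ∈ setSystemAut Hex ↔ _
    constructor
    · intro h
      exact ⟨h, fun i hi => absurd hi (Nat.not_lt_zero i)⟩
    · intro h
      exact h.1
  | succ l ih =>
    show σ ∈ KS l ⊓ MulAction.stabilizer (Equiv.Perm ArrayPt) (ap l) ↔ _
    rw [Subgroup.mem_inf, ih, MulAction.mem_stabilizer_iff]
    constructor
    · rintro ⟨⟨h1, h2⟩, h3⟩
      refine ⟨h1, fun i hi => ?_⟩
      rcases Nat.lt_succ_iff_lt_or_eq.1 hi with hi' | rfl
      · exact h2 i hi'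
      · exact h3
    · rintro ⟨h1, h2⟩
      exact ⟨⟨h1, fun i hi => h2 i (Nat.lt_succ_of_lt hi)⟩, h2 l (Nat.lt_succ_self l)⟩

theorem card_step {l : ℕ} (hl : l < 5) :
    Nat.card ↥(KS l) = (Finset.univ.filter (fun p : ArrayPt => l ≤ ai p)).card *
      Nat.card ↥(KS (l + 1)) := by
  apply card_orbit_mul' (KS l) (ap l)
  intro q
  rw [Finset.mem_filter]
  constructor
  · rintro ⟨-, hq⟩
    obtain ⟨h1, h2⟩ := uel_trans hl (ai_lt q) hq
    refine ⟨uel (12 * l + ai q), (mem_KS l _).2 ⟨uel_mem_K (by have := ai_lt q; omega), h2⟩, ?_⟩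
    rw [h1, ap_ai]
  · rintro ⟨c, hc, rfl⟩
    exact ⟨Finset.mem_univ _, img_ge (by omega) le_rfl ((mem_KS l c).1 hc).2⟩

theorem card_K : Nat.card ↥(setSystemAut Hex) = 95040 := by
  have e0 := card_step (l := 0) (by norm_num)
  have e1 := card_step (l := 1) (by norm_num)
  have e2 := card_step (l := 2) (by norm_num)
  have e3 := card_step (l := 3) (by norm_num)
  have e4 := card_step (l := 4) (by norm_num)
  have c0 : (Finset.univ.filter (fun p : ArrayPt => 0 ≤ ai p)).card = 12 := by decide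
  have c1 : (Finset.univ.filter (fun p : ArrayPt => 1 ≤ ai p)).card = 11 := by decide
  have c2 : (Finset.univ.filter (fun p : ArrayPt => 2 ≤ ai p)).card = 10 := by decide
  have c3 : (Finset.univ.filter (fun p : ArrayPt => 3 ≤ ai p)).card = 9 := by decide
  have c4 : (Finset.univ.filter (fun p : ArrayPt => 4 ≤ ai p)).card = 8 := by decide
  have e5 : Nat.card ↥(KS 5) = 1 := by
    have hbot : KS 5 = ⊥ := by
      rw [eq_bot_iff]
      intro σ hσ
      rw [Subgroup.mem_bot]
      exact triv ((mem_KS 5 σ).1 hσ).1 ((mem_KS 5 σ).1 hσ).2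
    rw [hbot]
    exact Subgroup.card_bot
  rw [c0] at e0
  rw [c1] at e1
  rw [c2] at e2
  rw [c3] at e3
  rw [c4, e5] at e4
  have e : Nat.card ↥(KS 0) = 95040 := by
    rw [e0, e1, e2, e3, e4]
  exact e

/-- the statement -/
theorem main : Nat.card {f : Equiv.Perm ArrayPt × (ArrayPt → (ZMod 3)ˣ) //
      (∀ x ∈ ternaryGolayCode, monomialMap f.1 f.2 x ∈ ternaryGolayCode)} = 190080 ∧
    {σ : Equiv.Perm ArrayPt | ∃ c : ArrayPt → (ZMod 3)ˣ,
      (∀ x ∈ ternaryGolayCode, monomialMap σ c x ∈ ternaryGolayCode)} =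
      (setSystemAut {h : Finset ArrayPt | ∃ x ∈ ternaryGolayCode,
        ternarySupport x = h ∧ h.card = 6} : Set (Equiv.Perm ArrayPt)) := by
  refine ⟨?_, perm_parts⟩
  have h1 := card_pres ternaryGolayCode
  have h2 := card_diag ternaryGolayCode ((0, 0) : ArrayPt) (fun c h => by
    rcases sign_changes c h with h3 | h3
    · intro i j; rw [h3 i, h3 j]
    · intro i j; rw [h3 i, h3 j])
  have h3 : Nat.card {σ : Equiv.Perm ArrayPt // ∃ c : ArrayPt → (ZMod 3)ˣ,
      Pres ternaryGolayCode σ c} = Nat.card ↥(setSystemAut Hex) := by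
    apply Nat.card_congr
    apply Equiv.subtypeEquivRight
    intro σ
    exact Set.ext_iff.1 perm_parts σ
  have h4 : Nat.card (ZMod 3)ˣ = 2 := by
    rw [Nat.card_eq_fintype_card]
    decide
  rw [h2, h3, h4, card_K] at h1
  exact h1

end Cfsg.Agent.Helper28.TGolayAut
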