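import Mathlib
import Cfsg.Prelude.Def_SporadicCombinatorics
import Cfsg.Agent.Helper28.TGolayAut
import Cfsg.Agent.Helper28.M12FinData

/-!
The explicit permutation group of degree 12 generated by eight permutations: it is conjugate to
the automorphism group of the system of the supports of size six of the ternary code of length
12, hence sharply five-fold transitive of order 95040, and the subgroup generated by the first
seven permutations is the stabilizer of a point.
-/

set_option autoImplicit false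

namespace Cfsg.Agent.Helper28.M12Fin

open Cfsg Cfsg.Agent.Helper12 Cfsg.Agent.Helper28.Sext Cfsg.Agent.Helper28.TGolay
  Cfsg.Agent.Helper28.TGolayData Cfsg.Agent.Helper28.TGolayAutData Cfsg.Agent.Helper28.TGolayAut
  Cfsg.Agent.Helper28.M12FinData
open scoped Pointwise

/-- entry `j` of a table of twelve numbers -/
def t4 (T j : ℕ) : ℕ := Nat.land (Nat.shiftRight T (Nat.mul 4 j)) 15

/-- the bijection between the positions of the array and the twelve points -/
def E : ArrayPt ≃ Fin 12 where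
  toFun p := ⟨t4 LB (ai p) % 12, Nat.mod_lt _ (by norm_num)⟩
  invFun x := ap (t4 NB x.val)
  left_inv := by decide
  right_inv := by decide

/-- conjugation by the bijection -/
def cj : Equiv.Perm ArrayPt ≃* Equiv.Perm (Fin 12) := E.permCongrHom

theorem cj_apply (σ : Equiv.Perm ArrayPt) (x : Fin 12) : cj σ x = E (σ (E.symm x)) := rfl

theorem cj_symm_apply (g : Equiv.Perm (Fin 12)) (p : ArrayPt) :
    cj.symm g p = E.symm (g (E p)) := rfl

/-! ## The generators -/

def gS : Equiv.Perm (Fin 12) := Equiv.swap (3 : Fin 12) 5 * Equiv.swap (3 : Fin 12) 4 *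
  Equiv.swap (6 : Fin 12) 8 * Equiv.swap (6 : Fin 12) 7 * Equiv.swap (9 : Fin 12) 11 *
  Equiv.swap (9 : Fin 12) 10
def gT : Equiv.Perm (Fin 12) := Equiv.swap (3 : Fin 12) 9 * Equiv.swap (3 : Fin 12) 6 *
  Equiv.swap (4 : Fin 12) 10 * Equiv.swap (4 : Fin 12) 7 * Equiv.swap (5 : Fin 12) 11 *
  Equiv.swap (5 : Fin 12) 8
def gU : Equiv.Perm (Fin 12) := Equiv.swap (4 : Fin 12) 9 * Equiv.swap (4 : Fin 12) 5 *
  Equiv.swap (4 : Fin 12) 6 * Equiv.swap (7 : Fin 12) 10 * Equiv.swap (7 : Fin 12) 11 *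
  Equiv.swap (7 : Fin 12) 8
def gV : Equiv.Perm (Fin 12) := Equiv.swap (4 : Fin 12) 11 * Equiv.swap (4 : Fin 12) 5 *
  Equiv.swap (4 : Fin 12) 7 * Equiv.swap (6 : Fin 12) 8 * Equiv.swap (6 : Fin 12) 9 *
  Equiv.swap (6 : Fin 12) 10
def gW : Equiv.Perm (Fin 12) := Equiv.swap (4 : Fin 12) 8 * Equiv.swap (4 : Fin 12) 5 *
  Equiv.swap (4 : Fin 12) 10 * Equiv.swap (6 : Fin 12) 7 * Equiv.swap (6 : Fin 12) 9 *
  Equiv.swap (6 : Fin 12) 11
def gX1 : Equiv.Perm (Fin 12) := Equiv.swap (0 : Fin 12) 3 * Equiv.swap (6 : Fin 12) 7 *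
  Equiv.swap (8 : Fin 12) 10 * Equiv.swap (9 : Fin 12) 11
def gX2 : Equiv.Perm (Fin 12) := Equiv.swap (0 : Fin 12) 1 * Equiv.swap (6 : Fin 12) 9 *
  Equiv.swap (7 : Fin 12) 10 * Equiv.swap (8 : Fin 12) 11
def gX3 : Equiv.Perm (Fin 12) := Equiv.swap (1 : Fin 12) 2 * Equiv.swap (6 : Fin 12) 11 *
  Equiv.swap (7 : Fin 12) 9 * Equiv.swap (8 : Fin 12) 10

/-- the generator number `i` -/
def g8 (i : ℕ) : Equiv.Perm (Fin 12) :=
  if i = 0 then gS else if i = 1 then gT else if i = 2 then gU else if i = 3 then gV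
  else if i = 4 then gW else if i = 5 then gX1 else if i = 6 then gX2 else gX3

/-- the generator number `i` on the positions of the array -/
def gen (i : ℕ) : Equiv.Perm ArrayPt := cj.symm (g8 i)

theorem k_gen : ∀ i, i < 8 → ∀ p : ArrayPt, gen i p = ap (tp GT i (ai p)) ∧
    (gen i).symm p = ap (tp GQ i (ai p)) := by decide +kernel

theorem k_gt : allB 8 (fun i => allB 12 (fun j => Nat.blt (tp GT i j) 12 &&
    Nat.blt (tp GQ i j) 12)) = true := by decide +kernel
theorem k_gh : allB 8 (fun i => allB 132 (fun h => tb HB (pullM (tp GQ i) (get24 HX h)))) = true := by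
  decide +kernel
theorem k_g0 : allB 7 (fun i => Nat.beq (tp GT i 0) 0) = true := by decide +kernel

theorem gen_mem_K {i : ℕ} (hi : i < 8) : gen i ∈ setSystemAut Hex := by
  apply mem_K_of_sub
  intro b hb
  obtain ⟨h, hh, rfl⟩ := (mem_Hex_iff b).1 hb
  have hg : ∀ p, ai ((gen i).symm p) = tp GQ i (ai p) := by
    intro p
    have hb := allB_spec (allB_spec k_gt i hi) (ai p) (ai_lt p)
    rw [Bool.and_eq_true, Nat.blt_eq, Nat.blt_eq] at hb
    rw [(k_gen i hi p).2, ai_ap _ hb.2]
  rw [smul_ofM (gen i) (tp GQ i) hg]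
  exact mem_Hex_of_hb (pullM_lt _ _) (allB_spec (allB_spec k_gh i hi) h hh)

/-! ## Words in the generators -/

/-- digit `i` of a word -/
def dgt (W i : ℕ) : ℕ := Nat.land (Nat.shiftRight W (Nat.mul 3 i)) 7

theorem dgt_lt (W i : ℕ) : dgt W i < 8 := Nat.lt_succ_of_le Nat.and_le_right

/-- the product of a word in the generators -/
def prodP (W len : ℕ) : Equiv.Perm ArrayPt :=
  Nat.rec (motive := fun _ => Equiv.Perm ArrayPt) 1 (fun i acc => gen (dgt W i) * acc) len

/-- the image of a number under a word in the generators -/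
def evalP (W len j : ℕ) : ℕ :=
  Nat.rec (motive := fun _ => ℕ) j (fun i acc => tp GT (dgt W i) acc) len

theorem prodP_succ (W len : ℕ) : prodP W (len + 1) = gen (dgt W len) * prodP W len := rfl
theorem evalP_succ (W len j : ℕ) :
    evalP W (len + 1) j = tp GT (dgt W len) (evalP W len j) := rfl

theorem prodP_apply (W : ℕ) {j : ℕ} (hj : j < 12) :
    ∀ len, prodP W len (ap j) = ap (evalP W len j) ∧ evalP W len j < 12 := by
  intro len
  induction len with
  | zero => exact ⟨rfl, hj⟩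
  | succ len ih =>
    have hd := dgt_lt W len
    have hb := allB_spec (allB_spec k_gt _ hd) _ ih.2
    rw [Bool.and_eq_true, Nat.blt_eq, Nat.blt_eq] at hb
    refine ⟨?_, hb.1⟩
    rw [prodP_succ, evalP_succ, Equiv.Perm.mul_apply, ih.1, (k_gen _ hd _).1, ai_ap _ ih.2]

theorem k_words : allB 60 (fun k => allB 12 (fun j =>
    Nat.beq (evalP (get24 WD k) (get24 WL k) j) (tp UT k j))) = true := by decide +kernel

theorem k_w11 : allB 60 (fun k => bif Nat.blt k 12 then true else
    allB (get24 WL k) (fun i => Nat.blt (dgt (get24 WD k) i) 7)) = true := by decide +kernel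

theorem uel_eq {k : ℕ} (hk : k < 60) : uel k = prodP (get24 WD k) (get24 WL k) := by
  apply Equiv.ext
  intro p
  rw [uel_apply hk]
  have h1 := (prodP_apply (get24 WD k) (ai_lt p) (get24 WL k)).1
  rw [ap_ai] at h1
  rw [h1, Nat.eq_of_beq_eq_true (allB_spec (allB_spec k_words k hk) (ai p) (ai_lt p))]

theorem prodP_mem (H : Subgroup (Equiv.Perm (Fin 12))) (W : ℕ) :
    ∀ len, (∀ i, i < len → g8 (dgt W i) ∈ H) → cj (prodP W len) ∈ H := by
  intro len
  induction len with
  | zero =>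
    intro _
    show cj 1 ∈ H
    rw [map_one]
    exact one_mem H
  | succ len ih =>
    intro h
    rw [prodP_succ, map_mul]
    refine mul_mem ?_ (ih (fun i hi => h i (Nat.lt_succ_of_lt hi)))
    show cj (cj.symm (g8 (dgt W len))) ∈ H
    rw [MulEquiv.apply_symm_apply]
    exact h len (Nat.lt_succ_self len)

theorem g8_mem12 (i : ℕ) :
    g8 i ∈ Subgroup.closure ({gS, gT, gU, gV, gW, gX1, gX2, gX3} : Set (Equiv.Perm (Fin 12))) := by
  apply Subgroup.subset_closure
  unfold g8
  split_ifs <;> simp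

theorem g8_mem11 {i : ℕ} (hi : i < 7) :
    g8 i ∈ Subgroup.closure ({gS, gT, gU, gV, gW, gX1, gX2} : Set (Equiv.Perm (Fin 12))) := by
  apply Subgroup.subset_closure
  unfold g8
  split_ifs <;> first | (exfalso; omega) | simp

/-! ## The two groups -/

theorem step' {σ : Equiv.Perm ArrayPt} {l : ℕ} (hl : l < 5)
    (hfix : ∀ i, i < l → σ (ap i) = ap i) :
    12 * l + ai (σ (ap l)) < 60 ∧
      ∀ i, i < l + 1 → ((uel (12 * l + ai (σ (ap l))))⁻¹ * σ) (ap i) = ap i := by
  have hq : ai (σ (ap l)) < 12 := ai_lt _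
  have hlq : l ≤ ai (σ (ap l)) := img_ge (by omega) le_rfl hfix
  obtain ⟨h1, h2⟩ := uel_trans hl hq hlq
  refine ⟨by omega, ?_⟩
  intro i hi
  rw [Equiv.Perm.mul_apply, Equiv.Perm.inv_eq_iff_eq]
  rcases Nat.lt_succ_iff_lt_or_eq.1 hi with hi' | rfl
  · rw [hfix i hi', h2 i hi']
  · rw [h1, ap_ai]

theorem chain_from (l0 : ℕ) (hl0 : l0 ≤ 5) (Q : Equiv.Perm ArrayPt → Prop)
    (hQ : ∀ k, 12 * l0 ≤ k → k < 60 → ∀ τ, Q τ → Q (uel k * τ)) (h1 : Q 1) :
    ∀ σ, σ ∈ setSystemAut Hex → (∀ i, i < l0 → σ (ap i) = ap i) → Q σ := by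
  have key : ∀ d l, l + d = 5 → l0 ≤ l → ∀ σ, σ ∈ setSystemAut Hex →
      (∀ i, i < l → σ (ap i) = ap i) → Q σ := by
    intro d
    induction d with
    | zero =>
      intro l hl _ σ hσ hfix
      have hl5 : l = 5 := by omega
      subst hl5
      rw [triv hσ hfix]
      exact h1
    | succ d ih =>
      intro l hl hl0l σ hσ hfix
      obtain ⟨hk, hk2⟩ := step' (by omega : l < 5) hfix
      have hτ := mul_mem (inv_mem (uel_mem_K hk)) hσ
      have h2 := hQ _ (by omega) hk _ (ih (l + 1) (by omega) (by omega) _ hτ hk2)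
      rw [mul_inv_cancel_left] at h2
      exact h2
  intro σ hσ hfix
  exact key (5 - l0) l0 (by omega) le_rfl σ hσ hfix

theorem M12_eq : Subgroup.closure ({gS, gT, gU, gV, gW, gX1, gX2, gX3} :
    Set (Equiv.Perm (Fin 12))) = (setSystemAut Hex).map cj.toMonoidHom := by
  apply le_antisymm
  · rw [Subgroup.closure_le]
    intro x hx
    rw [SetLike.mem_coe, Subgroup.mem_map_equiv]
    simp only [Set.mem_insert_iff, Set.mem_singleton_iff] at hx
    rcases hx with rfl | rfl | rfl | rfl | rfl | rfl | rfl | rfl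
    · exact gen_mem_K (i := 0) (by norm_num)
    · exact gen_mem_K (i := 1) (by norm_num)
    · exact gen_mem_K (i := 2) (by norm_num)
    · exact gen_mem_K (i := 3) (by norm_num)
    · exact gen_mem_K (i := 4) (by norm_num)
    · exact gen_mem_K (i := 5) (by norm_num)
    · exact gen_mem_K (i := 6) (by norm_num)
    · exact gen_mem_K (i := 7) (by norm_num)
  · rintro _ ⟨σ, hσ, rfl⟩
    refine chain_from 0 (by norm_num) (fun σ => cj σ ∈ Subgroup.closure
      ({gS, gT, gU, gV, gW, gX1, gX2, gX3} : Set (Equiv.Perm (Fin 12)))) ?_ ?_ σ hσ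
      (fun i hi => absurd hi (Nat.not_lt_zero i))
    · intro k _ hk τ hτ
      show cj (uel k * τ) ∈ _
      rw [map_mul, uel_eq hk]
      exact mul_mem (prodP_mem _ _ _ (fun i _ => g8_mem12 _)) hτ
    · show cj 1 ∈ _
      rw [map_one]
      exact one_mem _

theorem M11_eq : Subgroup.closure ({gS, gT, gU, gV, gW, gX1, gX2} :
    Set (Equiv.Perm (Fin 12))) = (KS 1).map cj.toMonoidHom := by
  have hmem : ∀ i, i < 7 → gen i ∈ KS 1 := by
    intro i hi
    refine (mem_KS 1 _).2 ⟨gen_mem_K (by omega), ?_⟩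
    intro j hj
    have hj0 : j = 0 := by omega
    subst hj0
    rw [(k_gen i (by omega) _).1, ai_ap 0 (by norm_num),
      Nat.eq_of_beq_eq_true (allB_spec k_g0 i hi)]
  apply le_antisymm
  · rw [Subgroup.closure_le]
    intro x hx
    rw [SetLike.mem_coe, Subgroup.mem_map_equiv]
    simp only [Set.mem_insert_iff, Set.mem_singleton_iff] at hx
    rcases hx with rfl | rfl | rfl | rfl | rfl | rfl | rfl
    · exact hmem 0 (by norm_num)
    · exact hmem 1 (by norm_num)
    · exact hmem 2 (by norm_num)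
    · exact hmem 3 (by norm_num)
    · exact hmem 4 (by norm_num)
    · exact hmem 5 (by norm_num)
    · exact hmem 6 (by norm_num)
  · rintro _ ⟨σ, hσ, rfl⟩
    obtain ⟨hσK, hσfix⟩ := (mem_KS 1 σ).1 hσ
    refine chain_from 1 (by norm_num) (fun σ => cj σ ∈ Subgroup.closure
      ({gS, gT, gU, gV, gW, gX1, gX2} : Set (Equiv.Perm (Fin 12)))) ?_ ?_ σ hσK hσfix
    · intro k hk12 hk τ hτ
      show cj (uel k * τ) ∈ _
      rw [map_mul, uel_eq hk]
      refine mul_mem (prodP_mem _ _ _ (fun i hi => g8_mem11 ?_)) hτ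
      have h1 := allB_spec k_w11 k hk
      have hb : Nat.blt k 12 = false := by
        cases hb : Nat.blt k 12 with
        | false => rfl
        | true => rw [Nat.blt_eq] at hb; omega
      rw [hb, cond_false] at h1
      have h2 := allB_spec h1 i hi
      rw [Nat.blt_eq] at h2
      exact h2
    · show cj 1 ∈ _
      rw [map_one]
      exact one_mem _

/-! ## Sharp transitivity -/

theorem inv_apply_self' (f : Equiv.Perm ArrayPt) (x : ArrayPt) : f⁻¹ (f x) = x := by simp

theorem exists_K (a : ℕ → ArrayPt) (hinj : ∀ i j, i < 5 → j < 5 → a i = a j → i = j) :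
    ∀ l, l ≤ 5 → ∃ σ, σ ∈ setSystemAut Hex ∧ ∀ i, i < l → σ (ap i) = a i := by
  intro l
  induction l with
  | zero =>
    intro _
    exact ⟨1, one_mem _, fun i hi => absurd hi (Nat.not_lt_zero i)⟩
  | succ l ih =>
    intro hl
    obtain ⟨σ, hσ, hfix⟩ := ih (by omega)
    have hq : l ≤ ai (σ.symm (a l)) := by
      by_contra hlt
      rw [not_le] at hlt
      have h1 := hfix _ hlt
      rw [ap_ai, Equiv.apply_symm_apply] at h1
      have h2 := hinj _ _ (by omega) (by omega) h1
      omega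
    obtain ⟨h1, h2⟩ := uel_trans (by omega : l < 5) (ai_lt (σ.symm (a l))) hq
    refine ⟨σ * uel (12 * l + ai (σ.symm (a l))),
      mul_mem hσ (uel_mem_K (by have := ai_lt (σ.symm (a l)); omega)), ?_⟩
    intro i hi
    rw [Equiv.Perm.mul_apply]
    rcases Nat.lt_succ_iff_lt_or_eq.1 hi with hi' | rfl
    · rw [h2 i hi', hfix i hi']
    · rw [h1, ap_ai, Equiv.apply_symm_apply]

theorem K_sharp {σ : Equiv.Perm ArrayPt} (hσ : σ ∈ setSystemAut Hex) (a : ℕ → ArrayPt)
    (hinj : ∀ i j, i < 5 → j < 5 → a i = a j → i = j) (hfix : ∀ i, i < 5 → σ (a i) = a i) :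
    σ = 1 := by
  obtain ⟨ρ, hρ, hρa⟩ := exists_K a hinj 5 le_rfl
  have h1 : ρ⁻¹ * σ * ρ = 1 := triv (mul_mem (mul_mem (inv_mem hρ) hσ) hρ) (fun i hi => by
    rw [Equiv.Perm.mul_apply, Equiv.Perm.mul_apply, hρa i hi, hfix i hi, ← hρa i hi,
      inv_apply_self'])
  have h2 : σ = ρ * (ρ⁻¹ * σ * ρ) * ρ⁻¹ := by group
  rw [h2, h1]
  group

/-- the positions of the array for an embedding -/
noncomputable def emb (x : Fin 5 ↪ Fin 12) (i : ℕ) : ArrayPt :=
  if h : i < 5 then E.symm (x ⟨i, h⟩) else ap 0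

theorem emb_inj (x : Fin 5 ↪ Fin 12) : ∀ i j, i < 5 → j < 5 → emb x i = emb x j → i = j := by
  intro i j hi hj h
  rw [emb, emb, dif_pos hi, dif_pos hj] at h
  have h1 := x.injective (E.symm.injective h)
  exact congrArg Fin.val h1

theorem emb_val (x : Fin 5 ↪ Fin 12) (i : Fin 5) : emb x i.val = E.symm (x i) := by
  rw [emb, dif_pos i.2]

theorem e_zero : E (ap 0) = 2 := by decide

/-- the statement -/
theorem main :
    MulAction.IsMultiplyPretransitive ↥(Subgroup.closure ({gS, gT, gU, gV, gW, gX1, gX2, gX3} :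
      Set (Equiv.Perm (Fin 12)))) (Fin 12) 5 ∧
    (∀ y : Fin 5 ↪ Fin 12, MulAction.stabilizer ↥(Subgroup.closure
      ({gS, gT, gU, gV, gW, gX1, gX2, gX3} : Set (Equiv.Perm (Fin 12)))) y = ⊥) ∧
    Nat.card ↥(Subgroup.closure ({gS, gT, gU, gV, gW, gX1, gX2, gX3} :
      Set (Equiv.Perm (Fin 12)))) = 95040 ∧
    Nat.card ↥(Subgroup.closure ({gS, gT, gU, gV, gW, gX1, gX2} :
      Set (Equiv.Perm (Fin 12)))) = 7920 ∧
    Subgroup.closure ({gS, gT, gU, gV, gW, gX1, gX2} : Set (Equiv.Perm (Fin 12))) =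
      Subgroup.closure ({gS, gT, gU, gV, gW, gX1, gX2, gX3} : Set (Equiv.Perm (Fin 12))) ⊓
        MulAction.stabilizer (Equiv.Perm (Fin 12)) (2 : Fin 12) := by
  rw [M12_eq, M11_eq]
  refine ⟨?_, ?_, ?_, ?_, ?_⟩
  · rw [MulAction.isMultiplyPretransitive_iff]
    intro x y
    obtain ⟨σx, hσx, hx⟩ := exists_K (emb x) (emb_inj x) 5 le_rfl
    obtain ⟨σy, hσy, hy⟩ := exists_K (emb y) (emb_inj y) 5 le_rfl
    refine ⟨⟨cj (σy * σx⁻¹), Subgroup.mem_map_of_mem _ (mul_mem hσy (inv_mem hσx))⟩, ?_⟩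
    apply Function.Embedding.ext
    intro i
    show cj (σy * σx⁻¹) (x i) = y i
    rw [cj_apply, Equiv.Perm.mul_apply, ← emb_val x i, ← hx i.val i.2, inv_apply_self',
      hy i.val i.2, emb_val y i, Equiv.apply_symm_apply]
  · intro y
    rw [eq_bot_iff]
    intro g hg
    rw [Subgroup.mem_bot]
    have hg' : ∀ i, (g : Equiv.Perm (Fin 12)) (y i) = y i := by
      intro i
      have h1 := congrArg (fun f : Fin 5 ↪ Fin 12 => f i) (MulAction.mem_stabilizer_iff.1 hg)
      exact h1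
    have hK : cj.symm (g : Equiv.Perm (Fin 12)) ∈ setSystemAut Hex := Subgroup.mem_map_equiv.1 g.2
    have h1 := K_sharp hK (emb y) (emb_inj y) (fun i hi => by
      have h2 := emb_val y ⟨i, hi⟩
      rw [h2, cj_symm_apply, Equiv.apply_symm_apply, hg'])
    apply Subtype.ext
    have h3 := congrArg cj h1
    rw [MulEquiv.apply_symm_apply, map_one] at h3
    exact h3
  · rw [Subgroup.card_map_of_injective (f := cj.toMonoidHom) cj.injective]
    exact card_K
  · rw [Subgroup.card_map_of_injective (f := cj.toMonoidHom) cj.injective]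
    have e0 : Nat.card ↥(KS 0) = (Finset.univ.filter (fun p : ArrayPt => 0 ≤ ai p)).card *
        Nat.card ↥(KS 1) := card_step (l := 0) (by norm_num)
    have c0 : (Finset.univ.filter (fun p : ArrayPt => 0 ≤ ai p)).card = 12 := by decide
    have e1 : Nat.card ↥(KS 0) = 95040 := card_K
    rw [c0, e1] at e0
    omega
  · ext g
    rw [Subgroup.mem_inf, Subgroup.mem_map_equiv, Subgroup.mem_map_equiv, mem_KS,
      MulAction.mem_stabilizer_iff]
    constructor
    · rintro ⟨hK, hfix⟩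
      refine ⟨hK, ?_⟩
      have h1 := hfix 0 (by norm_num)
      rw [cj_symm_apply, Equiv.symm_apply_eq, e_zero] at h1
      exact h1
    · rintro ⟨hK, hfix⟩
      refine ⟨hK, fun i hi => ?_⟩
      have hi0 : i = 0 := by omega
      subst hi0
      rw [cj_symm_apply, Equiv.symm_apply_eq, e_zero]
      exact hfix

end Cfsg.Agent.Helper28.M12Fin
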