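import Mathlib

/-!
Tools for groups of order 72 with a normal elementary abelian subgroup of order 9 and a
quaternion subgroup of order 8: an embedding of the quaternion group from two elements, and
the Sylow subgroups of such a group.
-/

set_option autoImplicit false

namespace Cfsg.Agent.Helper28.QuatTools

theorem pow_mod4 {G : Type*} [Group G] {X : G} (h4 : X ^ 4 = 1) (n : ℕ) : X ^ n = X ^ (n % 4) :=
  pow_eq_pow_mod n h4

theorem pow_congr4 {G : Type*} [Group G] {X : G} (h4 : X ^ 4 = 1) {m n : ℕ}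
    (h : m % 4 = n % 4) : X ^ m = X ^ n := by
  rw [pow_mod4 h4 m, pow_mod4 h4 n, h]

theorem k_add : ∀ i j : ZMod 4, (i + j).val % 4 = (i.val + j.val) % 4 := by decide
theorem k_sub : ∀ i j : ZMod 4, (j - i).val % 4 = (3 * i.val + j.val) % 4 := by decide
theorem k_two : ∀ i j : ZMod 4, ((2 : ZMod 4) + j - i).val % 4 = (2 + (3 * i.val + j.val)) % 4 := by
  decide
theorem k_val : ∀ i : ZMod 4, i.val = 0 ∨ i.val = 1 ∨ i.val = 2 ∨ i.val = 3 := by decide
theorem k_zero : ∀ i : ZMod 4, i.val = 0 → i = 0 := by decide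

/-- the map on the quaternion group of order 8 given by two elements -/
def qmap {G : Type*} [Group G] (X Y : G) : QuaternionGroup 2 → G
  | QuaternionGroup.a i => X ^ (ZMod.val (n := 4) i)
  | QuaternionGroup.xa i => Y * X ^ (ZMod.val (n := 4) i)

theorem comm_pow {G : Type*} [Group G] {X Y : G} (h4 : X ^ 4 = 1) (hc : X * Y * X = Y) (m : ℕ) :
    X ^ m * Y = Y * X ^ (3 * m) := by
  have h1 : X * Y = Y * X ^ 3 := by
    have hinv : X⁻¹ = X ^ 3 := by
      rw [inv_eq_iff_mul_eq_one]
      calc X * X ^ 3 = X ^ 4 := by group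
        _ = 1 := h4
    calc X * Y = (X * Y * X) * X⁻¹ := by group
      _ = Y * X ^ 3 := by rw [hc, hinv]
  induction m with
  | zero => simp
  | succ m ih =>
    calc X ^ (m + 1) * Y = X ^ m * (X * Y) := by group
      _ = X ^ m * (Y * X ^ 3) := by rw [h1]
      _ = (X ^ m * Y) * X ^ 3 := by group
      _ = Y * X ^ (3 * m) * X ^ 3 := by rw [ih]
      _ = Y * X ^ (3 * (m + 1)) := by
        rw [mul_assoc, ← pow_add]
        congr 2

theorem qmap_mul {G : Type*} [Group G] {X Y : G} (h4 : X ^ 4 = 1) (h2 : Y * Y = X ^ 2)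
    (hc : X * Y * X = Y) (u v : QuaternionGroup 2) : qmap X Y (u * v) = qmap X Y u * qmap X Y v := by
  cases u with
  | a i =>
    cases v with
    | a j =>
      show X ^ (ZMod.val (n := 4) (i + j)) = X ^ (ZMod.val (n := 4) i) * X ^ (ZMod.val (n := 4) j)
      rw [← pow_add]
      exact pow_congr4 h4 (by rw [k_add i j])
    | xa j =>
      show Y * X ^ (ZMod.val (n := 4) (j - i)) =
        X ^ (ZMod.val (n := 4) i) * (Y * X ^ (ZMod.val (n := 4) j))
      rw [← mul_assoc, comm_pow h4 hc, mul_assoc, ← pow_add]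
      congr 1
      exact pow_congr4 h4 (by rw [k_sub i j])
  | xa i =>
    cases v with
    | a j =>
      show Y * X ^ (ZMod.val (n := 4) (i + j)) =
        Y * X ^ (ZMod.val (n := 4) i) * X ^ (ZMod.val (n := 4) j)
      rw [mul_assoc, ← pow_add]
      congr 1
      exact pow_congr4 h4 (by rw [k_add i j])
    | xa j =>
      show X ^ (ZMod.val (n := 4) ((2 : ZMod 4) + j - i)) =
        Y * X ^ (ZMod.val (n := 4) i) * (Y * X ^ (ZMod.val (n := 4) j))
      calc X ^ (ZMod.val (n := 4) ((2 : ZMod 4) + j - i))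
          = X ^ (2 + (3 * ZMod.val (n := 4) i + ZMod.val (n := 4) j)) :=
            pow_congr4 h4 (by rw [k_two i j])
        _ = X ^ 2 * (X ^ (3 * ZMod.val (n := 4) i) * X ^ (ZMod.val (n := 4) j)) := by
            rw [pow_add, pow_add]
        _ = Y * Y * (X ^ (3 * ZMod.val (n := 4) i) * X ^ (ZMod.val (n := 4) j)) := by rw [h2]
        _ = Y * (Y * X ^ (3 * ZMod.val (n := 4) i)) * X ^ (ZMod.val (n := 4) j) := by group
        _ = Y * (X ^ (ZMod.val (n := 4) i) * Y) * X ^ (ZMod.val (n := 4) j) := by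
            rw [comm_pow h4 hc]
        _ = Y * X ^ (ZMod.val (n := 4) i) * (Y * X ^ (ZMod.val (n := 4) j)) := by group

/-- two elements with the relations of the quaternion group of order 8 give an embedding of
it -/
theorem quat_embed {G : Type*} [Group G] (X Y : G) (h4 : X ^ 4 = 1) (h2 : Y * Y = X ^ 2)
    (hc : X * Y * X = Y) (hne : X ^ 2 ≠ 1) :
    ∃ f : QuaternionGroup 2 →* G, Function.Injective f ∧ ∀ u, f u = qmap X Y u := by
  refine ⟨MonoidHom.mk' (qmap X Y) (qmap_mul h4 h2 hc), ?_, fun u => rfl⟩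
  rw [injective_iff_map_eq_one]
  intro u hu
  have hu' : qmap X Y u = 1 := hu
  cases u with
  | a i =>
    have h1 : X ^ (ZMod.val (n := 4) i) = 1 := hu'
    have hi : i = 0 := by
      apply k_zero
      rcases k_val i with h | h | h | h
      · exact h
      · exfalso
        rw [h, pow_one] at h1
        apply hne
        rw [h1, one_pow]
      · exfalso
        rw [h] at h1
        exact hne h1
      · exfalso
        rw [h] at h1
        apply hne
        have hX : X = 1 := by
          calc X = X ^ 4 * (X ^ 3)⁻¹ := by group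
            _ = 1 := by rw [h4, h1]; group
        rw [hX, one_pow]
    rw [hi]
    rfl
  | xa i =>
    exfalso
    have h1 : Y * X ^ (ZMod.val (n := 4) i) = 1 := hu'
    have hY : Y = (X ^ (ZMod.val (n := 4) i))⁻¹ := eq_inv_of_mul_eq_one_left h1
    apply hne
    have h3 : X * Y = Y * X := by
      rw [hY]
      have : Commute X ((X ^ (ZMod.val (n := 4) i))⁻¹) :=
        ((Commute.refl X).pow_right _).inv_right
      exact this.eq
    have h5 : Y * X ^ 2 = Y := by
      calc Y * X ^ 2 = (Y * X) * X := by rw [pow_two, mul_assoc]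
        _ = X * Y * X := by rw [h3]
        _ = Y := hc
    exact mul_left_cancel (a := Y) (by rw [h5, mul_one])

/-- the structure of a group of order 72 with a normal subgroup of order 9 and exponent 3 and
a quaternion subgroup of order 8 -/
def Struct (H : Type*) [Group H] : Prop :=
  Nat.card H = 72 ∧ (∃ N : Subgroup H, N.Normal ∧ Nat.card N = 9 ∧ ∀ x ∈ N, x ^ 3 = 1) ∧
    ∃ P0 : Subgroup H, Nat.card P0 = 8 ∧ Nonempty (↥P0 ≃* QuaternionGroup 2)

theorem struct_transport {H H' : Type*} [Group H] [Group H'] (e : H ≃* H') (h : Struct H) :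
    Struct H' := by
  obtain ⟨hc, ⟨N, hN, hN9, hN3⟩, P0, hP8, ⟨q⟩⟩ := h
  refine ⟨?_, ⟨N.map e.toMonoidHom, hN.map e.toMonoidHom e.surjective, ?_, ?_⟩,
    P0.map e.toMonoidHom, ?_, ⟨?_⟩⟩
  · rw [← hc]
    exact Nat.card_congr e.symm.toEquiv
  · rw [Subgroup.card_map_of_injective (f := e.toMonoidHom) e.injective]
    exact hN9
  · rintro x ⟨n, hn, rfl⟩
    show e n ^ 3 = 1
    rw [← map_pow, hN3 n hn, map_one]
  · rw [Subgroup.card_map_of_injective (f := e.toMonoidHom) e.injective]
    exact hP8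
  · exact (e.subgroupMap P0).symm.trans q

/-- the Sylow subgroups of a group with this structure -/
theorem sylow_of_struct {H : Type*} [Group H] [Finite H] (h : Struct H) :
    (∀ Q : Sylow 3 H, (Q : Subgroup H).Normal ∧ Nat.card ↥Q = 9 ∧
      ∀ x ∈ (Q : Subgroup H), x ^ 3 = 1) ∧
    ∀ P : Sylow 2 H, Nonempty (↥P ≃* QuaternionGroup 2) := by
  obtain ⟨hc, ⟨N, hN, hN9, hN3⟩, P0, hP8, ⟨q⟩⟩ := h
  have f3 : (72 : ℕ).factorization 3 = 2 := by
    have : (72 : ℕ) = 3 ^ 2 * 8 := by norm_num
    rw [this, Nat.factorization_mul (by norm_num) (by norm_num), Nat.Prime.factorization_pow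
      (by norm_num)]
    simp
    have h8 : (8 : ℕ) = 2 ^ 3 := by norm_num
    rw [h8, Nat.Prime.factorization_pow (by norm_num)]
    simp
  have f2 : (72 : ℕ).factorization 2 = 3 := by
    have : (72 : ℕ) = 2 ^ 3 * 9 := by norm_num
    rw [this, Nat.factorization_mul (by norm_num) (by norm_num), Nat.Prime.factorization_pow
      (by norm_num)]
    simp
    have h9 : (9 : ℕ) = 3 ^ 2 := by norm_num
    rw [h9, Nat.Prime.factorization_pow (by norm_num)]
    simp
  constructor
  · intro Q
    have : Fact (Nat.Prime 3) := ⟨by norm_num⟩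
    have hQ9 : Nat.card ↥Q = 9 := by
      have hq := Sylow.card_eq_multiplicity Q
      rw [hc, f3] at hq
      exact hq.trans (by norm_num)
    have hp : IsPGroup 3 N := IsPGroup.of_card (n := 2) (by rw [hN9]; norm_num)
    have hle : N ≤ (Q : Subgroup H) := hp.le_sylow_of_normal Q
    have heq : N = (Q : Subgroup H) :=
      Subgroup.eq_of_le_of_card_ge hle (by rw [hN9]; exact le_of_eq hQ9)
    refine ⟨heq ▸ hN, hQ9, ?_⟩
    intro x hx
    rw [← heq] at hx
    exact hN3 x hx
  · intro P
    have : Fact (Nat.Prime 2) := ⟨by norm_num⟩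
    let P0' : Sylow 2 H := Sylow.ofCard P0 (by rw [hP8, hc, f2]; norm_num)
    exact ⟨(Sylow.equiv P P0').trans q⟩

end Cfsg.Agent.Helper28.QuatTools
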