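import Mathlib
import Cfsg.Prelude.Def_SporadicCombinatorics
import Cfsg.Agent.Helper12.GolayMore
import Cfsg.Agent.Helper28.Syl2
import Cfsg.Agent.Helper28.SxStab
import Cfsg.Agent.Helper28.SxKerData

/-!
The stabilizer of a sextet in the group of the length-24 code: the subgroup fixing the six
tetrads has order 192, its elements squaring to the identity form a normal subgroup of order 64
of the stabilizer, and the stabilizer induces all permutations of the six tetrads.
-/

set_option autoImplicit false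

namespace Cfsg.Agent.Helper28.SxKer

open Cfsg Cfsg.Agent.Helper12 Cfsg.Agent.Helper28.Coset Cfsg.Agent.Helper28.Ord3Data
  Cfsg.Agent.Helper28.InvClass Cfsg.Agent.Helper28.Ord3
  Cfsg.Agent.Helper28.Ord3Inv Cfsg.Agent.Helper28.Sext
  Cfsg.Agent.Helper28.SxData Cfsg.Agent.Helper28.Norm7 Cfsg.Agent.Helper28.CentB
  Cfsg.Agent.Helper28.Syl2 Cfsg.Agent.Helper28.SxKerData
open scoped Pointwise

/-! ## The subgroup fixing the six tetrads -/

/-- the subgroup fixing each tetrad of the sextet number 1545 -/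
def K0 : Subgroup ↥M24 := ⨅ i : Fin 6, MulAction.stabilizer ↥M24 (ofMask (sxm 1545 i))

theorem mem_K0 {c : ↥M24} : c ∈ K0 ↔
    ∀ i, i < 6 → (c : Equiv.Perm GolayPt) • ofMask (sxm 1545 i) = ofMask (sxm 1545 i) := by
  rw [K0, Subgroup.mem_iInf]
  constructor
  · intro h i hi
    exact h ⟨i, hi⟩
  · intro h i
    exact h i i.2

theorem gen_K (GS QS ng : ℕ) (h : sysOK GS QS ng = true) (hm : sysM24 GS ng = true) {a : ℕ}
    (ha : a < ng) (hf : allFix (sub GS a) 1545 = true) :
    (⟨genOf GS QS ng h a, genOf_mem_M24 GS QS ng h hm a⟩ : ↥M24) ∈ K0 := by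
  rw [mem_K0]
  intro i hi
  show genOf GS QS ng h a • ofMask (sxm 1545 i) = ofMask (sxm 1545 i)
  rw [genOf_smul_ofMask GS QS ng h ha, Nat.eq_of_beq_eq_true (allB_spec hf i hi)]

theorem K_gen (GS QS ng : ℕ) (h : sysOK GS QS ng = true) {a : ℕ} (ha : a < ng) {c : ↥M24}
    (hc : c ∈ K0) (e : (c : Equiv.Perm GolayPt) = genOf GS QS ng h a) :
    allFix (sub GS a) 1545 = true := by
  apply allB_of
  intro i hi
  rw [Nat.beq_eq]
  have h1 := mem_K0.1 hc i hi
  rw [e, genOf_smul_ofMask GS QS ng h ha] at h1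
  exact ofMask_inj (permMask_lt (allB_spec h a ha) _) (sxm_lt _ _) h1

theorem k_sx : sxm 1545 0 = 0x800019 ∧ sxm 1545 3 = 0x180802 ∧ sxm 1545 4 = 0x200304 := by
  decide +kernel

theorem K_A {c : ↥M24} (hc : c ∈ K0) :
    (c : Equiv.Perm GolayPt) • ofMask 0x800019 = ofMask 0x800019 := by
  have := mem_K0.1 hc 0 (by norm_num)
  rwa [k_sx.1] at this

theorem K_B {c : ↥M24} (hc : c ∈ K0) :
    (c : Equiv.Perm GolayPt) • ofMask 0x180802 = ofMask 0x180802 := by
  have := mem_K0.1 hc 3 (by norm_num)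
  rwa [k_sx.2.1] at this

theorem K_C {c : ↥M24} (hc : c ∈ K0) :
    (c : Equiv.Perm GolayPt) • ofMask 0x200304 = ofMask 0x200304 := by
  have := mem_K0.1 hc 4 (by norm_num)
  rwa [k_sx.2.2] at this

theorem x_sys : sysOK XG XQ 96 = true := by decide +kernel
theorem x_m24 : sysM24 XG 96 = true := by decide +kernel

/-- the listed elements moving the base points -/
def elx (a : ℕ) : ↥M24 := ⟨genOf XG XQ 96 x_sys a, genOf_mem_M24 XG XQ 96 x_sys x_m24 a⟩

theorem elx_pt {a : ℕ} (ha : a < 96) {i : ℕ} (hi : i < 24) :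
    (elx a : Equiv.Perm GolayPt) (pt i) = pt (get24 (sub XG a) i) :=
  (genOf_pt XG XQ 96 x_sys ha hi).1

theorem elx_K {a : ℕ} (ha : a < 96) (hf : allFix (sub XG a) 1545 = true) : elx a ∈ K0 :=
  gen_K XG XQ 96 x_sys x_m24 ha hf

theorem k1 : allB 24 (fun q => bif tb 0x800019 q then
    (allFix (sub XG q) 1545 && Nat.beq (get24 (sub XG q) 23) q) else true) = true := by
  decide +kernel
theorem k2 : allB 24 (fun q => bif tb 0x19 q then
    (allFix (sub XG (Nat.add 24 q)) 1545 && Nat.beq (get24 (sub XG (Nat.add 24 q)) 23) 23 &&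
      Nat.beq (get24 (sub XG (Nat.add 24 q)) 0) q) else true) = true := by decide +kernel
theorem k3 : allB 24 (fun q => bif tb 0x180802 q then
    (allFix (sub XG (Nat.add 48 q)) 1545 && Nat.beq (get24 (sub XG (Nat.add 48 q)) 23) 23 &&
      Nat.beq (get24 (sub XG (Nat.add 48 q)) 0) 0 &&
      Nat.beq (get24 (sub XG (Nat.add 48 q)) 1) q) else true) = true := by decide +kernel
theorem k4 : allB 24 (fun q => bif tb 0x200304 q then
    (allFix (sub XG (Nat.add 72 q)) 1545 && Nat.beq (get24 (sub XG (Nat.add 72 q)) 23) 23 &&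
      Nat.beq (get24 (sub XG (Nat.add 72 q)) 0) 0 &&
      Nat.beq (get24 (sub XG (Nat.add 72 q)) 1) 1 &&
      Nat.beq (get24 (sub XG (Nat.add 72 q)) 2) q) else true) = true := by decide +kernel

theorem orb0 (q : GolayPt) : q ∈ ofMask 0x800019 ↔
    ∃ c ∈ K0, (c : Equiv.Perm GolayPt) (pt 23) = q := by
  constructor
  · intro hq
    have hi := idx_lt q
    have h1 := allB_spec k1 (idx q) hi
    have h2 : tb 0x800019 (idx q) = true := by
      rw [mem_ofMask, ← tb_eq] at hq
      exact hq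
    rw [h2, cond_true, Bool.and_eq_true, Nat.beq_eq] at h1
    refine ⟨elx (idx q), elx_K (by omega) h1.1, ?_⟩
    rw [elx_pt (by omega) (by norm_num), h1.2, pt_idx]
  · rintro ⟨c, hc, rfl⟩
    rw [mem_of_tetrad_fix (K_A hc), pt_mem_ofMask (by norm_num)]
    decide +kernel

theorem A_cases {q : GolayPt} (hq : q ∈ ofMask 0x800019) :
    q = pt 0 ∨ q = pt 3 ∨ q = pt 4 ∨ q = pt 23 := by
  rw [mem_ofMask] at hq
  have hcases : ∀ i, i < 24 → (0x800019 : ℕ).testBit i = true → i = 0 ∨ i = 3 ∨ i = 4 ∨ i = 23 := by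
    decide
  have hp := pt_idx q
  rcases hcases _ (idx_lt q) hq with e | e | e | e <;> rw [e] at hp
  · left; exact hp.symm
  · right; left; exact hp.symm
  · right; right; left; exact hp.symm
  · right; right; right; exact hp.symm

theorem K_A_pt {c : ↥M24} (hc : c ∈ K0) {i : ℕ} (hi : i < 24) (hm : tb 0x800019 i = true) :
    (c : Equiv.Perm GolayPt) (pt i) = pt 0 ∨ (c : Equiv.Perm GolayPt) (pt i) = pt 3 ∨
    (c : Equiv.Perm GolayPt) (pt i) = pt 4 ∨ (c : Equiv.Perm GolayPt) (pt i) = pt 23 := by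
  apply A_cases
  rw [mem_of_tetrad_fix (K_A hc), pt_mem_ofMask hi]
  exact hm

theorem orb1 (q : GolayPt) : q ∈ ofMask 0x19 ↔
    ∃ c ∈ K0 ⊓ MulAction.stabilizer ↥M24 (pt 23), (c : Equiv.Perm GolayPt) (pt 0) = q := by
  constructor
  · intro hq
    have hi := idx_lt q
    have h1 := allB_spec k2 (idx q) hi
    have h2 : tb 0x19 (idx q) = true := by
      rw [mem_ofMask, ← tb_eq] at hq
      exact hq
    rw [h2, cond_true, Bool.and_eq_true, Bool.and_eq_true, Nat.beq_eq, Nat.beq_eq] at h1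
    have ha : Nat.add 24 (idx q) < 96 := by show 24 + idx q < 96; omega
    refine ⟨elx (Nat.add 24 (idx q)), Subgroup.mem_inf.2 ⟨elx_K ha h1.1.1, ?_⟩, ?_⟩
    · rw [mem_st, elx_pt ha (by norm_num), h1.1.2]
    · rw [elx_pt ha (by norm_num), h1.2, pt_idx]
  · rintro ⟨c, hc, rfl⟩
    obtain ⟨hK, h23⟩ := Subgroup.mem_inf.1 hc
    rw [mem_st] at h23
    rcases K_A_pt hK (by norm_num : 0 < 24) (by decide +kernel) with h | h | h | h
    · rw [h, pt_mem_ofMask (by norm_num)]; decide +kernel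
    · rw [h, pt_mem_ofMask (by norm_num)]; decide +kernel
    · rw [h, pt_mem_ofMask (by norm_num)]; decide +kernel
    · exfalso
      have := pt_inj (by norm_num : 0 < 24) (by norm_num : 23 < 24)
        ((c : Equiv.Perm GolayPt).injective (by rw [h, h23]))
      omega

theorem orb2 (q : GolayPt) : q ∈ ofMask 0x180802 ↔
    ∃ c ∈ (K0 ⊓ MulAction.stabilizer ↥M24 (pt 23)) ⊓ MulAction.stabilizer ↥M24 (pt 0),
      (c : Equiv.Perm GolayPt) (pt 1) = q := by
  constructor
  · intro hq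
    have hi := idx_lt q
    have h1 := allB_spec k3 (idx q) hi
    have h2 : tb 0x180802 (idx q) = true := by
      rw [mem_ofMask, ← tb_eq] at hq
      exact hq
    rw [h2, cond_true, Bool.and_eq_true, Bool.and_eq_true, Bool.and_eq_true, Nat.beq_eq,
      Nat.beq_eq, Nat.beq_eq] at h1
    have ha : Nat.add 48 (idx q) < 96 := by show 48 + idx q < 96; omega
    refine ⟨elx (Nat.add 48 (idx q)), Subgroup.mem_inf.2 ⟨Subgroup.mem_inf.2
      ⟨elx_K ha h1.1.1.1, ?_⟩, ?_⟩, ?_⟩
    · rw [mem_st, elx_pt ha (by norm_num), h1.1.1.2]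
    · rw [mem_st, elx_pt ha (by norm_num), h1.1.2]
    · rw [elx_pt ha (by norm_num), h1.2, pt_idx]
  · rintro ⟨c, hc, rfl⟩
    obtain ⟨hc1, -⟩ := Subgroup.mem_inf.1 hc
    obtain ⟨hK, -⟩ := Subgroup.mem_inf.1 hc1
    rw [mem_of_tetrad_fix (K_B hK), pt_mem_ofMask (by norm_num)]
    decide +kernel

theorem orb3 (q : GolayPt) : q ∈ ofMask 0x200304 ↔
    ∃ c ∈ ((K0 ⊓ MulAction.stabilizer ↥M24 (pt 23)) ⊓ MulAction.stabilizer ↥M24 (pt 0)) ⊓
      MulAction.stabilizer ↥M24 (pt 1), (c : Equiv.Perm GolayPt) (pt 2) = q := by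
  constructor
  · intro hq
    have hi := idx_lt q
    have h1 := allB_spec k4 (idx q) hi
    have h2 : tb 0x200304 (idx q) = true := by
      rw [mem_ofMask, ← tb_eq] at hq
      exact hq
    rw [h2, cond_true, Bool.and_eq_true, Bool.and_eq_true, Bool.and_eq_true, Bool.and_eq_true,
      Nat.beq_eq, Nat.beq_eq, Nat.beq_eq, Nat.beq_eq] at h1
    have ha : Nat.add 72 (idx q) < 96 := by show 72 + idx q < 96; omega
    refine ⟨elx (Nat.add 72 (idx q)), Subgroup.mem_inf.2 ⟨Subgroup.mem_inf.2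
      ⟨Subgroup.mem_inf.2 ⟨elx_K ha h1.1.1.1.1, ?_⟩, ?_⟩, ?_⟩, ?_⟩
    · rw [mem_st, elx_pt ha (by norm_num), h1.1.1.1.2]
    · rw [mem_st, elx_pt ha (by norm_num), h1.1.1.2]
    · rw [mem_st, elx_pt ha (by norm_num), h1.1.2]
    · rw [elx_pt ha (by norm_num), h1.2, pt_idx]
  · rintro ⟨c, hc, rfl⟩
    obtain ⟨hc2, -⟩ := Subgroup.mem_inf.1 hc
    obtain ⟨hc1, -⟩ := Subgroup.mem_inf.1 hc2
    obtain ⟨hK, -⟩ := Subgroup.mem_inf.1 hc1
    rw [mem_of_tetrad_fix (K_C hK), pt_mem_ofMask (by norm_num)]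
    decide +kernel

theorem t_sys : sysOK TG TQ 48 = true := by decide +kernel
theorem t_m24 : sysM24 TG 48 = true := by decide +kernel
theorem t_base : baseOK TG 23 0 1 2 4 = true := by decide +kernel
theorem t_keys : keysOK TG = true := by decide +kernel
theorem t_no : allB 48 (fun a => !(allFix (sub TG a) 1545)) = true := by decide +kernel
theorem k_cnt : cntB 48 (fun a => allFix (sub CG0 a) 1545) = 1 := by decide +kernel

theorem card_K4 : Nat.card ↥((((K0 ⊓ MulAction.stabilizer ↥M24 (pt 23)) ⊓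
    MulAction.stabilizer ↥M24 (pt 0)) ⊓ MulAction.stabilizer ↥M24 (pt 1)) ⊓
    MulAction.stabilizer ↥M24 (pt 2)) = 1 := by
  have h1 : Nat.card ↥((((K0 ⊓ MulAction.stabilizer ↥M24 (pt 23)) ⊓
      MulAction.stabilizer ↥M24 (pt 0)) ⊓ MulAction.stabilizer ↥M24 (pt 1)) ⊓
      MulAction.stabilizer ↥M24 (pt 2)) = (((((K0 ⊓ MulAction.stabilizer ↥M24 (pt 23)) ⊓
      MulAction.stabilizer ↥M24 (pt 0)) ⊓ MulAction.stabilizer ↥M24 (pt 1)) ⊓
      MulAction.stabilizer ↥M24 (pt 2) : Subgroup ↥M24) : Set ↥M24).ncard := by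
    rw [← Nat.card_coe_set_eq]; rfl
  rw [h1, ← k_cnt]
  apply ncard_eq_cnt el0 48 el0_inj
  intro s
  rw [SetLike.mem_coe]
  constructor
  · intro hs
    obtain ⟨hs3, h2⟩ := Subgroup.mem_inf.1 hs
    obtain ⟨hs2, h1⟩ := Subgroup.mem_inf.1 hs3
    obtain ⟨hs1, h0⟩ := Subgroup.mem_inf.1 hs2
    obtain ⟨hK, h23⟩ := Subgroup.mem_inf.1 hs1
    rw [mem_st] at h0 h1 h2 h23
    rcases K_A_pt hK (by norm_num : 3 < 24) (by decide +kernel) with h | h | h | h
    · exfalso
      have := pt_inj (by norm_num : 3 < 24) (by norm_num : 0 < 24)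
        ((s : Equiv.Perm GolayPt).injective (by rw [h, h0]))
      omega
    · obtain ⟨a, ha, e⟩ := coset_enum CG0 CQ0 c0_sys c0_m24 23 0 1 2 3 c0_base c0_keys s.2 h23
        h0 h1 h2 h
      exact ⟨a, ha, K_gen CG0 CQ0 48 c0_sys ha hK e, Subtype.ext e⟩
    · exfalso
      obtain ⟨a, ha, e⟩ := coset_enum TG TQ t_sys t_m24 23 0 1 2 4 t_base t_keys s.2 h23
        h0 h1 h2 h
      have h5 := K_gen TG TQ 48 t_sys ha hK e
      have h6 := allB_spec t_no a ha
      rw [h5] at h6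
      exact absurd h6 (by decide)
    · exfalso
      have := pt_inj (by norm_num : 3 < 24) (by norm_num : 23 < 24)
        ((s : Equiv.Perm GolayPt).injective (by rw [h, h23]))
      omega
  · rintro ⟨a, ha, hf, rfl⟩
    obtain ⟨b23, b0, b1, b2, b3⟩ := el0_fix ha
    exact Subgroup.mem_inf.2 ⟨Subgroup.mem_inf.2 ⟨Subgroup.mem_inf.2 ⟨Subgroup.mem_inf.2
      ⟨gen_K CG0 CQ0 48 c0_sys c0_m24 ha hf, b23⟩, b0⟩, b1⟩, b2⟩

theorem card_K0 : Nat.card ↥K0 = 192 := by
  have e1 := card_orbit_mul K0 (pt 23) _ orb0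
  have e2 := card_orbit_mul _ (pt 0) _ orb1
  have e3 := card_orbit_mul _ (pt 1) _ orb2
  have e4 := card_orbit_mul _ (pt 2) _ orb3
  have c1 : (ofMask 0x800019).card = 4 := by rw [card_ofMask]; decide +kernel
  have c2 : (ofMask 0x19).card = 3 := by rw [card_ofMask]; decide +kernel
  have c3 : (ofMask 0x180802).card = 4 := by rw [card_ofMask]; decide +kernel
  have c4 : (ofMask 0x200304).card = 4 := by rw [card_ofMask]; decide +kernel
  rw [c1] at e1
  rw [c2] at e2
  rw [c3] at e3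
  rw [c4, card_K4] at e4
  rw [e1, e2, e3, e4]

/-! ## The list of the 192 elements -/

theorem kg_sys : sysOK KG KQ 192 = true := by decide +kernel
theorem kg_m24 : sysM24 KG 192 = true := by decide +kernel
theorem kg_all : allB 192 (fun a => allFix (sub KG a) 1545) = true := by decide +kernel

/-- the listed elements of the subgroup -/
def elk (a : ℕ) : ↥M24 := ⟨genOf KG KQ 192 kg_sys a, genOf_mem_M24 KG KQ 192 kg_sys kg_m24 a⟩

/-- the key of a listed element: the images of four base points -/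
def keyK (a : ℕ) : ℕ := Nat.add (Nat.mul (Nat.add (Nat.mul (Nat.add (Nat.mul
  (get24 (sub KG a) 23) 32) (get24 (sub KG a) 0)) 32) (get24 (sub KG a) 1)) 32)
  (get24 (sub KG a) 2)

theorem kg_keys : allB 191 (fun a => Nat.blt (keyK a) (keyK (Nat.succ a))) = true := by
  decide +kernel

theorem elk_inj : ∀ a b, a < 192 → b < 192 → elk a = elk b → a = b := by
  have hmono := Sext.mono_of_chain (f := keyK) (n := 191) (fun k hk' => by
    have := allB_spec kg_keys k hk'
    rw [Nat.blt_eq] at this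
    exact this)
  intro a b ha hb e
  have e' : genOf KG KQ 192 kg_sys a = genOf KG KQ 192 kg_sys b := congrArg Subtype.val e
  have key : ∀ i, i < 24 → get24 (sub KG a) i = get24 (sub KG b) i := by
    intro i hi
    have h1 := genOf_pt KG KQ 192 kg_sys ha hi
    have h2 := genOf_pt KG KQ 192 kg_sys hb hi
    apply pt_inj h1.2 h2.2
    rw [← h1.1, ← h2.1, e']
  have hkey : keyK a = keyK b := by
    unfold keyK
    rw [key 23 (by norm_num), key 0 (by norm_num), key 1 (by norm_num), key 2 (by norm_num)]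
  by_contra hne
  rcases Nat.lt_or_gt_of_ne hne with hlt | hlt
  · have := hmono a b hlt hb; omega
  · have := hmono b a hlt ha; omega

theorem elk_mem {a : ℕ} (ha : a < 192) : elk a ∈ K0 :=
  gen_K KG KQ 192 kg_sys kg_m24 ha (allB_spec kg_all a ha)

theorem K0_enum {c : ↥M24} (hc : c ∈ K0) : ∃ a, a < 192 ∧ c = elk a := by
  have hsub : {s : ↥M24 | ∃ a, a < 192 ∧ (fun _ : ℕ => true) a = true ∧ s = elk a} ⊆
      (K0 : Set ↥M24) := by
    rintro s ⟨a, ha, -, rfl⟩
    exact elk_mem ha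
  have hcard : {s : ↥M24 | ∃ a, a < 192 ∧ (fun _ : ℕ => true) a = true ∧ s = elk a}.ncard
      = 192 :=
    (ncard_eq_cnt elk 192 elk_inj _ (fun _ => true) (fun s => Iff.rfl)).trans (cnt_true 192)
  have hK : (K0 : Set ↥M24).ncard = 192 := by
    rw [← card_K0, ← Nat.card_coe_set_eq]; rfl
  have heq := Set.eq_of_subset_of_ncard_le hsub (by rw [hK, hcard]) (Set.toFinite _)
  have hmem : c ∈ {s : ↥M24 | ∃ a, a < 192 ∧ (fun _ : ℕ => true) a = true ∧ s = elk a} := by
    rw [heq]; exact hc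
  obtain ⟨a, ha, -, e⟩ := hmem
  exact ⟨a, ha, e⟩

/-! ## The elements squaring to the identity -/

/-- the table squares to the identity -/
def sqT (P : ℕ) : Bool := allB 24 (fun i => Nat.beq (get24 P (get24 P i)) i)

theorem sq_iff (GS QS ng : ℕ) (h : sysOK GS QS ng = true) {a : ℕ} (ha : a < ng) :
    genOf GS QS ng h a * genOf GS QS ng h a = 1 ↔ sqT (sub GS a) = true := by
  constructor
  · intro hc
    apply allB_of
    intro i hi
    rw [Nat.beq_eq]
    have p1 := genOf_pt GS QS ng h ha hi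
    have p2 := genOf_pt GS QS ng h ha p1.2
    have h4 := congrArg (fun f : Equiv.Perm GolayPt => f (pt i)) hc
    simp only [Equiv.Perm.mul_apply, Equiv.Perm.one_apply] at h4
    rw [p1.1, p2.1] at h4
    exact pt_inj p2.2 hi h4
  · intro hc
    apply perm_ext
    intro i hi
    have p1 := genOf_pt GS QS ng h ha hi
    have p2 := genOf_pt GS QS ng h ha p1.2
    rw [Equiv.Perm.mul_apply, p1.1, p2.1, Nat.eq_of_beq_eq_true (allB_spec hc i hi)]
    rfl

theorem k_comm : allB 192 (fun a => bif sqT (sub KG a) then allB 192 (fun b =>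
    bif sqT (sub KG b) then commT (sub KG a) (sub KG b) else true) else true) = true := by
  decide +kernel
theorem k_cnt_sq : cntB 192 (fun a => sqT (sub KG a)) = 64 := by decide +kernel

theorem N_comm {c d : ↥M24} (hc : c ∈ K0) (hc2 : c * c = 1) (hd : d ∈ K0) (hd2 : d * d = 1) :
    c * d = d * c := by
  obtain ⟨a, ha, rfl⟩ := K0_enum hc
  obtain ⟨b, hb, rfl⟩ := K0_enum hd
  have sa : sqT (sub KG a) = true := (sq_iff KG KQ 192 kg_sys ha).1 (congrArg Subtype.val hc2)
  have sb : sqT (sub KG b) = true := (sq_iff KG KQ 192 kg_sys hb).1 (congrArg Subtype.val hd2)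
  have h1 := allB_spec k_comm a ha
  rw [sa, cond_true] at h1
  have h2 := allB_spec h1 b hb
  rw [sb, cond_true] at h2
  apply Subtype.ext
  show genOf KG KQ 192 kg_sys a * genOf KG KQ 192 kg_sys b =
    genOf KG KQ 192 kg_sys b * genOf KG KQ 192 kg_sys a
  rw [genOf_eq KG KQ 192 kg_sys hb]
  exact (comm_iff KG KQ 192 kg_sys ha _ _ _).2 h2

/-- the subgroup of order 64 -/
def N0 : Subgroup ↥M24 where
  carrier := {c | c ∈ K0 ∧ c * c = 1}
  mul_mem' := by
    rintro c d ⟨hc, hc2⟩ ⟨hd, hd2⟩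
    refine ⟨mul_mem hc hd, ?_⟩
    have hcd : c * d = d * c := N_comm hc hc2 hd hd2
    calc c * d * (c * d) = c * (d * c) * d := by group
      _ = c * (c * d) * d := by rw [hcd]
      _ = (c * c) * (d * d) := by group
      _ = 1 := by rw [hc2, hd2, one_mul]
  one_mem' := ⟨one_mem _, one_mul 1⟩
  inv_mem' := by
    rintro c ⟨hc, hc2⟩
    refine ⟨inv_mem hc, ?_⟩
    rw [← mul_inv_rev, hc2, inv_one]

theorem mem_N0 {c : ↥M24} : c ∈ N0 ↔ c ∈ K0 ∧ c * c = 1 := Iff.rfl

theorem card_N0 : Nat.card ↥N0 = 64 := by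
  have h1 : Nat.card ↥N0 = ((N0 : Subgroup ↥M24) : Set ↥M24).ncard := by
    rw [← Nat.card_coe_set_eq]; rfl
  rw [h1, ← k_cnt_sq]
  apply ncard_eq_cnt elk 192 elk_inj
  intro s
  rw [SetLike.mem_coe, mem_N0]
  constructor
  · rintro ⟨hs, hs2⟩
    obtain ⟨a, ha, rfl⟩ := K0_enum hs
    exact ⟨a, ha, (sq_iff KG KQ 192 kg_sys ha).1 (congrArg Subtype.val hs2), rfl⟩
  · rintro ⟨a, ha, hf, rfl⟩
    exact ⟨elk_mem ha, Subtype.ext ((sq_iff KG KQ 192 kg_sys ha).2 hf)⟩

/-- an element fixing the six tetrads fixes the sextet -/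
theorem K0_le : K0 ≤ MulAction.stabilizer ↥M24 (sx 1545) := by
  intro c hc
  rw [MulAction.mem_stabilizer_iff]
  show (c : Equiv.Perm GolayPt) • sx 1545 = sx 1545
  apply sextet_unique (smul_sextet c.2 (sx_mem (by norm_num))) (sx_mem (by norm_num))
    (t := ofMask (sxm 1545 0))
  · have h := mem_K0.1 hc 0 (by norm_num)
    have h2 : (c : Equiv.Perm GolayPt) • ofMask (sxm 1545 0) ∈
        (c : Equiv.Perm GolayPt) • sx 1545 := Finset.smul_mem_smul_finset (mem_sx (by norm_num))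
    rwa [h] at h2
  · exact mem_sx (by norm_num)

theorem N0_conj {g : ↥M24} (hg : g ∈ MulAction.stabilizer ↥M24 (sx 1545)) {n : ↥M24}
    (hn : n ∈ N0) : g * n * g⁻¹ ∈ N0 := by
  obtain ⟨hK, h2⟩ := mem_N0.1 hn
  refine mem_N0.2 ⟨?_, ?_⟩
  · rw [mem_K0]
    intro i hi
    have hg1 : (g : Equiv.Perm GolayPt) • sx 1545 = sx 1545 := hg
    have hg' : (g : Equiv.Perm GolayPt)⁻¹ • sx 1545 = sx 1545 := by
      rw [inv_smul_eq_iff, hg1]
    have h1 : (g : Equiv.Perm GolayPt)⁻¹ • ofMask (sxm 1545 i) ∈ sx 1545 := by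
      have : (g : Equiv.Perm GolayPt)⁻¹ • ofMask (sxm 1545 i) ∈
          (g : Equiv.Perm GolayPt)⁻¹ • sx 1545 := Finset.smul_mem_smul_finset (mem_sx hi)
      rwa [hg'] at this
    rw [sx, mem_fam] at h1
    obtain ⟨j, hj, e⟩ := h1
    show ((g : Equiv.Perm GolayPt) * (n : Equiv.Perm GolayPt) * (g : Equiv.Perm GolayPt)⁻¹) •
      ofMask (sxm 1545 i) = ofMask (sxm 1545 i)
    rw [mul_smul, mul_smul, e, mem_K0.1 hK j hj, ← e, smul_inv_smul]
  · calc g * n * g⁻¹ * (g * n * g⁻¹) = g * (n * n) * g⁻¹ := by group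
      _ = 1 := by rw [h2]; group

/-! ## The statement for the sextet number 1545 -/

/-- the structure of the stabilizer of a sextet -/
def Stmt (S : Finset (Finset GolayPt)) : Prop :=
  (∀ e : Equiv.Perm ↥S, ∃ g ∈ MulAction.stabilizer Cfsg.M24 S, ∀ t : ↥S,
    (g : Equiv.Perm Cfsg.GolayPt) • (t : Finset Cfsg.GolayPt) = ((e t : ↥S) : Finset Cfsg.GolayPt)) ∧
  Nat.card {g : ↥(MulAction.stabilizer Cfsg.M24 S) //
    ∀ t ∈ S, ((g : Cfsg.M24) : Equiv.Perm Cfsg.GolayPt) • t = t} = 192 ∧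
  ∃ N : Subgroup ↥(MulAction.stabilizer Cfsg.M24 S), N.Normal ∧ Nat.card N = 64 ∧
    ∀ x ∈ N, x * x = 1

theorem part2 : Nat.card {g : ↥(MulAction.stabilizer Cfsg.M24 (sx 1545)) //
    ∀ t ∈ sx 1545, ((g : Cfsg.M24) : Equiv.Perm Cfsg.GolayPt) • t = t} = 192 := by
  rw [← card_K0]
  apply Nat.card_congr
  exact {
    toFun := fun g => ⟨g.1.1, mem_K0.2 (fun i hi => g.2 _ (mem_sx hi))⟩
    invFun := fun c => ⟨⟨c.1, K0_le c.2⟩, fun t ht => by
      rw [sx, mem_fam] at ht
      obtain ⟨i, hi, rfl⟩ := ht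
      exact mem_K0.1 c.2 i hi⟩
    left_inv := fun _ => rfl
    right_inv := fun _ => rfl }

theorem part3 : ∃ N : Subgroup ↥(MulAction.stabilizer Cfsg.M24 (sx 1545)), N.Normal ∧
    Nat.card N = 64 ∧ ∀ x ∈ N, x * x = 1 := by
  refine ⟨N0.subgroupOf (MulAction.stabilizer Cfsg.M24 (sx 1545)), ?_, ?_, ?_⟩
  · constructor
    intro n hn g
    rw [Subgroup.mem_subgroupOf] at hn ⊢
    exact N0_conj g.2 hn
  · have hle : N0 ≤ MulAction.stabilizer Cfsg.M24 (sx 1545) := fun c hc => K0_le (mem_N0.1 hc).1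
    rw [Nat.card_congr (Subgroup.subgroupOfEquivOfLe hle).toEquiv, card_N0]
  · intro x hx
    rw [Subgroup.mem_subgroupOf] at hx
    exact Subtype.ext (mem_N0.1 hx).2

theorem w_sys : sysOK WG WQ 36 = true := by decide +kernel
theorem w_m24 : sysM24 WG 36 = true := by decide +kernel

/-- the transposition of `i` and `j` -/
def swI (i j l : ℕ) : ℕ := bif Nat.beq l i then j else bif Nat.beq l j then i else l

theorem k_sw : allB 6 (fun i => allB 6 (fun j => bif Nat.beq i j then true else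
    allB 6 (fun l => Nat.beq (permMask (sub WG (Nat.add (Nat.mul 6 i) j)) (sxm 1545 l))
      (sxm 1545 (swI i j l))))) = true := by decide +kernel

/-- the listed elements inducing transpositions -/
def elw (a : ℕ) : ↥M24 := ⟨genOf WG WQ 36 w_sys a, genOf_mem_M24 WG WQ 36 w_sys w_m24 a⟩

theorem swI_lt {i j l : ℕ} (hi : i < 6) (hj : j < 6) (hl : l < 6) : swI i j l < 6 := by
  unfold swI
  cases Nat.beq l i <;> cases Nat.beq l j <;> simp <;> assumption

theorem swI_left (i j : ℕ) : swI i j i = j := by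
  unfold swI
  rw [Nat.beq_refl, cond_true]

theorem swI_right {i j : ℕ} (hne : i ≠ j) : swI i j j = i := by
  unfold swI
  have h1 : Nat.beq j i = false := by
    cases hb : Nat.beq j i with
    | true => exact absurd (Nat.eq_of_beq_eq_true hb).symm hne
    | false => rfl
  rw [h1, cond_false, Nat.beq_refl, cond_true]

theorem swI_other {i j l : ℕ} (h1 : l ≠ i) (h2 : l ≠ j) : swI i j l = l := by
  unfold swI
  have e1 : Nat.beq l i = false := by
    cases hb : Nat.beq l i with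
    | true => exact absurd (Nat.eq_of_beq_eq_true hb) h1
    | false => rfl
  have e2 : Nat.beq l j = false := by
    cases hb : Nat.beq l j with
    | true => exact absurd (Nat.eq_of_beq_eq_true hb) h2
    | false => rfl
  rw [e1, cond_false, e2, cond_false]

theorem elw_smul {i j : ℕ} (hi : i < 6) (hj : j < 6) (hne : i ≠ j) {l : ℕ} (hl : l < 6) :
    (elw (Nat.add (Nat.mul 6 i) j) : Equiv.Perm GolayPt) • ofMask (sxm 1545 l) =
      ofMask (sxm 1545 (swI i j l)) := by
  have h1 := allB_spec (allB_spec k_sw i hi) j hj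
  have hb : Nat.beq i j = false := by
    cases hb : Nat.beq i j with
    | true => exact absurd (Nat.eq_of_beq_eq_true hb) hne
    | false => rfl
  rw [hb, cond_false] at h1
  have h2 := Nat.eq_of_beq_eq_true (allB_spec h1 l hl)
  have ha : Nat.add (Nat.mul 6 i) j < 36 := by show 6 * i + j < 36; omega
  show genOf WG WQ 36 w_sys (Nat.add (Nat.mul 6 i) j) • ofMask (sxm 1545 l) = _
  rw [genOf_smul_ofMask WG WQ 36 w_sys ha, h2]

theorem elw_mem {i j : ℕ} (hi : i < 6) (hj : j < 6) (hne : i ≠ j) :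
    elw (Nat.add (Nat.mul 6 i) j) ∈ MulAction.stabilizer ↥M24 (sx 1545) := by
  rw [MulAction.mem_stabilizer_iff]
  show (elw (Nat.add (Nat.mul 6 i) j) : Equiv.Perm GolayPt) • sx 1545 = sx 1545
  apply sextet_unique (smul_sextet (elw _).2 (sx_mem (by norm_num))) (sx_mem (by norm_num))
    (t := ofMask (sxm 1545 (swI i j 0)))
  · rw [← elw_smul hi hj hne (by norm_num : 0 < 6)]
    exact Finset.smul_mem_smul_finset (mem_sx (by norm_num))
  · exact mem_sx (swI_lt hi hj (by norm_num))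

theorem part1 : ∀ e : Equiv.Perm ↥(sx 1545), ∃ g ∈ MulAction.stabilizer Cfsg.M24 (sx 1545),
    ∀ t : ↥(sx 1545), (g : Equiv.Perm Cfsg.GolayPt) • (t : Finset Cfsg.GolayPt) =
      ((e t : ↥(sx 1545)) : Finset Cfsg.GolayPt) := by
  intro e
  have he : e ∈ Submonoid.closure {σ : Equiv.Perm ↥(sx 1545) | σ.IsSwap} := by
    rw [Equiv.Perm.mclosure_isSwap]
    exact Submonoid.mem_top e
  induction he using Submonoid.closure_induction with
  | mem σ hσ =>
    obtain ⟨a, b, hab, rfl⟩ := hσ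
    obtain ⟨i, hi, ea⟩ := (mem_fam (n := 6) (m := sxm 1545)).1 a.2
    obtain ⟨j, hj, eb⟩ := (mem_fam (n := 6) (m := sxm 1545)).1 b.2
    have hne : i ≠ j := by
      intro h
      apply hab
      apply Subtype.ext
      rw [ea, eb, h]
    refine ⟨elw (Nat.add (Nat.mul 6 i) j), elw_mem hi hj hne, ?_⟩
    intro t
    obtain ⟨l, hl, et⟩ := (mem_fam (n := 6) (m := sxm 1545)).1 t.2
    rw [et, elw_smul hi hj hne hl]
    by_cases h1 : l = i
    · have hta : t = a := by
        apply Subtype.ext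
        rw [et, ea, h1]
      rw [hta, Equiv.swap_apply_left, h1, swI_left, eb]
    · by_cases h2 : l = j
      · have htb : t = b := by
          apply Subtype.ext
          rw [et, eb, h2]
        rw [htb, Equiv.swap_apply_right, h2, swI_right hne, ea]
      · have hta : t ≠ a := by
          intro h
          apply h1
          have h3 : ofMask (sxm 1545 l) = ofMask (sxm 1545 i) := by rw [← et, ← ea, h]
          exact sx_injOn (by norm_num : 1545 < 1771) (by simpa using hl) (by simpa using hi) h3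
        have htb : t ≠ b := by
          intro h
          apply h2
          have h3 : ofMask (sxm 1545 l) = ofMask (sxm 1545 j) := by rw [← et, ← eb, h]
          exact sx_injOn (by norm_num : 1545 < 1771) (by simpa using hl) (by simpa using hj) h3
        rw [Equiv.swap_apply_of_ne_of_ne hta htb, swI_other h1 h2, et]
  | one =>
    exact ⟨1, one_mem _, fun t => by simp⟩
  | mul σ τ _ _ ih1 ih2 =>
    obtain ⟨g1, hg1, h1⟩ := ih1
    obtain ⟨g2, hg2, h2⟩ := ih2
    refine ⟨g1 * g2, mul_mem hg1 hg2, fun t => ?_⟩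
    show ((g1 : Equiv.Perm GolayPt) * (g2 : Equiv.Perm GolayPt)) • (t : Finset GolayPt) = _
    rw [mul_smul, h2 t, h1 (τ t)]
    rfl

theorem stmt0 : Stmt (sx 1545) := ⟨part1, part2, part3⟩

/-! ## Transport to all sextets -/

theorem stmt_smul (c : ↥M24) (S : Finset (Finset GolayPt)) (h : Stmt S) :
    Stmt ((c : Equiv.Perm GolayPt) • S) := by
  let φ : ↥(MulAction.stabilizer ↥M24 S) ≃*
      ↥(MulAction.stabilizer ↥M24 ((c : Equiv.Perm GolayPt) • S)) :=
    MulAction.stabilizerEquivStabilizer (G := ↥M24) (g := c) (a := S)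
      (b := (c : Equiv.Perm GolayPt) • S) rfl
  have hφ : ∀ x : ↥(MulAction.stabilizer ↥M24 S), (((φ x : ↥M24)) : Equiv.Perm GolayPt) =
      (c : Equiv.Perm GolayPt) * ((x : ↥M24) : Equiv.Perm GolayPt) *
        (c : Equiv.Perm GolayPt)⁻¹ := by
    intro x
    have h1 : (φ x : ↥M24) = c * (x : ↥M24) * c⁻¹ :=
      MulAction.stabilizerEquivStabilizer_apply _ x
    rw [h1]
    rfl
  obtain ⟨h1, h2, N, hN, hcard, hx⟩ := h
  refine ⟨?_, ?_, ?_⟩
  · intro e
    let β : ↥S ≃ ↥((c : Equiv.Perm GolayPt) • S) :=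
      { toFun := fun t => ⟨(c : Equiv.Perm GolayPt) • (t : Finset GolayPt),
          Finset.smul_mem_smul_finset t.2⟩
        invFun := fun u => ⟨(c : Equiv.Perm GolayPt)⁻¹ • (u : Finset GolayPt), by
          have := Finset.smul_mem_smul_finset (a := (c : Equiv.Perm GolayPt)⁻¹) u.2
          rwa [inv_smul_smul] at this⟩
        left_inv := fun t => Subtype.ext (inv_smul_smul _ _)
        right_inv := fun u => Subtype.ext (smul_inv_smul _ _) }
    obtain ⟨g0, hg0, h0⟩ := h1 ((β.trans e).trans β.symm)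
    refine ⟨(φ ⟨g0, hg0⟩ : ↥M24), (φ ⟨g0, hg0⟩).2, ?_⟩
    intro u
    rw [hφ, mul_smul, mul_smul]
    have h3 := h0 (β.symm u)
    have h4 : ((((β.trans e).trans β.symm) (β.symm u) : ↥S) : Finset GolayPt) =
        (c : Equiv.Perm GolayPt)⁻¹ • ((e u : ↥((c : Equiv.Perm GolayPt) • S)) : Finset GolayPt) := by
      show ((β.symm (e (β (β.symm u))) : ↥S) : Finset GolayPt) = _
      rw [Equiv.apply_symm_apply]
      rfl
    calc (c : Equiv.Perm GolayPt) • (g0 : Equiv.Perm GolayPt) • (c : Equiv.Perm GolayPt)⁻¹ •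
          (u : Finset GolayPt)
        = (c : Equiv.Perm GolayPt) • ((g0 : Equiv.Perm GolayPt) •
          ((β.symm u : ↥S) : Finset GolayPt)) := rfl
      _ = (c : Equiv.Perm GolayPt) • ((c : Equiv.Perm GolayPt)⁻¹ •
          ((e u : ↥((c : Equiv.Perm GolayPt) • S)) : Finset GolayPt)) := by rw [h3, h4]
      _ = ((e u : ↥((c : Equiv.Perm GolayPt) • S)) : Finset GolayPt) := smul_inv_smul _ _
  · rw [← h2]
    symm
    apply Nat.card_congr
    apply φ.toEquiv.subtypeEquiv
    intro g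
    show (∀ t ∈ S, ((g : ↥M24) : Equiv.Perm GolayPt) • t = t) ↔
      (∀ u ∈ (c : Equiv.Perm GolayPt) • S, ((φ g : ↥M24) : Equiv.Perm GolayPt) • u = u)
    constructor
    · intro hg u hu
      obtain ⟨t, ht, rfl⟩ := Finset.mem_smul_finset.1 hu
      rw [hφ, mul_smul, mul_smul, inv_smul_smul, hg t ht]
    · intro hg t ht
      have h3 := hg _ (Finset.smul_mem_smul_finset ht)
      rw [hφ, mul_smul, mul_smul, inv_smul_smul] at h3
      exact MulAction.injective _ h3
  · refine ⟨N.map φ.toMonoidHom, hN.map φ.toMonoidHom φ.surjective, ?_, ?_⟩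
    · rw [Subgroup.card_map_of_injective (f := φ.toMonoidHom) φ.injective]
      exact hcard
    · rintro x ⟨n, hn, rfl⟩
      show φ n * φ n = 1
      rw [← map_mul, hx n hn, map_one]

/-- the statement for every sextet -/
theorem main (S : Finset (Finset GolayPt)) (hS : S ∈ sextets) : Stmt S := by
  obtain ⟨g, hg, rfl⟩ := Cfsg.Agent.Helper28.SxStab.M24_trans_sextets (sx_mem (by norm_num : 1545 < 1771)) hS
  exact stmt_smul ⟨g, hg⟩ _ stmt0

end Cfsg.Agent.Helper28.SxKer
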