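import Mathlib
import Cfsg.Prelude.Def_SporadicCombinatorics
import Cfsg.Agent.S1600
import Cfsg.Agent.Helper28.SxKer
import Cfsg.Agent.Helper28.QuatTools
import Cfsg.Agent.Helper28.M9Data

/-!
The subgroup of the group of the length-24 code fixing a dodecad and three of its points: it has
order 72, a normal subgroup of order 9 and exponent 3, and a quaternion subgroup of order 8.
-/

set_option autoImplicit false

namespace Cfsg.Agent.Helper28.M9

open Cfsg Cfsg.Agent.Helper12 Cfsg.Agent.Helper28.Coset Cfsg.Agent.Helper28.Ord3Data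
  Cfsg.Agent.Helper28.InvClass Cfsg.Agent.Helper28.Ord3
  Cfsg.Agent.Helper28.Ord3Inv Cfsg.Agent.Helper28.Sext
  Cfsg.Agent.Helper28.Norm7 Cfsg.Agent.Helper28.CentB
  Cfsg.Agent.Helper28.Syl2 Cfsg.Agent.Helper28.M9Data Cfsg.Agent.Helper28.QuatTools
open scoped Pointwise

/-- the standard group of order 72 -/
def G0 : Subgroup ↥M24 := MulAction.stabilizer ↥M24 (ofMask 340831) ⊓
  MulAction.stabilizer ↥M24 (pt 0) ⊓ MulAction.stabilizer ↥M24 (pt 1) ⊓
  MulAction.stabilizer ↥M24 (pt 2)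

theorem mem_G0 {c : ↥M24} : c ∈ G0 ↔
    ((c : Equiv.Perm GolayPt) • ofMask 340831 = ofMask 340831 ∧
      (c : Equiv.Perm GolayPt) (pt 0) = pt 0 ∧ (c : Equiv.Perm GolayPt) (pt 1) = pt 1 ∧
      (c : Equiv.Perm GolayPt) (pt 2) = pt 2) := by
  rw [G0, Subgroup.mem_inf, Subgroup.mem_inf, Subgroup.mem_inf, mem_st, mem_st, mem_st,
    MulAction.mem_stabilizer_iff]
  constructor
  · rintro ⟨⟨⟨h1, h2⟩, h3⟩, h4⟩; exact ⟨h1, h2, h3, h4⟩
  · rintro ⟨h1, h2, h3, h4⟩; exact ⟨⟨⟨h1, h2⟩, h3⟩, h4⟩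

theorem d_mem : ofMask 340831 ∈ dodecads := by
  rw [← Cfsg.Agent.S1600.dStd_eq_ofMask]
  exact Cfsg.Agent.Helper3.dStd_mem

theorem card_G0 : Nat.card ↥G0 = 72 :=
  (Cfsg.Agent.S1600.result (ofMask 340831) d_mem (pt 0) (pt 1) (pt 2)
    (by rw [pt_mem_ofMask (by norm_num)]; decide +kernel)
    (by rw [pt_mem_ofMask (by norm_num)]; decide +kernel)
    (by rw [pt_mem_ofMask (by norm_num)]; decide +kernel)
    (fun h => by have := pt_inj (by norm_num) (by norm_num) h; omega)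
    (fun h => by have := pt_inj (by norm_num) (by norm_num) h; omega)
    (fun h => by have := pt_inj (by norm_num) (by norm_num) h; omega)).1

/-! ## The list of the 72 elements -/

theorem l_sys : sysOK LG LQ 72 = true := by decide +kernel
theorem l_m24 : sysM24 LG 72 = true := by decide +kernel
theorem l_fix : fixOK LG 72 340831 = true := by decide +kernel
theorem l_fix0 : fixPtOK LG 72 0 = true := by decide +kernel
theorem l_fix1 : fixPtOK LG 72 1 = true := by decide +kernel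
theorem l_fix2 : fixPtOK LG 72 2 = true := by decide +kernel

/-- the listed elements of the group -/
def ell (a : ℕ) : ↥M24 := ⟨genOf LG LQ 72 l_sys a, genOf_mem_M24 LG LQ 72 l_sys l_m24 a⟩

theorem ell_mem (a : ℕ) : ell a ∈ G0 :=
  mem_G0.2 ⟨genOf_fix LG LQ 72 l_sys l_fix a, genOf_fix_pt LG LQ 72 l_sys (by norm_num) l_fix0 a,
    genOf_fix_pt LG LQ 72 l_sys (by norm_num) l_fix1 a,
    genOf_fix_pt LG LQ 72 l_sys (by norm_num) l_fix2 a⟩

/-- the key of a listed element: the images of two points -/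
def keyL (a : ℕ) : ℕ := Nat.add (Nat.mul (get24 (sub LG a) 3) 32) (get24 (sub LG a) 4)

theorem l_keys : allB 71 (fun a => Nat.blt (keyL a) (keyL (Nat.succ a))) = true := by
  decide +kernel

theorem ell_inj : ∀ a b, a < 72 → b < 72 → ell a = ell b → a = b := by
  have hmono := Sext.mono_of_chain (f := keyL) (n := 71) (fun k hk' => by
    have := allB_spec l_keys k hk'
    rw [Nat.blt_eq] at this
    exact this)
  intro a b ha hb e
  have e' : genOf LG LQ 72 l_sys a = genOf LG LQ 72 l_sys b := congrArg Subtype.val e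
  have key : ∀ i, i < 24 → get24 (sub LG a) i = get24 (sub LG b) i := by
    intro i hi
    have h1 := genOf_pt LG LQ 72 l_sys ha hi
    have h2 := genOf_pt LG LQ 72 l_sys hb hi
    apply pt_inj h1.2 h2.2
    rw [← h1.1, ← h2.1, e']
  have hkey : keyL a = keyL b := by
    unfold keyL
    rw [key 3 (by norm_num), key 4 (by norm_num)]
  by_contra hne
  rcases Nat.lt_or_gt_of_ne hne with hlt | hlt
  · have := hmono a b hlt hb; omega
  · have := hmono b a hlt ha; omega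

theorem G0_enum {c : ↥M24} (hc : c ∈ G0) : ∃ a, a < 72 ∧ c = ell a := by
  have hsub : {s : ↥M24 | ∃ a, a < 72 ∧ (fun _ : ℕ => true) a = true ∧ s = ell a} ⊆
      (G0 : Set ↥M24) := by
    rintro s ⟨a, ha, -, rfl⟩
    exact ell_mem a
  have hcard : {s : ↥M24 | ∃ a, a < 72 ∧ (fun _ : ℕ => true) a = true ∧ s = ell a}.ncard
      = 72 :=
    (ncard_eq_cnt ell 72 ell_inj _ (fun _ => true) (fun s => Iff.rfl)).trans (cnt_true 72)
  have hK : (G0 : Set ↥M24).ncard = 72 := by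
    rw [← card_G0, ← Nat.card_coe_set_eq]; rfl
  have heq := Set.eq_of_subset_of_ncard_le hsub (by rw [hK, hcard]) (Set.toFinite _)
  have hmem : c ∈ {s : ↥M24 | ∃ a, a < 72 ∧ (fun _ : ℕ => true) a = true ∧ s = ell a} := by
    rw [heq]; exact hc
  obtain ⟨a, ha, -, e⟩ := hmem
  exact ⟨a, ha, e⟩

/-! ## The elements with trivial cube -/

/-- the cube of the table is the identity -/
def cubeT (P : ℕ) : Bool := allB 24 (fun i => Nat.beq (get24 P (get24 P (get24 P i))) i)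

theorem cube_iff (GS QS ng : ℕ) (h : sysOK GS QS ng = true) {a : ℕ} (ha : a < ng) :
    genOf GS QS ng h a ^ 3 = 1 ↔ cubeT (sub GS a) = true := by
  have e3 : genOf GS QS ng h a ^ 3 = genOf GS QS ng h a * genOf GS QS ng h a *
      genOf GS QS ng h a := by
    rw [pow_succ, pow_two]
  rw [e3]
  constructor
  · intro hc
    apply allB_of
    intro i hi
    rw [Nat.beq_eq]
    have p1 := genOf_pt GS QS ng h ha hi
    have p2 := genOf_pt GS QS ng h ha p1.2
    have p3 := genOf_pt GS QS ng h ha p2.2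
    have h4 := congrArg (fun f : Equiv.Perm GolayPt => f (pt i)) hc
    simp only [Equiv.Perm.mul_apply, Equiv.Perm.one_apply] at h4
    rw [p1.1, p2.1, p3.1] at h4
    exact pt_inj p3.2 hi h4
  · intro hc
    apply perm_ext
    intro i hi
    have p1 := genOf_pt GS QS ng h ha hi
    have p2 := genOf_pt GS QS ng h ha p1.2
    have p3 := genOf_pt GS QS ng h ha p2.2
    rw [Equiv.Perm.mul_apply, Equiv.Perm.mul_apply, p1.1, p2.1, p3.1,
      Nat.eq_of_beq_eq_true (allB_spec hc i hi)]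
    rfl

theorem l_comm : allB 72 (fun a => bif cubeT (sub LG a) then allB 72 (fun b =>
    bif cubeT (sub LG b) then commT (sub LG a) (sub LG b) else true) else true) = true := by
  decide +kernel
theorem l_cnt_cube : cntB 72 (fun a => cubeT (sub LG a)) = 9 := by decide +kernel

theorem N_comm {c d : ↥M24} (hc : c ∈ G0) (hc3 : c ^ 3 = 1) (hd : d ∈ G0) (hd3 : d ^ 3 = 1) :
    c * d = d * c := by
  obtain ⟨a, ha, rfl⟩ := G0_enum hc
  obtain ⟨b, hb, rfl⟩ := G0_enum hd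
  have sa : cubeT (sub LG a) = true := (cube_iff LG LQ 72 l_sys ha).1 (congrArg Subtype.val hc3)
  have sb : cubeT (sub LG b) = true := (cube_iff LG LQ 72 l_sys hb).1 (congrArg Subtype.val hd3)
  have h1 := allB_spec l_comm a ha
  rw [sa, cond_true] at h1
  have h2 := allB_spec h1 b hb
  rw [sb, cond_true] at h2
  apply Subtype.ext
  show genOf LG LQ 72 l_sys a * genOf LG LQ 72 l_sys b =
    genOf LG LQ 72 l_sys b * genOf LG LQ 72 l_sys a
  rw [genOf_eq LG LQ 72 l_sys hb]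
  exact (comm_iff LG LQ 72 l_sys ha _ _ _).2 h2

/-- the subgroup of order 9 -/
def N0 : Subgroup ↥M24 where
  carrier := {c | c ∈ G0 ∧ c ^ 3 = 1}
  mul_mem' := by
    rintro c d ⟨hc, hc3⟩ ⟨hd, hd3⟩
    refine ⟨mul_mem hc hd, ?_⟩
    have hcd : Commute c d := N_comm hc hc3 hd hd3
    rw [hcd.mul_pow, hc3, hd3, one_mul]
  one_mem' := ⟨one_mem _, one_pow 3⟩
  inv_mem' := by
    rintro c ⟨hc, hc3⟩
    refine ⟨inv_mem hc, ?_⟩
    rw [inv_pow, hc3, inv_one]

theorem mem_N0 {c : ↥M24} : c ∈ N0 ↔ c ∈ G0 ∧ c ^ 3 = 1 := Iff.rfl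

theorem card_N0 : Nat.card ↥N0 = 9 := by
  have h1 : Nat.card ↥N0 = ((N0 : Subgroup ↥M24) : Set ↥M24).ncard := by
    rw [← Nat.card_coe_set_eq]; rfl
  rw [h1, ← l_cnt_cube]
  apply ncard_eq_cnt ell 72 ell_inj
  intro s
  rw [SetLike.mem_coe, mem_N0]
  constructor
  · rintro ⟨hs, hs3⟩
    obtain ⟨a, ha, rfl⟩ := G0_enum hs
    exact ⟨a, ha, (cube_iff LG LQ 72 l_sys ha).1 (congrArg Subtype.val hs3), rfl⟩
  · rintro ⟨a, ha, hf, rfl⟩
    exact ⟨ell_mem a, Subtype.ext ((cube_iff LG LQ 72 l_sys ha).2 hf)⟩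

theorem N0_conj {g : ↥M24} (hg : g ∈ G0) {n : ↥M24} (hn : n ∈ N0) : g * n * g⁻¹ ∈ N0 := by
  obtain ⟨hG, h3⟩ := mem_N0.1 hn
  refine mem_N0.2 ⟨mul_mem (mul_mem hg hG) (inv_mem hg), ?_⟩
  rw [conj_pow, h3, mul_one, mul_inv_cancel]

/-! ## The quaternion subgroup -/

theorem l_cnt_fix : cntB 72 (fun a => Nat.beq (get24 (sub LG a) 3) 3) = 8 := by decide +kernel

theorem card_P : Nat.card ↥(G0 ⊓ MulAction.stabilizer ↥M24 (pt 3)) = 8 := by
  have h1 : Nat.card ↥(G0 ⊓ MulAction.stabilizer ↥M24 (pt 3)) =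
      ((G0 ⊓ MulAction.stabilizer ↥M24 (pt 3) : Subgroup ↥M24) : Set ↥M24).ncard := by
    rw [← Nat.card_coe_set_eq]; rfl
  rw [h1, ← l_cnt_fix]
  apply ncard_eq_cnt ell 72 ell_inj
  intro s
  rw [SetLike.mem_coe, Subgroup.mem_inf, mem_st]
  constructor
  · rintro ⟨hs, hs3⟩
    obtain ⟨a, ha, rfl⟩ := G0_enum hs
    refine ⟨a, ha, ?_, rfl⟩
    rw [Nat.beq_eq]
    have p1 := genOf_pt LG LQ 72 l_sys ha (by norm_num : 3 < 24)
    exact pt_inj p1.2 (by norm_num) (p1.1.symm.trans hs3)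
  · rintro ⟨a, ha, hf, rfl⟩
    refine ⟨ell_mem a, ?_⟩
    have p1 := genOf_pt LG LQ 72 l_sys ha (by norm_num : 3 < 24)
    rw [Nat.eq_of_beq_eq_true hf] at p1
    exact p1.1

theorem k_x4 : allB 24 (fun i => Nat.beq (get24 (sub LG 1) (get24 (sub LG 1)
    (get24 (sub LG 1) (get24 (sub LG 1) i)))) i) = true := by decide +kernel
theorem k_y2 : allB 24 (fun i => Nat.beq (get24 (sub LG 2) (get24 (sub LG 2) i))
    (get24 (sub LG 1) (get24 (sub LG 1) i))) = true := by decide +kernel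
theorem k_xyx : allB 24 (fun i => Nat.beq (get24 (sub LG 1) (get24 (sub LG 2)
    (get24 (sub LG 1) i))) (get24 (sub LG 2) i)) = true := by decide +kernel
theorem k_x2 : get24 (sub LG 1) (get24 (sub LG 1) 4) ≠ 4 := by decide +kernel
theorem k_xy3 : get24 (sub LG 1) 3 = 3 ∧ get24 (sub LG 2) 3 = 3 := by decide +kernel

/-- the two generators of the quaternion subgroup -/
def X : ↥G0 := ⟨ell 1, ell_mem 1⟩
def Y : ↥G0 := ⟨ell 2, ell_mem 2⟩

theorem coe_X : ((X : ↥M24) : Equiv.Perm GolayPt) = genOf LG LQ 72 l_sys 1 := rfl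
theorem coe_Y : ((Y : ↥M24) : Equiv.Perm GolayPt) = genOf LG LQ 72 l_sys 2 := rfl

theorem X_pt {i : ℕ} (hi : i < 24) : genOf LG LQ 72 l_sys 1 (pt i) = pt (get24 (sub LG 1) i) ∧
    get24 (sub LG 1) i < 24 := genOf_pt LG LQ 72 l_sys (by norm_num) hi
theorem Y_pt {i : ℕ} (hi : i < 24) : genOf LG LQ 72 l_sys 2 (pt i) = pt (get24 (sub LG 2) i) ∧
    get24 (sub LG 2) i < 24 := genOf_pt LG LQ 72 l_sys (by norm_num) hi

theorem X_pow4 : X ^ 4 = 1 := by
  apply Subtype.ext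
  apply Subtype.ext
  show genOf LG LQ 72 l_sys 1 ^ 4 = 1
  have e4 : genOf LG LQ 72 l_sys 1 ^ 4 = genOf LG LQ 72 l_sys 1 * genOf LG LQ 72 l_sys 1 *
      genOf LG LQ 72 l_sys 1 * genOf LG LQ 72 l_sys 1 := by
    rw [pow_succ, pow_succ, pow_two]
  rw [e4]
  apply perm_ext
  intro i hi
  have p1 := X_pt hi
  have p2 := X_pt p1.2
  have p3 := X_pt p2.2
  have p4 := X_pt p3.2
  rw [Equiv.Perm.mul_apply, Equiv.Perm.mul_apply, Equiv.Perm.mul_apply, p1.1, p2.1, p3.1, p4.1,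
    Nat.eq_of_beq_eq_true (allB_spec k_x4 i hi)]
  rfl

theorem Y_sq : Y * Y = X ^ 2 := by
  apply Subtype.ext
  apply Subtype.ext
  show genOf LG LQ 72 l_sys 2 * genOf LG LQ 72 l_sys 2 = genOf LG LQ 72 l_sys 1 ^ 2
  rw [pow_two]
  apply perm_ext
  intro i hi
  have p1 := X_pt hi
  have p2 := X_pt p1.2
  have q1 := Y_pt hi
  have q2 := Y_pt q1.2
  rw [Equiv.Perm.mul_apply, Equiv.Perm.mul_apply, p1.1, p2.1, q1.1, q2.1,
    Nat.eq_of_beq_eq_true (allB_spec k_y2 i hi)]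

theorem XYX : X * Y * X = Y := by
  apply Subtype.ext
  apply Subtype.ext
  show genOf LG LQ 72 l_sys 1 * genOf LG LQ 72 l_sys 2 * genOf LG LQ 72 l_sys 1 =
    genOf LG LQ 72 l_sys 2
  apply perm_ext
  intro i hi
  have p1 := X_pt hi
  have q1 := Y_pt p1.2
  have p2 := X_pt q1.2
  have q0 := Y_pt hi
  rw [Equiv.Perm.mul_apply, Equiv.Perm.mul_apply, p1.1, q1.1, p2.1, q0.1,
    Nat.eq_of_beq_eq_true (allB_spec k_xyx i hi)]

theorem X_sq_ne : X ^ 2 ≠ 1 := by
  intro h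
  have h1 : genOf LG LQ 72 l_sys 1 ^ 2 = 1 := congrArg (fun c : ↥G0 => ((c : ↥M24) :
    Equiv.Perm GolayPt)) h
  rw [pow_two] at h1
  have h2 := congrArg (fun f : Equiv.Perm GolayPt => f (pt 4)) h1
  have p1 := X_pt (by norm_num : 4 < 24)
  have p2 := X_pt p1.2
  simp only [Equiv.Perm.mul_apply, Equiv.Perm.one_apply] at h2
  rw [p1.1, p2.1] at h2
  exact k_x2 (pt_inj p2.2 (by norm_num) h2)

/-- the quaternion subgroup -/
def P0 : Subgroup ↥G0 := (G0 ⊓ MulAction.stabilizer ↥M24 (pt 3)).subgroupOf G0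

theorem mem_P0 {c : ↥G0} : c ∈ P0 ↔ ((c : ↥M24) : Equiv.Perm GolayPt) (pt 3) = pt 3 := by
  rw [P0, Subgroup.mem_subgroupOf, Subgroup.mem_inf, mem_st]
  exact ⟨fun h => h.2, fun h => ⟨c.2, h⟩⟩

theorem card_P0 : Nat.card ↥P0 = 8 := by
  rw [P0, Nat.card_congr (Subgroup.subgroupOfEquivOfLe inf_le_left).toEquiv, card_P]

theorem X_mem : X ∈ P0 := by
  rw [mem_P0, coe_X, (X_pt (by norm_num)).1, k_xy3.1]

theorem Y_mem : Y ∈ P0 := by
  rw [mem_P0, coe_Y, (Y_pt (by norm_num)).1, k_xy3.2]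

theorem qmap_mem (u : QuaternionGroup 2) : qmap X Y u ∈ P0 := by
  cases u with
  | a i => exact pow_mem X_mem _
  | xa i => exact mul_mem Y_mem (pow_mem X_mem _)

theorem quat_equiv : Nonempty (↥P0 ≃* QuaternionGroup 2) := by
  obtain ⟨f, hf, hfu⟩ := quat_embed X Y X_pow4 Y_sq XYX X_sq_ne
  have hmem : ∀ u, f u ∈ P0 := fun u => by rw [hfu]; exact qmap_mem u
  let f' : QuaternionGroup 2 →* ↥P0 := f.codRestrict P0 hmem
  have hinj : Function.Injective f' := by
    intro u v huv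
    apply hf
    exact congrArg (fun c : ↥P0 => (c : ↥G0)) huv
  have hcardQ : Nat.card (QuaternionGroup 2) = 8 := by
    rw [Nat.card_eq_fintype_card, QuaternionGroup.card]
  have hbij : Function.Bijective f' := by
    rw [Nat.bijective_iff_injective_and_card]
    exact ⟨hinj, by rw [hcardQ, card_P0]⟩
  exact ⟨(MulEquiv.ofBijective f' hbij).symm⟩

/-- the structure of the standard group -/
theorem struct0 : Struct ↥G0 := by
  refine ⟨card_G0, ⟨N0.subgroupOf G0, ?_, ?_, ?_⟩, P0, card_P0, quat_equiv⟩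
  · constructor
    intro n hn g
    rw [Subgroup.mem_subgroupOf] at hn ⊢
    exact N0_conj g.2 hn
  · have hle : N0 ≤ G0 := fun c hc => (mem_N0.1 hc).1
    rw [Nat.card_congr (Subgroup.subgroupOfEquivOfLe hle).toEquiv, card_N0]
  · intro x hx
    rw [Subgroup.mem_subgroupOf] at hx
    exact Subtype.ext (mem_N0.1 hx).2

/-! ## Transport to all dodecads -/

theorem struct_of (d : Finset GolayPt) (p q r : GolayPt) (k : Equiv.Perm GolayPt) (hk : k ∈ M24)
    (hkd : k • ofMask 340831 = d) (hp : k (pt 0) = p) (hq : k (pt 1) = q) (hr : k (pt 2) = r) :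
    Struct ↥(MulAction.stabilizer ↥M24 d ⊓ MulAction.stabilizer ↥M24 p ⊓
      MulAction.stabilizer ↥M24 q ⊓ MulAction.stabilizer ↥M24 r) := by
  have hinj : Function.Injective (MulAut.conj (⟨k, hk⟩ : ↥M24)).toMonoidHom :=
    (MulAut.conj (⟨k, hk⟩ : ↥M24)).injective
  have e1 : (⟨k, hk⟩ : ↥M24) • ofMask 340831 = d := hkd
  have e2 : (⟨k, hk⟩ : ↥M24) • pt 0 = p := hp
  have e3 : (⟨k, hk⟩ : ↥M24) • pt 1 = q := hq
  have e4 : (⟨k, hk⟩ : ↥M24) • pt 2 = r := hr
  have heq : G0.map (MulAut.conj (⟨k, hk⟩ : ↥M24)).toMonoidHom =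
      MulAction.stabilizer ↥M24 d ⊓ MulAction.stabilizer ↥M24 p ⊓
      MulAction.stabilizer ↥M24 q ⊓ MulAction.stabilizer ↥M24 r := by
    rw [G0, Subgroup.map_inf _ _ _ hinj, Subgroup.map_inf _ _ _ hinj, Subgroup.map_inf _ _ _ hinj,
      ← MulAction.stabilizer_smul_eq_stabilizer_map_conj,
      ← MulAction.stabilizer_smul_eq_stabilizer_map_conj,
      ← MulAction.stabilizer_smul_eq_stabilizer_map_conj,
      ← MulAction.stabilizer_smul_eq_stabilizer_map_conj, e1, e2, e3, e4]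
  exact struct_transport (((MulAut.conj (⟨k, hk⟩ : ↥M24)).subgroupMap G0).trans
    (MulEquiv.subgroupCongr heq)) struct0

end Cfsg.Agent.Helper28.M9
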