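import Mathlib
import Cfsg.Prelude.Def_AxialAlgebras

/-!
# Commuting Majorana involutions (helper28)

Two commuting Majorana involutions with distinct (unique) axial vectors of length one generate an
algebra of type 2A or 2B: the elementary computation with the fusion rules.
-/

set_option autoImplicit false

namespace Cfsg.Agent.Helper28.Majo

open Cfsg.Axial

variable {V : Type*} [AddCommGroup V] [Module ℝ V]

theorem mem_eigen (mul : V →ₗ[ℝ] V →ₗ[ℝ] V) (a v : V) (c : ℝ) :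
    v ∈ eigen mul a c ↔ mul a v = c • v := Module.End.mem_eigenspace_iff

theorem eigen_le_eigenSum (mul : V →ₗ[ℝ] V →ₗ[ℝ] V) (a : V) (S : Set ℝ) (c : ℝ) (hc : c ∈ S) :
    eigen mul a c ≤ eigenSum mul a S :=
  le_biSup (fun c => eigen mul a c) hc

/-- The image of an eigenspace under an automorphism. -/
theorem eigen_map (mul : V →ₗ[ℝ] V →ₗ[ℝ] V) (σ : V ≃ₗ[ℝ] V)
    (hσ : ∀ u v : V, σ (mul u v) = mul (σ u) (σ v)) (a : V) (c : ℝ) :
    eigen mul (σ a) c = (eigen mul a c).map (σ : V →ₗ[ℝ] V) := by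
  ext v
  rw [Submodule.mem_map, mem_eigen]
  constructor
  · intro h
    refine ⟨σ.symm v, ?_, by simp⟩
    rw [mem_eigen]
    apply σ.injective
    rw [hσ, map_smul, LinearEquiv.apply_symm_apply]
    exact h
  · rintro ⟨w, hw, rfl⟩
    rw [mem_eigen] at hw
    show mul (σ a) (σ w) = c • σ w
    rw [← hσ, hw, map_smul]

theorem eigenSum_map (mul : V →ₗ[ℝ] V →ₗ[ℝ] V) (σ : V ≃ₗ[ℝ] V)
    (hσ : ∀ u v : V, σ (mul u v) = mul (σ u) (σ v)) (a : V) (S : Set ℝ) :
    eigenSum mul (σ a) S = (eigenSum mul a S).map (σ : V →ₗ[ℝ] V) := by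
  unfold eigenSum
  simp only [Submodule.map_iSup, eigen_map mul σ hσ]

/-- The image of the axial vector of a Majorana involution under an automorphism commuting with
the involution is again an axial vector of it. -/
theorem pair_map (mul : V →ₗ[ℝ] V →ₗ[ℝ] V) (B : LinearMap.BilinForm ℝ V) (μ σ : V ≃ₗ[ℝ] V) (a : V)
    (h : IsMajoranaPair mul B μ a) (hσ : ∀ u v : V, σ (mul u v) = mul (σ u) (σ v))
    (hc : ∀ v, μ (σ v) = σ (μ v)) : IsMajoranaPair mul B μ (σ a) := by
  obtain ⟨h1, h2, ⟨⟨hne, hid, htop, hfus⟩, hprim⟩, hm1, hm2⟩ := h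
  refine ⟨h1, h2, ⟨⟨?_, ?_, ?_, ?_⟩, ?_⟩, ?_, ?_⟩
  · intro h0
    apply hne
    apply σ.injective
    rw [h0, map_zero]
  · rw [← hσ, hid]
  · rw [eigenSum_map mul σ hσ, htop, Submodule.map_top, LinearMap.range_eq_top]
    exact σ.surjective
  · intro c hc' d hd u hu v hv
    rw [eigen_map mul σ hσ, Submodule.mem_map] at hu hv
    obtain ⟨u', hu', rfl⟩ := hu
    obtain ⟨v', hv', rfl⟩ := hv
    rw [eigenSum_map mul σ hσ, Submodule.mem_map]
    exact ⟨mul u' v', hfus c hc' d hd u' hu' v' hv', hσ u' v'⟩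
  · rw [eigen_map mul σ hσ, hprim, Submodule.map_span, Set.image_singleton]
    rfl
  · intro v hv
    rw [eigenSum_map mul σ hσ, Submodule.mem_map] at hv
    obtain ⟨w, hw, rfl⟩ := hv
    have := hm1 w hw
    show μ (σ w) = σ w
    rw [hc]
    exact congrArg σ this
  · intro v hv
    rw [eigen_map mul σ hσ, Submodule.mem_map] at hv
    obtain ⟨w, hw, rfl⟩ := hv
    have := hm2 w hw
    show μ (σ w) = -(σ w)
    rw [hc]
    have e : σ (μ w) = σ (-w) := congrArg σ this
    rw [e, map_neg]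

theorem spectrum_sum (mul : V →ₗ[ℝ] V →ₗ[ℝ] V) (a : V) :
    eigenSum mul a majoranaSpectrum =
      eigen mul a 1 ⊔ (eigen mul a 0 ⊔ (eigen mul a (1 / 4) ⊔ eigen mul a (1 / 32))) := by
  unfold eigenSum majoranaSpectrum
  simp only [iSup_insert, iSup_singleton]

theorem law_00 : monsterLaw (1 / 4 : ℝ) (1 / 32) 0 0 = {0} := by
  unfold monsterLaw
  norm_num

theorem law_aa : monsterLaw (1 / 4 : ℝ) (1 / 32) (1 / 4) (1 / 4) = {1, 0} := by
  unfold monsterLaw
  norm_num

theorem law_0a : monsterLaw (1 / 4 : ℝ) (1 / 32) 0 (1 / 4) = {1 / 4} := by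
  unfold monsterLaw
  norm_num

theorem mem_spec_0 : (0 : ℝ) ∈ majoranaSpectrum := by unfold majoranaSpectrum; simp

theorem mem_spec_a : (1 / 4 : ℝ) ∈ majoranaSpectrum := by unfold majoranaSpectrum; simp

/-- A vector fixed by a Majorana involution has no component in the `1/32`-eigenspace. -/
theorem decomp (mul : V →ₗ[ℝ] V →ₗ[ℝ] V) (μ : V ≃ₗ[ℝ] V) (a : V)
    (hax : IsPrimitiveAxis mul (monsterLaw (1 / 4) (1 / 32)) majoranaSpectrum a)
    (hm : IsMiyamotoMap mul a {1, 0, 1 / 4} (1 / 32) (μ : V →ₗ[ℝ] V)) (v : V) (hv : μ v = v) :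
    ∃ (c : ℝ) (v0 vα : V), mul a v0 = 0 ∧ mul a vα = (1 / 4 : ℝ) • vα ∧ v = c • a + v0 + vα := by
  obtain ⟨⟨hne, hid, htop, hfus⟩, hprim⟩ := hax
  obtain ⟨hm1, hm2⟩ := hm
  have hv' : v ∈ eigenSum mul a majoranaSpectrum := by rw [htop]; trivial
  rw [spectrum_sum, Submodule.mem_sup] at hv'
  obtain ⟨v1, hv1, w, hw, rfl⟩ := hv'
  rw [Submodule.mem_sup] at hw
  obtain ⟨v0, hv0, w', hw', rfl⟩ := hw
  rw [Submodule.mem_sup] at hw'
  obtain ⟨vα, hvα, vβ, hvβ, rfl⟩ := hw'
  have f1 : μ v1 = v1 := hm1 _ (eigen_le_eigenSum mul a _ 1 (by simp) hv1)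
  have f0 : μ v0 = v0 := hm1 _ (eigen_le_eigenSum mul a _ 0 (by simp) hv0)
  have fα : μ vα = vα := hm1 _ (eigen_le_eigenSum mul a _ (1 / 4) (by simp) hvα)
  have fβ : μ vβ = -vβ := hm2 _ hvβ
  rw [map_add, map_add, map_add, f1, f0, fα, fβ] at hv
  have h1 : -vβ = vβ := add_left_cancel (add_left_cancel (add_left_cancel hv))
  have h2 : (2 : ℝ) • vβ = 0 := by
    rw [two_smul]
    nth_rewrite 1 [← h1]
    exact neg_add_cancel vβ
  have h3 : vβ = 0 := (smul_eq_zero.mp h2).resolve_left (by norm_num)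
  rw [hprim, Submodule.mem_span_singleton] at hv1
  obtain ⟨c, rfl⟩ := hv1
  refine ⟨c, v0, vα, ?_, ?_, ?_⟩
  · have := (mem_eigen mul a v0 0).mp hv0
    rw [zero_smul] at this
    exact this
  · exact (mem_eigen mul a vα (1 / 4)).mp hvα
  · rw [h3, add_zero, add_assoc]

section fusion

variable (mul : V →ₗ[ℝ] V →ₗ[ℝ] V) (a : V)
  (hax : IsPrimitiveAxis mul (monsterLaw (1 / 4) (1 / 32)) majoranaSpectrum a)

include hax

theorem fus_00 (u v : V) (hu : mul a u = 0) (hv : mul a v = 0) : mul a (mul u v) = 0 := by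
  obtain ⟨⟨hne, hid, htop, hfus⟩, hprim⟩ := hax
  have h := hfus 0 mem_spec_0 0 mem_spec_0 u ((mem_eigen mul a u 0).mpr (by rw [hu, zero_smul]))
    v ((mem_eigen mul a v 0).mpr (by rw [hv, zero_smul]))
  rw [law_00] at h
  unfold eigenSum at h
  simp only [iSup_singleton] at h
  have h2 := (mem_eigen mul a _ 0).mp h
  rw [zero_smul] at h2
  exact h2

theorem fus_aa (u v : V) (hu : mul a u = (1 / 4 : ℝ) • u) (hv : mul a v = (1 / 4 : ℝ) • v) :
    ∃ k : ℝ, mul a (mul u v) = k • a := by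
  obtain ⟨⟨hne, hid, htop, hfus⟩, hprim⟩ := hax
  have h := hfus (1 / 4) mem_spec_a (1 / 4) mem_spec_a u ((mem_eigen mul a u (1 / 4)).mpr hu)
    v ((mem_eigen mul a v (1 / 4)).mpr hv)
  rw [law_aa] at h
  unfold eigenSum at h
  simp only [iSup_insert, iSup_singleton] at h
  rw [Submodule.mem_sup] at h
  obtain ⟨w1, hw1, w0, hw0, e⟩ := h
  rw [hprim, Submodule.mem_span_singleton] at hw1
  obtain ⟨k, rfl⟩ := hw1
  have h0 := (mem_eigen mul a w0 0).mp hw0
  rw [zero_smul] at h0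
  refine ⟨k, ?_⟩
  rw [← e, map_add, map_smul, hid, h0, add_zero]

theorem fus_0a (u v : V) (hu : mul a u = 0) (hv : mul a v = (1 / 4 : ℝ) • v) :
    mul a (mul u v) = (1 / 4 : ℝ) • mul u v := by
  obtain ⟨⟨hne, hid, htop, hfus⟩, hprim⟩ := hax
  have h := hfus 0 mem_spec_0 (1 / 4) mem_spec_a u ((mem_eigen mul a u 0).mpr (by rw [hu, zero_smul]))
    v ((mem_eigen mul a v (1 / 4)).mpr hv)
  rw [law_0a] at h
  unfold eigenSum at h
  simp only [iSup_singleton] at h
  exact (mem_eigen mul a _ (1 / 4)).mp h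

end fusion

section algebra

variable (mul : V →ₗ[ℝ] V →ₗ[ℝ] V) (B : LinearMap.BilinForm ℝ V)

theorem coef_eq (hassoc : ∀ u v w : V, B u (mul v w) = B (mul u v) w) (e : V) (he : mul e e = e)
    (hBe : B e e = 1) (c : ℝ) (v0 vα v : V) (h0 : mul e v0 = 0) (hα : mul e vα = (1 / 4 : ℝ) • vα)
    (hv : v = c • e + v0 + vα) : B e v = c := by
  have b0 : B e v0 = 0 := by
    have h := hassoc e e v0
    rw [h0, he, map_zero] at h
    exact h.symm
  have bα : B e vα = 0 := by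
    have h := hassoc e e vα
    rw [hα, he, map_smul, smul_eq_mul] at h
    linarith
  rw [hv, map_add, map_add, map_smul, smul_eq_mul, hBe, b0, bα]
  ring

theorem axis_mul (e : V) (he : mul e e = e) (c : ℝ) (v0 vα v : V) (h0 : mul e v0 = 0)
    (hα : mul e vα = (1 / 4 : ℝ) • vα) (hv : v = c • e + v0 + vα) :
    mul e v = c • e + (1 / 4 : ℝ) • vα := by
  rw [hv, map_add, map_add, map_smul, he, h0, hα, add_zero]

theorem axis_mul_mul (e : V) (he : mul e e = e) (c : ℝ) (v0 vα v : V) (h0 : mul e v0 = 0)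
    (hα : mul e vα = (1 / 4 : ℝ) • vα) (hv : v = c • e + v0 + vα) :
    mul e (mul e v) = (1 / 4 : ℝ) • mul e v + (3 * c / 4) • e := by
  rw [axis_mul mul e he c v0 vα v h0 hα hv, map_add, map_smul, map_smul, he, hα]
  module

end algebra

theorem main (mul : V →ₗ[ℝ] V →ₗ[ℝ] V) (B : LinearMap.BilinForm ℝ V)
    (hV : IsMajoranaAmbient mul B) (μ₀ μ₁ : V ≃ₗ[ℝ] V) (a b : V)
    (h₀ : IsMajoranaPair mul B μ₀ a) (h₁ : IsMajoranaPair mul B μ₁ b)
    (hu₀ : ∀ e : V, IsMajoranaPair mul B μ₀ e → e = a)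
    (hu₁ : ∀ e : V, IsMajoranaPair mul B μ₁ e → e = b)
    (hn₀ : B a a = 1) (hn₁ : B b b = 1) (hc : μ₀ * μ₁ = μ₁ * μ₀) (hne : a ≠ b) :
    (B a b = 0 ∧ mul a b = 0) ∨
      (B a b = 1 / 8 ∧
        mul (a + b - (8 : ℝ) • mul a b) (a + b - (8 : ℝ) • mul a b) = a + b - (8 : ℝ) • mul a b ∧
        mul a (a + b - (8 : ℝ) • mul a b) = (1 / 8 : ℝ) • (a + (a + b - (8 : ℝ) • mul a b) - b) ∧
        mul b (a + b - (8 : ℝ) • mul a b) = (1 / 8 : ℝ) • (b + (a + b - (8 : ℝ) • mul a b) - a)) := by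
  obtain ⟨hcomm, hsymm, hpos, hassoc, -⟩ := hV
  have hc' : ∀ v, μ₀ (μ₁ v) = μ₁ (μ₀ v) := by
    intro v
    have h := congrArg (fun f : V ≃ₗ[ℝ] V => f v) hc
    exact h
  have fixa : μ₁ a = a := hu₀ _ (pair_map mul B μ₀ μ₁ a h₀ h₁.1 hc')
  have fixb : μ₀ b = b := hu₁ _ (pair_map mul B μ₁ μ₀ b h₁ h₀.1 (fun v => (hc' v).symm))
  have haxa := h₀.2.2.1
  have haxb := h₁.2.2.1
  have haa : mul a a = a := haxa.1.2.1
  have hbb : mul b b = b := haxb.1.2.1
  have hane : a ≠ 0 := haxa.1.1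
  obtain ⟨lb, b0, x, hb0, hx, hb⟩ := decomp mul μ₀ a haxa h₀.2.2.2 b fixb
  obtain ⟨la, a0, y, ha0, hy, ha⟩ := decomp mul μ₁ b haxb h₁.2.2.2 a fixa
  have hlb : B a b = lb := coef_eq mul B hassoc a haa hn₀ lb b0 x b hb0 hx hb
  have hla : B b a = la := coef_eq mul B hassoc b hbb hn₁ la a0 y a ha0 hy ha
  have hlab : la = lb := by rw [← hla, ← hlb, hsymm]
  subst hlab
  -- the product
  have hp1 : mul a b = la • a + (1 / 4 : ℝ) • x := axis_mul mul a haa la b0 x b hb0 hx hb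
  have hba : mul b a = mul a b := hcomm b a
  have hap : mul a (mul a b) = (1 / 4 : ℝ) • mul a b + (3 * la / 4) • a :=
    axis_mul_mul mul a haa la b0 x b hb0 hx hb
  have hbp : mul b (mul a b) = (1 / 4 : ℝ) • mul a b + (3 * la / 4) • b := by
    have h := axis_mul_mul mul b hbb la a0 y a ha0 hy ha
    rw [hba] at h
    exact h
  have hxeq : x = (4 : ℝ) • mul a b - (4 * la) • a := by
    rw [hp1]; module
  -- idempotency of b, expanded
  have e2 : mul b0 a = 0 := by rw [hcomm b0 a, hb0]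
  have e4 : mul x a = (1 / 4 : ℝ) • x := by rw [hcomm x a, hx]
  have e5 : mul x b0 = mul b0 x := hcomm x b0
  have hbb' : (la ^ 2) • a + mul b0 b0 + mul x x + (la / 2) • x + (2 : ℝ) • mul b0 x =
      la • a + b0 + x := by
    have h := hbb
    rw [hb] at h
    simp only [map_add, map_smul, LinearMap.add_apply, LinearMap.smul_apply] at h
    rw [haa, hb0, e2, hx, e4, e5] at h
    rw [← h]
    module
  have f00 := fus_00 mul a haxa b0 b0 hb0 hb0
  obtain ⟨k, hk⟩ := fus_aa mul a haxa x x hx hx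
  have f0a := fus_0a mul a haxa b0 x hb0 hx
  have A1 : (la ^ 2) • a + k • a + (la / 8) • x + (1 / 2 : ℝ) • mul b0 x =
      la • a + (1 / 4 : ℝ) • x := by
    have h := congrArg (mul a) hbb'
    simp only [map_add, map_smul] at h
    rw [haa, f00, hk, hx, f0a, hb0] at h
    rw [show (la ^ 2) • a + k • a + (la / 8) • x + (1 / 2 : ℝ) • mul b0 x =
      la ^ 2 • a + 0 + k • a + (la / 2) • (1 / 4 : ℝ) • x + (2 : ℝ) • (1 / 4 : ℝ) • mul b0 x by module,
      h]
    module
  have A2 : (la ^ 2) • a + k • a + (la / 32) • x + (1 / 8 : ℝ) • mul b0 x =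
      la • a + (1 / 16 : ℝ) • x := by
    have h := congrArg (mul a) A1
    simp only [map_add, map_smul] at h
    rw [haa, hx, f0a] at h
    rw [show (la ^ 2) • a + k • a + (la / 32) • x + (1 / 8 : ℝ) • mul b0 x =
      la ^ 2 • a + k • a + (la / 8) • (1 / 4 : ℝ) • x + (1 / 2 : ℝ) • (1 / 4 : ℝ) • mul b0 x by module,
      h]
    module
  have hb0x : mul b0 x = (1 / 2 - la / 4) • x := by
    have h : (8 / 3 : ℝ) • ((la ^ 2) • a + k • a + (la / 8) • x + (1 / 2 : ℝ) • mul b0 x) -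
        (8 / 3 : ℝ) • ((la ^ 2) • a + k • a + (la / 32) • x + (1 / 8 : ℝ) • mul b0 x) =
        (8 / 3 : ℝ) • (la • a + (1 / 4 : ℝ) • x) - (8 / 3 : ℝ) • (la • a + (1 / 16 : ℝ) • x) := by
      rw [A1, A2]
    have h2 : mul b0 x = (8 / 3 : ℝ) • ((la ^ 2) • a + k • a + (la / 8) • x + (1 / 2 : ℝ) • mul b0 x) -
        (8 / 3 : ℝ) • ((la ^ 2) • a + k • a + (la / 32) • x + (1 / 8 : ℝ) • mul b0 x) -
        (la / 4) • x := by module
    rw [h2, h]
    module
  have hbx1 : mul b x = (1 / 2 : ℝ) • x + mul x x := by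
    have h : mul b x = mul (la • a + b0 + x) x := by rw [← hb]
    rw [h]
    simp only [map_add, map_smul, LinearMap.add_apply, LinearMap.smul_apply]
    rw [hx, hb0x]
    module
  have hbx2 : mul b x = mul a b + (3 * la) • b - (4 * la) • mul a b := by
    have h : mul b x = mul b ((4 : ℝ) • mul a b - (4 * la) • a) := by rw [← hxeq]
    rw [h]
    simp only [map_sub, map_smul]
    rw [hbp, hba]
    module
  have hxx : mul x x = (-(1 + 4 * la)) • mul a b + (3 * la) • b + (2 * la) • a := by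
    have h : mul x x = mul b x - (1 / 2 : ℝ) • x := by rw [hbx1]; module
    have h2 : mul b x - (1 / 2 : ℝ) • x =
        mul b x - (1 / 2 : ℝ) • ((4 : ℝ) • mul a b - (4 * la) • a) := by rw [← hxeq]
    rw [h, h2, hbx2]
    module
  have key : (2 * la - 1 / 4) • mul a b = (k - 5 * la / 4 + 3 * la ^ 2) • a := by
    have h := hk
    rw [hxx] at h
    simp only [map_add, map_smul] at h
    rw [hap, haa] at h
    rw [show (2 * la - 1 / 4) • mul a b = ((-(1 + 4 * la)) • ((1 / 4 : ℝ) • mul a b + (3 * la / 4) • a) +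
      (3 * la) • mul a b + (2 * la) • a) - (5 * la / 4 - 3 * la ^ 2) • a by module, h]
    module
  by_cases hl : la = 1 / 8
  · right
    subst hl
    have e6 : mul (mul a b) a = mul a (mul a b) := hcomm _ _
    have e7 : mul (mul a b) b = mul b (mul a b) := hcomm _ _
    have hpp : mul (mul a b) (mul a b) =
        (3 / 128 : ℝ) • a + (3 / 128 : ℝ) • b - (1 / 32 : ℝ) • mul a b := by
      have h : mul (mul a b) (mul a b) =
          mul ((1 / 8 : ℝ) • a + (1 / 4 : ℝ) • x) ((1 / 8 : ℝ) • a + (1 / 4 : ℝ) • x) := by rw [← hp1]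
      rw [h]
      simp only [map_add, map_smul, LinearMap.add_apply, LinearMap.smul_apply]
      rw [haa, hx, e4, hxx]
      have h3 : (1 / 8 : ℝ) • ((1 / 8 : ℝ) • a + (1 / 4 : ℝ) • (1 / 4 : ℝ) • x) +
          (1 / 4 : ℝ) • ((1 / 8 : ℝ) • (1 / 4 : ℝ) • x +
            (1 / 4 : ℝ) • ((-(1 + 4 * (1 / 8 : ℝ))) • mul a b + (3 * (1 / 8 : ℝ)) • b + (2 * (1 / 8 : ℝ)) • a)) =
          (3 / 128 : ℝ) • a + (3 / 128 : ℝ) • b - (1 / 32 : ℝ) • mul a b +
            (1 / 64 : ℝ) • (x - ((4 : ℝ) • mul a b - (4 * (1 / 8 : ℝ)) • a)) := by module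
      rw [h3, ← hxeq, sub_self, smul_zero, add_zero]
    refine ⟨hlb, ?_, ?_, ?_⟩
    · simp only [map_add, map_sub, map_smul, LinearMap.add_apply, LinearMap.sub_apply,
        LinearMap.smul_apply]
      rw [haa, hbb, hba, e6, e7, hap, hbp, hpp]
      module
    · simp only [map_add, map_sub, map_smul]
      rw [haa, hap]
      module
    · simp only [map_add, map_sub, map_smul]
      rw [hbb, hba, hbp]
      module
  · left
    have hne' : 2 * la - 1 / 4 ≠ 0 := by
      intro h; apply hl; linarith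
    have hp : mul a b = ((k - 5 * la / 4 + 3 * la ^ 2) / (2 * la - 1 / 4)) • a := by
      have h := congrArg (fun v => (2 * la - 1 / 4)⁻¹ • v) key
      simp only [smul_smul] at h
      rw [inv_mul_cancel₀ hne', one_smul] at h
      rw [h]
      congr 1
      field_simp
    have hx' : x = (4 * ((k - 5 * la / 4 + 3 * la ^ 2) / (2 * la - 1 / 4)) - 4 * la) • a := by
      rw [hxeq, hp]; module
    have hm' : 4 * ((k - 5 * la / 4 + 3 * la ^ 2) / (2 * la - 1 / 4)) - 4 * la = 0 := by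
      have h := hx
      rw [hx', map_smul, haa] at h
      have h2 : ((3 / 4 : ℝ) * (4 * ((k - 5 * la / 4 + 3 * la ^ 2) / (2 * la - 1 / 4)) - 4 * la)) • a = 0 := by
        have h3 : ((3 / 4 : ℝ) * (4 * ((k - 5 * la / 4 + 3 * la ^ 2) / (2 * la - 1 / 4)) - 4 * la)) • a =
            (4 * ((k - 5 * la / 4 + 3 * la ^ 2) / (2 * la - 1 / 4)) - 4 * la) • a -
            (1 / 4 : ℝ) • (4 * ((k - 5 * la / 4 + 3 * la ^ 2) / (2 * la - 1 / 4)) - 4 * la) • a := by module
        rw [h3, ← h, sub_self]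
      rcases smul_eq_zero.mp h2 with h3 | h3
      · linarith
      · exact absurd h3 hane
    have hx0 : x = 0 := by rw [hx', hm', zero_smul]
    have hpla : mul a b = la • a := by rw [hp1, hx0, smul_zero, add_zero]
    have hl2 : (la ^ 2 - la) • a = 0 := by
      have h := congrArg (mul a) hbb'
      rw [hx0] at h
      simp only [map_add, map_smul, map_zero, smul_zero, add_zero] at h
      rw [haa, f00, hb0] at h
      rw [sub_smul, sub_eq_zero]
      simpa using h
    rcases smul_eq_zero.mp hl2 with h3 | h3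
    · have h4 : la * (la - 1) = 0 := by
        have : la * (la - 1) = la ^ 2 - la := by ring
        rw [this, h3]
      rcases mul_eq_zero.mp h4 with h0 | h1
      · exact ⟨by rw [hlb, h0], by rw [hpla, h0, zero_smul]⟩
      · exfalso
        have hab : B a b = 1 := by rw [hlb]; linarith
        have h5 : B (a - b) (a - b) = 0 := by
          simp only [map_sub, LinearMap.sub_apply]
          rw [hn₀, hn₁, hsymm b a, hab]
          ring
        have hpos' := hpos (a - b) (sub_ne_zero.mpr hne)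
        linarith
    · exact absurd h3 hane

end Cfsg.Agent.Helper28.Majo
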