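import Cfsg.Agent.Helper28.HepD
import Cfsg.Agent.S0352

set_option autoImplicit false
set_option linter.unusedSectionVars false
set_option linter.unusedVariables false

namespace Cfsg.Agent.Helper28.Hyp

variable {α : Type*} [Fintype α] [DecidableEq α]
variable {β : Type*} [Fintype β] [DecidableEq β]

/-- the number of heptads of an S(3, 6, 22) -/
theorem card_Hep (hα : Fintype.card α = 22) {B : Set (Finset α)}
    (hB : Cfsg.IsSteinerSystem 3 6 B) : (Hep B).card = 352 := by
  have h := stepH (Hep B) 22 7 hα hep_card7 0 112 (fun S' hS' => lam1_hep hα hB hS') ∅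
    Finset.card_empty
  unfold lamH at h
  rw [Finset.filter_true_of_mem (fun b _ => Finset.empty_subset b)] at h
  omega

theorem card_offBlocks23 (hα : Fintype.card α = 23) {W : Set (Finset α)}
    (hW : Cfsg.IsSteinerSystem 4 7 W) (q : α) : (offBlocks W q).card = 176 := by
  unfold offBlocks
  rw [Finset.card_image_of_injOn, card_blocks_off23 hα hW q]
  intro b hb b' hb' hbb'
  rw [Finset.mem_coe, Finset.mem_filter] at hb hb'
  exact sub_ext q ⟨fun h => absurd h hb.2, fun h => absurd h hb'.2⟩ hbb'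

theorem offBlocks_sub_hep (hα : Fintype.card α = 23) {W : Set (Finset α)}
    (hW : Cfsg.IsSteinerSystem 4 7 W) (q : α) : offBlocks W q ⊆ Hep (dLines W q) := by
  intro Y hY
  unfold offBlocks at hY
  rw [Finset.mem_image] at hY
  obtain ⟨c, hc, rfl⟩ := hY
  rw [Finset.mem_filter, mem_blocksF] at hc
  exact off_hep hα hW hc.1 hc.2

/-- octads of an S(4, 7, 23): the 8-sets meeting every block in 0, 2 or 4 points -/
noncomputable def Oct (W : Set (Finset α)) : Finset (Finset α) :=
  open Classical in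
  Finset.univ.filter (fun Y => Y.card = 8 ∧
    ∀ b ∈ W, (b ∩ Y).card = 0 ∨ (b ∩ Y).card = 2 ∨ (b ∩ Y).card = 4)

theorem mem_Oct {W : Set (Finset α)} {Y : Finset α} : Y ∈ Oct W ↔ Y.card = 8 ∧
    ∀ b ∈ W, (b ∩ Y).card = 0 ∨ (b ∩ Y).card = 2 ∨ (b ∩ Y).card = 4 := by
  unfold Oct
  simp

theorem oct_hep {W : Set (Finset α)} (hW : Cfsg.IsSteinerSystem 4 7 W) {Y : Finset α}
    (hY : Y ∈ Oct W) {p : α} (hp : p ∈ Y) :
    Finset.subtype (fun a => a ≠ p) Y ∈ Hep (dLines W p) \ offBlocks W p := by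
  have hY' := mem_Oct.mp hY
  rw [Finset.mem_sdiff, mem_Hep]
  refine ⟨⟨by rw [sub_card_mem p hp, hY'.1], ?_⟩, ?_⟩
  · rintro l ⟨b, hb, hpb, rfl⟩
    rw [sub_inter, sub_card_mem p (Finset.mem_inter.mpr ⟨hpb, hp⟩)]
    have h0 : 0 < (b ∩ Y).card := Finset.card_pos.mpr ⟨p, Finset.mem_inter.mpr ⟨hpb, hp⟩⟩
    rcases hY'.2 b hb with h | h | h <;> omega
  · intro hoff
    unfold offBlocks at hoff
    rw [Finset.mem_image] at hoff
    obtain ⟨c, hc, hceq⟩ := hoff
    rw [Finset.mem_filter, mem_blocksF] at hc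
    have hsub : c ⊆ Y := by
      intro x hx
      have hxp : x ≠ p := fun h => hc.2 (h ▸ hx)
      have h1 : (⟨x, hxp⟩ : {a : α // a ≠ p}) ∈ Finset.subtype (fun a => a ≠ p) c :=
        Finset.mem_subtype.mpr hx
      rw [hceq] at h1
      exact Finset.mem_subtype.mp h1
    have h2 := hY'.2 c hc.1
    rw [Finset.inter_eq_left.mpr hsub, hW.1 c hc.1] at h2
    omega

theorem lam1_oct (hα : Fintype.card α = 23) {W : Set (Finset α)}
    (hW : Cfsg.IsSteinerSystem 4 7 W) (p : α) : lamH (Oct W) {p} ≤ 176 := by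
  have h1 : (Hep (dLines W p) \ offBlocks W p).card = 176 := by
    rw [Finset.card_sdiff_of_subset (offBlocks_sub_hep hα hW p),
      card_Hep (card_sub23 hα p) (dLines47 hW p), card_offBlocks23 hα hW p]
  rw [← h1]
  unfold lamH
  apply Finset.card_le_card_of_injOn (fun Y => Finset.subtype (fun a => a ≠ p) Y)
  · intro Y hY
    simp only [Finset.mem_coe, Finset.mem_filter, Finset.singleton_subset_iff] at hY
    exact oct_hep hW hY.1 hY.2
  · intro Y hY Z hZ hYZ
    simp only [Finset.mem_coe, Finset.mem_filter, Finset.singleton_subset_iff] at hY hZ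
    exact sub_ext p ⟨fun _ => hZ.2, fun _ => hY.2⟩ hYZ

theorem card_Oct_le (hα : Fintype.card α = 23) {W : Set (Finset α)}
    (hW : Cfsg.IsSteinerSystem 4 7 W) : (Oct W).card ≤ 506 := by
  have h := stepG (Oct W) 8 (fun b hb => (mem_Oct.mp hb).1) ∅
  have h1 : ∑ x ∈ (∅ : Finset α)ᶜ, lamH (Oct W) (insert x ∅)
      ≤ ∑ x ∈ (∅ : Finset α)ᶜ, 176 := by
    apply Finset.sum_le_sum
    intro x _
    have hins : insert x (∅ : Finset α) = {x} := by
      ext y
      simp
    rw [hins]
    exact lam1_oct hα hW x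
  rw [Finset.sum_const, Finset.compl_empty, Finset.card_univ, hα, smul_eq_mul] at h1
  unfold lamH at h
  rw [Finset.filter_true_of_mem (fun b _ => Finset.empty_subset b), Finset.card_empty,
    Finset.compl_empty] at h
  unfold lamH at h1
  omega

theorem card_sub24 (hα : Fintype.card α = 24) (p : α) :
    Fintype.card {a : α // a ≠ p} = 23 := by
  rw [Fintype.card_subtype]
  have h : Finset.univ.filter (fun a => a ≠ p) = Finset.univ.erase p := by
    ext x
    simp
  rw [h, Finset.card_erase_of_mem (Finset.mem_univ p), Finset.card_univ, hα]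

theorem dLines58 {W : Set (Finset α)} (hW : Cfsg.IsSteinerSystem 5 8 W) (q : α) :
    Cfsg.IsSteinerSystem 4 7 (dLines W q) := Cfsg.Agent.S0351.result hW q

theorem off_oct (hα : Fintype.card α = 24) {W : Set (Finset α)}
    (hW : Cfsg.IsSteinerSystem 5 8 W) {q : α} {c : Finset α} (hc : c ∈ W) (hqc : q ∉ c) :
    Finset.subtype (fun a => a ≠ q) c ∈ Oct (dLines W q) := by
  rw [mem_Oct]
  refine ⟨by rw [sub_card q hqc, hW.1 c hc], ?_⟩
  rintro l ⟨b, hb, hqb, rfl⟩
  have hbc : b ≠ c := fun h => hqc (h ▸ hqb)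
  rw [sub_inter, sub_card q (fun h => hqc (Finset.mem_inter.mp h).2)]
  exact Cfsg.Agent.S0352.result hα hW hb hc hbc

theorem card_blocks_off24 (hα : Fintype.card α = 24) {W : Set (Finset α)}
    (hW : Cfsg.IsSteinerSystem 5 8 W) (q : α) :
    ((blocksF W).filter (fun b => q ∉ b)).card = 506 := by
  have hk : ∀ b ∈ blocksF W, b.card = 8 := fun b hb => hW.1 b (mem_blocksF.mp hb)
  have l5 : ∀ S : Finset α, S.card = 4 + 1 → lamH (blocksF W) S = 1 := by
    intro S hS
    obtain ⟨b, ⟨hb1, hb2⟩, hbu⟩ := hW.2 S hS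
    unfold lamH
    rw [Finset.card_eq_one]
    refine ⟨b, ?_⟩
    ext b'
    simp only [Finset.mem_filter, Finset.mem_singleton, mem_blocksF]
    constructor
    · intro h
      exact hbu b' h
    · rintro rfl
      exact ⟨hb1, hb2⟩
  have l4 : ∀ S : Finset α, S.card = 3 + 1 → lamH (blocksF W) S = 5 := by
    intro S hS
    have h := stepH (blocksF W) 24 8 hα hk 4 1 l5 S hS
    omega
  have l3 : ∀ S : Finset α, S.card = 2 + 1 → lamH (blocksF W) S = 21 := by
    intro S hS
    have h := stepH (blocksF W) 24 8 hα hk 3 5 l4 S hS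
    omega
  have l2 : ∀ S : Finset α, S.card = 1 + 1 → lamH (blocksF W) S = 77 := by
    intro S hS
    have h := stepH (blocksF W) 24 8 hα hk 2 21 l3 S hS
    omega
  have l1 : ∀ S : Finset α, S.card = 0 + 1 → lamH (blocksF W) S = 253 := by
    intro S hS
    have h := stepH (blocksF W) 24 8 hα hk 1 77 l2 S hS
    omega
  have l0 : ∀ S : Finset α, S.card = 0 → lamH (blocksF W) S = 759 := by
    intro S hS
    have h := stepH (blocksF W) 24 8 hα hk 0 253 l1 S hS
    omega
  have h759 : (blocksF W).card = 759 := by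
    have h := l0 ∅ Finset.card_empty
    unfold lamH at h
    rw [Finset.filter_true_of_mem (fun b _ => Finset.empty_subset b)] at h
    exact h
  have h253 : ((blocksF W).filter (fun b => q ∈ b)).card = 253 := by
    have h := l1 {q} (Finset.card_singleton q)
    unfold lamH at h
    rw [← h]
    congr 1
    ext b
    simp only [Finset.mem_filter, Finset.singleton_subset_iff]
  have hsum := Finset.card_filter_add_card_filter_not (s := blocksF W) (fun b => q ∈ b)
  omega

theorem off_eq_oct (hα : Fintype.card α = 24) {W : Set (Finset α)}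
    (hW : Cfsg.IsSteinerSystem 5 8 W) (q : α) : offBlocks W q = Oct (dLines W q) := by
  apply Finset.eq_of_subset_of_card_le
  · intro Y hY
    unfold offBlocks at hY
    rw [Finset.mem_image] at hY
    obtain ⟨c, hc, rfl⟩ := hY
    rw [Finset.mem_filter, mem_blocksF] at hc
    exact off_oct hα hW hc.1 hc.2
  · have h1 := card_Oct_le (card_sub24 hα q) (dLines58 hW q)
    have h2 : (offBlocks W q).card = 506 := by
      unfold offBlocks
      rw [Finset.card_image_of_injOn, card_blocks_off24 hα hW q]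
      intro b hb b' hb' hbb'
      rw [Finset.mem_coe, Finset.mem_filter] at hb hb'
      exact sub_ext q ⟨fun h => absurd h hb.2, fun h => absurd h hb'.2⟩ hbb'
    rw [h2]
    exact h1

theorem oct_image {B : Set (Finset α)} {B' : Set (Finset β)} {e : α ≃ β}
    (he : (fun b => b.image e) '' B = B') {Y : Finset α} (hY : Y ∈ Oct B) :
    Y.image e ∈ Oct B' := by
  have hY' := mem_Oct.mp hY
  rw [mem_Oct]
  refine ⟨by rw [Finset.card_image_of_injective _ e.injective, hY'.1], ?_⟩
  intro b' hb'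
  rw [← he] at hb'
  obtain ⟨b, hb, rfl⟩ := hb'
  show (b.image e ∩ Y.image e).card = 0 ∨ (b.image e ∩ Y.image e).card = 2
    ∨ (b.image e ∩ Y.image e).card = 4
  rw [← Finset.image_inter _ _ e.injective, Finset.card_image_of_injective _ e.injective]
  exact hY'.2 b hb

theorem iso5 {B : Set (Finset α)} {B' : Set (Finset β)} (hB : Cfsg.IsSteinerSystem 5 8 B)
    (hB' : Cfsg.IsSteinerSystem 5 8 B') {e : α ≃ β} (h : ∀ b ∈ B, b.image e ∈ B') :
    (fun b => b.image e) '' B = B' := by
  apply Set.Subset.antisymm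
  · rintro _ ⟨b, hb, rfl⟩
    exact h b hb
  · intro c hc
    have hc8 := hB'.1 c hc
    obtain ⟨T, hT, hT5⟩ := Finset.exists_subset_card_eq (by rw [hc8]; norm_num : 5 ≤ c.card)
    have hT' : (T.image e.symm).card = 5 := by
      rw [Finset.card_image_of_injective _ e.symm.injective, hT5]
    obtain ⟨b, ⟨hb, hTb⟩, -⟩ := hB.2 _ hT'
    refine ⟨b, hb, ?_⟩
    have hsub : T ⊆ b.image e := by
      intro y hy
      rw [Finset.mem_image]
      exact ⟨e.symm y, hTb (Finset.mem_image_of_mem _ hy), e.apply_symm_apply y⟩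
    exact (hB'.2 T hT5).unique ⟨h b hb, hsub⟩ ⟨hc, hT⟩

/-- uniqueness of the Steiner system S(5, 8, 24) -/
theorem s5824_iso (hα : Fintype.card α = 24) (hβ : Fintype.card β = 24)
    {W : Set (Finset α)} {W' : Set (Finset β)} (hW : Cfsg.IsSteinerSystem 5 8 W)
    (hW' : Cfsg.IsSteinerSystem 5 8 W') : Cfsg.SetSystemIso W W' := by
  classical
  obtain ⟨q⟩ : Nonempty α := Fintype.card_pos_iff.mp (by rw [hα]; norm_num)
  obtain ⟨q'⟩ : Nonempty β := Fintype.card_pos_iff.mp (by rw [hβ]; norm_num)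
  have hD := dLines58 hW q
  have hD' := dLines58 hW' q'
  have hcq := card_sub24 hα q
  have hcq' := card_sub24 hβ q'
  obtain ⟨e, heB⟩ := s4723_iso hcq hcq' hD hD'
  obtain ⟨f, hfp, hfe⟩ : ∃ f : α → β, f q = q' ∧ ∀ a (ha : a ≠ q), f a = (e ⟨a, ha⟩ : β) :=
    ⟨fun a => if h : a = q then q' else (e ⟨a, h⟩ : β), dif_pos rfl, fun a ha => dif_neg ha⟩
  have f_inj : Function.Injective f := by
    intro x y hxy
    by_cases hx : x = q <;> by_cases hy : y = q
    · rw [hx, hy]
    · exfalso
      rw [hx, hfp, hfe y hy] at hxy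
      exact (e ⟨y, hy⟩).2 hxy.symm
    · exfalso
      rw [hy, hfp, hfe x hx] at hxy
      exact (e ⟨x, hx⟩).2 hxy
    · rw [hfe x hx, hfe y hy] at hxy
      have h2 := e.injective (Subtype.ext hxy)
      exact congrArg Subtype.val h2
  have f_bij : Function.Bijective f :=
    (Fintype.bijective_iff_injective_and_card f).mpr ⟨f_inj, by rw [hα, hβ]⟩
  have hsubimg : ∀ b : Finset α, Finset.subtype (fun a => a ≠ q') (b.image f)
      = (Finset.subtype (fun a => a ≠ q) b).image e := by
    intro b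
    ext y
    rw [Finset.mem_subtype, Finset.mem_image, Finset.mem_image]
    constructor
    · rintro ⟨x, hx, hxy⟩
      have hxp : x ≠ q := by
        intro h
        rw [h, hfp] at hxy
        exact y.2 hxy.symm
      refine ⟨⟨x, hxp⟩, Finset.mem_subtype.mpr hx, ?_⟩
      apply Subtype.ext
      rw [← hfe x hxp]
      exact hxy
    · rintro ⟨x, hx, rfl⟩
      exact ⟨x.1, Finset.mem_subtype.mp hx, hfe x.1 x.2⟩
  have hpimg : ∀ b : Finset α, q' ∈ b.image f ↔ q ∈ b := by
    intro b
    rw [Finset.mem_image]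
    constructor
    · rintro ⟨x, hx, hxy⟩
      have hxp : x = q := f_inj (hxy.trans hfp.symm)
      rw [← hxp]
      exact hx
    · intro h
      exact ⟨q, h, hfp⟩
  have hblocks : ∀ b ∈ W, b.image f ∈ W' := by
    intro b hb
    by_cases hqb : q ∈ b
    · have hl : Finset.subtype (fun a => a ≠ q) b ∈ dLines W q := ⟨b, hb, hqb, rfl⟩
      have hl' : (Finset.subtype (fun a => a ≠ q) b).image e ∈ dLines W' q' := by
        rw [← heB]
        exact ⟨_, hl, rfl⟩
      obtain ⟨c, hc, hqc, hceq⟩ := hl'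
      have hbc : b.image f = c :=
        sub_ext q' (by rw [hpimg]; exact ⟨fun _ => hqc, fun _ => hqb⟩)
          (by rw [hsubimg]; exact hceq)
      rw [hbc]
      exact hc
    · have hoct := off_oct hα hW hb hqb
      have hoct' := oct_image heB hoct
      rw [← off_eq_oct hβ hW' q'] at hoct'
      unfold offBlocks at hoct'
      rw [Finset.mem_image] at hoct'
      obtain ⟨c, hc, hceq⟩ := hoct'
      rw [Finset.mem_filter, mem_blocksF] at hc
      have hbc : b.image f = c :=
        sub_ext q' (by rw [hpimg]; exact ⟨fun h => absurd h hqb, fun h => absurd h hc.2⟩)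
          (by rw [hsubimg]; exact hceq.symm)
      rw [hbc]
      exact hc.1
  exact ⟨Equiv.ofBijective f f_bij, iso5 hW hW' (e := Equiv.ofBijective f f_bij) hblocks⟩

end Cfsg.Agent.Helper28.Hyp
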