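import Mathlib
import Cfsg.Agent.Helper28.Sext
import Cfsg.Agent.Helper28.Coatom

/-!
Orbit decompositions into five orbits, and maximality of a point stabilizer with four
nontrivial suborbits.
-/

set_option autoImplicit false

namespace Cfsg.Agent.Helper28.Orb5

open Cfsg Cfsg.Agent.Helper12 Cfsg.Agent.Helper28.Sext Cfsg.Agent.Helper28.Coatom
open scoped Pointwise

theorem or5 {a b c d e : Bool} (h : (a || b || c || d || e) = true) :
    a = true ∨ b = true ∨ c = true ∨ d = true ∨ e = true := by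
  cases a <;> cases b <;> cases c <;> cases d <;> cases e <;> simp_all

theorem five_orbits {G X : Type*} [Group G] [MulAction G X] (K : Subgroup G)
    (dec : ℕ → X) (n : ℕ) (U : Set X)
    (hmem : ∀ k, k < n → dec k ∈ U) (hcomp : ∀ x ∈ U, ∃ k, k < n ∧ x = dec k)
    (hinj : ∀ k l, k < n → l < n → dec k = dec l → k = l)
    (rt : ℕ → ℕ)
    (hcert : ∀ k, k < n → ∃ g ∈ K, g • dec (rt k) = dec k)
    (hsep : ∀ g ∈ K, ∀ k, k < n → ∃ l, l < n ∧ g • dec k = dec l ∧ rt l = rt k)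
    (r1 r2 r3 r4 r5 n1 n2 n3 n4 n5 : ℕ) (h1 : r1 < n) (h2 : r2 < n) (h3 : r3 < n) (h4 : r4 < n)
    (h5 : r5 < n)
    (hr1 : rt r1 = r1) (hr2 : rt r2 = r2) (hr3 : rt r3 = r3) (hr4 : rt r4 = r4) (hr5 : rt r5 = r5)
    (c1 : cntB n (fun k => Nat.beq (rt k) r1) = n1)
    (c2 : cntB n (fun k => Nat.beq (rt k) r2) = n2)
    (c3 : cntB n (fun k => Nat.beq (rt k) r3) = n3)
    (c4 : cntB n (fun k => Nat.beq (rt k) r4) = n4)
    (c5 : cntB n (fun k => Nat.beq (rt k) r5) = n5)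
    (hall : ∀ k, k < n → rt k = r1 ∨ rt k = r2 ∨ rt k = r3 ∨ rt k = r4 ∨ rt k = r5) :
    ∃ X₁ ∈ U, ∃ X₂ ∈ U, ∃ X₃ ∈ U, ∃ X₄ ∈ U, ∃ X₅ ∈ U, (MulAction.orbit K X₁).ncard = n1 ∧
      (MulAction.orbit K X₂).ncard = n2 ∧ (MulAction.orbit K X₃).ncard = n3 ∧
      (MulAction.orbit K X₄).ncard = n4 ∧ (MulAction.orbit K X₅).ncard = n5 ∧
      U = MulAction.orbit K X₁ ∪ MulAction.orbit K X₂ ∪ MulAction.orbit K X₃ ∪
        MulAction.orbit K X₄ ∪ MulAction.orbit K X₅ := by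
  have e1 := orbit_eq K dec n rt hcert hsep r1 h1 hr1
  have e2 := orbit_eq K dec n rt hcert hsep r2 h2 hr2
  have e3 := orbit_eq K dec n rt hcert hsep r3 h3 hr3
  have e4 := orbit_eq K dec n rt hcert hsep r4 h4 hr4
  have e5 := orbit_eq K dec n rt hcert hsep r5 h5 hr5
  refine ⟨dec r1, hmem r1 h1, dec r2, hmem r2 h2, dec r3, hmem r3 h3, dec r4, hmem r4 h4,
    dec r5, hmem r5 h5, ?_, ?_, ?_, ?_, ?_, ?_⟩
  · rw [e1, ← c1]; exact ncard_eq_cnt dec n hinj _ _ (fun s => Iff.rfl)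
  · rw [e2, ← c2]; exact ncard_eq_cnt dec n hinj _ _ (fun s => Iff.rfl)
  · rw [e3, ← c3]; exact ncard_eq_cnt dec n hinj _ _ (fun s => Iff.rfl)
  · rw [e4, ← c4]; exact ncard_eq_cnt dec n hinj _ _ (fun s => Iff.rfl)
  · rw [e5, ← c5]; exact ncard_eq_cnt dec n hinj _ _ (fun s => Iff.rfl)
  · rw [e1, e2, e3, e4, e5]
    ext x
    constructor
    · intro hx
      obtain ⟨k, hk, rfl⟩ := hcomp x hx
      rcases hall k hk with h | h | h | h | h
      · exact Or.inl (Or.inl (Or.inl (Or.inl ⟨k, hk, by rw [Nat.beq_eq]; exact h, rfl⟩)))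
      · exact Or.inl (Or.inl (Or.inl (Or.inr ⟨k, hk, by rw [Nat.beq_eq]; exact h, rfl⟩)))
      · exact Or.inl (Or.inl (Or.inr ⟨k, hk, by rw [Nat.beq_eq]; exact h, rfl⟩))
      · exact Or.inl (Or.inr ⟨k, hk, by rw [Nat.beq_eq]; exact h, rfl⟩)
      · exact Or.inr ⟨k, hk, by rw [Nat.beq_eq]; exact h, rfl⟩
    · rintro ((((⟨k, hk, -, rfl⟩ | ⟨k, hk, -, rfl⟩) | ⟨k, hk, -, rfl⟩) | ⟨k, hk, -, rfl⟩) |
        ⟨k, hk, -, rfl⟩) <;> exact hmem k hk

theorem transport5 {G A B : Type*} [Group G] [MulAction G A] [MulAction G B] (U : Set B)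
    (hU : ∀ (g : G) (b : B), b ∈ U → g • b ∈ U) (a : A) (g : G) (n1 n2 n3 n4 n5 : ℕ)
    (h : ∃ X₁ ∈ U, ∃ X₂ ∈ U, ∃ X₃ ∈ U, ∃ X₄ ∈ U, ∃ X₅ ∈ U,
      (MulAction.orbit ↥(MulAction.stabilizer G a) X₁).ncard = n1 ∧
      (MulAction.orbit ↥(MulAction.stabilizer G a) X₂).ncard = n2 ∧
      (MulAction.orbit ↥(MulAction.stabilizer G a) X₃).ncard = n3 ∧
      (MulAction.orbit ↥(MulAction.stabilizer G a) X₄).ncard = n4 ∧
      (MulAction.orbit ↥(MulAction.stabilizer G a) X₅).ncard = n5 ∧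
      U = MulAction.orbit ↥(MulAction.stabilizer G a) X₁ ∪
        MulAction.orbit ↥(MulAction.stabilizer G a) X₂ ∪
        MulAction.orbit ↥(MulAction.stabilizer G a) X₃ ∪
        MulAction.orbit ↥(MulAction.stabilizer G a) X₄ ∪
        MulAction.orbit ↥(MulAction.stabilizer G a) X₅) :
    ∃ X₁ ∈ U, ∃ X₂ ∈ U, ∃ X₃ ∈ U, ∃ X₄ ∈ U, ∃ X₅ ∈ U,
      (MulAction.orbit ↥(MulAction.stabilizer G (g • a)) X₁).ncard = n1 ∧
      (MulAction.orbit ↥(MulAction.stabilizer G (g • a)) X₂).ncard = n2 ∧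
      (MulAction.orbit ↥(MulAction.stabilizer G (g • a)) X₃).ncard = n3 ∧
      (MulAction.orbit ↥(MulAction.stabilizer G (g • a)) X₄).ncard = n4 ∧
      (MulAction.orbit ↥(MulAction.stabilizer G (g • a)) X₅).ncard = n5 ∧
      U = MulAction.orbit ↥(MulAction.stabilizer G (g • a)) X₁ ∪
        MulAction.orbit ↥(MulAction.stabilizer G (g • a)) X₂ ∪
        MulAction.orbit ↥(MulAction.stabilizer G (g • a)) X₃ ∪
        MulAction.orbit ↥(MulAction.stabilizer G (g • a)) X₄ ∪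
        MulAction.orbit ↥(MulAction.stabilizer G (g • a)) X₅ := by
  obtain ⟨X₁, hX₁, X₂, hX₂, X₃, hX₃, X₄, hX₄, X₅, hX₅, c1, c2, c3, c4, c5, hun⟩ := h
  refine ⟨g • X₁, hU g _ hX₁, g • X₂, hU g _ hX₂, g • X₃, hU g _ hX₃, g • X₄, hU g _ hX₄,
    g • X₅, hU g _ hX₅, ?_, ?_, ?_, ?_, ?_, ?_⟩
  · rw [ncard_orbit_conj, c1]
  · rw [ncard_orbit_conj, c2]
  · rw [ncard_orbit_conj, c3]
  · rw [ncard_orbit_conj, c4]
  · rw [ncard_orbit_conj, c5]
  · rw [orbit_conj, orbit_conj, orbit_conj, orbit_conj, orbit_conj, ← Set.image_union,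
      ← Set.image_union, ← Set.image_union, ← Set.image_union, ← hun]
    ext x
    constructor
    · intro hx
      exact ⟨g⁻¹ • x, hU g⁻¹ _ hx, smul_inv_smul g x⟩
    · rintro ⟨y, hy, rfl⟩
      exact hU g _ hy

theorem ncard_five {X : Type*} {O B₀ B₁ B₂ B₃ B₄ : Set X} (hO : O.Finite)
    (hsub : O ⊆ B₀ ∪ B₁ ∪ B₂ ∪ B₃ ∪ B₄)
    (d01 : Disjoint B₀ B₁) (d02 : Disjoint B₀ B₂) (d03 : Disjoint B₀ B₃) (d04 : Disjoint B₀ B₄)
    (d12 : Disjoint B₁ B₂) (d13 : Disjoint B₁ B₃) (d14 : Disjoint B₁ B₄) (d23 : Disjoint B₂ B₃)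
    (d24 : Disjoint B₂ B₄) (d34 : Disjoint B₃ B₄) :
    O.ncard = (O ∩ B₀).ncard + (O ∩ B₁).ncard + (O ∩ B₂).ncard + (O ∩ B₃).ncard +
      (O ∩ B₄).ncard := by
  have h : O = (O ∩ (B₀ ∪ B₁ ∪ B₂ ∪ B₃)) ∪ (O ∩ B₄) := by
    rw [← Set.inter_union_distrib_left]
    exact (Set.inter_eq_left.2 hsub).symm
  have f4 : (O ∩ B₄).Finite := hO.subset Set.inter_subset_left
  have f0123 : (O ∩ (B₀ ∪ B₁ ∪ B₂ ∪ B₃)).Finite := hO.subset Set.inter_subset_left
  have e : Disjoint (O ∩ (B₀ ∪ B₁ ∪ B₂ ∪ B₃)) (O ∩ B₄) := by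
    apply Disjoint.mono Set.inter_subset_right Set.inter_subset_right
    rw [Set.disjoint_union_left, Set.disjoint_union_left, Set.disjoint_union_left]
    exact ⟨⟨⟨d04, d14⟩, d24⟩, d34⟩
  have h4 := ncard_four (O := O ∩ (B₀ ∪ B₁ ∪ B₂ ∪ B₃)) f0123 Set.inter_subset_right
    d01 d02 d03 d12 d13 d23
  have hi : ∀ B : Set X, B ⊆ B₀ ∪ B₁ ∪ B₂ ∪ B₃ → O ∩ (B₀ ∪ B₁ ∪ B₂ ∪ B₃) ∩ B = O ∩ B := by
    intro B hB
    rw [Set.inter_assoc, Set.inter_eq_right.2 hB]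
  rw [hi B₀ (fun x hx => Or.inl (Or.inl (Or.inl hx))),
    hi B₁ (fun x hx => Or.inl (Or.inl (Or.inr hx))),
    hi B₂ (fun x hx => Or.inl (Or.inr hx)), hi B₃ (fun x hx => Or.inr hx)] at h4
  conv_lhs => rw [h]
  rw [Set.ncard_union_eq e f0123 f4, h4]

theorem coatom_of_four_orbits {G X : Type*} [Group G] [Finite G] [MulAction G X]
    (x X₁ X₂ X₃ X₄ : X) (n1 n2 n3 n4 N : ℕ)
    (hN : (MulAction.orbit G x).ncard = N)
    (c1 : (MulAction.orbit ↥(MulAction.stabilizer G x) X₁).ncard = n1)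
    (c2 : (MulAction.orbit ↥(MulAction.stabilizer G x) X₂).ncard = n2)
    (c3 : (MulAction.orbit ↥(MulAction.stabilizer G x) X₃).ncard = n3)
    (c4 : (MulAction.orbit ↥(MulAction.stabilizer G x) X₄).ncard = n4)
    (hun : MulAction.orbit G x = {x} ∪ MulAction.orbit ↥(MulAction.stabilizer G x) X₁ ∪
      MulAction.orbit ↥(MulAction.stabilizer G x) X₂ ∪
      MulAction.orbit ↥(MulAction.stabilizer G x) X₃ ∪
      MulAction.orbit ↥(MulAction.stabilizer G x) X₄)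
    (hne : 1 < n1 ∧ 1 < n2 ∧ 1 < n3 ∧ 1 < n4 ∧ n1 ≠ n2 ∧ n1 ≠ n3 ∧ n1 ≠ n4 ∧ n2 ≠ n3 ∧ n2 ≠ n4 ∧
      n3 ≠ n4)
    (hN' : 1 < N)
    (harith : ∀ e1 e2 e3 e4 : ℕ, (e1 = 0 ∨ e1 = n1) → (e2 = 0 ∨ e2 = n2) → (e3 = 0 ∨ e3 = n3) →
      (e4 = 0 ∨ e4 = n4) →
      (1 + e1 + e2 + e3 + e4) ∣ N → (1 + e1 + e2 + e3 + e4 = 1) ∨ (1 + e1 + e2 + e3 + e4 = N)) :
    IsCoatom (MulAction.stabilizer G x) := by
  obtain ⟨g1, g2, g3, g4, g12, g13, g14, g23, g24, g34⟩ := hne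
  set H := MulAction.stabilizer G x with hH
  have hfin : ∀ (K : Subgroup G) (y : X), (MulAction.orbit ↥K y).Finite := fun K y =>
    Set.finite_range _
  have hx : MulAction.orbit ↥H x = {x} := by
    ext y
    constructor
    · rintro ⟨h, rfl⟩
      exact h.2
    · rintro rfl
      exact MulAction.mem_orbit_self _
  have hxn : ∀ (Y : X) (n : ℕ), (MulAction.orbit ↥H Y).ncard = n → 1 < n →
      Disjoint ({x} : Set X) (MulAction.orbit ↥H Y) := by
    intro Y n hc hn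
    rw [Set.disjoint_singleton_left]
    intro hmem
    have := MulAction.orbit_eq_iff.2 hmem
    rw [hx] at this
    rw [← this, Set.ncard_singleton] at hc
    omega
  have hdis : ∀ (Y Z : X) (n m : ℕ), (MulAction.orbit ↥H Y).ncard = n →
      (MulAction.orbit ↥H Z).ncard = m → n ≠ m →
      Disjoint (MulAction.orbit ↥H Y) (MulAction.orbit ↥H Z) := by
    intro Y Z n m hn hm hnm
    rw [Set.disjoint_left]
    intro y hy hz
    have e1 := MulAction.orbit_eq_iff.2 hy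
    have e2 := MulAction.orbit_eq_iff.2 hz
    rw [← e1, e2, hm] at hn
    exact hnm hn.symm
  have hcardG : Nat.card G = N * Nat.card H := by
    have h1 := Subgroup.card_mul_index H
    rw [hH, MulAction.index_stabilizer, hN] at h1
    rw [← h1, mul_comm]
  have hHpos : 0 < Nat.card H := Nat.card_pos
  constructor
  · intro htop
    have : Nat.card H = Nat.card G := by rw [htop, Subgroup.card_top]
    rw [hcardG] at this
    have : N = 1 := by
      have h2 : 1 * Nat.card H = N * Nat.card H := by rw [one_mul]; exact this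
      exact (Nat.eq_of_mul_eq_mul_right hHpos h2).symm
    omega
  · intro K hK
    have hle : H ≤ K := le_of_lt hK
    have hO : MulAction.orbit ↥K x ⊆ MulAction.orbit G x := by
      rintro _ ⟨k, rfl⟩
      exact ⟨k.1, rfl⟩
    have hcl : ∀ (Y : X), (MulAction.orbit ↥K x ∩ MulAction.orbit ↥H Y).ncard = 0 ∨
        (MulAction.orbit ↥K x ∩ MulAction.orbit ↥H Y).ncard = (MulAction.orbit ↥H Y).ncard := by
      intro Y
      by_cases hemp : MulAction.orbit ↥K x ∩ MulAction.orbit ↥H Y = ∅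
      · left; rw [hemp, Set.ncard_empty]
      · right
        obtain ⟨y, ⟨k, hk⟩, hy2⟩ := Set.nonempty_iff_ne_empty.2 hemp
        have hsub : MulAction.orbit ↥H Y ⊆ MulAction.orbit ↥K x := by
          intro z hz
          rw [← MulAction.orbit_eq_iff.2 hy2] at hz
          obtain ⟨h, rfl⟩ := hz
          refine ⟨⟨(h : G), hle h.2⟩ * k, ?_⟩
          rw [← hk]
          exact mul_smul _ _ _
        rw [Set.inter_eq_right.2 hsub]
    have hx0 : (MulAction.orbit ↥K x ∩ ({x} : Set X)).ncard = 1 := by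
      rw [Set.inter_eq_right.2 (Set.singleton_subset_iff.2 (MulAction.mem_orbit_self _)),
        Set.ncard_singleton]
    have hcount := ncard_five (hfin K x) (hun ▸ hO) (hxn X₁ n1 c1 g1) (hxn X₂ n2 c2 g2)
      (hxn X₃ n3 c3 g3) (hxn X₄ n4 c4 g4) (hdis X₁ X₂ n1 n2 c1 c2 g12)
      (hdis X₁ X₃ n1 n3 c1 c3 g13) (hdis X₁ X₄ n1 n4 c1 c4 g14) (hdis X₂ X₃ n2 n3 c2 c3 g23)
      (hdis X₂ X₄ n2 n4 c2 c4 g24) (hdis X₃ X₄ n3 n4 c3 c4 g34)
    rw [hx0] at hcount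
    have hcardK : Nat.card K = (MulAction.orbit ↥K x).ncard * Nat.card H := by
      have h1 := Cfsg.Agent.Helper3.card_eq_orbit_mul' K x
      rw [inf_eq_right.2 hle] at h1
      exact h1
    have hdvd : (MulAction.orbit ↥K x).ncard ∣ N := by
      have h1 : Nat.card K ∣ Nat.card G := Subgroup.card_subgroup_dvd_card K
      rw [hcardK, hcardG] at h1
      exact (Nat.mul_dvd_mul_iff_right hHpos).1 h1
    have h1 := hcl X₁
    have h2 := hcl X₂
    have h3 := hcl X₃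
    have h4 := hcl X₄
    rw [c1] at h1
    rw [c2] at h2
    rw [c3] at h3
    rw [c4] at h4
    rw [hcount] at hdvd
    rcases harith _ _ _ _ h1 h2 h3 h4 hdvd with h | h
    · exfalso
      rw [← hcount] at h
      rw [h, one_mul] at hcardK
      exact absurd (Subgroup.eq_of_le_of_card_ge hle (le_of_eq hcardK)) (ne_of_lt hK)
    · rw [← hcount] at h
      rw [h, ← hcardG] at hcardK
      exact Subgroup.eq_top_of_card_eq K hcardK

end Cfsg.Agent.Helper28.Orb5
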