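import Cfsg.Agent.Helper28.Sl25PresData

/-!
# The presentation `⟨x, y, z | x³, y⁵, z², [z, x], [z, y], (xy)² z⁻¹⟩` of `SL(2, 5)`: the isomorphism (helper28)
-/

set_option autoImplicit false

namespace Cfsg.Agent.Helper28.Sl25Pres

theorem closed_x2 (i : ℕ) (hi : i < 120) : ∃ j, j < 120 ∧ W i * x⁻¹ = W j := by
  obtain ⟨j, hj, e⟩ := closed_x i hi
  obtain ⟨k, hk, e'⟩ := closed_x j hj
  exact ⟨k, hk, by rw [x_inv, ← mul_assoc, e, e']⟩

theorem closed_y2 (i : ℕ) (hi : i < 120) : ∃ j, j < 120 ∧ W i * y⁻¹ = W j := by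
  obtain ⟨j, hj, e⟩ := closed_y i hi
  obtain ⟨k, hk, e'⟩ := closed_y j hj
  obtain ⟨l, hl, e''⟩ := closed_y k hk
  obtain ⟨m, hm, e'''⟩ := closed_y l hl
  exact ⟨m, hm, by rw [y_inv, ← mul_assoc, ← mul_assoc, ← mul_assoc, e, e', e'', e''']⟩

theorem closed_z2 (i : ℕ) (hi : i < 120) : ∃ j, j < 120 ∧ W i * z⁻¹ = W j := by
  obtain ⟨j, hj, e⟩ := closed_z i hi
  exact ⟨j, hj, by rw [z_inv, e]⟩

/-- Every element of the presented group is one of the 120 words. -/
theorem exists_W (p : P) : ∃ i, i < 120 ∧ p = W i := by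
  have hp : p ∈ Subgroup.closure (Set.range (PresentedGroup.of : Fin 3 → P)) := by
    rw [PresentedGroup.closure_range_of]; trivial
  induction hp using Subgroup.closure_induction_right with
  | one => exact ⟨0, by norm_num, rfl⟩
  | mul_right q _ g hg ih =>
    obtain ⟨i, hi, rfl⟩ := ih
    obtain ⟨k, rfl⟩ := hg
    fin_cases k
    · obtain ⟨j, hj, e⟩ := closed_x i hi
      exact ⟨j, hj, e⟩
    · obtain ⟨j, hj, e⟩ := closed_y i hi
      exact ⟨j, hj, e⟩
    · obtain ⟨j, hj, e⟩ := closed_z i hi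
      exact ⟨j, hj, e⟩
  | mul_inv_cancel q _ g hg ih =>
    obtain ⟨i, hi, rfl⟩ := ih
    obtain ⟨k, rfl⟩ := hg
    fin_cases k
    · obtain ⟨j, hj, e⟩ := closed_x2 i hi
      exact ⟨j, hj, e⟩
    · obtain ⟨j, hj, e⟩ := closed_y2 i hi
      exact ⟨j, hj, e⟩
    · obtain ⟨j, hj, e⟩ := closed_z2 i hi
      exact ⟨j, hj, e⟩

/-- The type of 2 × 2 matrices over the field with 5 elements. -/
abbrev M5 : Type := Matrix (Fin 2) (Fin 2) (ZMod 5)

/-- The matrix of the first generator. -/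
def mx : M5 := !![0, 4; 1, 4]
/-- The matrix of the second generator. -/
def my : M5 := !![1, 1; 0, 1]
/-- The matrix of the third generator. -/
def mz : M5 := !![4, 0; 0, 4]

/-- The matrix of a generator. -/
def genM : G3 → M5
  | .gx => mx
  | .gy => my
  | .gz => mz

theorem mx_det : mx.det = 1 := by rw [mx, Matrix.det_fin_two_of]; decide
theorem my_det : my.det = 1 := by rw [my, Matrix.det_fin_two_of]; decide
theorem mz_det : mz.det = 1 := by rw [mz, Matrix.det_fin_two_of]; decide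

/-- The images of the generators. -/
def img : Fin 3 → Matrix.SpecialLinearGroup (Fin 2) (ZMod 5) := ![⟨mx, mx_det⟩, ⟨my, my_det⟩, ⟨mz, mz_det⟩]

theorem mx3 : mx ^ 3 = 1 := by decide
theorem my5 : my ^ 5 = 1 := by decide
theorem mz2 : mz ^ 2 = 1 := by decide
theorem mxz : mx * mz = mz * mx := by decide
theorem myz : my * mz = mz * my := by decide
theorem mxy : (mx * my) ^ 2 = mz := by decide

theorem img_rels : ∀ r ∈ rels, FreeGroup.lift img r = 1 := by
  intro r hr
  simp only [rels, Set.mem_insert_iff, Set.mem_singleton_iff] at hr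
  rcases hr with rfl | rfl | rfl | rfl | rfl | rfl
  · simp only [map_pow, FreeGroup.lift_apply_of]
    apply Subtype.ext
    exact mx3
  · simp only [map_pow, FreeGroup.lift_apply_of]
    apply Subtype.ext
    exact my5
  · simp only [map_pow, FreeGroup.lift_apply_of]
    apply Subtype.ext
    exact mz2
  · simp only [map_mul, map_inv, FreeGroup.lift_apply_of]
    rw [mul_inv_eq_one, mul_assoc, inv_mul_eq_iff_eq_mul]
    apply Subtype.ext
    exact mxz
  · simp only [map_mul, map_inv, FreeGroup.lift_apply_of]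
    rw [mul_inv_eq_one, mul_assoc, inv_mul_eq_iff_eq_mul]
    apply Subtype.ext
    exact myz
  · simp only [map_pow, map_mul, map_inv, FreeGroup.lift_apply_of]
    rw [mul_inv_eq_one]
    apply Subtype.ext
    exact mxy

/-- The homomorphism onto `SL(2, 5)`. -/
def f : P →* Matrix.SpecialLinearGroup (Fin 2) (ZMod 5) := PresentedGroup.toGroup img_rels

theorem f_gen (c : G3) : ((f (gen c) : Matrix.SpecialLinearGroup (Fin 2) (ZMod 5)) : M5) = genM c := by
  cases c
  · show ((f (PresentedGroup.of 0) : Matrix.SpecialLinearGroup (Fin 2) (ZMod 5)) : M5) = mx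
    rw [f, PresentedGroup.toGroup.of]; rfl
  · show ((f (PresentedGroup.of 1) : Matrix.SpecialLinearGroup (Fin 2) (ZMod 5)) : M5) = my
    rw [f, PresentedGroup.toGroup.of]; rfl
  · show ((f (PresentedGroup.of 2) : Matrix.SpecialLinearGroup (Fin 2) (ZMod 5)) : M5) = mz
    rw [f, PresentedGroup.toGroup.of]; rfl

/-- A matrix with given entries. -/
def toM (q : ℕ × ℕ × ℕ × ℕ) : M5 := !![(q.1 : ZMod 5), (q.2.1 : ZMod 5); (q.2.2.1 : ZMod 5), (q.2.2.2 : ZMod 5)]

/-- Right multiplication by a generator, on the entries. -/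
def stepN (q : ℕ × ℕ × ℕ × ℕ) : G3 → ℕ × ℕ × ℕ × ℕ
  | .gx => (q.2.1 % 5, (4 * q.1 + 4 * q.2.1) % 5, q.2.2.2 % 5, (4 * q.2.2.1 + 4 * q.2.2.2) % 5)
  | .gy => (q.1 % 5, (q.1 + q.2.1) % 5, q.2.2.1 % 5, (q.2.2.1 + q.2.2.2) % 5)
  | .gz => ((4 * q.1) % 5, (4 * q.2.1) % 5, (4 * q.2.2.1) % 5, (4 * q.2.2.2) % 5)

/-- The entries of the matrix of a word. -/
def evN (l : List G3) : ℕ × ℕ × ℕ × ℕ := l.foldl stepN (1, 0, 0, 1)

theorem toM_step (q : ℕ × ℕ × ℕ × ℕ) (c : G3) : toM q * genM c = toM (stepN q c) := by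
  obtain ⟨a, b, c', d⟩ := q
  cases c
  · simp only [toM, genM, stepN, mx, Matrix.mul_fin_two, ZMod.natCast_mod]
    push_cast
    ext i j
    fin_cases i <;> fin_cases j <;> simp <;> ring
  · simp only [toM, genM, stepN, my, Matrix.mul_fin_two, ZMod.natCast_mod]
    push_cast
    ext i j
    fin_cases i <;> fin_cases j <;> simp
  · simp only [toM, genM, stepN, mz, Matrix.mul_fin_two, ZMod.natCast_mod]
    push_cast
    ext i j
    fin_cases i <;> fin_cases j <;> simp <;> ring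

theorem toM_one : toM (1, 0, 0, 1) = 1 := by
  simp only [toM, Nat.cast_one, Nat.cast_zero]
  exact Matrix.one_fin_two.symm

theorem f_foldl (l : List G3) : ∀ (acc : P) (q : ℕ × ℕ × ℕ × ℕ),
    ((f acc : Matrix.SpecialLinearGroup (Fin 2) (ZMod 5)) : M5) = toM q →
    ((f (l.foldl (fun acc c => acc * gen c) acc) : Matrix.SpecialLinearGroup (Fin 2) (ZMod 5)) : M5)
      = toM (l.foldl stepN q) := by
  induction l with
  | nil => intro acc q h; exact h
  | cons c l ih =>
    intro acc q h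
    rw [List.foldl_cons, List.foldl_cons]
    apply ih
    rw [map_mul, Matrix.SpecialLinearGroup.coe_mul, f_gen, h, toM_step]

theorem f_ev (l : List G3) : ((f (ev l) : Matrix.SpecialLinearGroup (Fin 2) (ZMod 5)) : M5) = toM (evN l) := by
  rw [ev, evN]
  apply f_foldl
  rw [map_one, toM_one]; rfl

/-- The code of a matrix. -/
def codeM (m : M5) : ℕ := (m 0 0).val + 5 * (m 0 1).val + 25 * (m 1 0).val + 125 * (m 1 1).val

/-- The code of a matrix with given entries. -/
def codeN (q : ℕ × ℕ × ℕ × ℕ) : ℕ := q.1 % 5 + 5 * (q.2.1 % 5) + 25 * (q.2.2.1 % 5) + 125 * (q.2.2.2 % 5)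

theorem codeM_toM (q : ℕ × ℕ × ℕ × ℕ) : codeM (toM q) = codeN q := by
  simp [codeM, toM, codeN, ZMod.val_natCast]

theorem codeN_paths : ∀ i, i < 120 → codeN (evN (paths.getD i [])) = codes.getD i 0 := by
  decide +kernel

theorem codes_inj : ∀ i, i < 120 → ∀ j, j < 120 → codes.getD i 0 = codes.getD j 0 → i = j := by
  decide +kernel

theorem codes_surj : ∀ a b c d : ZMod 5, a * d - b * c = 1 →
    ∃ i, i < 120 ∧ codes.getD i 0 = a.val + 5 * b.val + 25 * c.val + 125 * d.val := by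
  decide +kernel

theorem code_fW (i : ℕ) (hi : i < 120) :
    codeM ((f (W i) : Matrix.SpecialLinearGroup (Fin 2) (ZMod 5)) : M5) = codes.getD i 0 := by
  rw [W, f_ev, codeM_toM, codeN_paths i hi]

theorem codeM_inj {m m' : M5} (h : codeM m = codeM m') : m = m' := by
  have h5 : ∀ t : ZMod 5, t.val < 5 := fun t => ZMod.val_lt t
  have a1 := h5 (m 0 0); have a2 := h5 (m 0 1); have a3 := h5 (m 1 0); have a4 := h5 (m 1 1)
  have b1 := h5 (m' 0 0); have b2 := h5 (m' 0 1); have b3 := h5 (m' 1 0); have b4 := h5 (m' 1 1)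
  simp only [codeM] at h
  ext i j
  apply ZMod.val_injective 5
  fin_cases i <;> fin_cases j <;> simp <;> omega

theorem f_W_inj (i j : ℕ) (hi : i < 120) (hj : j < 120) (h : f (W i) = f (W j)) : i = j := by
  apply codes_inj i hi j hj
  rw [← code_fW i hi, ← code_fW j hj, h]

theorem f_inj : Function.Injective f := by
  intro p q h
  obtain ⟨i, hi, rfl⟩ := exists_W p
  obtain ⟨j, hj, rfl⟩ := exists_W q
  rw [f_W_inj i j hi hj h]

theorem f_surj : Function.Surjective f := by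
  intro g
  have hdet : (g : M5).det = 1 := g.2
  rw [Matrix.det_fin_two] at hdet
  obtain ⟨i, hi, hc⟩ := codes_surj _ _ _ _ hdet
  refine ⟨W i, ?_⟩
  apply Subtype.ext
  apply codeM_inj
  rw [code_fW i hi, hc]
  rfl

/-- The presented group is `SL(2, 5)`. -/
noncomputable def iso : P ≃* Matrix.SpecialLinearGroup (Fin 2) (ZMod 5) := MulEquiv.ofBijective f ⟨f_inj, f_surj⟩

/-- The presented group has 120 elements. -/
theorem card_P : Nat.card P = 120 := by
  have e : Fin 120 ≃ P := Equiv.ofBijective (fun i : Fin 120 => W i)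
    ⟨fun i j h => Fin.ext (f_W_inj i j i.2 j.2 (congrArg f h)),
     fun p => by obtain ⟨i, hi, rfl⟩ := exists_W p; exact ⟨⟨i, hi⟩, rfl⟩⟩
  rw [← Nat.card_congr e, Nat.card_fin]

theorem main : Nonempty (PresentedGroup ({FreeGroup.of (0 : Fin 3) ^ 3, FreeGroup.of (1 : Fin 3) ^ 5, FreeGroup.of (2 : Fin 3) ^ 2,
        (FreeGroup.of (2 : Fin 3))⁻¹ * FreeGroup.of 0 * FreeGroup.of 2 * (FreeGroup.of (0 : Fin 3))⁻¹,
        (FreeGroup.of (2 : Fin 3))⁻¹ * FreeGroup.of 1 * FreeGroup.of 2 * (FreeGroup.of (1 : Fin 3))⁻¹,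
        (FreeGroup.of (0 : Fin 3) * FreeGroup.of 1) ^ 2 * (FreeGroup.of (2 : Fin 3))⁻¹} : Set (FreeGroup (Fin 3)))
      ≃* Matrix.SpecialLinearGroup (Fin 2) (ZMod 5)) :=
  ⟨iso⟩

end Cfsg.Agent.Helper28.Sl25Pres
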