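import Mathlib
import Cfsg.Agent.Helper14.Order60
import Cfsg.Agent.S0494
import Cfsg.Agent.Helper28.A5Pres
import Cfsg.Agent.Helper28.Sl25Pres

/-!
# Groups of order 120 with quaternion Sylow 2-subgroups (helper28)

A non-solvable group of order 120 whose Sylow 2-subgroups are quaternion of order 8 is `SL(2, 5)`:
the involution `z` of a Sylow 2-subgroup is central (its centralizer has index 1, 3, 5 or 15; index 15
contradicts a count of elements, index 3 solvability, index 5 gives the symmetric group of degree 5 or a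
central involution), the quotient by `z` is the alternating group of degree 5, and lifting its
presentation gives either a complement (impossible) or a surjection from the presented group of order 120.
-/

set_option autoImplicit false
set_option linter.style.haveILetI false

namespace Cfsg.Agent.Helper28.Sl25Char

open scoped Pointwise

universe u

/-! ### The quaternion group of order 8, the symmetric group of degree 5 -/

theorem q8_invol : ∀ g : QuaternionGroup 2, g ^ 2 = 1 → g = 1 ∨ g = QuaternionGroup.a 2 := by decide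

theorem q8_pow : ∀ g : QuaternionGroup 2, g ≠ 1 → g ^ 2 = QuaternionGroup.a 2 ∨ g = QuaternionGroup.a 2 := by
  decide

theorem q8_z : (QuaternionGroup.a 2 : QuaternionGroup 2) ≠ 1 ∧ (QuaternionGroup.a 2 : QuaternionGroup 2) ^ 2 = 1 := by
  decide

theorem q8_uv : (QuaternionGroup.a 1 : QuaternionGroup 2) ^ 2 = QuaternionGroup.a 2 ∧
    (QuaternionGroup.xa 0 : QuaternionGroup 2) ^ 2 = QuaternionGroup.a 2 ∧
    (QuaternionGroup.a 1 * QuaternionGroup.xa 0 : QuaternionGroup 2) ^ 2 = QuaternionGroup.a 2 := by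
  decide

theorem s5_fact : ∀ a x : Equiv.Perm (Fin 5), a ^ 4 = 1 → a ^ 2 ≠ 1 → x ^ 2 = a ^ 2 → (a * x) ^ 2 = a ^ 2 → False := by
  decide +kernel

theorem a5_fact : ∀ g : Equiv.Perm (Fin 5), Equiv.Perm.sign g = 1 → g ^ 4 = 1 → g ^ 2 = 1 := by
  decide +kernel

theorem fact120_5 : (120 : ℕ).factorization 5 = 1 := by
  have h : (120 : ℕ) = 5 ^ 1 * 24 := by norm_num
  rw [h, Nat.factorization_mul (by norm_num) (by norm_num),
    Nat.Prime.factorization_pow (by norm_num)]
  simp
  apply Nat.factorization_eq_zero_of_not_dvd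
  norm_num

/-! ### Counting conjugates -/

theorem card_filter_mem {G : Type u} [Group G] [Fintype G] [DecidableEq G] (H : Subgroup G)
    [DecidablePred (· ∈ H)] : (Finset.univ.filter (fun x => x ∈ H)).card = Nat.card H := by
  rw [Nat.card_eq_fintype_card, Fintype.card_subtype]

/-- Counting the conjugates of the non-identity elements of a subgroup `H` such that every element
conjugating a non-identity element of `H` into `H` lies in a subgroup `M`. -/
theorem ti_count {G : Type u} [Group G] [Finite G] (H M : Subgroup G)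
    (hM : ∀ c x : G, x ∈ H → x ≠ 1 → c * x * c⁻¹ ∈ H → c ∈ M) :
    ∃ T : Set G, (∀ g ∈ T, ∃ c x, x ∈ H ∧ x ≠ 1 ∧ g = c * x * c⁻¹) ∧
      (Nat.card H - 1) * Nat.card G ≤ Nat.card M * T.ncard := by
  classical
  have := Fintype.ofFinite G
  let S : Finset G := (Finset.univ.filter (fun x => x ∈ H)).erase 1
  let s : Finset (G × G) := Finset.univ ×ˢ S
  let f : G × G → G := fun p => p.1 * p.2 * p.1⁻¹
  have hS : ∀ x, x ∈ S ↔ x ∈ H ∧ x ≠ 1 := by
    intro x
    simp [S, and_comm]
  have hfib : ∀ g ∈ s.image f, (s.filter (fun p => f p = g)).card ≤ Nat.card M := by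
    intro g hg
    obtain ⟨⟨c0, x0⟩, hp0, rfl⟩ := Finset.mem_image.mp hg
    have hx0 : x0 ∈ H ∧ x0 ≠ 1 := by
      have := (Finset.mem_product.mp hp0).2
      exact (hS x0).mp this
    rw [← card_filter_mem M]
    apply Finset.card_le_card_of_injOn (fun p => c0⁻¹ * p.1)
    · intro p hp
      have hp' := Finset.mem_filter.mp (Finset.mem_coe.mp hp)
      have hx : p.2 ∈ H ∧ p.2 ≠ 1 := (hS p.2).mp (Finset.mem_product.mp hp'.1).2
      have he : p.1 * p.2 * p.1⁻¹ = c0 * x0 * c0⁻¹ := hp'.2
      rw [Finset.mem_coe, Finset.mem_filter]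
      refine ⟨Finset.mem_univ _, ?_⟩
      apply hM (c0⁻¹ * p.1) p.2 hx.1 hx.2
      have e2 : c0⁻¹ * p.1 * p.2 * (c0⁻¹ * p.1)⁻¹ = c0⁻¹ * (p.1 * p.2 * p.1⁻¹) * c0 := by group
      rw [e2, he]
      have e3 : c0⁻¹ * (c0 * x0 * c0⁻¹) * c0 = x0 := by group
      rw [e3]
      exact hx0.1
    · intro p hp q hq hpq
      have hp' := Finset.mem_filter.mp (Finset.mem_coe.mp hp)
      have hq' := Finset.mem_filter.mp (Finset.mem_coe.mp hq)
      have h1 : p.1 = q.1 := mul_left_cancel hpq
      have he : p.1 * p.2 * p.1⁻¹ = q.1 * q.2 * q.1⁻¹ := hp'.2.trans hq'.2.symm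
      rw [h1] at he
      have h2 : p.2 = q.2 := mul_left_cancel (mul_right_cancel he)
      exact Prod.ext h1 h2
  have hcard := Finset.card_le_mul_card_image s (Nat.card M) hfib
  have hs : s.card = Nat.card G * (Nat.card H - 1) := by
    rw [Finset.card_product, Finset.card_univ, Nat.card_eq_fintype_card]
    congr 1
    rw [Finset.card_erase_of_mem (by simp [H.one_mem]), card_filter_mem]
  refine ⟨(s.image f : Finset G), ?_, ?_⟩
  · intro g hg
    obtain ⟨⟨c, x⟩, hp, rfl⟩ := Finset.mem_image.mp (Finset.mem_coe.mp hg)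
    have hx := (hS x).mp (Finset.mem_product.mp hp).2
    exact ⟨c, x, hx.1, hx.2, rfl⟩
  · rw [Set.ncard_coe_finset, mul_comm, ← hs]
    exact hcard

theorem conj_ne_one {G : Type u} [Group G] {c x : G} (h : c * x * c⁻¹ = 1) : x = 1 := by
  have e : x = c⁻¹ * (c * x * c⁻¹) * c := by group
  rw [e, h]
  group

/-! ### Solvability -/

theorem solvable_of_normal {G : Type u} [Group G] [Finite G] (N : Subgroup G) [N.Normal]
    (h1 : Nat.card N < 60) (h2 : Nat.card (G ⧸ N) < 60) : Group.IsSolvable G := by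
  haveI := Cfsg.Agent.Helper14.O60.solvable_of_card_lt _ N rfl h1
  haveI := Cfsg.Agent.Helper14.O60.solvable_of_card_lt _ (G ⧸ N) rfl h2
  exact (Group.isSolvable_iff_subgroup_quotient N).mpr ⟨inferInstance, inferInstance⟩

/-! ### Sylow subgroups -/

/-- The data of a quaternion subgroup. -/
theorem q8_data {G : Type u} [Group G] (P : Subgroup G) (e : P ≃* QuaternionGroup 2) :
    ∃ z u v : G, z ∈ P ∧ z ≠ 1 ∧ z ^ 2 = 1 ∧
      (∀ g ∈ P, g ^ 2 = 1 → g = 1 ∨ g = z) ∧
      (∀ g ∈ P, g ≠ 1 → g ^ 2 = z ∨ g = z) ∧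
      u ∈ P ∧ v ∈ P ∧ u ^ 2 = z ∧ v ^ 2 = z ∧ (u * v) ^ 2 = z ∧ Nat.card P = 8 := by
  have hsymm : ∀ (q : QuaternionGroup 2) (g : P), e g = q → g = e.symm q := by
    intro q g h
    rw [← h, MulEquiv.symm_apply_apply]
  refine ⟨(e.symm (QuaternionGroup.a 2) : G), (e.symm (QuaternionGroup.a 1) : G),
    (e.symm (QuaternionGroup.xa 0) : G), SetLike.coe_mem _, ?_, ?_, ?_, ?_, SetLike.coe_mem _,
    SetLike.coe_mem _, ?_, ?_, ?_, ?_⟩
  · intro h
    have h' : e.symm (QuaternionGroup.a 2) = 1 := Subtype.ext h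
    rw [MulEquiv.map_eq_one_iff] at h'
    exact q8_z.1 h'
  · have h : (e.symm (QuaternionGroup.a 2)) ^ 2 = 1 := by rw [← map_pow, q8_z.2, map_one]
    have h2 := congrArg Subtype.val h
    simpa using h2
  · intro g hg h2
    have h3 : (e ⟨g, hg⟩) ^ 2 = 1 := by
      rw [← map_pow]
      have : (⟨g, hg⟩ : P) ^ 2 = 1 := Subtype.ext (by simpa using h2)
      rw [this, map_one]
    rcases q8_invol _ h3 with h4 | h4
    · left
      rw [MulEquiv.map_eq_one_iff] at h4
      exact congrArg Subtype.val h4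
    · right
      exact congrArg Subtype.val (hsymm _ _ h4)
  · intro g hg h1
    have h3 : e ⟨g, hg⟩ ≠ 1 := by
      intro h
      rw [MulEquiv.map_eq_one_iff] at h
      exact h1 (congrArg Subtype.val h)
    rcases q8_pow _ h3 with h4 | h4
    · left
      rw [← map_pow] at h4
      have := congrArg Subtype.val (hsymm _ _ h4)
      simpa using this
    · right
      exact congrArg Subtype.val (hsymm _ _ h4)
  · have h : (e.symm (QuaternionGroup.a 1)) ^ 2 = e.symm (QuaternionGroup.a 2) := by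
      rw [← map_pow, q8_uv.1]
    have h2 := congrArg Subtype.val h
    simpa using h2
  · have h : (e.symm (QuaternionGroup.xa 0)) ^ 2 = e.symm (QuaternionGroup.a 2) := by
      rw [← map_pow, q8_uv.2.1]
    have h2 := congrArg Subtype.val h
    simpa using h2
  · have h : (e.symm (QuaternionGroup.a 1) * e.symm (QuaternionGroup.xa 0)) ^ 2
        = e.symm (QuaternionGroup.a 2) := by
      rw [← map_mul, ← map_pow, q8_uv.2.2]
    have h2 := congrArg Subtype.val h
    simpa using h2
  · rw [Nat.card_congr e.toEquiv, Nat.card_eq_fintype_card, QuaternionGroup.card]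

/-- An involution is conjugate into a given Sylow 2-subgroup. -/
theorem conj_mem_sylow {G : Type u} [Group G] [Finite G] (P : Sylow 2 G) (t : G) (ht : t ^ 2 = 1) :
    ∃ c : G, c * t * c⁻¹ ∈ (P : Subgroup G) := by
  haveI : Fact (Nat.Prime 2) := ⟨Nat.prime_two⟩
  have hp : IsPGroup 2 (Subgroup.zpowers t) := by
    rintro ⟨y, hy⟩
    obtain ⟨m, rfl⟩ := Subgroup.mem_zpowers_iff.mp hy
    refine ⟨1, Subtype.ext ?_⟩
    show (t ^ m) ^ 2 ^ 1 = 1
    rw [pow_one, ← zpow_natCast, ← zpow_mul, mul_comm, zpow_mul, zpow_natCast, ht, one_zpow]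
  obtain ⟨Q, hQ⟩ := hp.exists_le_sylow
  obtain ⟨c, hc⟩ := MulAction.exists_smul_eq G Q P
  refine ⟨c, ?_⟩
  have h1 : t ∈ (Q : Subgroup G) := hQ (Subgroup.mem_zpowers t)
  have h2 : MulAut.conj c • t ∈ MulAut.conj c • (Q : Subgroup G) :=
    Subgroup.smul_mem_pointwise_smul _ _ _ h1
  rw [← Sylow.coe_subgroup_smul, hc] at h2
  simpa [MulAut.smul_def, MulAut.conj_apply] using h2

/-- A Sylow 5-subgroup and its normalizer. -/
theorem sylow5_normalizer {G : Type u} [Group G] [Finite G] (hG : Nat.card G = 120)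
    (hns : ¬ Group.IsSolvable G) :
    ∃ H N : Subgroup G, Nat.card H = 5 ∧ Nat.card N = 20 ∧
      ∀ c x : G, x ∈ H → x ≠ 1 → c * x * c⁻¹ ∈ H → c ∈ N := by
  haveI : Fact (Nat.Prime 5) := ⟨by norm_num⟩
  obtain ⟨P5⟩ : Nonempty (Sylow 5 G) := inferInstance
  have h5 : Nat.card (P5 : Subgroup G) = 5 := by
    rw [P5.card_eq_multiplicity, hG, fact120_5]; norm_num
  set N : Subgroup G := Subgroup.normalizer ((P5 : Subgroup G) : Set G) with hN
  have hn1 : Nat.card (Sylow 5 G) = N.index := P5.card_eq_index_normalizer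
  have hn2 : Nat.card (Sylow 5 G) ≡ 1 [MOD 5] := card_sylow_modEq_one 5 G
  have hn3 : Nat.card (Sylow 5 G) ∣ (P5 : Subgroup G).index := P5.card_dvd_index
  have hidx : (P5 : Subgroup G).index = 24 := by
    have := (P5 : Subgroup G).card_mul_index
    rw [h5, hG] at this
    omega
  have hNi : N.index = 6 := by
    rw [← hn1]
    rw [hidx] at hn3
    have hle : Nat.card (Sylow 5 G) ≤ 24 := Nat.le_of_dvd (by norm_num) hn3
    have hne1 : Nat.card (Sylow 5 G) ≠ 1 := by
      intro h1
      rw [hn1] at h1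
      have htop : N = ⊤ := Subgroup.index_eq_one.mp h1
      have hnorm : (P5 : Subgroup G).Normal := by
        rw [← Subgroup.normalizer_eq_top_iff]; exact htop
      apply hns
      haveI := hnorm
      apply solvable_of_normal (P5 : Subgroup G)
      · rw [h5]; norm_num
      · have := Subgroup.card_eq_card_quotient_mul_card_subgroup (P5 : Subgroup G)
        rw [h5, hG] at this
        omega
    have hmod : Nat.card (Sylow 5 G) % 5 = 1 := hn2
    generalize Nat.card (Sylow 5 G) = k at hn3 hle hne1 hmod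
    interval_cases k <;> first | rfl | omega
  have hNc : Nat.card N = 20 := by
    have := N.card_mul_index
    rw [hNi, hG] at this
    omega
  refine ⟨(P5 : Subgroup G), N, h5, hNc, ?_⟩
  intro c x hx hx1 hcx
  have hgen : ∀ y : G, y ∈ (P5 : Subgroup G) → ∀ w : G, w ∈ (P5 : Subgroup G) → w ≠ 1 →
      ∃ m : ℤ, y = w ^ m := by
    intro y hy w hw hw1
    have hmem := mem_zpowers_of_prime_card (G := (P5 : Subgroup G)) (p := 5) h5
      (g := ⟨w, hw⟩) (g' := ⟨y, hy⟩) (by intro h; exact hw1 (congrArg Subtype.val h))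
    obtain ⟨m, hm⟩ := Subgroup.mem_zpowers_iff.mp hmem
    refine ⟨m, ?_⟩
    have := congrArg Subtype.val hm
    simpa using this.symm
  rw [hN, Subgroup.mem_normalizer_iff]
  intro h
  constructor
  · intro hh
    obtain ⟨m, rfl⟩ := hgen h hh x hx hx1
    rw [← conj_zpow]
    exact (P5 : Subgroup G).zpow_mem hcx m
  · intro hh
    have hcx1 : c * x * c⁻¹ ≠ 1 := fun h1 => hx1 (conj_ne_one h1)
    obtain ⟨m, hm⟩ := hgen (c * h * c⁻¹) hh (c * x * c⁻¹) hcx hcx1
    rw [conj_zpow] at hm
    have h2 : h = x ^ m := mul_left_cancel (mul_right_cancel hm)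
    rw [h2]
    exact (P5 : Subgroup G).zpow_mem hx m

/-! ### The involution is central -/

theorem conj_z {G : Type u} [Group G] (P : Subgroup G) (z : G) (hz1 : z ≠ 1) (hz2 : z ^ 2 = 1)
    (huniq : ∀ g ∈ P, g ^ 2 = 1 → g = 1 ∨ g = z) (c : G) (h : c * z * c⁻¹ ∈ P) : c * z * c⁻¹ = z := by
  have h2 : (c * z * c⁻¹) ^ 2 = 1 := by rw [conj_pow, hz2, mul_one, mul_inv_cancel]
  rcases huniq _ h h2 with h3 | h3
  · exact absurd (conj_ne_one h3) hz1
  · exact h3

/-- The centralizer of the involution does not have index 15. -/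
theorem case15 {G : Type u} [Group G] [Finite G] (hG : Nat.card G = 120) (hns : ¬ Group.IsSolvable G)
    (P C : Subgroup G) (hP : Nat.card P = 8) (hC : Nat.card C = 8)
    (hM2 : ∀ c x : G, x ∈ P → x ≠ 1 → c * x * c⁻¹ ∈ P → c ∈ C) : False := by
  obtain ⟨T2, hT2, hc2⟩ := ti_count P C hM2
  obtain ⟨H, N, hH, hN, hM5⟩ := sylow5_normalizer hG hns
  obtain ⟨T5, hT5, hc5⟩ := ti_count H N hM5
  rw [hP, hC, hG] at hc2
  rw [hH, hN, hG] at hc5
  have hd : Disjoint T2 T5 := by
    rw [Set.disjoint_left]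
    intro g h2 h5
    obtain ⟨c, x, hx, hx1, rfl⟩ := hT2 g h2
    obtain ⟨c', x', hx', hx1', he⟩ := hT5 _ h5
    have e8 : (c * x * c⁻¹) ^ 8 = 1 := by
      rw [conj_pow]
      have h8 : x ^ 8 = 1 := by
        have h := pow_card_eq_one' (G := P) (x := ⟨x, hx⟩)
        rw [hP] at h
        have h' := congrArg Subtype.val h
        simpa using h'
      rw [h8, mul_one, mul_inv_cancel]
    have e5 : (c * x * c⁻¹) ^ 5 = 1 := by
      rw [he, conj_pow]
      have h8 : x' ^ 5 = 1 := by
        have h := pow_card_eq_one' (G := H) (x := ⟨x', hx'⟩)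
        rw [hH] at h
        have h' := congrArg Subtype.val h
        simpa using h'
      rw [h8, mul_one, mul_inv_cancel]
    have e1 : c * x * c⁻¹ = 1 := by
      have h16 : (c * x * c⁻¹) ^ 16 = 1 := by rw [show 16 = 8 * 2 from rfl, pow_mul, e8, one_pow]
      have h15 : (c * x * c⁻¹) ^ 15 = 1 := by rw [show 15 = 5 * 3 from rfl, pow_mul, e5, one_pow]
      have h := pow_succ (c * x * c⁻¹) 15
      rw [h16, h15, one_mul] at h
      exact h.symm
    exact hx1 (conj_ne_one e1)
  have h1 : (1 : G) ∉ T2 ∪ T5 := by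
    rintro (h | h)
    · obtain ⟨c, x, hx, hx1, he⟩ := hT2 _ h
      exact hx1 (conj_ne_one he.symm)
    · obtain ⟨c, x, hx, hx1, he⟩ := hT5 _ h
      exact hx1 (conj_ne_one he.symm)
  have e1 := Set.ncard_insert_of_notMem h1 (Set.toFinite _)
  have e2 := Set.ncard_union_eq hd (Set.toFinite _) (Set.toFinite _)
  have e3 := Set.ncard_le_card (insert (1 : G) (T2 ∪ T5))
  rw [hG] at e3
  omega

/-- The centralizer of the involution does not have index 3 or 5. -/
theorem case35 {G : Type u} [Group G] [Finite G] (hG : Nat.card G = 120) (hns : ¬ Group.IsSolvable G)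
    (P : Sylow 2 G) (z u v : G) (hz1 : z ≠ 1) (hz2 : z ^ 2 = 1)
    (huniq : ∀ g ∈ (P : Subgroup G), g ^ 2 = 1 → g = 1 ∨ g = z)
    (hu : u ^ 2 = z) (hv : v ^ 2 = z) (huv : (u * v) ^ 2 = z)
    (C : Subgroup G) (hCz : ∀ c : G, c * z * c⁻¹ = z → c ∈ C)
    (hidx : C.index = 3 ∨ C.index = 5) : False := by
  have hC1 : C ≠ ⊤ := by
    rintro rfl
    simp at hidx
  let φ : G →* Equiv.Perm (G ⧸ C) := MulAction.toPermHom G (G ⧸ C)
  set K : Subgroup G := φ.ker with hK
  have hKC : K ≤ C := by
    rw [hK, ← Subgroup.normalCore_eq_ker]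
    exact Subgroup.normalCore_le C
  have hmulC := C.card_mul_index
  rw [hG] at hmulC
  have hKdvd : Nat.card K ∣ Nat.card C := Subgroup.card_dvd_of_le hKC
  have hmulK := Subgroup.card_eq_card_quotient_mul_card_subgroup K
  rw [hG] at hmulK
  have hKpos : 0 < Nat.card K := Nat.card_pos
  have hCpos : 0 < Nat.card C := Nat.card_pos
  have hCle : Nat.card C ≤ 40 := by
    rcases hidx with h | h <;> rw [h] at hmulC <;> omega
  have hKle : Nat.card K ≤ 40 := le_trans (Nat.le_of_dvd hCpos hKdvd) hCle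
  have hQ60 : 60 ≤ Nat.card (G ⧸ K) := by
    by_contra hlt
    push Not at hlt
    exact hns (solvable_of_normal K (by omega) hlt)
  have hK2 : Nat.card K ≤ 2 := by nlinarith
  have hrange : Nat.card (G ⧸ K) ∣ (C.index).factorial := by
    have e1 : Nat.card (G ⧸ K) = Nat.card φ.range :=
      Nat.card_congr (QuotientGroup.quotientKerEquivRange φ).toEquiv
    rw [e1]
    have h := Subgroup.card_subgroup_dvd_card φ.range
    rwa [Nat.card_perm, ← Subgroup.index_eq_card] at h
  rcases hidx with h3 | h5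
  · rw [h3] at hrange
    have h6 : Nat.card (G ⧸ K) ≤ 6 := Nat.le_of_dvd (by decide) hrange
    omega
  · have hK12 : Nat.card K = 1 ∨ Nat.card K = 2 := by omega
    rcases hK12 with hK1 | hK2'
    · have hbot : K = ⊥ := Subgroup.eq_bot_of_card_eq K hK1
      have hinj : Function.Injective φ := (MonoidHom.ker_eq_bot_iff φ).mp hbot
      have hc5 : Nat.card (G ⧸ C) = 5 := by rw [← Subgroup.index_eq_card, h5]
      have hcard : Nat.card G = Nat.card (Equiv.Perm (G ⧸ C)) := by
        rw [Nat.card_perm, hc5, hG]; rfl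
      have hbij : Function.Bijective φ := (Nat.bijective_iff_injective_and_card φ).mpr ⟨hinj, hcard⟩
      let ψ : G ≃* Equiv.Perm (G ⧸ C) := MulEquiv.ofBijective φ hbij
      let ε : (G ⧸ C) ≃ Fin 5 := (Finite.equivFin (G ⧸ C)).trans (finCongr hc5)
      let ψ' : G ≃* Equiv.Perm (Fin 5) := ψ.trans ε.permCongrHom
      have hu4 : u ^ 4 = 1 := by rw [show 4 = 2 * 2 from rfl, pow_mul, hu, hz2]
      apply s5_fact (ψ' u) (ψ' v)
      · rw [← map_pow, hu4, map_one]
      · rw [← map_pow, hu]
        intro h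
        exact hz1 ((MulEquiv.map_eq_one_iff ψ').mp h)
      · rw [← map_pow, ← map_pow, hu, hv]
      · rw [← map_mul, ← map_pow, ← map_pow, huv, hu]
    · obtain ⟨⟨t, htK⟩, ht1, htuniq⟩ := (Nat.card_eq_two_iff' (1 : K)).mp hK2'
      have ht1' : t ≠ 1 := fun h => ht1 (Subtype.ext h)
      have ht2 : t ^ 2 = 1 := by
        have h := pow_card_eq_one' (G := K) (x := ⟨t, htK⟩)
        rw [hK2'] at h
        have h' := congrArg Subtype.val h
        simpa using h'
      obtain ⟨c, hc⟩ := conj_mem_sylow P t ht2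
      have hcz : c * t * c⁻¹ = z := by
        have h2 : (c * t * c⁻¹) ^ 2 = 1 := by rw [conj_pow, ht2, mul_one, mul_inv_cancel]
        rcases huniq _ hc h2 with h | h
        · exact absurd (conj_ne_one h) ht1'
        · exact h
      haveI hKn : K.Normal := MonoidHom.normal_ker φ
      have hzK : z ∈ K := by
        rw [← hcz]
        exact hKn.conj_mem t htK c
      have hcent : ∀ g : G, g * z * g⁻¹ = z := by
        intro g
        have h1 : g * z * g⁻¹ ∈ K := hKn.conj_mem z hzK g
        have h2 : (⟨g * z * g⁻¹, h1⟩ : K) ≠ 1 := by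
          intro h
          have h' : g * z * g⁻¹ = 1 := congrArg Subtype.val h
          exact hz1 (conj_ne_one h')
        have h3 : (⟨z, hzK⟩ : K) ≠ 1 := fun h => hz1 (congrArg Subtype.val h)
        have h4 := (htuniq _ h2).trans (htuniq _ h3).symm
        exact congrArg Subtype.val h4
      apply hC1
      rw [eq_top_iff]
      intro g _
      exact hCz g (hcent g)

/-- The involution of a quaternion Sylow 2-subgroup is central. -/
theorem exists_central {G : Type u} [Group G] [Finite G] (hG : Nat.card G = 120)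
    (hns : ¬ Group.IsSolvable G) (P : Sylow 2 G) (e : (P : Subgroup G) ≃* QuaternionGroup 2) :
    ∃ z u v : G, z ≠ 1 ∧ z ^ 2 = 1 ∧ (∀ g : G, g * z = z * g) ∧ u ^ 2 = z ∧ v ^ 2 = z ∧
      (u * v) ^ 2 = z := by
  obtain ⟨z, u, v, hzP, hz1, hz2, huniq, hpow, huP, hvP, hu, hv, huv, hP8⟩ := q8_data (P : Subgroup G) e
  have hconj := conj_z (P : Subgroup G) z hz1 hz2 huniq
  set C : Subgroup G := Subgroup.centralizer {z} with hC
  have hmemC : ∀ c : G, c * z * c⁻¹ = z → c ∈ C := by
    intro c hc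
    rw [hC, Subgroup.mem_centralizer_iff]
    intro h hh
    rw [Set.mem_singleton_iff] at hh
    subst hh
    rw [mul_inv_eq_iff_eq_mul] at hc
    exact hc.symm
  have hCmem : ∀ c : G, c ∈ C → c * z = z * c := by
    intro c hc
    rw [hC, Subgroup.mem_centralizer_iff] at hc
    exact (hc z (Set.mem_singleton z)).symm
  have hPC : (P : Subgroup G) ≤ C := fun g hg =>
    hmemC g (hconj g ((P : Subgroup G).mul_mem ((P : Subgroup G).mul_mem hg hzP)
      ((P : Subgroup G).inv_mem hg)))
  have hM2 : ∀ c x : G, x ∈ (P : Subgroup G) → x ≠ 1 → c * x * c⁻¹ ∈ (P : Subgroup G) → c ∈ C := by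
    intro c x hx hx1 hcx
    apply hmemC
    apply hconj
    rcases hpow x hx hx1 with h | h
    · rw [← h, ← conj_pow]
      exact (P : Subgroup G).pow_mem hcx 2
    · rw [← h]
      exact hcx
  have hmul := C.card_mul_index
  rw [hG] at hmul
  have h8 : 8 ∣ Nat.card C := hP8 ▸ Subgroup.card_dvd_of_le hPC
  have hidx : C.index = 1 ∨ C.index = 3 ∨ C.index = 5 ∨ C.index = 15 := by
    obtain ⟨m, hm⟩ := h8
    rw [hm] at hmul
    have h15 : m * C.index = 15 := by
      have : 8 * (m * C.index) = 120 := by rw [← mul_assoc]; exact hmul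
      omega
    have hd : C.index ∣ 15 := Dvd.intro_left m h15
    have hle : C.index ≤ 15 := Nat.le_of_dvd (by norm_num) hd
    generalize C.index = k at hd hle
    interval_cases k <;> omega
  rcases hidx with h1 | h3 | h5 | h15
  · have htop : C = ⊤ := Subgroup.index_eq_one.mp h1
    exact ⟨z, u, v, hz1, hz2, fun g => hCmem g (htop ▸ Subgroup.mem_top g), hu, hv, huv⟩
  · exact absurd (case35 hG hns P z u v hz1 hz2 huniq hu hv huv C hmemC (Or.inl h3)) id
  · exact absurd (case35 hG hns P z u v hz1 hz2 huniq hu hv huv C hmemC (Or.inr h5)) id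
  · have hC8 : Nat.card C = 8 := by
      rw [h15] at hmul
      omega
    exact absurd (case15 hG hns (P : Subgroup G) C hP8 hC8 hM2) id

/-! ### The isomorphism -/

theorem mem_zpowers_invol {G : Type u} [Group G] (z : G) (hz2 : z ^ 2 = 1) (w : G)
    (hw : w ∈ Subgroup.zpowers z) : w = 1 ∨ w = z := by
  obtain ⟨m, rfl⟩ := Subgroup.mem_zpowers_iff.mp hw
  have hz2' : z ^ (2 : ℤ) = 1 := by
    rw [← hz2]
    exact zpow_ofNat z 2
  rcases Int.emod_two_eq_zero_or_one m with h | h
  · left
    have hm : m = 2 * (m / 2) := by omega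
    rw [hm, zpow_mul, hz2', one_zpow]
  · right
    have hm : m = 2 * (m / 2) + 1 := by omega
    rw [hm, zpow_add, zpow_mul, hz2', one_zpow, one_mul, zpow_one]

theorem pow4_of {M : Type u} [Monoid M] (a : M) (h : a * (a * a) = 1) : a ^ 4 = a := by
  have e : a ^ 4 = a * (a * a) * a := by simp [pow_succ, mul_assoc]
  rw [e, h, one_mul]

theorem pow6_of {M : Type u} [Monoid M] (a : M) (h : a * (a * (a * (a * a))) = 1) : a ^ 6 = a := by
  have e : a ^ 6 = a * (a * (a * (a * a))) * a := by simp [pow_succ, mul_assoc]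
  rw [e, h, one_mul]

open Cfsg.Agent.Helper28 in
/-- A non-solvable group of order 120 with quaternion Sylow 2-subgroups is `SL(2, 5)`. -/
theorem order120 (G : Type u) [Group G] [Finite G] (hG : Nat.card G = 120)
    (hns : ¬ Group.IsSolvable G)
    (hQ : ∀ P : Sylow 2 G, Nonempty ((P : Subgroup G) ≃* QuaternionGroup 2)) :
    Nonempty (G ≃* Matrix.SpecialLinearGroup (Fin 2) (ZMod 5)) := by
  haveI : Fact (Nat.Prime 2) := ⟨Nat.prime_two⟩
  obtain ⟨P⟩ : Nonempty (Sylow 2 G) := inferInstance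
  obtain ⟨e⟩ := hQ P
  obtain ⟨z, u, v, hz1, hz2, hzc, hu, hv, huv⟩ := exists_central hG hns P e
  set Z : Subgroup G := Subgroup.zpowers z with hZ
  have hZmem : ∀ w : G, w ∈ Z → w = 1 ∨ w = z := mem_zpowers_invol z hz2
  have hzZ : z ∈ Z := Subgroup.mem_zpowers z
  haveI hZn : Z.Normal := by
    constructor
    intro n hn g
    rcases hZmem n hn with rfl | rfl
    · simp
    · rw [hzc g, mul_inv_cancel_right]
      exact hn
  have hZcard : Nat.card Z = 2 := by
    rw [hZ, Nat.card_zpowers]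
    exact orderOf_eq_prime hz2 hz1
  have hQcard : Nat.card (G ⧸ Z) = 60 := by
    have h := Subgroup.card_eq_card_quotient_mul_card_subgroup Z
    rw [hG, hZcard] at h
    omega
  have hQns : ¬ Group.IsSolvable (G ⧸ Z) := by
    intro hs
    apply hns
    haveI : Group.IsSolvable Z :=
      Cfsg.Agent.Helper14.O60.solvable_of_card_lt _ Z rfl (by rw [hZcard]; norm_num)
    exact (Group.isSolvable_iff_subgroup_quotient Z).mpr ⟨inferInstance, hs⟩
  haveI hsimple : IsSimpleGroup (G ⧸ Z) := by
    by_contra h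
    exact hQns (Cfsg.Agent.Helper14.O60.solvable_of_card_60 (G ⧸ Z) hQcard h)
  obtain ⟨ψ⟩ := Cfsg.Agent.S0494.result (G := G ⧸ Z) hQcard
  let α : A5Pres.P ≃* alternatingGroup (Fin 5) :=
    MulEquiv.ofBijective A5Pres.f ⟨A5Pres.f_inj, A5Pres.f_surj⟩
  let θ : A5Pres.P ≃* G ⧸ Z := α.trans ψ.symm
  let π : G →* G ⧸ Z := QuotientGroup.mk' Z
  have hπ : ∀ g : G, π g = 1 → g ∈ Z := fun g h => (QuotientGroup.eq_one_iff g).mp h
  have hx3 : θ A5Pres.x * (θ A5Pres.x * θ A5Pres.x) = 1 := by
    rw [← map_mul, ← map_mul, A5Pres.x3, map_one]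
  have hy5 : θ A5Pres.y * (θ A5Pres.y * (θ A5Pres.y * (θ A5Pres.y * θ A5Pres.y))) = 1 := by
    rw [← map_mul, ← map_mul, ← map_mul, ← map_mul, A5Pres.y5, map_one]
  have hxy : θ A5Pres.x * (θ A5Pres.y * (θ A5Pres.x * θ A5Pres.y)) = 1 := by
    rw [← map_mul, ← map_mul, ← map_mul, A5Pres.xy2, map_one]
  obtain ⟨X0, hX0⟩ := QuotientGroup.mk'_surjective Z (θ A5Pres.x)
  obtain ⟨Y0, hY0⟩ := QuotientGroup.mk'_surjective Z (θ A5Pres.y)
  have hπX : π (X0 ^ 4) = θ A5Pres.x := by
    rw [map_pow]
    show (QuotientGroup.mk' Z X0) ^ 4 = _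
    rw [hX0]
    exact pow4_of _ hx3
  have hπY : π (Y0 ^ 6) = θ A5Pres.y := by
    rw [map_pow]
    show (QuotientGroup.mk' Z Y0) ^ 6 = _
    rw [hY0]
    exact pow6_of _ hy5
  have hsq : ∀ w : G, w ∈ Z → w ^ 2 = 1 := by
    intro w hw
    rcases hZmem w hw with rfl | rfl
    · exact one_pow 2
    · exact hz2
  have hX3 : (X0 ^ 4) ^ 3 = 1 := by
    have hmem : X0 ^ 3 ∈ Z := by
      apply hπ
      rw [map_pow]
      show (QuotientGroup.mk' Z X0) ^ 3 = 1
      rw [hX0, ← hx3]
      simp [pow_succ, mul_assoc]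
    have e : (X0 ^ 4) ^ 3 = ((X0 ^ 3) ^ 2) ^ 2 := by
      rw [← pow_mul, ← pow_mul, ← pow_mul]
    rw [e, hsq _ hmem, one_pow]
  have hY5 : (Y0 ^ 6) ^ 5 = 1 := by
    have hmem : Y0 ^ 5 ∈ Z := by
      apply hπ
      rw [map_pow]
      show (QuotientGroup.mk' Z Y0) ^ 5 = 1
      rw [hY0, ← hy5]
      simp [pow_succ, mul_assoc]
    have e : (Y0 ^ 6) ^ 5 = ((Y0 ^ 5) ^ 2) ^ 3 := by
      rw [← pow_mul, ← pow_mul, ← pow_mul]
    rw [e, hsq _ hmem, one_pow]
  have hXYmem : (X0 ^ 4 * Y0 ^ 6) ^ 2 ∈ Z := by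
    apply hπ
    rw [map_pow, map_mul, hπX, hπY, ← hxy]
    simp [pow_succ, mul_assoc]
  generalize hX : X0 ^ 4 = X at hπX hX3 hXYmem
  generalize hY : Y0 ^ 6 = Y at hπY hY5 hXYmem
  rcases hZmem _ hXYmem with hA | hB
  · -- a complement: impossible
    exfalso
    have hrels : ∀ r ∈ A5Pres.rels, FreeGroup.lift ![X, Y] r = 1 := by
      intro r hr
      simp only [A5Pres.rels, Set.mem_insert_iff, Set.mem_singleton_iff] at hr
      rcases hr with rfl | rfl | rfl
      · simp only [map_pow, FreeGroup.lift_apply_of]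
        exact hX3
      · simp only [map_pow, FreeGroup.lift_apply_of]
        exact hY5
      · simp only [map_pow, map_mul, FreeGroup.lift_apply_of]
        exact hA
    let σ : A5Pres.P →* G := PresentedGroup.toGroup hrels
    have hσx : σ A5Pres.x = X := PresentedGroup.toGroup.of hrels
    have hσy : σ A5Pres.y = Y := PresentedGroup.toGroup.of hrels
    have hcomp : ∀ p : A5Pres.P, π (σ p) = θ p := by
      have hc : π.comp σ = θ.toMonoidHom := by
        apply PresentedGroup.ext
        intro i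
        fin_cases i
        · show π (σ A5Pres.x) = θ A5Pres.x
          rw [hσx]; exact hπX
        · show π (σ A5Pres.y) = θ A5Pres.y
          rw [hσy]; exact hπY
      intro p
      exact DFunLike.congr_fun hc p
    have hσinj : Function.Injective σ := by
      intro p q h
      apply θ.injective
      rw [← hcomp p, ← hcomp q, h]
    have hHcard : Nat.card σ.range = 60 := by
      rw [← Nat.card_congr (MonoidHom.ofInjective hσinj).toEquiv, Nat.card_congr α.toEquiv,
        Nat.card_eq_fintype_card, card_alternatingGroup, Fintype.card_fin]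
      rfl
    have hHidx : σ.range.index = 2 := by
      have h := σ.range.card_mul_index
      rw [hHcard, hG] at h
      omega
    have hex : ∃ w ∈ σ.range, w ^ 2 = z := by
      by_cases hu' : u ∈ σ.range
      · exact ⟨u, hu', hu⟩
      · by_cases hv' : v ∈ σ.range
        · exact ⟨v, hv', hv⟩
        · refine ⟨u * v, ?_, huv⟩
          rw [Subgroup.mul_mem_iff_of_index_two hHidx]
          exact ⟨fun h => absurd h hu', fun h => absurd h hv'⟩
    obtain ⟨w, ⟨p, rfl⟩, hw⟩ := hex
    have hp4 : p ^ 4 = 1 := by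
      apply hσinj
      rw [map_pow, map_one, show 4 = 2 * 2 from rfl, pow_mul, hw, hz2]
    have hp2 : p ^ 2 ≠ 1 := by
      intro h
      apply hz1
      rw [← hw, ← map_pow, h, map_one]
    have h4 : ((α p : alternatingGroup (Fin 5)) : Equiv.Perm (Fin 5)) ^ 4 = 1 := by
      have h := congrArg (fun t : alternatingGroup (Fin 5) => (t : Equiv.Perm (Fin 5))) (map_pow α p 4)
      rw [hp4, map_one] at h
      simpa using h.symm
    have h2 := a5_fact _ (Equiv.Perm.mem_alternatingGroup.mp (α p).2) h4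
    apply hp2
    apply α.injective
    rw [map_pow, map_one]
    exact Subtype.ext (by simpa using h2)
  · -- the presented group of order 120 maps onto `G`
    have hrels : ∀ r ∈ Sl25Pres.rels, FreeGroup.lift ![X, Y, z] r = 1 := by
      intro r hr
      simp only [Sl25Pres.rels, Set.mem_insert_iff, Set.mem_singleton_iff] at hr
      rcases hr with rfl | rfl | rfl | rfl | rfl | rfl
      · simp only [map_pow, FreeGroup.lift_apply_of]
        exact hX3
      · simp only [map_pow, FreeGroup.lift_apply_of]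
        exact hY5
      · simp only [map_pow, FreeGroup.lift_apply_of]
        exact hz2
      · simp only [map_mul, map_inv, FreeGroup.lift_apply_of]
        show z⁻¹ * X * z * X⁻¹ = 1
        rw [mul_assoc z⁻¹ X z, hzc X]
        group
      · simp only [map_mul, map_inv, FreeGroup.lift_apply_of]
        show z⁻¹ * Y * z * Y⁻¹ = 1
        rw [mul_assoc z⁻¹ Y z, hzc Y]
        group
      · simp only [map_pow, map_mul, map_inv, FreeGroup.lift_apply_of]
        show (X * Y) ^ 2 * z⁻¹ = 1
        rw [hB, mul_inv_cancel]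
    let τ : Sl25Pres.P →* G := PresentedGroup.toGroup hrels
    have hτx : τ Sl25Pres.x = X := PresentedGroup.toGroup.of hrels
    have hτy : τ Sl25Pres.y = Y := PresentedGroup.toGroup.of hrels
    have hτz : τ Sl25Pres.z = z := PresentedGroup.toGroup.of hrels
    have hR : ∀ p : A5Pres.P, ∃ r ∈ τ.range, π r = θ p := by
      intro p
      have hp : p ∈ Subgroup.closure (Set.range (PresentedGroup.of : Fin 2 → A5Pres.P)) := by
        rw [PresentedGroup.closure_range_of]; trivial
      induction hp using Subgroup.closure_induction with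
      | mem p hp =>
        obtain ⟨i, rfl⟩ := hp
        fin_cases i
        · exact ⟨X, ⟨Sl25Pres.x, hτx⟩, hπX⟩
        · exact ⟨Y, ⟨Sl25Pres.y, hτy⟩, hπY⟩
      | one => exact ⟨1, τ.range.one_mem, by rw [map_one, map_one]⟩
      | mul a b _ _ iha ihb =>
        obtain ⟨r1, hr1, e1⟩ := iha
        obtain ⟨r2, hr2, e2⟩ := ihb
        exact ⟨r1 * r2, τ.range.mul_mem hr1 hr2, by rw [map_mul, map_mul, e1, e2]⟩
      | inv a _ iha =>
        obtain ⟨r1, hr1, e1⟩ := iha
        exact ⟨r1⁻¹, τ.range.inv_mem hr1, by rw [map_inv, map_inv, e1]⟩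
    have hsurj : Function.Surjective τ := by
      intro g
      obtain ⟨p, hp⟩ := θ.surjective (π g)
      obtain ⟨r, hr, e⟩ := hR p
      have hmem : r⁻¹ * g ∈ Z := by
        apply hπ
        rw [map_mul, map_inv, e, hp, inv_mul_cancel]
      have hgr : g = r * (r⁻¹ * g) := by group
      have hg : g ∈ τ.range := by
        rw [hgr]
        apply τ.range.mul_mem hr
        rcases hZmem _ hmem with h | h
        · rw [h]; exact τ.range.one_mem
        · rw [h]; exact ⟨Sl25Pres.z, hτz⟩
      exact hg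
    haveI hfin : Finite Sl25Pres.P :=
      Nat.finite_of_card_ne_zero (by rw [Sl25Pres.card_P]; norm_num)
    have hbij : Function.Bijective τ :=
      (Nat.bijective_iff_surjective_and_card τ).mpr ⟨hsurj, by rw [Sl25Pres.card_P, hG]⟩
    exact ⟨(MulEquiv.ofBijective τ hbij).symm.trans Sl25Pres.iso⟩

end Cfsg.Agent.Helper28.Sl25Char
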