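import Cfsg.Agent.Helper28.Sl25Pres
import Cfsg.Prelude.Def_Solvable

/-!
# `SL(2, 5)` as a Frobenius complement (helper28)

The presented group `⟨x, y, z | x³, y⁵, z², [z, x], [z, y], (xy)² z⁻¹⟩ ≅ SL(2, 5)` acts on the plane over
the field with 11 elements through matrices of determinant 1, none of which (except the identity) has
trace 2, so no non-identity element fixes a non-zero vector; the semidirect product is a Frobenius group.
-/

set_option autoImplicit false
set_option linter.style.haveILetI false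

namespace Cfsg.Agent.Helper28.Sl25Frob

open Cfsg.Agent.Helper28.Sl25Pres

open scoped Pointwise

/-- The type of 2 × 2 matrices over the field with 11 elements. -/
abbrev M11 : Type := Matrix (Fin 2) (Fin 2) (ZMod 11)

/-- The matrix of the first generator. -/
def nx : M11 := !![0, 1; 10, 10]
/-- The matrix of the second generator. -/
def ny : M11 := !![0, 2; 5, 3]
/-- The matrix of the third generator. -/
def nz : M11 := !![10, 0; 0, 10]

/-- The matrix of a generator. -/
def genM11 : G3 → M11
  | .gx => nx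
  | .gy => ny
  | .gz => nz

theorem nx_det : nx.det = 1 := by rw [nx, Matrix.det_fin_two_of]; decide
theorem ny_det : ny.det = 1 := by rw [ny, Matrix.det_fin_two_of]; decide
theorem nz_det : nz.det = 1 := by rw [nz, Matrix.det_fin_two_of]; decide

/-- The images of the generators. -/
def img11 : Fin 3 → Matrix.SpecialLinearGroup (Fin 2) (ZMod 11) :=
  ![⟨nx, nx_det⟩, ⟨ny, ny_det⟩, ⟨nz, nz_det⟩]

theorem nx3 : nx ^ 3 = 1 := by decide
theorem ny5 : ny ^ 5 = 1 := by decide
theorem nz2 : nz ^ 2 = 1 := by decide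
theorem nxz : nx * nz = nz * nx := by decide
theorem nyz : ny * nz = nz * ny := by decide
theorem nxy : (nx * ny) ^ 2 = nz := by decide

theorem img11_rels : ∀ r ∈ rels, FreeGroup.lift img11 r = 1 := by
  intro r hr
  simp only [rels, Set.mem_insert_iff, Set.mem_singleton_iff] at hr
  rcases hr with rfl | rfl | rfl | rfl | rfl | rfl
  · simp only [map_pow, FreeGroup.lift_apply_of]
    apply Subtype.ext
    exact nx3
  · simp only [map_pow, FreeGroup.lift_apply_of]
    apply Subtype.ext
    exact ny5
  · simp only [map_pow, FreeGroup.lift_apply_of]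
    apply Subtype.ext
    exact nz2
  · simp only [map_mul, map_inv, FreeGroup.lift_apply_of]
    rw [mul_inv_eq_one, mul_assoc, inv_mul_eq_iff_eq_mul]
    apply Subtype.ext
    exact nxz
  · simp only [map_mul, map_inv, FreeGroup.lift_apply_of]
    rw [mul_inv_eq_one, mul_assoc, inv_mul_eq_iff_eq_mul]
    apply Subtype.ext
    exact nyz
  · simp only [map_pow, map_mul, map_inv, FreeGroup.lift_apply_of]
    rw [mul_inv_eq_one]
    apply Subtype.ext
    exact nxy

/-- The representation in `SL(2, 11)`. -/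
def rho : P →* Matrix.SpecialLinearGroup (Fin 2) (ZMod 11) := PresentedGroup.toGroup img11_rels

theorem rho_gen (c : G3) : ((rho (gen c) : Matrix.SpecialLinearGroup (Fin 2) (ZMod 11)) : M11) = genM11 c := by
  cases c
  · show ((rho (PresentedGroup.of 0) : Matrix.SpecialLinearGroup (Fin 2) (ZMod 11)) : M11) = nx
    rw [rho, PresentedGroup.toGroup.of]; rfl
  · show ((rho (PresentedGroup.of 1) : Matrix.SpecialLinearGroup (Fin 2) (ZMod 11)) : M11) = ny
    rw [rho, PresentedGroup.toGroup.of]; rfl
  · show ((rho (PresentedGroup.of 2) : Matrix.SpecialLinearGroup (Fin 2) (ZMod 11)) : M11) = nz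
    rw [rho, PresentedGroup.toGroup.of]; rfl

/-- A matrix with given entries. -/
def toM11 (q : ℕ × ℕ × ℕ × ℕ) : M11 :=
  !![(q.1 : ZMod 11), (q.2.1 : ZMod 11); (q.2.2.1 : ZMod 11), (q.2.2.2 : ZMod 11)]

/-- Right multiplication by a generator, on the entries. -/
def stepN11 (q : ℕ × ℕ × ℕ × ℕ) : G3 → ℕ × ℕ × ℕ × ℕ
  | .gx => ((10 * q.2.1) % 11, (q.1 + 10 * q.2.1) % 11, (10 * q.2.2.2) % 11, (q.2.2.1 + 10 * q.2.2.2) % 11)
  | .gy => ((5 * q.2.1) % 11, (2 * q.1 + 3 * q.2.1) % 11, (5 * q.2.2.2) % 11, (2 * q.2.2.1 + 3 * q.2.2.2) % 11)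
  | .gz => ((10 * q.1) % 11, (10 * q.2.1) % 11, (10 * q.2.2.1) % 11, (10 * q.2.2.2) % 11)

/-- The entries of the matrix of a word. -/
def evN11 (l : List G3) : ℕ × ℕ × ℕ × ℕ := l.foldl stepN11 (1, 0, 0, 1)

theorem toM11_step (q : ℕ × ℕ × ℕ × ℕ) (c : G3) : toM11 q * genM11 c = toM11 (stepN11 q c) := by
  obtain ⟨a, b, c', d⟩ := q
  cases c
  · simp only [toM11, genM11, stepN11, nx, Matrix.mul_fin_two, ZMod.natCast_mod]
    push_cast
    ext i j
    fin_cases i <;> fin_cases j <;> simp <;> ring
  · simp only [toM11, genM11, stepN11, ny, Matrix.mul_fin_two, ZMod.natCast_mod]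
    push_cast
    ext i j
    fin_cases i <;> fin_cases j <;> simp <;> ring
  · simp only [toM11, genM11, stepN11, nz, Matrix.mul_fin_two, ZMod.natCast_mod]
    push_cast
    ext i j
    fin_cases i <;> fin_cases j <;> simp <;> ring

theorem toM11_one : toM11 (1, 0, 0, 1) = 1 := by
  simp only [toM11, Nat.cast_one, Nat.cast_zero]
  exact Matrix.one_fin_two.symm

theorem rho_foldl (l : List G3) : ∀ (acc : P) (q : ℕ × ℕ × ℕ × ℕ),
    ((rho acc : Matrix.SpecialLinearGroup (Fin 2) (ZMod 11)) : M11) = toM11 q →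
    ((rho (l.foldl (fun acc c => acc * gen c) acc) : Matrix.SpecialLinearGroup (Fin 2) (ZMod 11)) : M11)
      = toM11 (l.foldl stepN11 q) := by
  induction l with
  | nil => intro acc q h; exact h
  | cons c l ih =>
    intro acc q h
    rw [List.foldl_cons, List.foldl_cons]
    apply ih
    rw [map_mul, Matrix.SpecialLinearGroup.coe_mul, rho_gen, h, toM11_step]

theorem rho_ev (l : List G3) :
    ((rho (ev l) : Matrix.SpecialLinearGroup (Fin 2) (ZMod 11)) : M11) = toM11 (evN11 l) := by
  rw [ev, evN11]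
  apply rho_foldl
  rw [map_one, toM11_one]; rfl

theorem trace_paths : ∀ i, i < 120 → i = 0 ∨
    ((evN11 (paths.getD i [])).1 + (evN11 (paths.getD i [])).2.2.2) % 11 ≠ 2 := by
  decide +kernel

/-- No element other than the identity has trace 2. -/
theorem rho_trace (p : P) (hp : p ≠ 1) :
    ((rho p : Matrix.SpecialLinearGroup (Fin 2) (ZMod 11)) : M11) 0 0
      + ((rho p : Matrix.SpecialLinearGroup (Fin 2) (ZMod 11)) : M11) 1 1 ≠ 2 := by
  obtain ⟨i, hi, rfl⟩ := exists_W p
  rcases trace_paths i hi with rfl | h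
  · exact absurd rfl hp
  · rw [W, rho_ev]
    intro h2
    apply h
    have h3 : (((evN11 (paths.getD i [])).1 + (evN11 (paths.getD i [])).2.2.2 : ℕ) : ZMod 11) = ((2 : ℕ) : ZMod 11) := by
      push_cast
      simpa [toM11] using h2
    exact (ZMod.natCast_eq_natCast_iff' _ _ _).mp h3

/-- No element other than the identity fixes a non-zero vector. -/
theorem free_act (p : P) (v : Fin 2 → ZMod 11) (hv : v ≠ 0)
    (h : ((rho p : Matrix.SpecialLinearGroup (Fin 2) (ZMod 11)) : M11).mulVec v = v) : p = 1 := by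
  haveI : Fact (Nat.Prime 11) := ⟨by norm_num⟩
  by_contra hp
  have htr := rho_trace p hp
  have hdet : (((rho p : Matrix.SpecialLinearGroup (Fin 2) (ZMod 11)) : M11) - 1).det = 0 :=
    Matrix.exists_mulVec_eq_zero_iff.mp ⟨v, hv, by rw [Matrix.sub_mulVec, h, Matrix.one_mulVec, sub_self]⟩
  have hd1 : ((rho p : Matrix.SpecialLinearGroup (Fin 2) (ZMod 11)) : M11).det = 1 := (rho p).2
  rw [Matrix.det_fin_two] at hdet hd1
  simp only [Matrix.sub_apply, Matrix.one_apply_eq, Matrix.one_apply_ne, ne_eq, Fin.isValue, zero_ne_one,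
    not_false_eq_true, one_ne_zero, sub_zero] at hdet
  apply htr
  linear_combination hd1 - hdet

/-- The plane over the field with 11 elements, written multiplicatively. -/
abbrev V11 : Type := Multiplicative (Fin 2 → ZMod 11)

/-- The action of a matrix of determinant 1 on the plane. -/
def act (A : Matrix.SpecialLinearGroup (Fin 2) (ZMod 11)) : MulAut V11 where
  toFun v := Multiplicative.ofAdd ((A : M11).mulVec (Multiplicative.toAdd v))
  invFun v := Multiplicative.ofAdd
    (((A⁻¹ : Matrix.SpecialLinearGroup (Fin 2) (ZMod 11)) : M11).mulVec (Multiplicative.toAdd v))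
  left_inv v := by
    show Multiplicative.ofAdd (((A⁻¹ : Matrix.SpecialLinearGroup (Fin 2) (ZMod 11)) : M11).mulVec
      ((A : M11).mulVec (Multiplicative.toAdd v))) = v
    rw [Matrix.mulVec_mulVec, ← Matrix.SpecialLinearGroup.coe_mul, inv_mul_cancel,
      Matrix.SpecialLinearGroup.coe_one, Matrix.one_mulVec]
    rfl
  right_inv v := by
    show Multiplicative.ofAdd ((A : M11).mulVec
      (((A⁻¹ : Matrix.SpecialLinearGroup (Fin 2) (ZMod 11)) : M11).mulVec (Multiplicative.toAdd v))) = v
    rw [Matrix.mulVec_mulVec, ← Matrix.SpecialLinearGroup.coe_mul, mul_inv_cancel,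
      Matrix.SpecialLinearGroup.coe_one, Matrix.one_mulVec]
    rfl
  map_mul' v w := by
    show Multiplicative.ofAdd ((A : M11).mulVec (Multiplicative.toAdd v + Multiplicative.toAdd w)) = _
    rw [Matrix.mulVec_add]
    rfl

theorem act_apply (A : Matrix.SpecialLinearGroup (Fin 2) (ZMod 11)) (v : V11) :
    act A v = Multiplicative.ofAdd ((A : M11).mulVec (Multiplicative.toAdd v)) := rfl

/-- The action as a homomorphism. -/
def actHom : Matrix.SpecialLinearGroup (Fin 2) (ZMod 11) →* MulAut V11 where
  toFun := act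
  map_one' := by
    ext v
    rw [act_apply, Matrix.SpecialLinearGroup.coe_one, Matrix.one_mulVec]
    rfl
  map_mul' A B := by
    ext v
    rw [MulAut.mul_apply, act_apply, act_apply, act_apply, Matrix.SpecialLinearGroup.coe_mul,
      ← Matrix.mulVec_mulVec]
    rfl

/-- The action of the presented group on the plane. -/
def phi : P →* MulAut V11 := actHom.comp rho

theorem phi_free (a : P) (n : V11) (hn : n ≠ 1) (h : phi a n = n) : a = 1 := by
  apply free_act a (Multiplicative.toAdd n)
  · intro h0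
    apply hn
    exact Multiplicative.toAdd.injective h0
  · have h2 : Multiplicative.ofAdd
        (((rho a : Matrix.SpecialLinearGroup (Fin 2) (ZMod 11)) : M11).mulVec (Multiplicative.toAdd n)) = n := h
    exact congrArg Multiplicative.toAdd h2

/-- The complement of a semidirect product with a fixed-point-free action is a Frobenius complement. -/
theorem frobenius_inr {N G : Type} [Group N] [Group G] (φ : G →* MulAut N)
    (hfree : ∀ (a : G) (n : N), n ≠ 1 → φ a n = n → a = 1) (hN : ∃ n : N, n ≠ 1)
    (hG : ∃ a : G, a ≠ 1) :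
    Cfsg.IsFrobeniusComplement ((SemidirectProduct.inr : G →* N ⋊[φ] G).range) := by
  refine ⟨?_, ?_, ?_⟩
  · obtain ⟨a, ha⟩ := hG
    intro h
    have h1 : (SemidirectProduct.inr a : N ⋊[φ] G) ∈ (⊥ : Subgroup (N ⋊[φ] G)) := h ▸ ⟨a, rfl⟩
    rw [Subgroup.mem_bot] at h1
    exact ha (SemidirectProduct.inr_injective (by rw [h1, map_one]))
  · obtain ⟨n, hn⟩ := hN
    intro h
    have h1 : (SemidirectProduct.inl n : N ⋊[φ] G) ∈ (SemidirectProduct.inr : G →* N ⋊[φ] G).range :=
      h ▸ Subgroup.mem_top _
    obtain ⟨a, ha⟩ := h1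
    have h2 := congrArg SemidirectProduct.left ha
    rw [SemidirectProduct.left_inr, SemidirectProduct.left_inl] at h2
    exact hn h2.symm
  · intro x hx
    rw [eq_bot_iff]
    intro h hh
    obtain ⟨⟨a, rfl⟩, h2⟩ := Subgroup.mem_inf.mp hh
    rw [Subgroup.mem_pointwise_smul_iff_inv_smul_mem] at h2
    obtain ⟨b, hb⟩ := h2
    rw [Subgroup.mem_bot]
    have hxl : x.left ≠ 1 := by
      intro h0
      apply hx
      refine ⟨x.right, ?_⟩
      ext
      · rw [SemidirectProduct.left_inr, h0]
      · rw [SemidirectProduct.right_inr]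
    have hl := congrArg SemidirectProduct.left hb
    rw [MulAut.smul_def, MulAut.conj_inv_apply, SemidirectProduct.left_inr, SemidirectProduct.mul_left,
      SemidirectProduct.mul_left, SemidirectProduct.mul_right, SemidirectProduct.left_inr,
      SemidirectProduct.right_inr, SemidirectProduct.inv_left, SemidirectProduct.inv_right,
      map_one, mul_one, map_mul, MulAut.mul_apply, ← map_mul] at hl
    have h3 : x.left⁻¹ * φ a x.left = 1 :=
      (φ x.right⁻¹).injective (hl.symm.trans (map_one _).symm)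
    have h4 : φ a x.left = x.left := by
      rw [← mul_right_inj x.left⁻¹, h3, inv_mul_cancel]
    rw [hfree a x.left hxl h4, map_one]

/-- `SL(2, 5)` is a Frobenius complement in a group of order `121 * 120`. -/
theorem main : ∃ (L : Type) (_ : Group L) (_ : Finite L) (H : Subgroup L),
    Cfsg.IsFrobeniusComplement H ∧ Nonempty (H ≃* Matrix.SpecialLinearGroup (Fin 2) (ZMod 5)) := by
  haveI hfin : Finite P := Nat.finite_of_card_ne_zero (by rw [card_P]; norm_num)
  have hG : ∃ a : P, a ≠ 1 := by
    by_contra h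
    push Not at h
    have h1 : Nat.card P = 1 := by
      rw [Nat.card_eq_one_iff_unique]
      exact ⟨⟨fun a b => (h a).trans (h b).symm⟩, ⟨1⟩⟩
    rw [card_P] at h1
    omega
  have hN : ∃ n : V11, n ≠ 1 := by
    refine ⟨Multiplicative.ofAdd ![1, 0], ?_⟩
    intro h
    have h2 : (![1, 0] : Fin 2 → ZMod 11) = 0 := congrArg Multiplicative.toAdd h
    have h3 := congrFun h2 0
    revert h3
    decide
  refine ⟨V11 ⋊[phi] P, inferInstance, Finite.of_equiv _ SemidirectProduct.equivProd.symm,
    (SemidirectProduct.inr : P →* V11 ⋊[phi] P).range, frobenius_inr phi phi_free hN hG, ?_⟩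
  exact ⟨(MonoidHom.ofInjective SemidirectProduct.inr_injective).symm.trans iso⟩

end Cfsg.Agent.Helper28.Sl25Frob
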