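import Mathlib

set_option autoImplicit false
set_option linter.unusedSectionVars false

namespace Cfsg.Agent.Helper28.Srg

variable {V : Type*} [Fintype V] [DecidableEq V] (G : SimpleGraph V) [DecidableRel G.Adj]

/-- neighbours as a finset -/
def nb (v : V) : Finset V := Finset.univ.filter (fun w => G.Adj v w)

theorem mem_nb {v w : V} : w ∈ nb G v ↔ G.Adj v w := by
  unfold nb
  simp

/-- the properties of a strongly regular graph with parameters (100, 22, 0, 6), in terms of
finsets of neighbours -/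
structure Srg100 : Prop where
  card : Fintype.card V = 100
  deg : ∀ v, (nb G v).card = 22
  lam : ∀ v w, G.Adj v w → nb G v ∩ nb G w = ∅
  mu : ∀ v w, v ≠ w → ¬ G.Adj v w → (nb G v ∩ nb G w).card = 6

theorem srg100_of (hG : G.IsSRGWith 100 22 0 6) : Srg100 G := by
  refine ⟨hG.card, ?_, ?_, ?_⟩
  · intro v
    have h := hG.regular v
    rw [← h, ← SimpleGraph.card_neighborFinset_eq_degree]
    congr 1
    ext w
    simp [mem_nb]
  · intro v w hvw
    have h := hG.of_adj v w hvw
    rw [← Set.toFinset_card, Finset.card_eq_zero] at h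
    rw [← h]
    ext x
    simp [mem_nb, SimpleGraph.mem_commonNeighbors]
  · intro v w hne hnadj
    have h := hG.of_not_adj hne hnadj
    rw [← Set.toFinset_card] at h
    rw [← h]
    congr 1
    ext x
    simp [mem_nb, SimpleGraph.mem_commonNeighbors]

/-- the vertices other than `o` not adjacent to `o` -/
def Qs (o : V) : Finset V := Finset.univ.filter (fun v => v ≠ o ∧ ¬ G.Adj o v)

/-- the common neighbours of `v` and `o` -/
def blk (o v : V) : Finset V := nb G v ∩ nb G o

variable {G}

theorem mem_Qs {o v : V} : v ∈ Qs G o ↔ v ≠ o ∧ ¬ G.Adj o v := by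
  unfold Qs
  simp

theorem mem_blk {o v x : V} : x ∈ blk G o v ↔ G.Adj v x ∧ G.Adj o x := by
  unfold blk
  rw [Finset.mem_inter, mem_nb, mem_nb]

theorem no_tri (h : Srg100 G) {a b c : V} (hab : G.Adj a b) (hac : G.Adj a c) :
    ¬ G.Adj b c := by
  intro hbc
  have h1 := h.lam b c hbc
  have ha : a ∈ nb G b ∩ nb G c :=
    Finset.mem_inter.mpr ⟨(mem_nb G).mpr hab.symm, (mem_nb G).mpr hac.symm⟩
  rw [h1] at ha
  exact Finset.notMem_empty a ha

theorem card_blk (h : Srg100 G) {o v : V} (hv : v ∈ Qs G o) : (blk G o v).card = 6 := by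
  rw [mem_Qs] at hv
  exact h.mu v o hv.1 (fun hadj => hv.2 hadj.symm)

theorem blk_sub (o v : V) : blk G o v ⊆ nb G o := Finset.inter_subset_right

theorem card_Qs (h : Srg100 G) (o : V) : (Qs G o).card = 77 := by
  have h1 : (Finset.univ : Finset V) = insert o (nb G o) ∪ Qs G o := by
    ext x
    simp only [Finset.mem_univ, Finset.mem_union, Finset.mem_insert, mem_nb, mem_Qs, true_iff]
    tauto
  have h2 : Disjoint (insert o (nb G o)) (Qs G o) := by
    rw [Finset.disjoint_left]
    intro x hx hxQ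
    rw [mem_Qs] at hxQ
    rw [Finset.mem_insert, mem_nb] at hx
    rcases hx with hx | hx
    · exact hxQ.1 hx
    · exact hxQ.2 hx
  have ho : o ∉ nb G o := by
    rw [mem_nb]
    exact G.irrefl
  have h3 := congrArg Finset.card h1
  rw [Finset.card_union_of_disjoint h2, Finset.card_insert_of_notMem ho, h.deg o,
    Finset.card_univ, h.card] at h3
  omega

theorem card_Q_adj_pt (h : Srg100 G) {o p : V} (hp : G.Adj o p) :
    ((Qs G o).filter (fun w => G.Adj p w)).card = 21 := by
  have h1 : nb G p = insert o ((Qs G o).filter (fun w => G.Adj p w)) := by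
    ext x
    simp only [mem_nb, Finset.mem_insert, Finset.mem_filter, mem_Qs]
    constructor
    · intro hpx
      by_cases hxo : x = o
      · exact Or.inl hxo
      · right
        exact ⟨⟨hxo, fun hox => no_tri h hp hox hpx⟩, hpx⟩
    · rintro (hxo | ⟨-, hpx⟩)
      · rw [hxo]; exact hp.symm
      · exact hpx
  have ho : o ∉ (Qs G o).filter (fun w => G.Adj p w) := by
    rw [Finset.mem_filter, mem_Qs]
    exact fun hh => hh.1.1 rfl
  have h2 := h.deg p
  rw [h1, Finset.card_insert_of_notMem ho] at h2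
  omega

theorem card_Q_adj_pair (h : Srg100 G) {o p p' : V} (hp : G.Adj o p) (hp' : G.Adj o p')
    (hne : p ≠ p') : ((Qs G o).filter (fun w => G.Adj p w ∧ G.Adj p' w)).card = 5 := by
  have hnadj : ¬ G.Adj p p' := no_tri h hp hp'
  have h1 : nb G p ∩ nb G p'
      = insert o ((Qs G o).filter (fun w => G.Adj p w ∧ G.Adj p' w)) := by
    ext x
    simp only [Finset.mem_inter, mem_nb, Finset.mem_insert, Finset.mem_filter, mem_Qs]
    constructor
    · rintro ⟨hpx, hpx'⟩
      by_cases hxo : x = o
      · exact Or.inl hxo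
      · right
        exact ⟨⟨hxo, fun hox => no_tri h hp hox hpx⟩, hpx, hpx'⟩
    · rintro (hxo | ⟨-, hpx, hpx'⟩)
      · rw [hxo]; exact ⟨hp.symm, hp'.symm⟩
      · exact ⟨hpx, hpx'⟩
  have ho : o ∉ (Qs G o).filter (fun w => G.Adj p w ∧ G.Adj p' w) := by
    rw [Finset.mem_filter, mem_Qs]
    exact fun hh => hh.1.1 rfl
  have h2 := h.mu p p' hne hnadj
  rw [h1, Finset.card_insert_of_notMem ho] at h2
  omega

theorem card_Q_adj_Q (h : Srg100 G) {o v : V} (hv : v ∈ Qs G o) :
    ((Qs G o).filter (fun w => G.Adj v w)).card = 16 := by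
  have hv' := mem_Qs.mp hv
  have h1 : nb G v = blk G o v ∪ (Qs G o).filter (fun w => G.Adj v w) := by
    ext x
    simp only [mem_nb, Finset.mem_union, mem_blk, Finset.mem_filter, mem_Qs]
    constructor
    · intro hvx
      by_cases hox : G.Adj o x
      · exact Or.inl ⟨hvx, hox⟩
      · right
        refine ⟨⟨?_, hox⟩, hvx⟩
        intro hxo
        rw [hxo] at hvx
        exact hv'.2 hvx.symm
    · rintro (⟨hvx, -⟩ | ⟨-, hvx⟩) <;> exact hvx
  have h2 : Disjoint (blk G o v) ((Qs G o).filter (fun w => G.Adj v w)) := by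
    rw [Finset.disjoint_left]
    intro x hx hx'
    rw [mem_blk] at hx
    rw [Finset.mem_filter, mem_Qs] at hx'
    exact hx'.1.2 hx.2
  have h3 := h.deg v
  rw [h1, Finset.card_union_of_disjoint h2, card_blk h hv] at h3
  omega

theorem binom_count_idx {ι : Type*} (s : Finset ι) (f : ι → Finset V) (Y : Finset V)
    (j : ℕ) : ∑ i ∈ s, (f i ∩ Y).card.choose j
      = ∑ Z ∈ Y.powersetCard j, (s.filter (fun i => Z ⊆ f i)).card := by
  have key := Finset.sum_card_bipartiteAbove_eq_sum_card_bipartiteBelow (s := Y.powersetCard j)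
    (t := s) (fun (Z : Finset V) (i : ι) => Z ⊆ f i)
  have h0 : ∑ Z ∈ Y.powersetCard j, (s.filter (fun i => Z ⊆ f i)).card
      = ∑ Z ∈ Y.powersetCard j,
        (s.bipartiteAbove (fun (Z : Finset V) (i : ι) => Z ⊆ f i) Z).card := rfl
  rw [h0, key]
  apply Finset.sum_congr rfl
  intro i _
  rw [← Finset.card_powersetCard]
  congr 1
  ext Z
  simp only [Finset.bipartiteBelow, Finset.mem_filter, Finset.mem_powersetCard,
    Finset.subset_inter_iff]
  tauto

theorem blk_inter_adj (h : Srg100 G) {o v w : V} (hadj : G.Adj v w) :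
    blk G o w ∩ blk G o v = ∅ := by
  rw [Finset.eq_empty_iff_forall_notMem]
  intro x hx
  rw [Finset.mem_inter, mem_blk, mem_blk] at hx
  exact no_tri h hx.2.1.symm hx.1.1.symm hadj

end Cfsg.Agent.Helper28.Srg
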