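import Cfsg.Agent.Helper28.SrgA

set_option autoImplicit false
set_option linter.unusedSectionVars false

namespace Cfsg.Agent.Helper28.Srg

variable {V : Type*} [Fintype V] [DecidableEq V] {G : SimpleGraph V} [DecidableRel G.Adj]

theorem blk_inter_nonadj (h : Srg100 G) {o v : V} (hv : v ∈ Qs G o) :
    ∀ w ∈ Qs G o, w ≠ v → ¬ G.Adj v w → (blk G o w ∩ blk G o v).card = 2 := by
  obtain ⟨R, hR⟩ : ∃ R : Finset V, R = (Qs G o).erase v := ⟨_, rfl⟩
  have hRcard : R.card = 76 := by rw [hR, Finset.card_erase_of_mem hv, card_Qs h o]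
  have e1 : ∑ w ∈ R, (blk G o w ∩ blk G o v).card.choose 1 = 120 := by
    rw [binom_count_idx]
    have hterm : ∀ Z ∈ (blk G o v).powersetCard 1,
        (R.filter (fun w => Z ⊆ blk G o w)).card = 20 := by
      intro Z hZ
      rw [Finset.mem_powersetCard] at hZ
      obtain ⟨p, rfl⟩ := Finset.card_eq_one.mp hZ.2
      have hp : p ∈ blk G o v := hZ.1 (Finset.mem_singleton_self p)
      rw [mem_blk] at hp
      have hfil : R.filter (fun w => {p} ⊆ blk G o w)
          = ((Qs G o).filter (fun w => G.Adj p w)).erase v := by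
        ext w
        rw [hR, Finset.mem_filter, Finset.mem_erase, Finset.mem_erase, Finset.mem_filter,
          Finset.singleton_subset_iff, mem_blk]
        constructor
        · rintro ⟨⟨hwv, hwQ⟩, hwp, -⟩
          exact ⟨hwv, hwQ, hwp.symm⟩
        · rintro ⟨hwv, hwQ, hpw⟩
          exact ⟨⟨hwv, hwQ⟩, hpw.symm, hp.2⟩
      rw [hfil, Finset.card_erase_of_mem (Finset.mem_filter.mpr ⟨hv, hp.1.symm⟩),
        card_Q_adj_pt h hp.2]
    rw [Finset.sum_congr rfl hterm, Finset.sum_const, Finset.card_powersetCard, card_blk h hv]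
    rfl
  have e2 : ∑ w ∈ R, (blk G o w ∩ blk G o v).card.choose 2 = 60 := by
    rw [binom_count_idx]
    have hterm : ∀ Z ∈ (blk G o v).powersetCard 2,
        (R.filter (fun w => Z ⊆ blk G o w)).card = 4 := by
      intro Z hZ
      rw [Finset.mem_powersetCard] at hZ
      obtain ⟨p, p', hpp', rfl⟩ := Finset.card_eq_two.mp hZ.2
      have hp : p ∈ blk G o v := hZ.1 (by simp)
      have hp' : p' ∈ blk G o v := hZ.1 (by simp)
      rw [mem_blk] at hp hp'
      have hfil : R.filter (fun w => {p, p'} ⊆ blk G o w)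
          = ((Qs G o).filter (fun w => G.Adj p w ∧ G.Adj p' w)).erase v := by
        ext w
        rw [hR, Finset.mem_filter, Finset.mem_erase, Finset.mem_erase, Finset.mem_filter,
          Finset.insert_subset_iff, Finset.singleton_subset_iff, mem_blk, mem_blk]
        constructor
        · rintro ⟨⟨hwv, hwQ⟩, ⟨hwp, -⟩, hwp', -⟩
          exact ⟨hwv, hwQ, hwp.symm, hwp'.symm⟩
        · rintro ⟨hwv, hwQ, hpw, hpw'⟩
          exact ⟨⟨hwv, hwQ⟩, ⟨hpw.symm, hp.2⟩, hpw'.symm, hp'.2⟩
      rw [hfil, Finset.card_erase_of_mem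
        (Finset.mem_filter.mpr ⟨hv, hp.1.symm, hp'.1.symm⟩),
        card_Q_adj_pair h hp.2 hp'.2 hpp']
    rw [Finset.sum_congr rfl hterm, Finset.sum_const, Finset.card_powersetCard, card_blk h hv]
    rfl
  have hA : (R.filter (fun w => G.Adj v w)).card = 16 := by
    have hAeq : R.filter (fun w => G.Adj v w) = (Qs G o).filter (fun w => G.Adj v w) := by
      ext w
      rw [hR, Finset.mem_filter, Finset.mem_erase, Finset.mem_filter]
      constructor
      · rintro ⟨⟨-, hwQ⟩, hvw⟩
        exact ⟨hwQ, hvw⟩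
      · rintro ⟨hwQ, hvw⟩
        refine ⟨⟨?_, hwQ⟩, hvw⟩
        intro hwv
        rw [hwv] at hvw
        exact G.irrefl hvw
    rw [hAeq, card_Q_adj_Q h hv]
  have hN : (R.filter (fun w => ¬ G.Adj v w)).card = 60 := by
    have h1 := Finset.card_filter_add_card_filter_not (s := R) (fun w => G.Adj v w)
    omega
  have hzero : ∀ j, 1 ≤ j → ∑ w ∈ R.filter (fun w => G.Adj v w),
      (blk G o w ∩ blk G o v).card.choose j = 0 := by
    intro j hj
    apply Finset.sum_eq_zero
    intro w hw
    rw [Finset.mem_filter] at hw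
    rw [blk_inter_adj h hw.2, Finset.card_empty]
    exact Nat.choose_eq_zero_of_lt hj
  have s1 : ∑ w ∈ R.filter (fun w => ¬ G.Adj v w),
      (blk G o w ∩ blk G o v).card.choose 1 = 120 := by
    have h1 := Finset.sum_filter_add_sum_filter_not R (fun w => G.Adj v w)
      (fun w => (blk G o w ∩ blk G o v).card.choose 1)
    rw [hzero 1 le_rfl, e1] at h1
    omega
  have s2 : ∑ w ∈ R.filter (fun w => ¬ G.Adj v w),
      (blk G o w ∩ blk G o v).card.choose 2 = 60 := by
    have h1 := Finset.sum_filter_add_sum_filter_not R (fun w => G.Adj v w)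
      (fun w => (blk G o w ∩ blk G o v).card.choose 2)
    rw [hzero 2 (by norm_num), e2] at h1
    omega
  have hle : ∀ w ∈ R.filter (fun w => ¬ G.Adj v w),
      3 * (blk G o w ∩ blk G o v).card.choose 1
        ≤ 2 * (blk G o w ∩ blk G o v).card.choose 2 + 4 := by
    intro w _
    have hb : (blk G o w ∩ blk G o v).card ≤ 6 := by
      calc (blk G o w ∩ blk G o v).card ≤ (blk G o v).card :=
            Finset.card_le_card Finset.inter_subset_right
        _ = 6 := card_blk h hv
    generalize (blk G o w ∩ blk G o v).card = i at hb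
    interval_cases i <;> decide
  have hsumeq : ∑ w ∈ R.filter (fun w => ¬ G.Adj v w),
        3 * (blk G o w ∩ blk G o v).card.choose 1
      = ∑ w ∈ R.filter (fun w => ¬ G.Adj v w),
        (2 * (blk G o w ∩ blk G o v).card.choose 2 + 4) := by
    rw [← Finset.mul_sum, Finset.sum_add_distrib, ← Finset.mul_sum, s1, s2, Finset.sum_const,
      hN]
    rfl
  have hall := (Finset.sum_eq_sum_iff_of_le hle).mp hsumeq
  intro w hw hne hnadj
  have hwN : w ∈ R.filter (fun w => ¬ G.Adj v w) := by
    rw [Finset.mem_filter, hR, Finset.mem_erase]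
    exact ⟨⟨hne, hw⟩, hnadj⟩
  have hthis := hall w hwN
  have hb : (blk G o w ∩ blk G o v).card ≤ 6 := by
    calc (blk G o w ∩ blk G o v).card ≤ (blk G o v).card :=
          Finset.card_le_card Finset.inter_subset_right
      _ = 6 := card_blk h hv
  generalize (blk G o w ∩ blk G o v).card = i at hb hthis ⊢
  interval_cases i <;> revert hthis <;> decide

theorem blk_inter_le (h : Srg100 G) {o v w : V} (hv : v ∈ Qs G o) (hw : w ∈ Qs G o)
    (hne : w ≠ v) : (blk G o w ∩ blk G o v).card ≤ 2 := by
  by_cases hadj : G.Adj v w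
  · rw [blk_inter_adj h hadj]
    simp
  · rw [blk_inter_nonadj h hv w hw hne hadj]

theorem adj_iff_disjoint (h : Srg100 G) {o v w : V} (hv : v ∈ Qs G o) (hw : w ∈ Qs G o)
    (hne : w ≠ v) : G.Adj v w ↔ blk G o w ∩ blk G o v = ∅ := by
  constructor
  · exact fun hadj => blk_inter_adj h hadj
  · intro hempty
    by_contra hadj
    have h1 := blk_inter_nonadj h hv w hw hne hadj
    rw [hempty] at h1
    simp at h1

theorem steiner_V (h : Srg100 G) (o : V) {T : Finset V} (hT : T ⊆ nb G o) (hc : T.card = 3) :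
    ∃! w, w ∈ Qs G o ∧ T ⊆ blk G o w := by
  have huniq : ∀ w w', w ∈ Qs G o → w' ∈ Qs G o → T ⊆ blk G o w → T ⊆ blk G o w' →
      w = w' := by
    intro w w' hw hw' hTw hTw'
    by_contra hne
    have h1 := blk_inter_le h hw' hw hne
    have h3 := Finset.card_le_card (Finset.subset_inter hTw hTw')
    omega
  have hex : ∃ w, w ∈ Qs G o ∧ T ⊆ blk G o w := by
    by_contra hcon
    have hcount := binom_count_idx (Qs G o) (blk G o) (nb G o) 3
    have hl : ∑ w ∈ Qs G o, (blk G o w ∩ nb G o).card.choose 3 = 1540 := by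
      have h20 : ∀ w ∈ Qs G o, (blk G o w ∩ nb G o).card.choose 3 = 20 := by
        intro w hw
        rw [Finset.inter_eq_left.mpr (blk_sub o w), card_blk h hw]
        rfl
      rw [Finset.sum_congr rfl h20, Finset.sum_const, card_Qs h o]
      rfl
    have hTmem : T ∈ (nb G o).powersetCard 3 := Finset.mem_powersetCard.mpr ⟨hT, hc⟩
    have hle1 : ∀ Z ∈ ((nb G o).powersetCard 3).erase T,
        ((Qs G o).filter (fun w => Z ⊆ blk G o w)).card ≤ 1 := by
      intro Z hZ
      rw [Finset.card_le_one]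
      intro a ha b hb
      rw [Finset.mem_filter] at ha hb
      have hZc := (Finset.mem_powersetCard.mp (Finset.mem_of_mem_erase hZ)).2
      by_contra hne
      have h1 := blk_inter_le h hb.1 ha.1 hne
      have h3 := Finset.card_le_card (Finset.subset_inter ha.2 hb.2)
      omega
    have hT0 : ((Qs G o).filter (fun w => T ⊆ blk G o w)).card = 0 := by
      rw [Finset.card_eq_zero, Finset.eq_empty_iff_forall_notMem]
      intro w hw
      rw [Finset.mem_filter] at hw
      exact hcon ⟨w, hw⟩
    have hsplit := Finset.add_sum_erase ((nb G o).powersetCard 3)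
      (fun Z => ((Qs G o).filter (fun w => Z ⊆ blk G o w)).card) hTmem
    have hbound := Finset.sum_le_card_nsmul _ _ 1 hle1
    rw [Finset.card_erase_of_mem hTmem, Finset.card_powersetCard, h.deg o] at hbound
    rw [hl] at hcount
    simp only [smul_eq_mul, mul_one] at hbound
    have h1540 : Nat.choose 22 3 = 1540 := by decide
    rw [h1540] at hbound
    rw [hT0, zero_add] at hsplit
    rw [hsplit] at hbound
    omega
  obtain ⟨w, hw⟩ := hex
  exact ⟨w, hw, fun w' hw' => huniq w' w hw'.1 hw.1 hw'.2 hw.2⟩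

end Cfsg.Agent.Helper28.Srg
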