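import Cfsg.Agent.Helper28.SrgC
import Cfsg.Agent.Helper28.HypL

set_option autoImplicit false
set_option linter.unusedSectionVars false

namespace Cfsg.Agent.Helper28.Srg

variable {V : Type*} [Fintype V] [DecidableEq V] {G : SimpleGraph V} [DecidableRel G.Adj]

theorem graph_iso_ext {W : Type*} [Fintype W] [DecidableEq W] {H : SimpleGraph W}
    [DecidableRel H.Adj] (hG : Srg100 G) (hH : Srg100 H) (o : V) (o' : W)
    (e : {x // x ∈ nb G o} ≃ {y // y ∈ nb H o'})
    (he : (fun b => b.image e) '' locB G o = locB H o') :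
    ∃ g : G ≃g H, g o = o' ∧ (∀ p (hp : p ∈ nb G o), g p = (e ⟨p, hp⟩ : W)) ∧
      (∀ w ∈ Qs G o, g w ∈ Qs H o' ∧ blkS H o' (g w) = (blkS G o w).image e) := by
  have hmatch : ∀ w ∈ Qs G o, ∃ w' ∈ Qs H o', blkS H o' w' = (blkS G o w).image e := by
    intro w hw
    have h1 : (blkS G o w).image e ∈ locB H o' := by
      rw [← he]
      exact ⟨_, ⟨w, hw, rfl⟩, rfl⟩
    obtain ⟨w', hw', heq⟩ := h1
    exact ⟨w', hw', heq.symm⟩
  obtain ⟨F, hFo, hFP, hFQ⟩ : ∃ F : V → W, F o = o' ∧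
      (∀ p (hp : p ∈ nb G o), F p = (e ⟨p, hp⟩ : W)) ∧
      (∀ w ∈ Qs G o, F w ∈ Qs H o' ∧ blkS H o' (F w) = (blkS G o w).image e) := by
    refine ⟨fun x => if hx : x = o then o' else if hp : x ∈ nb G o then (e ⟨x, hp⟩ : W)
      else if hq : x ∈ Qs G o then (hmatch x hq).choose else o', ?_, ?_, ?_⟩
    · exact dif_pos rfl
    · intro p hp
      have hpo : p ≠ o := by
        intro hpo
        rw [hpo, mem_nb] at hp
        exact G.irrefl hp
      simp only [dif_neg hpo, dif_pos hp]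
    · intro w hw
      have hw' := mem_Qs.mp hw
      have hwp : w ∉ nb G o := by
        rw [mem_nb]
        exact hw'.2
      simp only [dif_neg hw'.1, dif_neg hwp, dif_pos hw]
      exact (hmatch w hw).choose_spec
  have hFPmem : ∀ p, p ∈ nb G o → F p ∈ nb H o' := by
    intro p hp
    rw [hFP p hp]
    exact (e ⟨p, hp⟩).2
  have ho'1 : o' ∉ nb H o' := by
    rw [mem_nb]
    exact H.irrefl
  have ho'2 : o' ∉ Qs H o' := by
    rw [mem_Qs]
    exact fun hh => hh.1 rfl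
  have hPQ' : ∀ y, y ∈ nb H o' → y ∉ Qs H o' := by
    intro y hy hyQ
    rw [mem_Qs] at hyQ
    exact hyQ.2 ((mem_nb H).mp hy)
  have hFinj : Function.Injective F := by
    intro x y hxy
    rcases tri G o x with hx | hx | hx <;> rcases tri G o y with hy | hy | hy
    · rw [hx, hy]
    · exfalso
      rw [hx, hFo] at hxy
      exact ho'1 (hxy ▸ hFPmem y hy)
    · exfalso
      rw [hx, hFo] at hxy
      exact ho'2 (hxy ▸ (hFQ y hy).1)
    · exfalso
      rw [hy, hFo] at hxy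
      exact ho'1 (hxy ▸ hFPmem x hx)
    · rw [hFP x hx, hFP y hy] at hxy
      have h2 := e.injective (Subtype.ext hxy)
      exact congrArg Subtype.val h2
    · exfalso
      exact hPQ' (F x) (hFPmem x hx) (hxy ▸ (hFQ y hy).1)
    · exfalso
      rw [hy, hFo] at hxy
      exact ho'2 (hxy ▸ (hFQ x hx).1)
    · exfalso
      exact hPQ' (F y) (hFPmem y hy) (hxy ▸ (hFQ x hx).1)
    · have h1 : (blkS G o x).image e = (blkS G o y).image e := by
        rw [← (hFQ x hx).2, ← (hFQ y hy).2, hxy]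
      exact blkS_inj hG hx hy (Finset.image_injective e.injective h1)
  have hFbij : Function.Bijective F :=
    (Fintype.bijective_iff_injective_and_card F).mpr ⟨hFinj, by rw [hG.card, hH.card]⟩
  have adj_op : ∀ p, p ∈ nb G o → (G.Adj o p ↔ H.Adj (F o) (F p)) := by
    intro p hp
    rw [hFo]
    exact ⟨fun _ => (mem_nb H).mp (hFPmem p hp), fun _ => (mem_nb G).mp hp⟩
  have adj_ow : ∀ w, w ∈ Qs G o → (G.Adj o w ↔ H.Adj (F o) (F w)) := by
    intro w hw
    rw [hFo]
    exact ⟨fun hh => absurd hh (mem_Qs.mp hw).2,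
      fun hh => absurd hh (mem_Qs.mp (hFQ w hw).1).2⟩
  have adj_pp : ∀ p p', p ∈ nb G o → p' ∈ nb G o → (G.Adj p p' ↔ H.Adj (F p) (F p')) := by
    intro p p' hp hp'
    exact ⟨fun hh => absurd hh (no_tri hG ((mem_nb G).mp hp) ((mem_nb G).mp hp')),
      fun hh => absurd hh (no_tri hH ((mem_nb H).mp (hFPmem p hp))
        ((mem_nb H).mp (hFPmem p' hp')))⟩
  have adj_pw : ∀ p w, p ∈ nb G o → w ∈ Qs G o → (G.Adj p w ↔ H.Adj (F p) (F w)) := by
    intro p w hp hw
    have hFp : F p ∈ nb H o' := hFPmem p hp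
    rw [adj_pt_blk hp, adj_pt_blk hFp, (hFQ w hw).2, Finset.mem_image]
    constructor
    · intro hh
      exact ⟨⟨p, hp⟩, hh, Subtype.ext (hFP p hp).symm⟩
    · rintro ⟨x, hx, hxe⟩
      have h1 : e x = e ⟨p, hp⟩ := by
        rw [hxe]
        exact Subtype.ext (hFP p hp)
      rw [← e.injective h1]
      exact hx
  have adj_ww : ∀ v w, v ∈ Qs G o → w ∈ Qs G o → (G.Adj v w ↔ H.Adj (F v) (F w)) := by
    intro v w hv hw
    by_cases hvw : w = v
    · rw [hvw]
      exact ⟨fun hh => absurd hh G.irrefl, fun hh => absurd hh H.irrefl⟩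
    · have hFne : F w ≠ F v := fun hh => hvw (hFinj hh)
      rw [adjQ_iff hG hv hw hvw, adjQ_iff hH (hFQ v hv).1 (hFQ w hw).1 hFne, (hFQ v hv).2,
        (hFQ w hw).2]
      constructor
      · intro hh y hyw hyv
        rw [Finset.mem_image] at hyw hyv
        obtain ⟨x, hx, rfl⟩ := hyw
        obtain ⟨x', hx', hxx⟩ := hyv
        rw [e.injective hxx] at hx'
        exact hh x hx hx'
      · intro hh x hxw hxv
        exact hh (e x) (Finset.mem_image_of_mem e hxw) (Finset.mem_image_of_mem e hxv)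
  have hadj : ∀ x y, G.Adj x y ↔ H.Adj (F x) (F y) := by
    intro x y
    rcases tri G o x with hx | hx | hx <;> rcases tri G o y with hy | hy | hy
    · rw [hx, hy]
      exact ⟨fun hh => absurd hh G.irrefl, fun hh => absurd hh H.irrefl⟩
    · rw [hx]
      exact adj_op y hy
    · rw [hx]
      exact adj_ow y hy
    · rw [hy, G.adj_comm, H.adj_comm]
      exact adj_op x hx
    · exact adj_pp x y hx hy
    · exact adj_pw x y hx hy
    · rw [hy, G.adj_comm, H.adj_comm]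
      exact adj_ow x hx
    · rw [G.adj_comm, H.adj_comm]
      exact adj_pw y x hy hx
    · exact adj_ww x y hx hy
  exact ⟨⟨Equiv.ofBijective F hFbij, fun {a b} => (hadj a b).symm⟩, hFo, hFP, hFQ⟩

/-- a frame: a vertex `o`, a neighbour `p`, a non-neighbour `O` of both, and an enumeration
of the six common neighbours of `o` and `O` -/
def IsFrame (G : SimpleGraph V) [DecidableRel G.Adj] (o p O : V) (τ : Fin 6 → V) : Prop :=
  G.Adj o p ∧ O ∈ Qs G o ∧ ¬ G.Adj p O ∧ Function.Injective τ ∧ ∀ i, τ i ∈ blk G o O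

theorem frame_surj (h : Srg100 G) {o p O : V} {τ : Fin 6 → V} (hf : IsFrame G o p O τ) :
    ∀ x ∈ blk G o O, ∃ i, τ i = x := by
  have himg : (Finset.univ : Finset (Fin 6)).image τ = blk G o O := by
    apply Finset.eq_of_subset_of_card_le
    · intro x hx
      rw [Finset.mem_image] at hx
      obtain ⟨i, -, rfl⟩ := hx
      exact hf.2.2.2.2 i
    · rw [Finset.card_image_of_injective _ hf.2.2.2.1, card_blk h hf.2.1, Finset.card_univ,
        Fintype.card_fin]
  intro x hx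
  rw [← himg, Finset.mem_image] at hx
  obtain ⟨i, -, hi⟩ := hx
  exact ⟨i, hi⟩

theorem frame_trans {W : Type*} [Fintype W] [DecidableEq W] {H : SimpleGraph W}
    [DecidableRel H.Adj] (hG : Srg100 G) (hH : Srg100 H) {o p O : V} {τ : Fin 6 → V}
    (hf : IsFrame G o p O τ) {o' p' O' : W} {τ' : Fin 6 → W} (hf' : IsFrame H o' p' O' τ') :
    ∃ g : G ≃g H, g o = o' ∧ g p = p' ∧ g O = O' ∧ ∀ i, g (τ i) = τ' i := by
  classical
  have hp : p ∈ nb G o := (mem_nb G).mpr hf.1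
  have hp' : p' ∈ nb H o' := (mem_nb H).mpr hf'.1
  have hOB : blkS G o O ∈ locB G o := ⟨O, hf.2.1, rfl⟩
  have hOB' : blkS H o' O' ∈ locB H o' := ⟨O', hf'.2.1, rfl⟩
  have hpO : (⟨p, hp⟩ : {x // x ∈ nb G o}) ∉ blkS G o O := by
    rw [← adj_pt_blk hp]
    exact hf.2.2.1
  have hpO' : (⟨p', hp'⟩ : {y // y ∈ nb H o'}) ∉ blkS H o' O' := by
    rw [← adj_pt_blk hp']
    exact hf'.2.2.1
  have hτ'mem : ∀ i, τ' i ∈ nb H o' := fun i => blk_sub o' O' (hf'.2.2.2.2 i)
  obtain ⟨ψ, hψdef⟩ : ∃ ψ : {x // x ∈ nb G o} → {y // y ∈ nb H o'},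
      ∀ (x : {x // x ∈ nb G o}) (i : Fin 6), τ i = x.1 → (ψ x : W) = τ' i := by
    refine ⟨fun x => if h : ∃ i, τ i = x.1 then ⟨τ' h.choose, hτ'mem _⟩ else ⟨p', hp'⟩, ?_⟩
    intro x i hi
    have hex : ∃ i, τ i = x.1 := ⟨i, hi⟩
    simp only [dif_pos hex]
    have h1 : hex.choose = i := hf.2.2.2.1 (hex.choose_spec.trans hi.symm)
    rw [h1]
  have hψ : ∀ a ∈ blkS G o O, ψ a ∈ blkS H o' O' := by
    intro a ha
    obtain ⟨i, hi⟩ := frame_surj hG hf a.1 (mem_blkS.mp ha)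
    rw [mem_blkS, hψdef a i hi]
    exact hf'.2.2.2.2 i
  have hψinj : ∀ a ∈ blkS G o O, ∀ b ∈ blkS G o O, ψ a = ψ b → a = b := by
    intro a ha b hb hab
    obtain ⟨i, hi⟩ := frame_surj hG hf a.1 (mem_blkS.mp ha)
    obtain ⟨j, hj⟩ := frame_surj hG hf b.1 (mem_blkS.mp hb)
    have h1 : (ψ a : W) = (ψ b : W) := congrArg Subtype.val hab
    rw [hψdef a i hi, hψdef b j hj] at h1
    have hij : i = j := hf'.2.2.2.1 h1
    apply Subtype.ext
    rw [← hi, ← hj, hij]
  obtain ⟨e, hep, heO, heB⟩ := Hyp.s3622_ext (card_pts hG o) (card_pts hH o')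
    (locB_steiner hG o) (locB_steiner hH o') hOB hpO hOB' hpO' hψ hψinj
  obtain ⟨g, hgo, hgP, hgQ⟩ := graph_iso_ext hG hH o o' e heB
  refine ⟨g, hgo, ?_, ?_, ?_⟩
  · rw [hgP p hp, hep]
  · have h1 := hgQ O hf.2.1
    have h2 : (blkS G o O).image e = blkS H o' O' := by
      apply Finset.eq_of_subset_of_card_le
      · intro y hy
        rw [Finset.mem_image] at hy
        obtain ⟨a, ha, rfl⟩ := hy
        rw [heO a ha]
        exact hψ a ha
      · rw [Finset.card_image_of_injective _ e.injective, card_blkS hG hf.2.1,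
          card_blkS hH hf'.2.1]
    exact blkS_inj hH h1.1 hf'.2.1 (h1.2.trans h2)
  · intro i
    have hi : τ i ∈ nb G o := blk_sub o O (hf.2.2.2.2 i)
    have hi' : (⟨τ i, hi⟩ : {x // x ∈ nb G o}) ∈ blkS G o O := mem_blkS.mpr (hf.2.2.2.2 i)
    rw [hgP (τ i) hi, heO _ hi']
    exact hψdef ⟨τ i, hi⟩ i rfl

end Cfsg.Agent.Helper28.Srg
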