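import Mathlib
import Cfsg.Prelude.Def_Sporadic_a
import Cfsg.Agent.Helper3.M12Stmts
import Cfsg.Agent.Helper28.SixPts
import Cfsg.Agent.Helper28.OctOrbits
import Cfsg.Agent.Helper28.M24Act

/-!
Subgroups of the group of the length-24 code acting faithfully as the symmetric group on six
points.
-/

set_option autoImplicit false

namespace Cfsg.Agent.Helper28.SymSix

open Cfsg
open scoped Pointwise

theorem mem_iff_of_smul {σ : Equiv.Perm GolayPt} {X : Finset GolayPt} (h : σ • X = X)
    (x : GolayPt) : σ x ∈ X ↔ x ∈ X := by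
  conv_lhs => rw [← h]
  exact Finset.smul_mem_smul_finset_iff σ

/-- a subgroup stabilizing a set of points acts on it -/
def restr (X : Finset GolayPt) (K : Subgroup ↥M24)
    (hK : ∀ k ∈ K, ((k : M24) : Equiv.Perm GolayPt) • X = X) : ↥K →* Equiv.Perm ↥X where
  toFun k := Equiv.Perm.subtypePerm ((k : M24) : Equiv.Perm GolayPt)
    (fun x => mem_iff_of_smul (hK k.1 k.2) x)
  map_one' := by ext; rfl
  map_mul' k l := by ext; rfl

theorem restr_apply (X : Finset GolayPt) (K : Subgroup ↥M24)
    (hK : ∀ k ∈ K, ((k : M24) : Equiv.Perm GolayPt) • X = X) (k : ↥K) (p : ↥X) :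
    ((restr X K hK k p : ↥X) : GolayPt) = ((k : M24) : Equiv.Perm GolayPt) p := rfl

theorem iso_of_bijective {G : Type*} [Group G] {X : Finset GolayPt} (hX : X.card = 6)
    (φ : G →* Equiv.Perm ↥X) (hφ : Function.Bijective φ) :
    Nonempty (G ≃* Equiv.Perm (Fin 6)) :=
  ⟨(MulEquiv.ofBijective φ hφ).trans (X.equivFinOfCardEq hX).permCongrHom⟩

theorem bijective_of_card {G : Type*} [Group G] {X : Finset GolayPt} (hX : X.card = 6)
    (φ : G →* Equiv.Perm ↥X) (hinj : Function.Injective φ) (hcard : Nat.card G = 720) :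
    Function.Bijective φ := by
  apply hinj.bijective_of_nat_card_le
  rw [hcard, Nat.card_eq_fintype_card, Fintype.card_perm, Fintype.card_coe, hX]
  decide

/-- an element of the group stabilizing a dodecad and fixing five of its points is trivial -/
theorem eq_one_of_fix_five {d : Finset GolayPt} (hd : d ∈ dodecads) {X : Finset GolayPt}
    (hXd : X ⊆ d) (hX : 5 ≤ X.card) {g : ↥M24}
    (hgd : (g : Equiv.Perm GolayPt) • d = d) (hfix : ∀ p ∈ X, (g : Equiv.Perm GolayPt) p = p) :
    g = 1 := by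
  obtain ⟨x, hx⟩ := Cfsg.Agent.Helper3.exists_emb_of_card (n := 5) X hX
  obtain ⟨g0, -, huniq⟩ := Cfsg.Agent.Helper3.sharp_five d hd x x (fun i => hXd (hx i))
    (fun i => hXd (hx i))
  have h1 := huniq ⟨g, hgd⟩ (fun i => hfix _ (hx i))
  have h2 := huniq 1 (fun i => rfl)
  have h3 : (⟨g, hgd⟩ : MulAction.stabilizer M24 d) = 1 := h1.trans h2.symm
  exact congrArg Subtype.val h3

end Cfsg.Agent.Helper28.SymSix
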