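import Cfsg.Agent.Helper28.SzbR0

/-!
# The Suzuki group presentation, cosets of the subgroup generated by a, b, c, d, f, g: relator checks, part 1 (helper28; generated)
-/

set_option autoImplicit false
set_option maxRecDepth 100000
set_option linter.unusedSimpArgs false
set_option linter.constructorNameAsVariable false

noncomputable section

namespace Cfsg.Agent.Helper28.SzbA

open Cfsg.Spor Cfsg.Spor.Suz Cfsg.Agent.Helper28.CosetTable

theorem cxr_a_a_0 : allFrom (fun i => Nat.ble 22880 i || Nat.beq (tq_a (tq_a i)) i) 0 12500 = true := by decide +kernel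
theorem cxr_a_a_1 : allFrom (fun i => Nat.ble 22880 i || Nat.beq (tq_a (tq_a i)) i) 12500 12500 = true := by decide +kernel
theorem cxr_a_a : ∀ i, i < 22880 → (Nat.beq (tq_a (tq_a i)) i) = true :=
  blocks_lt (fun i => Nat.beq (tq_a (tq_a i)) i) 22880 12500 2 (by norm_num) ⟨cxr_a_a_0, cxr_a_a_1, trivial⟩

theorem cx_a_a : ∀ i, i < 22880 → evalT tab [Gen.a, Gen.a] i = i := by
  intro i hi
  have h := Nat.eq_of_beq_eq_true (cxr_a_a i hi)
  simp only [evalT_cons', evalT_nil', tab_a, tab_b, tab_c, tab_d, tab_e, tab_f, tab_g]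
  exact h

theorem cxr_a_b_0 : allFrom (fun i => Nat.ble 22880 i || Nat.beq (tq_a (tq_b (tq_a (tq_b (tq_a (tq_b (tq_a (tq_b (tq_a (tq_b i)))))))))) i) 0 2500 = true := by decide +kernel
theorem cxr_a_b_1 : allFrom (fun i => Nat.ble 22880 i || Nat.beq (tq_a (tq_b (tq_a (tq_b (tq_a (tq_b (tq_a (tq_b (tq_a (tq_b i)))))))))) i) 2500 2500 = true := by decide +kernel
theorem cxr_a_b_2 : allFrom (fun i => Nat.ble 22880 i || Nat.beq (tq_a (tq_b (tq_a (tq_b (tq_a (tq_b (tq_a (tq_b (tq_a (tq_b i)))))))))) i) 5000 2500 = true := by decide +kernel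
theorem cxr_a_b_3 : allFrom (fun i => Nat.ble 22880 i || Nat.beq (tq_a (tq_b (tq_a (tq_b (tq_a (tq_b (tq_a (tq_b (tq_a (tq_b i)))))))))) i) 7500 2500 = true := by decide +kernel
theorem cxr_a_b_4 : allFrom (fun i => Nat.ble 22880 i || Nat.beq (tq_a (tq_b (tq_a (tq_b (tq_a (tq_b (tq_a (tq_b (tq_a (tq_b i)))))))))) i) 10000 2500 = true := by decide +kernel
theorem cxr_a_b_5 : allFrom (fun i => Nat.ble 22880 i || Nat.beq (tq_a (tq_b (tq_a (tq_b (tq_a (tq_b (tq_a (tq_b (tq_a (tq_b i)))))))))) i) 12500 2500 = true := by decide +kernel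
theorem cxr_a_b_6 : allFrom (fun i => Nat.ble 22880 i || Nat.beq (tq_a (tq_b (tq_a (tq_b (tq_a (tq_b (tq_a (tq_b (tq_a (tq_b i)))))))))) i) 15000 2500 = true := by decide +kernel
theorem cxr_a_b_7 : allFrom (fun i => Nat.ble 22880 i || Nat.beq (tq_a (tq_b (tq_a (tq_b (tq_a (tq_b (tq_a (tq_b (tq_a (tq_b i)))))))))) i) 17500 2500 = true := by decide +kernel
theorem cxr_a_b_8 : allFrom (fun i => Nat.ble 22880 i || Nat.beq (tq_a (tq_b (tq_a (tq_b (tq_a (tq_b (tq_a (tq_b (tq_a (tq_b i)))))))))) i) 20000 2500 = true := by decide +kernel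
theorem cxr_a_b_9 : allFrom (fun i => Nat.ble 22880 i || Nat.beq (tq_a (tq_b (tq_a (tq_b (tq_a (tq_b (tq_a (tq_b (tq_a (tq_b i)))))))))) i) 22500 2500 = true := by decide +kernel
theorem cxr_a_b : ∀ i, i < 22880 → (Nat.beq (tq_a (tq_b (tq_a (tq_b (tq_a (tq_b (tq_a (tq_b (tq_a (tq_b i)))))))))) i) = true :=
  blocks_lt (fun i => Nat.beq (tq_a (tq_b (tq_a (tq_b (tq_a (tq_b (tq_a (tq_b (tq_a (tq_b i)))))))))) i) 22880 2500 10 (by norm_num) ⟨cxr_a_b_0, cxr_a_b_1, cxr_a_b_2, cxr_a_b_3, cxr_a_b_4, cxr_a_b_5, cxr_a_b_6, cxr_a_b_7, cxr_a_b_8, cxr_a_b_9, trivial⟩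

theorem cx_a_b : ∀ i, i < 22880 → evalT tab [Gen.a, Gen.b, Gen.a, Gen.b, Gen.a, Gen.b, Gen.a, Gen.b, Gen.a, Gen.b] i = i := by
  intro i hi
  have h := Nat.eq_of_beq_eq_true (cxr_a_b i hi)
  simp only [evalT_cons', evalT_nil', tab_a, tab_b, tab_c, tab_d, tab_e, tab_f, tab_g]
  exact h

theorem cxr_a_c_0 : allFrom (fun i => Nat.ble 22880 i || Nat.beq (tq_a (tq_c (tq_a (tq_c i)))) i) 0 6250 = true := by decide +kernel
theorem cxr_a_c_1 : allFrom (fun i => Nat.ble 22880 i || Nat.beq (tq_a (tq_c (tq_a (tq_c i)))) i) 6250 6250 = true := by decide +kernel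
theorem cxr_a_c_2 : allFrom (fun i => Nat.ble 22880 i || Nat.beq (tq_a (tq_c (tq_a (tq_c i)))) i) 12500 6250 = true := by decide +kernel
theorem cxr_a_c_3 : allFrom (fun i => Nat.ble 22880 i || Nat.beq (tq_a (tq_c (tq_a (tq_c i)))) i) 18750 6250 = true := by decide +kernel
theorem cxr_a_c : ∀ i, i < 22880 → (Nat.beq (tq_a (tq_c (tq_a (tq_c i)))) i) = true :=
  blocks_lt (fun i => Nat.beq (tq_a (tq_c (tq_a (tq_c i)))) i) 22880 6250 4 (by norm_num) ⟨cxr_a_c_0, cxr_a_c_1, cxr_a_c_2, cxr_a_c_3, trivial⟩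

theorem cx_a_c : ∀ i, i < 22880 → evalT tab [Gen.a, Gen.c, Gen.a, Gen.c] i = i := by
  intro i hi
  have h := Nat.eq_of_beq_eq_true (cxr_a_c i hi)
  simp only [evalT_cons', evalT_nil', tab_a, tab_b, tab_c, tab_d, tab_e, tab_f, tab_g]
  exact h

theorem cxr_a_d_0 : allFrom (fun i => Nat.ble 22880 i || Nat.beq (tq_a (tq_d (tq_a (tq_d i)))) i) 0 6250 = true := by decide +kernel
theorem cxr_a_d_1 : allFrom (fun i => Nat.ble 22880 i || Nat.beq (tq_a (tq_d (tq_a (tq_d i)))) i) 6250 6250 = true := by decide +kernel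
theorem cxr_a_d_2 : allFrom (fun i => Nat.ble 22880 i || Nat.beq (tq_a (tq_d (tq_a (tq_d i)))) i) 12500 6250 = true := by decide +kernel
theorem cxr_a_d_3 : allFrom (fun i => Nat.ble 22880 i || Nat.beq (tq_a (tq_d (tq_a (tq_d i)))) i) 18750 6250 = true := by decide +kernel
theorem cxr_a_d : ∀ i, i < 22880 → (Nat.beq (tq_a (tq_d (tq_a (tq_d i)))) i) = true :=
  blocks_lt (fun i => Nat.beq (tq_a (tq_d (tq_a (tq_d i)))) i) 22880 6250 4 (by norm_num) ⟨cxr_a_d_0, cxr_a_d_1, cxr_a_d_2, cxr_a_d_3, trivial⟩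

theorem cx_a_d : ∀ i, i < 22880 → evalT tab [Gen.a, Gen.d, Gen.a, Gen.d] i = i := by
  intro i hi
  have h := Nat.eq_of_beq_eq_true (cxr_a_d i hi)
  simp only [evalT_cons', evalT_nil', tab_a, tab_b, tab_c, tab_d, tab_e, tab_f, tab_g]
  exact h

theorem cxr_a_e_0 : allFrom (fun i => Nat.ble 22880 i || Nat.beq (tq_a (tq_e (tq_a (tq_e i)))) i) 0 6250 = true := by decide +kernel
theorem cxr_a_e_1 : allFrom (fun i => Nat.ble 22880 i || Nat.beq (tq_a (tq_e (tq_a (tq_e i)))) i) 6250 6250 = true := by decide +kernel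
theorem cxr_a_e_2 : allFrom (fun i => Nat.ble 22880 i || Nat.beq (tq_a (tq_e (tq_a (tq_e i)))) i) 12500 6250 = true := by decide +kernel
theorem cxr_a_e_3 : allFrom (fun i => Nat.ble 22880 i || Nat.beq (tq_a (tq_e (tq_a (tq_e i)))) i) 18750 6250 = true := by decide +kernel
theorem cxr_a_e : ∀ i, i < 22880 → (Nat.beq (tq_a (tq_e (tq_a (tq_e i)))) i) = true :=
  blocks_lt (fun i => Nat.beq (tq_a (tq_e (tq_a (tq_e i)))) i) 22880 6250 4 (by norm_num) ⟨cxr_a_e_0, cxr_a_e_1, cxr_a_e_2, cxr_a_e_3, trivial⟩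

theorem cx_a_e : ∀ i, i < 22880 → evalT tab [Gen.a, Gen.e, Gen.a, Gen.e] i = i := by
  intro i hi
  have h := Nat.eq_of_beq_eq_true (cxr_a_e i hi)
  simp only [evalT_cons', evalT_nil', tab_a, tab_b, tab_c, tab_d, tab_e, tab_f, tab_g]
  exact h

theorem cxr_a_f_0 : allFrom (fun i => Nat.ble 22880 i || Nat.beq (tq_a (tq_f (tq_a (tq_f i)))) i) 0 6250 = true := by decide +kernel
theorem cxr_a_f_1 : allFrom (fun i => Nat.ble 22880 i || Nat.beq (tq_a (tq_f (tq_a (tq_f i)))) i) 6250 6250 = true := by decide +kernel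
theorem cxr_a_f_2 : allFrom (fun i => Nat.ble 22880 i || Nat.beq (tq_a (tq_f (tq_a (tq_f i)))) i) 12500 6250 = true := by decide +kernel
theorem cxr_a_f_3 : allFrom (fun i => Nat.ble 22880 i || Nat.beq (tq_a (tq_f (tq_a (tq_f i)))) i) 18750 6250 = true := by decide +kernel
theorem cxr_a_f : ∀ i, i < 22880 → (Nat.beq (tq_a (tq_f (tq_a (tq_f i)))) i) = true :=
  blocks_lt (fun i => Nat.beq (tq_a (tq_f (tq_a (tq_f i)))) i) 22880 6250 4 (by norm_num) ⟨cxr_a_f_0, cxr_a_f_1, cxr_a_f_2, cxr_a_f_3, trivial⟩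

theorem cx_a_f : ∀ i, i < 22880 → evalT tab [Gen.a, Gen.f, Gen.a, Gen.f] i = i := by
  intro i hi
  have h := Nat.eq_of_beq_eq_true (cxr_a_f i hi)
  simp only [evalT_cons', evalT_nil', tab_a, tab_b, tab_c, tab_d, tab_e, tab_f, tab_g]
  exact h

theorem cxr_a_g_0 : allFrom (fun i => Nat.ble 22880 i || Nat.beq (tq_a (tq_g (tq_a (tq_g i)))) i) 0 6250 = true := by decide +kernel
theorem cxr_a_g_1 : allFrom (fun i => Nat.ble 22880 i || Nat.beq (tq_a (tq_g (tq_a (tq_g i)))) i) 6250 6250 = true := by decide +kernel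
theorem cxr_a_g_2 : allFrom (fun i => Nat.ble 22880 i || Nat.beq (tq_a (tq_g (tq_a (tq_g i)))) i) 12500 6250 = true := by decide +kernel
theorem cxr_a_g_3 : allFrom (fun i => Nat.ble 22880 i || Nat.beq (tq_a (tq_g (tq_a (tq_g i)))) i) 18750 6250 = true := by decide +kernel
theorem cxr_a_g : ∀ i, i < 22880 → (Nat.beq (tq_a (tq_g (tq_a (tq_g i)))) i) = true :=
  blocks_lt (fun i => Nat.beq (tq_a (tq_g (tq_a (tq_g i)))) i) 22880 6250 4 (by norm_num) ⟨cxr_a_g_0, cxr_a_g_1, cxr_a_g_2, cxr_a_g_3, trivial⟩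

theorem cx_a_g : ∀ i, i < 22880 → evalT tab [Gen.a, Gen.g, Gen.a, Gen.g] i = i := by
  intro i hi
  have h := Nat.eq_of_beq_eq_true (cxr_a_g i hi)
  simp only [evalT_cons', evalT_nil', tab_a, tab_b, tab_c, tab_d, tab_e, tab_f, tab_g]
  exact h

theorem cxr_b_a_0 : allFrom (fun i => Nat.ble 22880 i || Nat.beq (tq_b (tq_a (tq_b (tq_a (tq_b (tq_a (tq_b (tq_a (tq_b (tq_a i)))))))))) i) 0 2500 = true := by decide +kernel
theorem cxr_b_a_1 : allFrom (fun i => Nat.ble 22880 i || Nat.beq (tq_b (tq_a (tq_b (tq_a (tq_b (tq_a (tq_b (tq_a (tq_b (tq_a i)))))))))) i) 2500 2500 = true := by decide +kernel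
theorem cxr_b_a_2 : allFrom (fun i => Nat.ble 22880 i || Nat.beq (tq_b (tq_a (tq_b (tq_a (tq_b (tq_a (tq_b (tq_a (tq_b (tq_a i)))))))))) i) 5000 2500 = true := by decide +kernel
theorem cxr_b_a_3 : allFrom (fun i => Nat.ble 22880 i || Nat.beq (tq_b (tq_a (tq_b (tq_a (tq_b (tq_a (tq_b (tq_a (tq_b (tq_a i)))))))))) i) 7500 2500 = true := by decide +kernel
theorem cxr_b_a_4 : allFrom (fun i => Nat.ble 22880 i || Nat.beq (tq_b (tq_a (tq_b (tq_a (tq_b (tq_a (tq_b (tq_a (tq_b (tq_a i)))))))))) i) 10000 2500 = true := by decide +kernel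
theorem cxr_b_a_5 : allFrom (fun i => Nat.ble 22880 i || Nat.beq (tq_b (tq_a (tq_b (tq_a (tq_b (tq_a (tq_b (tq_a (tq_b (tq_a i)))))))))) i) 12500 2500 = true := by decide +kernel
theorem cxr_b_a_6 : allFrom (fun i => Nat.ble 22880 i || Nat.beq (tq_b (tq_a (tq_b (tq_a (tq_b (tq_a (tq_b (tq_a (tq_b (tq_a i)))))))))) i) 15000 2500 = true := by decide +kernel
theorem cxr_b_a_7 : allFrom (fun i => Nat.ble 22880 i || Nat.beq (tq_b (tq_a (tq_b (tq_a (tq_b (tq_a (tq_b (tq_a (tq_b (tq_a i)))))))))) i) 17500 2500 = true := by decide +kernel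
theorem cxr_b_a_8 : allFrom (fun i => Nat.ble 22880 i || Nat.beq (tq_b (tq_a (tq_b (tq_a (tq_b (tq_a (tq_b (tq_a (tq_b (tq_a i)))))))))) i) 20000 2500 = true := by decide +kernel
theorem cxr_b_a_9 : allFrom (fun i => Nat.ble 22880 i || Nat.beq (tq_b (tq_a (tq_b (tq_a (tq_b (tq_a (tq_b (tq_a (tq_b (tq_a i)))))))))) i) 22500 2500 = true := by decide +kernel
theorem cxr_b_a : ∀ i, i < 22880 → (Nat.beq (tq_b (tq_a (tq_b (tq_a (tq_b (tq_a (tq_b (tq_a (tq_b (tq_a i)))))))))) i) = true :=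
  blocks_lt (fun i => Nat.beq (tq_b (tq_a (tq_b (tq_a (tq_b (tq_a (tq_b (tq_a (tq_b (tq_a i)))))))))) i) 22880 2500 10 (by norm_num) ⟨cxr_b_a_0, cxr_b_a_1, cxr_b_a_2, cxr_b_a_3, cxr_b_a_4, cxr_b_a_5, cxr_b_a_6, cxr_b_a_7, cxr_b_a_8, cxr_b_a_9, trivial⟩

theorem cx_b_a : ∀ i, i < 22880 → evalT tab [Gen.b, Gen.a, Gen.b, Gen.a, Gen.b, Gen.a, Gen.b, Gen.a, Gen.b, Gen.a] i = i := by
  intro i hi
  have h := Nat.eq_of_beq_eq_true (cxr_b_a i hi)
  simp only [evalT_cons', evalT_nil', tab_a, tab_b, tab_c, tab_d, tab_e, tab_f, tab_g]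
  exact h

theorem cxr_b_b_0 : allFrom (fun i => Nat.ble 22880 i || Nat.beq (tq_b (tq_b i)) i) 0 12500 = true := by decide +kernel
theorem cxr_b_b_1 : allFrom (fun i => Nat.ble 22880 i || Nat.beq (tq_b (tq_b i)) i) 12500 12500 = true := by decide +kernel
theorem cxr_b_b : ∀ i, i < 22880 → (Nat.beq (tq_b (tq_b i)) i) = true :=
  blocks_lt (fun i => Nat.beq (tq_b (tq_b i)) i) 22880 12500 2 (by norm_num) ⟨cxr_b_b_0, cxr_b_b_1, trivial⟩

theorem cx_b_b : ∀ i, i < 22880 → evalT tab [Gen.b, Gen.b] i = i := by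
  intro i hi
  have h := Nat.eq_of_beq_eq_true (cxr_b_b i hi)
  simp only [evalT_cons', evalT_nil', tab_a, tab_b, tab_c, tab_d, tab_e, tab_f, tab_g]
  exact h

theorem cxr_b_c_0 : allFrom (fun i => Nat.ble 22880 i || Nat.beq (tq_b (tq_c (tq_b (tq_c (tq_b (tq_c i)))))) i) 0 4166 = true := by decide +kernel
theorem cxr_b_c_1 : allFrom (fun i => Nat.ble 22880 i || Nat.beq (tq_b (tq_c (tq_b (tq_c (tq_b (tq_c i)))))) i) 4166 4166 = true := by decide +kernel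
theorem cxr_b_c_2 : allFrom (fun i => Nat.ble 22880 i || Nat.beq (tq_b (tq_c (tq_b (tq_c (tq_b (tq_c i)))))) i) 8332 4166 = true := by decide +kernel
theorem cxr_b_c_3 : allFrom (fun i => Nat.ble 22880 i || Nat.beq (tq_b (tq_c (tq_b (tq_c (tq_b (tq_c i)))))) i) 12498 4166 = true := by decide +kernel
theorem cxr_b_c_4 : allFrom (fun i => Nat.ble 22880 i || Nat.beq (tq_b (tq_c (tq_b (tq_c (tq_b (tq_c i)))))) i) 16664 4166 = true := by decide +kernel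
theorem cxr_b_c_5 : allFrom (fun i => Nat.ble 22880 i || Nat.beq (tq_b (tq_c (tq_b (tq_c (tq_b (tq_c i)))))) i) 20830 4166 = true := by decide +kernel
theorem cxr_b_c : ∀ i, i < 22880 → (Nat.beq (tq_b (tq_c (tq_b (tq_c (tq_b (tq_c i)))))) i) = true :=
  blocks_lt (fun i => Nat.beq (tq_b (tq_c (tq_b (tq_c (tq_b (tq_c i)))))) i) 22880 4166 6 (by norm_num) ⟨cxr_b_c_0, cxr_b_c_1, cxr_b_c_2, cxr_b_c_3, cxr_b_c_4, cxr_b_c_5, trivial⟩

theorem cx_b_c : ∀ i, i < 22880 → evalT tab [Gen.b, Gen.c, Gen.b, Gen.c, Gen.b, Gen.c] i = i := by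
  intro i hi
  have h := Nat.eq_of_beq_eq_true (cxr_b_c i hi)
  simp only [evalT_cons', evalT_nil', tab_a, tab_b, tab_c, tab_d, tab_e, tab_f, tab_g]
  exact h

theorem cxr_b_d_0 : allFrom (fun i => Nat.ble 22880 i || Nat.beq (tq_b (tq_d (tq_b (tq_d i)))) i) 0 6250 = true := by decide +kernel
theorem cxr_b_d_1 : allFrom (fun i => Nat.ble 22880 i || Nat.beq (tq_b (tq_d (tq_b (tq_d i)))) i) 6250 6250 = true := by decide +kernel
theorem cxr_b_d_2 : allFrom (fun i => Nat.ble 22880 i || Nat.beq (tq_b (tq_d (tq_b (tq_d i)))) i) 12500 6250 = true := by decide +kernel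
theorem cxr_b_d_3 : allFrom (fun i => Nat.ble 22880 i || Nat.beq (tq_b (tq_d (tq_b (tq_d i)))) i) 18750 6250 = true := by decide +kernel
theorem cxr_b_d : ∀ i, i < 22880 → (Nat.beq (tq_b (tq_d (tq_b (tq_d i)))) i) = true :=
  blocks_lt (fun i => Nat.beq (tq_b (tq_d (tq_b (tq_d i)))) i) 22880 6250 4 (by norm_num) ⟨cxr_b_d_0, cxr_b_d_1, cxr_b_d_2, cxr_b_d_3, trivial⟩

theorem cx_b_d : ∀ i, i < 22880 → evalT tab [Gen.b, Gen.d, Gen.b, Gen.d] i = i := by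
  intro i hi
  have h := Nat.eq_of_beq_eq_true (cxr_b_d i hi)
  simp only [evalT_cons', evalT_nil', tab_a, tab_b, tab_c, tab_d, tab_e, tab_f, tab_g]
  exact h

theorem cxr_b_e_0 : allFrom (fun i => Nat.ble 22880 i || Nat.beq (tq_b (tq_e (tq_b (tq_e i)))) i) 0 6250 = true := by decide +kernel
theorem cxr_b_e_1 : allFrom (fun i => Nat.ble 22880 i || Nat.beq (tq_b (tq_e (tq_b (tq_e i)))) i) 6250 6250 = true := by decide +kernel
theorem cxr_b_e_2 : allFrom (fun i => Nat.ble 22880 i || Nat.beq (tq_b (tq_e (tq_b (tq_e i)))) i) 12500 6250 = true := by decide +kernel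
theorem cxr_b_e_3 : allFrom (fun i => Nat.ble 22880 i || Nat.beq (tq_b (tq_e (tq_b (tq_e i)))) i) 18750 6250 = true := by decide +kernel
theorem cxr_b_e : ∀ i, i < 22880 → (Nat.beq (tq_b (tq_e (tq_b (tq_e i)))) i) = true :=
  blocks_lt (fun i => Nat.beq (tq_b (tq_e (tq_b (tq_e i)))) i) 22880 6250 4 (by norm_num) ⟨cxr_b_e_0, cxr_b_e_1, cxr_b_e_2, cxr_b_e_3, trivial⟩

theorem cx_b_e : ∀ i, i < 22880 → evalT tab [Gen.b, Gen.e, Gen.b, Gen.e] i = i := by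
  intro i hi
  have h := Nat.eq_of_beq_eq_true (cxr_b_e i hi)
  simp only [evalT_cons', evalT_nil', tab_a, tab_b, tab_c, tab_d, tab_e, tab_f, tab_g]
  exact h

theorem cxr_b_f_0 : allFrom (fun i => Nat.ble 22880 i || Nat.beq (tq_b (tq_f (tq_b (tq_f (tq_b (tq_f i)))))) i) 0 4166 = true := by decide +kernel
theorem cxr_b_f_1 : allFrom (fun i => Nat.ble 22880 i || Nat.beq (tq_b (tq_f (tq_b (tq_f (tq_b (tq_f i)))))) i) 4166 4166 = true := by decide +kernel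
theorem cxr_b_f_2 : allFrom (fun i => Nat.ble 22880 i || Nat.beq (tq_b (tq_f (tq_b (tq_f (tq_b (tq_f i)))))) i) 8332 4166 = true := by decide +kernel
theorem cxr_b_f_3 : allFrom (fun i => Nat.ble 22880 i || Nat.beq (tq_b (tq_f (tq_b (tq_f (tq_b (tq_f i)))))) i) 12498 4166 = true := by decide +kernel
theorem cxr_b_f_4 : allFrom (fun i => Nat.ble 22880 i || Nat.beq (tq_b (tq_f (tq_b (tq_f (tq_b (tq_f i)))))) i) 16664 4166 = true := by decide +kernel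
theorem cxr_b_f_5 : allFrom (fun i => Nat.ble 22880 i || Nat.beq (tq_b (tq_f (tq_b (tq_f (tq_b (tq_f i)))))) i) 20830 4166 = true := by decide +kernel
theorem cxr_b_f : ∀ i, i < 22880 → (Nat.beq (tq_b (tq_f (tq_b (tq_f (tq_b (tq_f i)))))) i) = true :=
  blocks_lt (fun i => Nat.beq (tq_b (tq_f (tq_b (tq_f (tq_b (tq_f i)))))) i) 22880 4166 6 (by norm_num) ⟨cxr_b_f_0, cxr_b_f_1, cxr_b_f_2, cxr_b_f_3, cxr_b_f_4, cxr_b_f_5, trivial⟩

theorem cx_b_f : ∀ i, i < 22880 → evalT tab [Gen.b, Gen.f, Gen.b, Gen.f, Gen.b, Gen.f] i = i := by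
  intro i hi
  have h := Nat.eq_of_beq_eq_true (cxr_b_f i hi)
  simp only [evalT_cons', evalT_nil', tab_a, tab_b, tab_c, tab_d, tab_e, tab_f, tab_g]
  exact h

theorem cxr_b_g_0 : allFrom (fun i => Nat.ble 22880 i || Nat.beq (tq_b (tq_g (tq_b (tq_g (tq_b (tq_g i)))))) i) 0 4166 = true := by decide +kernel
theorem cxr_b_g_1 : allFrom (fun i => Nat.ble 22880 i || Nat.beq (tq_b (tq_g (tq_b (tq_g (tq_b (tq_g i)))))) i) 4166 4166 = true := by decide +kernel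
theorem cxr_b_g_2 : allFrom (fun i => Nat.ble 22880 i || Nat.beq (tq_b (tq_g (tq_b (tq_g (tq_b (tq_g i)))))) i) 8332 4166 = true := by decide +kernel
theorem cxr_b_g_3 : allFrom (fun i => Nat.ble 22880 i || Nat.beq (tq_b (tq_g (tq_b (tq_g (tq_b (tq_g i)))))) i) 12498 4166 = true := by decide +kernel
theorem cxr_b_g_4 : allFrom (fun i => Nat.ble 22880 i || Nat.beq (tq_b (tq_g (tq_b (tq_g (tq_b (tq_g i)))))) i) 16664 4166 = true := by decide +kernel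
theorem cxr_b_g_5 : allFrom (fun i => Nat.ble 22880 i || Nat.beq (tq_b (tq_g (tq_b (tq_g (tq_b (tq_g i)))))) i) 20830 4166 = true := by decide +kernel
theorem cxr_b_g : ∀ i, i < 22880 → (Nat.beq (tq_b (tq_g (tq_b (tq_g (tq_b (tq_g i)))))) i) = true :=
  blocks_lt (fun i => Nat.beq (tq_b (tq_g (tq_b (tq_g (tq_b (tq_g i)))))) i) 22880 4166 6 (by norm_num) ⟨cxr_b_g_0, cxr_b_g_1, cxr_b_g_2, cxr_b_g_3, cxr_b_g_4, cxr_b_g_5, trivial⟩

theorem cx_b_g : ∀ i, i < 22880 → evalT tab [Gen.b, Gen.g, Gen.b, Gen.g, Gen.b, Gen.g] i = i := by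
  intro i hi
  have h := Nat.eq_of_beq_eq_true (cxr_b_g i hi)
  simp only [evalT_cons', evalT_nil', tab_a, tab_b, tab_c, tab_d, tab_e, tab_f, tab_g]
  exact h

theorem cxr_c_a_0 : allFrom (fun i => Nat.ble 22880 i || Nat.beq (tq_c (tq_a (tq_c (tq_a i)))) i) 0 6250 = true := by decide +kernel
theorem cxr_c_a_1 : allFrom (fun i => Nat.ble 22880 i || Nat.beq (tq_c (tq_a (tq_c (tq_a i)))) i) 6250 6250 = true := by decide +kernel
theorem cxr_c_a_2 : allFrom (fun i => Nat.ble 22880 i || Nat.beq (tq_c (tq_a (tq_c (tq_a i)))) i) 12500 6250 = true := by decide +kernel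
theorem cxr_c_a_3 : allFrom (fun i => Nat.ble 22880 i || Nat.beq (tq_c (tq_a (tq_c (tq_a i)))) i) 18750 6250 = true := by decide +kernel
theorem cxr_c_a : ∀ i, i < 22880 → (Nat.beq (tq_c (tq_a (tq_c (tq_a i)))) i) = true :=
  blocks_lt (fun i => Nat.beq (tq_c (tq_a (tq_c (tq_a i)))) i) 22880 6250 4 (by norm_num) ⟨cxr_c_a_0, cxr_c_a_1, cxr_c_a_2, cxr_c_a_3, trivial⟩

theorem cx_c_a : ∀ i, i < 22880 → evalT tab [Gen.c, Gen.a, Gen.c, Gen.a] i = i := by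
  intro i hi
  have h := Nat.eq_of_beq_eq_true (cxr_c_a i hi)
  simp only [evalT_cons', evalT_nil', tab_a, tab_b, tab_c, tab_d, tab_e, tab_f, tab_g]
  exact h

theorem cxr_c_b_0 : allFrom (fun i => Nat.ble 22880 i || Nat.beq (tq_c (tq_b (tq_c (tq_b (tq_c (tq_b i)))))) i) 0 4166 = true := by decide +kernel
theorem cxr_c_b_1 : allFrom (fun i => Nat.ble 22880 i || Nat.beq (tq_c (tq_b (tq_c (tq_b (tq_c (tq_b i)))))) i) 4166 4166 = true := by decide +kernel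
theorem cxr_c_b_2 : allFrom (fun i => Nat.ble 22880 i || Nat.beq (tq_c (tq_b (tq_c (tq_b (tq_c (tq_b i)))))) i) 8332 4166 = true := by decide +kernel
theorem cxr_c_b_3 : allFrom (fun i => Nat.ble 22880 i || Nat.beq (tq_c (tq_b (tq_c (tq_b (tq_c (tq_b i)))))) i) 12498 4166 = true := by decide +kernel
theorem cxr_c_b_4 : allFrom (fun i => Nat.ble 22880 i || Nat.beq (tq_c (tq_b (tq_c (tq_b (tq_c (tq_b i)))))) i) 16664 4166 = true := by decide +kernel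
theorem cxr_c_b_5 : allFrom (fun i => Nat.ble 22880 i || Nat.beq (tq_c (tq_b (tq_c (tq_b (tq_c (tq_b i)))))) i) 20830 4166 = true := by decide +kernel
theorem cxr_c_b : ∀ i, i < 22880 → (Nat.beq (tq_c (tq_b (tq_c (tq_b (tq_c (tq_b i)))))) i) = true :=
  blocks_lt (fun i => Nat.beq (tq_c (tq_b (tq_c (tq_b (tq_c (tq_b i)))))) i) 22880 4166 6 (by norm_num) ⟨cxr_c_b_0, cxr_c_b_1, cxr_c_b_2, cxr_c_b_3, cxr_c_b_4, cxr_c_b_5, trivial⟩

theorem cx_c_b : ∀ i, i < 22880 → evalT tab [Gen.c, Gen.b, Gen.c, Gen.b, Gen.c, Gen.b] i = i := by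
  intro i hi
  have h := Nat.eq_of_beq_eq_true (cxr_c_b i hi)
  simp only [evalT_cons', evalT_nil', tab_a, tab_b, tab_c, tab_d, tab_e, tab_f, tab_g]
  exact h

theorem cxr_c_c_0 : allFrom (fun i => Nat.ble 22880 i || Nat.beq (tq_c (tq_c i)) i) 0 12500 = true := by decide +kernel
theorem cxr_c_c_1 : allFrom (fun i => Nat.ble 22880 i || Nat.beq (tq_c (tq_c i)) i) 12500 12500 = true := by decide +kernel
theorem cxr_c_c : ∀ i, i < 22880 → (Nat.beq (tq_c (tq_c i)) i) = true :=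
  blocks_lt (fun i => Nat.beq (tq_c (tq_c i)) i) 22880 12500 2 (by norm_num) ⟨cxr_c_c_0, cxr_c_c_1, trivial⟩

theorem cx_c_c : ∀ i, i < 22880 → evalT tab [Gen.c, Gen.c] i = i := by
  intro i hi
  have h := Nat.eq_of_beq_eq_true (cxr_c_c i hi)
  simp only [evalT_cons', evalT_nil', tab_a, tab_b, tab_c, tab_d, tab_e, tab_f, tab_g]
  exact h

theorem cxr_c_d_0 : allFrom (fun i => Nat.ble 22880 i || Nat.beq (tq_c (tq_d (tq_c (tq_d (tq_c (tq_d (tq_c (tq_d (tq_c (tq_d (tq_c (tq_d (tq_c (tq_d (tq_c (tq_d i)))))))))))))))) i) 0 1562 = true := by decide +kernel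
theorem cxr_c_d_1 : allFrom (fun i => Nat.ble 22880 i || Nat.beq (tq_c (tq_d (tq_c (tq_d (tq_c (tq_d (tq_c (tq_d (tq_c (tq_d (tq_c (tq_d (tq_c (tq_d (tq_c (tq_d i)))))))))))))))) i) 1562 1562 = true := by decide +kernel
theorem cxr_c_d_2 : allFrom (fun i => Nat.ble 22880 i || Nat.beq (tq_c (tq_d (tq_c (tq_d (tq_c (tq_d (tq_c (tq_d (tq_c (tq_d (tq_c (tq_d (tq_c (tq_d (tq_c (tq_d i)))))))))))))))) i) 3124 1562 = true := by decide +kernel
theorem cxr_c_d_3 : allFrom (fun i => Nat.ble 22880 i || Nat.beq (tq_c (tq_d (tq_c (tq_d (tq_c (tq_d (tq_c (tq_d (tq_c (tq_d (tq_c (tq_d (tq_c (tq_d (tq_c (tq_d i)))))))))))))))) i) 4686 1562 = true := by decide +kernel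
theorem cxr_c_d_4 : allFrom (fun i => Nat.ble 22880 i || Nat.beq (tq_c (tq_d (tq_c (tq_d (tq_c (tq_d (tq_c (tq_d (tq_c (tq_d (tq_c (tq_d (tq_c (tq_d (tq_c (tq_d i)))))))))))))))) i) 6248 1562 = true := by decide +kernel
theorem cxr_c_d_5 : allFrom (fun i => Nat.ble 22880 i || Nat.beq (tq_c (tq_d (tq_c (tq_d (tq_c (tq_d (tq_c (tq_d (tq_c (tq_d (tq_c (tq_d (tq_c (tq_d (tq_c (tq_d i)))))))))))))))) i) 7810 1562 = true := by decide +kernel
theorem cxr_c_d_6 : allFrom (fun i => Nat.ble 22880 i || Nat.beq (tq_c (tq_d (tq_c (tq_d (tq_c (tq_d (tq_c (tq_d (tq_c (tq_d (tq_c (tq_d (tq_c (tq_d (tq_c (tq_d i)))))))))))))))) i) 9372 1562 = true := by decide +kernel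
theorem cxr_c_d_7 : allFrom (fun i => Nat.ble 22880 i || Nat.beq (tq_c (tq_d (tq_c (tq_d (tq_c (tq_d (tq_c (tq_d (tq_c (tq_d (tq_c (tq_d (tq_c (tq_d (tq_c (tq_d i)))))))))))))))) i) 10934 1562 = true := by decide +kernel
theorem cxr_c_d_8 : allFrom (fun i => Nat.ble 22880 i || Nat.beq (tq_c (tq_d (tq_c (tq_d (tq_c (tq_d (tq_c (tq_d (tq_c (tq_d (tq_c (tq_d (tq_c (tq_d (tq_c (tq_d i)))))))))))))))) i) 12496 1562 = true := by decide +kernel
theorem cxr_c_d_9 : allFrom (fun i => Nat.ble 22880 i || Nat.beq (tq_c (tq_d (tq_c (tq_d (tq_c (tq_d (tq_c (tq_d (tq_c (tq_d (tq_c (tq_d (tq_c (tq_d (tq_c (tq_d i)))))))))))))))) i) 14058 1562 = true := by decide +kernel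
theorem cxr_c_d_10 : allFrom (fun i => Nat.ble 22880 i || Nat.beq (tq_c (tq_d (tq_c (tq_d (tq_c (tq_d (tq_c (tq_d (tq_c (tq_d (tq_c (tq_d (tq_c (tq_d (tq_c (tq_d i)))))))))))))))) i) 15620 1562 = true := by decide +kernel
theorem cxr_c_d_11 : allFrom (fun i => Nat.ble 22880 i || Nat.beq (tq_c (tq_d (tq_c (tq_d (tq_c (tq_d (tq_c (tq_d (tq_c (tq_d (tq_c (tq_d (tq_c (tq_d (tq_c (tq_d i)))))))))))))))) i) 17182 1562 = true := by decide +kernel
theorem cxr_c_d_12 : allFrom (fun i => Nat.ble 22880 i || Nat.beq (tq_c (tq_d (tq_c (tq_d (tq_c (tq_d (tq_c (tq_d (tq_c (tq_d (tq_c (tq_d (tq_c (tq_d (tq_c (tq_d i)))))))))))))))) i) 18744 1562 = true := by decide +kernel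
theorem cxr_c_d_13 : allFrom (fun i => Nat.ble 22880 i || Nat.beq (tq_c (tq_d (tq_c (tq_d (tq_c (tq_d (tq_c (tq_d (tq_c (tq_d (tq_c (tq_d (tq_c (tq_d (tq_c (tq_d i)))))))))))))))) i) 20306 1562 = true := by decide +kernel
theorem cxr_c_d_14 : allFrom (fun i => Nat.ble 22880 i || Nat.beq (tq_c (tq_d (tq_c (tq_d (tq_c (tq_d (tq_c (tq_d (tq_c (tq_d (tq_c (tq_d (tq_c (tq_d (tq_c (tq_d i)))))))))))))))) i) 21868 1562 = true := by decide +kernel
theorem cxr_c_d : ∀ i, i < 22880 → (Nat.beq (tq_c (tq_d (tq_c (tq_d (tq_c (tq_d (tq_c (tq_d (tq_c (tq_d (tq_c (tq_d (tq_c (tq_d (tq_c (tq_d i)))))))))))))))) i) = true :=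
  blocks_lt (fun i => Nat.beq (tq_c (tq_d (tq_c (tq_d (tq_c (tq_d (tq_c (tq_d (tq_c (tq_d (tq_c (tq_d (tq_c (tq_d (tq_c (tq_d i)))))))))))))))) i) 22880 1562 15 (by norm_num) ⟨cxr_c_d_0, cxr_c_d_1, cxr_c_d_2, cxr_c_d_3, cxr_c_d_4, cxr_c_d_5, cxr_c_d_6, cxr_c_d_7, cxr_c_d_8, cxr_c_d_9, cxr_c_d_10, cxr_c_d_11, cxr_c_d_12, cxr_c_d_13, cxr_c_d_14, trivial⟩

theorem cx_c_d : ∀ i, i < 22880 → evalT tab [Gen.c, Gen.d, Gen.c, Gen.d, Gen.c, Gen.d, Gen.c, Gen.d, Gen.c, Gen.d, Gen.c, Gen.d, Gen.c, Gen.d, Gen.c, Gen.d] i = i := by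
  intro i hi
  have h := Nat.eq_of_beq_eq_true (cxr_c_d i hi)
  simp only [evalT_cons', evalT_nil', tab_a, tab_b, tab_c, tab_d, tab_e, tab_f, tab_g]
  exact h

theorem cxr_c_e_0 : allFrom (fun i => Nat.ble 22880 i || Nat.beq (tq_c (tq_e (tq_c (tq_e i)))) i) 0 6250 = true := by decide +kernel
theorem cxr_c_e_1 : allFrom (fun i => Nat.ble 22880 i || Nat.beq (tq_c (tq_e (tq_c (tq_e i)))) i) 6250 6250 = true := by decide +kernel
theorem cxr_c_e_2 : allFrom (fun i => Nat.ble 22880 i || Nat.beq (tq_c (tq_e (tq_c (tq_e i)))) i) 12500 6250 = true := by decide +kernel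
theorem cxr_c_e_3 : allFrom (fun i => Nat.ble 22880 i || Nat.beq (tq_c (tq_e (tq_c (tq_e i)))) i) 18750 6250 = true := by decide +kernel
theorem cxr_c_e : ∀ i, i < 22880 → (Nat.beq (tq_c (tq_e (tq_c (tq_e i)))) i) = true :=
  blocks_lt (fun i => Nat.beq (tq_c (tq_e (tq_c (tq_e i)))) i) 22880 6250 4 (by norm_num) ⟨cxr_c_e_0, cxr_c_e_1, cxr_c_e_2, cxr_c_e_3, trivial⟩

theorem cx_c_e : ∀ i, i < 22880 → evalT tab [Gen.c, Gen.e, Gen.c, Gen.e] i = i := by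
  intro i hi
  have h := Nat.eq_of_beq_eq_true (cxr_c_e i hi)
  simp only [evalT_cons', evalT_nil', tab_a, tab_b, tab_c, tab_d, tab_e, tab_f, tab_g]
  exact h

theorem cxr_c_f_0 : allFrom (fun i => Nat.ble 22880 i || Nat.beq (tq_c (tq_f (tq_c (tq_f i)))) i) 0 6250 = true := by decide +kernel
theorem cxr_c_f_1 : allFrom (fun i => Nat.ble 22880 i || Nat.beq (tq_c (tq_f (tq_c (tq_f i)))) i) 6250 6250 = true := by decide +kernel
theorem cxr_c_f_2 : allFrom (fun i => Nat.ble 22880 i || Nat.beq (tq_c (tq_f (tq_c (tq_f i)))) i) 12500 6250 = true := by decide +kernel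
theorem cxr_c_f_3 : allFrom (fun i => Nat.ble 22880 i || Nat.beq (tq_c (tq_f (tq_c (tq_f i)))) i) 18750 6250 = true := by decide +kernel
theorem cxr_c_f : ∀ i, i < 22880 → (Nat.beq (tq_c (tq_f (tq_c (tq_f i)))) i) = true :=
  blocks_lt (fun i => Nat.beq (tq_c (tq_f (tq_c (tq_f i)))) i) 22880 6250 4 (by norm_num) ⟨cxr_c_f_0, cxr_c_f_1, cxr_c_f_2, cxr_c_f_3, trivial⟩

theorem cx_c_f : ∀ i, i < 22880 → evalT tab [Gen.c, Gen.f, Gen.c, Gen.f] i = i := by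
  intro i hi
  have h := Nat.eq_of_beq_eq_true (cxr_c_f i hi)
  simp only [evalT_cons', evalT_nil', tab_a, tab_b, tab_c, tab_d, tab_e, tab_f, tab_g]
  exact h

theorem cxr_c_g_0 : allFrom (fun i => Nat.ble 22880 i || Nat.beq (tq_c (tq_g (tq_c (tq_g i)))) i) 0 6250 = true := by decide +kernel
theorem cxr_c_g_1 : allFrom (fun i => Nat.ble 22880 i || Nat.beq (tq_c (tq_g (tq_c (tq_g i)))) i) 6250 6250 = true := by decide +kernel
theorem cxr_c_g_2 : allFrom (fun i => Nat.ble 22880 i || Nat.beq (tq_c (tq_g (tq_c (tq_g i)))) i) 12500 6250 = true := by decide +kernel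
theorem cxr_c_g_3 : allFrom (fun i => Nat.ble 22880 i || Nat.beq (tq_c (tq_g (tq_c (tq_g i)))) i) 18750 6250 = true := by decide +kernel
theorem cxr_c_g : ∀ i, i < 22880 → (Nat.beq (tq_c (tq_g (tq_c (tq_g i)))) i) = true :=
  blocks_lt (fun i => Nat.beq (tq_c (tq_g (tq_c (tq_g i)))) i) 22880 6250 4 (by norm_num) ⟨cxr_c_g_0, cxr_c_g_1, cxr_c_g_2, cxr_c_g_3, trivial⟩

theorem cx_c_g : ∀ i, i < 22880 → evalT tab [Gen.c, Gen.g, Gen.c, Gen.g] i = i := by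
  intro i hi
  have h := Nat.eq_of_beq_eq_true (cxr_c_g i hi)
  simp only [evalT_cons', evalT_nil', tab_a, tab_b, tab_c, tab_d, tab_e, tab_f, tab_g]
  exact h

end Cfsg.Agent.Helper28.SzbA
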