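import Cfsg.Agent.Helper28.SzbR0

/-!
# The Suzuki group presentation, cosets of the subgroup generated by a, b, c, d, f, g: relator checks, part 2 (helper28; generated)
-/

set_option autoImplicit false
set_option maxRecDepth 100000
set_option linter.unusedSimpArgs false
set_option linter.constructorNameAsVariable false

noncomputable section

namespace Cfsg.Agent.Helper28.SzbA

open Cfsg.Spor Cfsg.Spor.Suz Cfsg.Agent.Helper28.CosetTable

theorem cxr_d_a_0 : allFrom (fun i => Nat.ble 22880 i || Nat.beq (tq_d (tq_a (tq_d (tq_a i)))) i) 0 6250 = true := by decide +kernel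
theorem cxr_d_a_1 : allFrom (fun i => Nat.ble 22880 i || Nat.beq (tq_d (tq_a (tq_d (tq_a i)))) i) 6250 6250 = true := by decide +kernel
theorem cxr_d_a_2 : allFrom (fun i => Nat.ble 22880 i || Nat.beq (tq_d (tq_a (tq_d (tq_a i)))) i) 12500 6250 = true := by decide +kernel
theorem cxr_d_a_3 : allFrom (fun i => Nat.ble 22880 i || Nat.beq (tq_d (tq_a (tq_d (tq_a i)))) i) 18750 6250 = true := by decide +kernel
theorem cxr_d_a : ∀ i, i < 22880 → (Nat.beq (tq_d (tq_a (tq_d (tq_a i)))) i) = true :=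
  blocks_lt (fun i => Nat.beq (tq_d (tq_a (tq_d (tq_a i)))) i) 22880 6250 4 (by norm_num) ⟨cxr_d_a_0, cxr_d_a_1, cxr_d_a_2, cxr_d_a_3, trivial⟩

theorem cx_d_a : ∀ i, i < 22880 → evalT tab [Gen.d, Gen.a, Gen.d, Gen.a] i = i := by
  intro i hi
  have h := Nat.eq_of_beq_eq_true (cxr_d_a i hi)
  simp only [evalT_cons', evalT_nil', tab_a, tab_b, tab_c, tab_d, tab_e, tab_f, tab_g]
  exact h

theorem cxr_d_b_0 : allFrom (fun i => Nat.ble 22880 i || Nat.beq (tq_d (tq_b (tq_d (tq_b i)))) i) 0 6250 = true := by decide +kernel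
theorem cxr_d_b_1 : allFrom (fun i => Nat.ble 22880 i || Nat.beq (tq_d (tq_b (tq_d (tq_b i)))) i) 6250 6250 = true := by decide +kernel
theorem cxr_d_b_2 : allFrom (fun i => Nat.ble 22880 i || Nat.beq (tq_d (tq_b (tq_d (tq_b i)))) i) 12500 6250 = true := by decide +kernel
theorem cxr_d_b_3 : allFrom (fun i => Nat.ble 22880 i || Nat.beq (tq_d (tq_b (tq_d (tq_b i)))) i) 18750 6250 = true := by decide +kernel
theorem cxr_d_b : ∀ i, i < 22880 → (Nat.beq (tq_d (tq_b (tq_d (tq_b i)))) i) = true :=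
  blocks_lt (fun i => Nat.beq (tq_d (tq_b (tq_d (tq_b i)))) i) 22880 6250 4 (by norm_num) ⟨cxr_d_b_0, cxr_d_b_1, cxr_d_b_2, cxr_d_b_3, trivial⟩

theorem cx_d_b : ∀ i, i < 22880 → evalT tab [Gen.d, Gen.b, Gen.d, Gen.b] i = i := by
  intro i hi
  have h := Nat.eq_of_beq_eq_true (cxr_d_b i hi)
  simp only [evalT_cons', evalT_nil', tab_a, tab_b, tab_c, tab_d, tab_e, tab_f, tab_g]
  exact h

theorem cxr_d_c_0 : allFrom (fun i => Nat.ble 22880 i || Nat.beq (tq_d (tq_c (tq_d (tq_c (tq_d (tq_c (tq_d (tq_c (tq_d (tq_c (tq_d (tq_c (tq_d (tq_c (tq_d (tq_c i)))))))))))))))) i) 0 1562 = true := by decide +kernel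
theorem cxr_d_c_1 : allFrom (fun i => Nat.ble 22880 i || Nat.beq (tq_d (tq_c (tq_d (tq_c (tq_d (tq_c (tq_d (tq_c (tq_d (tq_c (tq_d (tq_c (tq_d (tq_c (tq_d (tq_c i)))))))))))))))) i) 1562 1562 = true := by decide +kernel
theorem cxr_d_c_2 : allFrom (fun i => Nat.ble 22880 i || Nat.beq (tq_d (tq_c (tq_d (tq_c (tq_d (tq_c (tq_d (tq_c (tq_d (tq_c (tq_d (tq_c (tq_d (tq_c (tq_d (tq_c i)))))))))))))))) i) 3124 1562 = true := by decide +kernel
theorem cxr_d_c_3 : allFrom (fun i => Nat.ble 22880 i || Nat.beq (tq_d (tq_c (tq_d (tq_c (tq_d (tq_c (tq_d (tq_c (tq_d (tq_c (tq_d (tq_c (tq_d (tq_c (tq_d (tq_c i)))))))))))))))) i) 4686 1562 = true := by decide +kernel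
theorem cxr_d_c_4 : allFrom (fun i => Nat.ble 22880 i || Nat.beq (tq_d (tq_c (tq_d (tq_c (tq_d (tq_c (tq_d (tq_c (tq_d (tq_c (tq_d (tq_c (tq_d (tq_c (tq_d (tq_c i)))))))))))))))) i) 6248 1562 = true := by decide +kernel
theorem cxr_d_c_5 : allFrom (fun i => Nat.ble 22880 i || Nat.beq (tq_d (tq_c (tq_d (tq_c (tq_d (tq_c (tq_d (tq_c (tq_d (tq_c (tq_d (tq_c (tq_d (tq_c (tq_d (tq_c i)))))))))))))))) i) 7810 1562 = true := by decide +kernel
theorem cxr_d_c_6 : allFrom (fun i => Nat.ble 22880 i || Nat.beq (tq_d (tq_c (tq_d (tq_c (tq_d (tq_c (tq_d (tq_c (tq_d (tq_c (tq_d (tq_c (tq_d (tq_c (tq_d (tq_c i)))))))))))))))) i) 9372 1562 = true := by decide +kernel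
theorem cxr_d_c_7 : allFrom (fun i => Nat.ble 22880 i || Nat.beq (tq_d (tq_c (tq_d (tq_c (tq_d (tq_c (tq_d (tq_c (tq_d (tq_c (tq_d (tq_c (tq_d (tq_c (tq_d (tq_c i)))))))))))))))) i) 10934 1562 = true := by decide +kernel
theorem cxr_d_c_8 : allFrom (fun i => Nat.ble 22880 i || Nat.beq (tq_d (tq_c (tq_d (tq_c (tq_d (tq_c (tq_d (tq_c (tq_d (tq_c (tq_d (tq_c (tq_d (tq_c (tq_d (tq_c i)))))))))))))))) i) 12496 1562 = true := by decide +kernel
theorem cxr_d_c_9 : allFrom (fun i => Nat.ble 22880 i || Nat.beq (tq_d (tq_c (tq_d (tq_c (tq_d (tq_c (tq_d (tq_c (tq_d (tq_c (tq_d (tq_c (tq_d (tq_c (tq_d (tq_c i)))))))))))))))) i) 14058 1562 = true := by decide +kernel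
theorem cxr_d_c_10 : allFrom (fun i => Nat.ble 22880 i || Nat.beq (tq_d (tq_c (tq_d (tq_c (tq_d (tq_c (tq_d (tq_c (tq_d (tq_c (tq_d (tq_c (tq_d (tq_c (tq_d (tq_c i)))))))))))))))) i) 15620 1562 = true := by decide +kernel
theorem cxr_d_c_11 : allFrom (fun i => Nat.ble 22880 i || Nat.beq (tq_d (tq_c (tq_d (tq_c (tq_d (tq_c (tq_d (tq_c (tq_d (tq_c (tq_d (tq_c (tq_d (tq_c (tq_d (tq_c i)))))))))))))))) i) 17182 1562 = true := by decide +kernel
theorem cxr_d_c_12 : allFrom (fun i => Nat.ble 22880 i || Nat.beq (tq_d (tq_c (tq_d (tq_c (tq_d (tq_c (tq_d (tq_c (tq_d (tq_c (tq_d (tq_c (tq_d (tq_c (tq_d (tq_c i)))))))))))))))) i) 18744 1562 = true := by decide +kernel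
theorem cxr_d_c_13 : allFrom (fun i => Nat.ble 22880 i || Nat.beq (tq_d (tq_c (tq_d (tq_c (tq_d (tq_c (tq_d (tq_c (tq_d (tq_c (tq_d (tq_c (tq_d (tq_c (tq_d (tq_c i)))))))))))))))) i) 20306 1562 = true := by decide +kernel
theorem cxr_d_c_14 : allFrom (fun i => Nat.ble 22880 i || Nat.beq (tq_d (tq_c (tq_d (tq_c (tq_d (tq_c (tq_d (tq_c (tq_d (tq_c (tq_d (tq_c (tq_d (tq_c (tq_d (tq_c i)))))))))))))))) i) 21868 1562 = true := by decide +kernel
theorem cxr_d_c : ∀ i, i < 22880 → (Nat.beq (tq_d (tq_c (tq_d (tq_c (tq_d (tq_c (tq_d (tq_c (tq_d (tq_c (tq_d (tq_c (tq_d (tq_c (tq_d (tq_c i)))))))))))))))) i) = true :=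
  blocks_lt (fun i => Nat.beq (tq_d (tq_c (tq_d (tq_c (tq_d (tq_c (tq_d (tq_c (tq_d (tq_c (tq_d (tq_c (tq_d (tq_c (tq_d (tq_c i)))))))))))))))) i) 22880 1562 15 (by norm_num) ⟨cxr_d_c_0, cxr_d_c_1, cxr_d_c_2, cxr_d_c_3, cxr_d_c_4, cxr_d_c_5, cxr_d_c_6, cxr_d_c_7, cxr_d_c_8, cxr_d_c_9, cxr_d_c_10, cxr_d_c_11, cxr_d_c_12, cxr_d_c_13, cxr_d_c_14, trivial⟩

theorem cx_d_c : ∀ i, i < 22880 → evalT tab [Gen.d, Gen.c, Gen.d, Gen.c, Gen.d, Gen.c, Gen.d, Gen.c, Gen.d, Gen.c, Gen.d, Gen.c, Gen.d, Gen.c, Gen.d, Gen.c] i = i := by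
  intro i hi
  have h := Nat.eq_of_beq_eq_true (cxr_d_c i hi)
  simp only [evalT_cons', evalT_nil', tab_a, tab_b, tab_c, tab_d, tab_e, tab_f, tab_g]
  exact h

theorem cxr_d_d_0 : allFrom (fun i => Nat.ble 22880 i || Nat.beq (tq_d (tq_d i)) i) 0 12500 = true := by decide +kernel
theorem cxr_d_d_1 : allFrom (fun i => Nat.ble 22880 i || Nat.beq (tq_d (tq_d i)) i) 12500 12500 = true := by decide +kernel
theorem cxr_d_d : ∀ i, i < 22880 → (Nat.beq (tq_d (tq_d i)) i) = true :=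
  blocks_lt (fun i => Nat.beq (tq_d (tq_d i)) i) 22880 12500 2 (by norm_num) ⟨cxr_d_d_0, cxr_d_d_1, trivial⟩

theorem cx_d_d : ∀ i, i < 22880 → evalT tab [Gen.d, Gen.d] i = i := by
  intro i hi
  have h := Nat.eq_of_beq_eq_true (cxr_d_d i hi)
  simp only [evalT_cons', evalT_nil', tab_a, tab_b, tab_c, tab_d, tab_e, tab_f, tab_g]
  exact h

theorem cxr_d_e_0 : allFrom (fun i => Nat.ble 22880 i || Nat.beq (tq_d (tq_e (tq_d (tq_e (tq_d (tq_e i)))))) i) 0 4166 = true := by decide +kernel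
theorem cxr_d_e_1 : allFrom (fun i => Nat.ble 22880 i || Nat.beq (tq_d (tq_e (tq_d (tq_e (tq_d (tq_e i)))))) i) 4166 4166 = true := by decide +kernel
theorem cxr_d_e_2 : allFrom (fun i => Nat.ble 22880 i || Nat.beq (tq_d (tq_e (tq_d (tq_e (tq_d (tq_e i)))))) i) 8332 4166 = true := by decide +kernel
theorem cxr_d_e_3 : allFrom (fun i => Nat.ble 22880 i || Nat.beq (tq_d (tq_e (tq_d (tq_e (tq_d (tq_e i)))))) i) 12498 4166 = true := by decide +kernel
theorem cxr_d_e_4 : allFrom (fun i => Nat.ble 22880 i || Nat.beq (tq_d (tq_e (tq_d (tq_e (tq_d (tq_e i)))))) i) 16664 4166 = true := by decide +kernel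
theorem cxr_d_e_5 : allFrom (fun i => Nat.ble 22880 i || Nat.beq (tq_d (tq_e (tq_d (tq_e (tq_d (tq_e i)))))) i) 20830 4166 = true := by decide +kernel
theorem cxr_d_e : ∀ i, i < 22880 → (Nat.beq (tq_d (tq_e (tq_d (tq_e (tq_d (tq_e i)))))) i) = true :=
  blocks_lt (fun i => Nat.beq (tq_d (tq_e (tq_d (tq_e (tq_d (tq_e i)))))) i) 22880 4166 6 (by norm_num) ⟨cxr_d_e_0, cxr_d_e_1, cxr_d_e_2, cxr_d_e_3, cxr_d_e_4, cxr_d_e_5, trivial⟩

theorem cx_d_e : ∀ i, i < 22880 → evalT tab [Gen.d, Gen.e, Gen.d, Gen.e, Gen.d, Gen.e] i = i := by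
  intro i hi
  have h := Nat.eq_of_beq_eq_true (cxr_d_e i hi)
  simp only [evalT_cons', evalT_nil', tab_a, tab_b, tab_c, tab_d, tab_e, tab_f, tab_g]
  exact h

theorem cxr_d_f_0 : allFrom (fun i => Nat.ble 22880 i || Nat.beq (tq_d (tq_f (tq_d (tq_f i)))) i) 0 6250 = true := by decide +kernel
theorem cxr_d_f_1 : allFrom (fun i => Nat.ble 22880 i || Nat.beq (tq_d (tq_f (tq_d (tq_f i)))) i) 6250 6250 = true := by decide +kernel
theorem cxr_d_f_2 : allFrom (fun i => Nat.ble 22880 i || Nat.beq (tq_d (tq_f (tq_d (tq_f i)))) i) 12500 6250 = true := by decide +kernel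
theorem cxr_d_f_3 : allFrom (fun i => Nat.ble 22880 i || Nat.beq (tq_d (tq_f (tq_d (tq_f i)))) i) 18750 6250 = true := by decide +kernel
theorem cxr_d_f : ∀ i, i < 22880 → (Nat.beq (tq_d (tq_f (tq_d (tq_f i)))) i) = true :=
  blocks_lt (fun i => Nat.beq (tq_d (tq_f (tq_d (tq_f i)))) i) 22880 6250 4 (by norm_num) ⟨cxr_d_f_0, cxr_d_f_1, cxr_d_f_2, cxr_d_f_3, trivial⟩

theorem cx_d_f : ∀ i, i < 22880 → evalT tab [Gen.d, Gen.f, Gen.d, Gen.f] i = i := by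
  intro i hi
  have h := Nat.eq_of_beq_eq_true (cxr_d_f i hi)
  simp only [evalT_cons', evalT_nil', tab_a, tab_b, tab_c, tab_d, tab_e, tab_f, tab_g]
  exact h

theorem cxr_d_g_0 : allFrom (fun i => Nat.ble 22880 i || Nat.beq (tq_d (tq_g (tq_d (tq_g i)))) i) 0 6250 = true := by decide +kernel
theorem cxr_d_g_1 : allFrom (fun i => Nat.ble 22880 i || Nat.beq (tq_d (tq_g (tq_d (tq_g i)))) i) 6250 6250 = true := by decide +kernel
theorem cxr_d_g_2 : allFrom (fun i => Nat.ble 22880 i || Nat.beq (tq_d (tq_g (tq_d (tq_g i)))) i) 12500 6250 = true := by decide +kernel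
theorem cxr_d_g_3 : allFrom (fun i => Nat.ble 22880 i || Nat.beq (tq_d (tq_g (tq_d (tq_g i)))) i) 18750 6250 = true := by decide +kernel
theorem cxr_d_g : ∀ i, i < 22880 → (Nat.beq (tq_d (tq_g (tq_d (tq_g i)))) i) = true :=
  blocks_lt (fun i => Nat.beq (tq_d (tq_g (tq_d (tq_g i)))) i) 22880 6250 4 (by norm_num) ⟨cxr_d_g_0, cxr_d_g_1, cxr_d_g_2, cxr_d_g_3, trivial⟩

theorem cx_d_g : ∀ i, i < 22880 → evalT tab [Gen.d, Gen.g, Gen.d, Gen.g] i = i := by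
  intro i hi
  have h := Nat.eq_of_beq_eq_true (cxr_d_g i hi)
  simp only [evalT_cons', evalT_nil', tab_a, tab_b, tab_c, tab_d, tab_e, tab_f, tab_g]
  exact h

theorem cxr_e_a_0 : allFrom (fun i => Nat.ble 22880 i || Nat.beq (tq_e (tq_a (tq_e (tq_a i)))) i) 0 6250 = true := by decide +kernel
theorem cxr_e_a_1 : allFrom (fun i => Nat.ble 22880 i || Nat.beq (tq_e (tq_a (tq_e (tq_a i)))) i) 6250 6250 = true := by decide +kernel
theorem cxr_e_a_2 : allFrom (fun i => Nat.ble 22880 i || Nat.beq (tq_e (tq_a (tq_e (tq_a i)))) i) 12500 6250 = true := by decide +kernel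
theorem cxr_e_a_3 : allFrom (fun i => Nat.ble 22880 i || Nat.beq (tq_e (tq_a (tq_e (tq_a i)))) i) 18750 6250 = true := by decide +kernel
theorem cxr_e_a : ∀ i, i < 22880 → (Nat.beq (tq_e (tq_a (tq_e (tq_a i)))) i) = true :=
  blocks_lt (fun i => Nat.beq (tq_e (tq_a (tq_e (tq_a i)))) i) 22880 6250 4 (by norm_num) ⟨cxr_e_a_0, cxr_e_a_1, cxr_e_a_2, cxr_e_a_3, trivial⟩

theorem cx_e_a : ∀ i, i < 22880 → evalT tab [Gen.e, Gen.a, Gen.e, Gen.a] i = i := by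
  intro i hi
  have h := Nat.eq_of_beq_eq_true (cxr_e_a i hi)
  simp only [evalT_cons', evalT_nil', tab_a, tab_b, tab_c, tab_d, tab_e, tab_f, tab_g]
  exact h

theorem cxr_e_b_0 : allFrom (fun i => Nat.ble 22880 i || Nat.beq (tq_e (tq_b (tq_e (tq_b i)))) i) 0 6250 = true := by decide +kernel
theorem cxr_e_b_1 : allFrom (fun i => Nat.ble 22880 i || Nat.beq (tq_e (tq_b (tq_e (tq_b i)))) i) 6250 6250 = true := by decide +kernel
theorem cxr_e_b_2 : allFrom (fun i => Nat.ble 22880 i || Nat.beq (tq_e (tq_b (tq_e (tq_b i)))) i) 12500 6250 = true := by decide +kernel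
theorem cxr_e_b_3 : allFrom (fun i => Nat.ble 22880 i || Nat.beq (tq_e (tq_b (tq_e (tq_b i)))) i) 18750 6250 = true := by decide +kernel
theorem cxr_e_b : ∀ i, i < 22880 → (Nat.beq (tq_e (tq_b (tq_e (tq_b i)))) i) = true :=
  blocks_lt (fun i => Nat.beq (tq_e (tq_b (tq_e (tq_b i)))) i) 22880 6250 4 (by norm_num) ⟨cxr_e_b_0, cxr_e_b_1, cxr_e_b_2, cxr_e_b_3, trivial⟩

theorem cx_e_b : ∀ i, i < 22880 → evalT tab [Gen.e, Gen.b, Gen.e, Gen.b] i = i := by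
  intro i hi
  have h := Nat.eq_of_beq_eq_true (cxr_e_b i hi)
  simp only [evalT_cons', evalT_nil', tab_a, tab_b, tab_c, tab_d, tab_e, tab_f, tab_g]
  exact h

theorem cxr_e_c_0 : allFrom (fun i => Nat.ble 22880 i || Nat.beq (tq_e (tq_c (tq_e (tq_c i)))) i) 0 6250 = true := by decide +kernel
theorem cxr_e_c_1 : allFrom (fun i => Nat.ble 22880 i || Nat.beq (tq_e (tq_c (tq_e (tq_c i)))) i) 6250 6250 = true := by decide +kernel
theorem cxr_e_c_2 : allFrom (fun i => Nat.ble 22880 i || Nat.beq (tq_e (tq_c (tq_e (tq_c i)))) i) 12500 6250 = true := by decide +kernel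
theorem cxr_e_c_3 : allFrom (fun i => Nat.ble 22880 i || Nat.beq (tq_e (tq_c (tq_e (tq_c i)))) i) 18750 6250 = true := by decide +kernel
theorem cxr_e_c : ∀ i, i < 22880 → (Nat.beq (tq_e (tq_c (tq_e (tq_c i)))) i) = true :=
  blocks_lt (fun i => Nat.beq (tq_e (tq_c (tq_e (tq_c i)))) i) 22880 6250 4 (by norm_num) ⟨cxr_e_c_0, cxr_e_c_1, cxr_e_c_2, cxr_e_c_3, trivial⟩

theorem cx_e_c : ∀ i, i < 22880 → evalT tab [Gen.e, Gen.c, Gen.e, Gen.c] i = i := by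
  intro i hi
  have h := Nat.eq_of_beq_eq_true (cxr_e_c i hi)
  simp only [evalT_cons', evalT_nil', tab_a, tab_b, tab_c, tab_d, tab_e, tab_f, tab_g]
  exact h

theorem cxr_e_d_0 : allFrom (fun i => Nat.ble 22880 i || Nat.beq (tq_e (tq_d (tq_e (tq_d (tq_e (tq_d i)))))) i) 0 4166 = true := by decide +kernel
theorem cxr_e_d_1 : allFrom (fun i => Nat.ble 22880 i || Nat.beq (tq_e (tq_d (tq_e (tq_d (tq_e (tq_d i)))))) i) 4166 4166 = true := by decide +kernel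
theorem cxr_e_d_2 : allFrom (fun i => Nat.ble 22880 i || Nat.beq (tq_e (tq_d (tq_e (tq_d (tq_e (tq_d i)))))) i) 8332 4166 = true := by decide +kernel
theorem cxr_e_d_3 : allFrom (fun i => Nat.ble 22880 i || Nat.beq (tq_e (tq_d (tq_e (tq_d (tq_e (tq_d i)))))) i) 12498 4166 = true := by decide +kernel
theorem cxr_e_d_4 : allFrom (fun i => Nat.ble 22880 i || Nat.beq (tq_e (tq_d (tq_e (tq_d (tq_e (tq_d i)))))) i) 16664 4166 = true := by decide +kernel
theorem cxr_e_d_5 : allFrom (fun i => Nat.ble 22880 i || Nat.beq (tq_e (tq_d (tq_e (tq_d (tq_e (tq_d i)))))) i) 20830 4166 = true := by decide +kernel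
theorem cxr_e_d : ∀ i, i < 22880 → (Nat.beq (tq_e (tq_d (tq_e (tq_d (tq_e (tq_d i)))))) i) = true :=
  blocks_lt (fun i => Nat.beq (tq_e (tq_d (tq_e (tq_d (tq_e (tq_d i)))))) i) 22880 4166 6 (by norm_num) ⟨cxr_e_d_0, cxr_e_d_1, cxr_e_d_2, cxr_e_d_3, cxr_e_d_4, cxr_e_d_5, trivial⟩

theorem cx_e_d : ∀ i, i < 22880 → evalT tab [Gen.e, Gen.d, Gen.e, Gen.d, Gen.e, Gen.d] i = i := by
  intro i hi
  have h := Nat.eq_of_beq_eq_true (cxr_e_d i hi)
  simp only [evalT_cons', evalT_nil', tab_a, tab_b, tab_c, tab_d, tab_e, tab_f, tab_g]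
  exact h

theorem cxr_e_e_0 : allFrom (fun i => Nat.ble 22880 i || Nat.beq (tq_e (tq_e i)) i) 0 12500 = true := by decide +kernel
theorem cxr_e_e_1 : allFrom (fun i => Nat.ble 22880 i || Nat.beq (tq_e (tq_e i)) i) 12500 12500 = true := by decide +kernel
theorem cxr_e_e : ∀ i, i < 22880 → (Nat.beq (tq_e (tq_e i)) i) = true :=
  blocks_lt (fun i => Nat.beq (tq_e (tq_e i)) i) 22880 12500 2 (by norm_num) ⟨cxr_e_e_0, cxr_e_e_1, trivial⟩

theorem cx_e_e : ∀ i, i < 22880 → evalT tab [Gen.e, Gen.e] i = i := by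
  intro i hi
  have h := Nat.eq_of_beq_eq_true (cxr_e_e i hi)
  simp only [evalT_cons', evalT_nil', tab_a, tab_b, tab_c, tab_d, tab_e, tab_f, tab_g]
  exact h

theorem cxr_e_f_0 : allFrom (fun i => Nat.ble 22880 i || Nat.beq (tq_e (tq_f (tq_e (tq_f i)))) i) 0 6250 = true := by decide +kernel
theorem cxr_e_f_1 : allFrom (fun i => Nat.ble 22880 i || Nat.beq (tq_e (tq_f (tq_e (tq_f i)))) i) 6250 6250 = true := by decide +kernel
theorem cxr_e_f_2 : allFrom (fun i => Nat.ble 22880 i || Nat.beq (tq_e (tq_f (tq_e (tq_f i)))) i) 12500 6250 = true := by decide +kernel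
theorem cxr_e_f_3 : allFrom (fun i => Nat.ble 22880 i || Nat.beq (tq_e (tq_f (tq_e (tq_f i)))) i) 18750 6250 = true := by decide +kernel
theorem cxr_e_f : ∀ i, i < 22880 → (Nat.beq (tq_e (tq_f (tq_e (tq_f i)))) i) = true :=
  blocks_lt (fun i => Nat.beq (tq_e (tq_f (tq_e (tq_f i)))) i) 22880 6250 4 (by norm_num) ⟨cxr_e_f_0, cxr_e_f_1, cxr_e_f_2, cxr_e_f_3, trivial⟩

theorem cx_e_f : ∀ i, i < 22880 → evalT tab [Gen.e, Gen.f, Gen.e, Gen.f] i = i := by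
  intro i hi
  have h := Nat.eq_of_beq_eq_true (cxr_e_f i hi)
  simp only [evalT_cons', evalT_nil', tab_a, tab_b, tab_c, tab_d, tab_e, tab_f, tab_g]
  exact h

theorem cxr_e_g_0 : allFrom (fun i => Nat.ble 22880 i || Nat.beq (tq_e (tq_g (tq_e (tq_g i)))) i) 0 6250 = true := by decide +kernel
theorem cxr_e_g_1 : allFrom (fun i => Nat.ble 22880 i || Nat.beq (tq_e (tq_g (tq_e (tq_g i)))) i) 6250 6250 = true := by decide +kernel
theorem cxr_e_g_2 : allFrom (fun i => Nat.ble 22880 i || Nat.beq (tq_e (tq_g (tq_e (tq_g i)))) i) 12500 6250 = true := by decide +kernel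
theorem cxr_e_g_3 : allFrom (fun i => Nat.ble 22880 i || Nat.beq (tq_e (tq_g (tq_e (tq_g i)))) i) 18750 6250 = true := by decide +kernel
theorem cxr_e_g : ∀ i, i < 22880 → (Nat.beq (tq_e (tq_g (tq_e (tq_g i)))) i) = true :=
  blocks_lt (fun i => Nat.beq (tq_e (tq_g (tq_e (tq_g i)))) i) 22880 6250 4 (by norm_num) ⟨cxr_e_g_0, cxr_e_g_1, cxr_e_g_2, cxr_e_g_3, trivial⟩

theorem cx_e_g : ∀ i, i < 22880 → evalT tab [Gen.e, Gen.g, Gen.e, Gen.g] i = i := by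
  intro i hi
  have h := Nat.eq_of_beq_eq_true (cxr_e_g i hi)
  simp only [evalT_cons', evalT_nil', tab_a, tab_b, tab_c, tab_d, tab_e, tab_f, tab_g]
  exact h

theorem cxr_f_a_0 : allFrom (fun i => Nat.ble 22880 i || Nat.beq (tq_f (tq_a (tq_f (tq_a i)))) i) 0 6250 = true := by decide +kernel
theorem cxr_f_a_1 : allFrom (fun i => Nat.ble 22880 i || Nat.beq (tq_f (tq_a (tq_f (tq_a i)))) i) 6250 6250 = true := by decide +kernel
theorem cxr_f_a_2 : allFrom (fun i => Nat.ble 22880 i || Nat.beq (tq_f (tq_a (tq_f (tq_a i)))) i) 12500 6250 = true := by decide +kernel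
theorem cxr_f_a_3 : allFrom (fun i => Nat.ble 22880 i || Nat.beq (tq_f (tq_a (tq_f (tq_a i)))) i) 18750 6250 = true := by decide +kernel
theorem cxr_f_a : ∀ i, i < 22880 → (Nat.beq (tq_f (tq_a (tq_f (tq_a i)))) i) = true :=
  blocks_lt (fun i => Nat.beq (tq_f (tq_a (tq_f (tq_a i)))) i) 22880 6250 4 (by norm_num) ⟨cxr_f_a_0, cxr_f_a_1, cxr_f_a_2, cxr_f_a_3, trivial⟩

theorem cx_f_a : ∀ i, i < 22880 → evalT tab [Gen.f, Gen.a, Gen.f, Gen.a] i = i := by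
  intro i hi
  have h := Nat.eq_of_beq_eq_true (cxr_f_a i hi)
  simp only [evalT_cons', evalT_nil', tab_a, tab_b, tab_c, tab_d, tab_e, tab_f, tab_g]
  exact h

theorem cxr_f_b_0 : allFrom (fun i => Nat.ble 22880 i || Nat.beq (tq_f (tq_b (tq_f (tq_b (tq_f (tq_b i)))))) i) 0 4166 = true := by decide +kernel
theorem cxr_f_b_1 : allFrom (fun i => Nat.ble 22880 i || Nat.beq (tq_f (tq_b (tq_f (tq_b (tq_f (tq_b i)))))) i) 4166 4166 = true := by decide +kernel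
theorem cxr_f_b_2 : allFrom (fun i => Nat.ble 22880 i || Nat.beq (tq_f (tq_b (tq_f (tq_b (tq_f (tq_b i)))))) i) 8332 4166 = true := by decide +kernel
theorem cxr_f_b_3 : allFrom (fun i => Nat.ble 22880 i || Nat.beq (tq_f (tq_b (tq_f (tq_b (tq_f (tq_b i)))))) i) 12498 4166 = true := by decide +kernel
theorem cxr_f_b_4 : allFrom (fun i => Nat.ble 22880 i || Nat.beq (tq_f (tq_b (tq_f (tq_b (tq_f (tq_b i)))))) i) 16664 4166 = true := by decide +kernel
theorem cxr_f_b_5 : allFrom (fun i => Nat.ble 22880 i || Nat.beq (tq_f (tq_b (tq_f (tq_b (tq_f (tq_b i)))))) i) 20830 4166 = true := by decide +kernel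
theorem cxr_f_b : ∀ i, i < 22880 → (Nat.beq (tq_f (tq_b (tq_f (tq_b (tq_f (tq_b i)))))) i) = true :=
  blocks_lt (fun i => Nat.beq (tq_f (tq_b (tq_f (tq_b (tq_f (tq_b i)))))) i) 22880 4166 6 (by norm_num) ⟨cxr_f_b_0, cxr_f_b_1, cxr_f_b_2, cxr_f_b_3, cxr_f_b_4, cxr_f_b_5, trivial⟩

theorem cx_f_b : ∀ i, i < 22880 → evalT tab [Gen.f, Gen.b, Gen.f, Gen.b, Gen.f, Gen.b] i = i := by
  intro i hi
  have h := Nat.eq_of_beq_eq_true (cxr_f_b i hi)
  simp only [evalT_cons', evalT_nil', tab_a, tab_b, tab_c, tab_d, tab_e, tab_f, tab_g]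
  exact h

theorem cxr_f_c_0 : allFrom (fun i => Nat.ble 22880 i || Nat.beq (tq_f (tq_c (tq_f (tq_c i)))) i) 0 6250 = true := by decide +kernel
theorem cxr_f_c_1 : allFrom (fun i => Nat.ble 22880 i || Nat.beq (tq_f (tq_c (tq_f (tq_c i)))) i) 6250 6250 = true := by decide +kernel
theorem cxr_f_c_2 : allFrom (fun i => Nat.ble 22880 i || Nat.beq (tq_f (tq_c (tq_f (tq_c i)))) i) 12500 6250 = true := by decide +kernel
theorem cxr_f_c_3 : allFrom (fun i => Nat.ble 22880 i || Nat.beq (tq_f (tq_c (tq_f (tq_c i)))) i) 18750 6250 = true := by decide +kernel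
theorem cxr_f_c : ∀ i, i < 22880 → (Nat.beq (tq_f (tq_c (tq_f (tq_c i)))) i) = true :=
  blocks_lt (fun i => Nat.beq (tq_f (tq_c (tq_f (tq_c i)))) i) 22880 6250 4 (by norm_num) ⟨cxr_f_c_0, cxr_f_c_1, cxr_f_c_2, cxr_f_c_3, trivial⟩

theorem cx_f_c : ∀ i, i < 22880 → evalT tab [Gen.f, Gen.c, Gen.f, Gen.c] i = i := by
  intro i hi
  have h := Nat.eq_of_beq_eq_true (cxr_f_c i hi)
  simp only [evalT_cons', evalT_nil', tab_a, tab_b, tab_c, tab_d, tab_e, tab_f, tab_g]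
  exact h

theorem cxr_f_d_0 : allFrom (fun i => Nat.ble 22880 i || Nat.beq (tq_f (tq_d (tq_f (tq_d i)))) i) 0 6250 = true := by decide +kernel
theorem cxr_f_d_1 : allFrom (fun i => Nat.ble 22880 i || Nat.beq (tq_f (tq_d (tq_f (tq_d i)))) i) 6250 6250 = true := by decide +kernel
theorem cxr_f_d_2 : allFrom (fun i => Nat.ble 22880 i || Nat.beq (tq_f (tq_d (tq_f (tq_d i)))) i) 12500 6250 = true := by decide +kernel
theorem cxr_f_d_3 : allFrom (fun i => Nat.ble 22880 i || Nat.beq (tq_f (tq_d (tq_f (tq_d i)))) i) 18750 6250 = true := by decide +kernel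
theorem cxr_f_d : ∀ i, i < 22880 → (Nat.beq (tq_f (tq_d (tq_f (tq_d i)))) i) = true :=
  blocks_lt (fun i => Nat.beq (tq_f (tq_d (tq_f (tq_d i)))) i) 22880 6250 4 (by norm_num) ⟨cxr_f_d_0, cxr_f_d_1, cxr_f_d_2, cxr_f_d_3, trivial⟩

theorem cx_f_d : ∀ i, i < 22880 → evalT tab [Gen.f, Gen.d, Gen.f, Gen.d] i = i := by
  intro i hi
  have h := Nat.eq_of_beq_eq_true (cxr_f_d i hi)
  simp only [evalT_cons', evalT_nil', tab_a, tab_b, tab_c, tab_d, tab_e, tab_f, tab_g]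
  exact h

theorem cxr_f_e_0 : allFrom (fun i => Nat.ble 22880 i || Nat.beq (tq_f (tq_e (tq_f (tq_e i)))) i) 0 6250 = true := by decide +kernel
theorem cxr_f_e_1 : allFrom (fun i => Nat.ble 22880 i || Nat.beq (tq_f (tq_e (tq_f (tq_e i)))) i) 6250 6250 = true := by decide +kernel
theorem cxr_f_e_2 : allFrom (fun i => Nat.ble 22880 i || Nat.beq (tq_f (tq_e (tq_f (tq_e i)))) i) 12500 6250 = true := by decide +kernel
theorem cxr_f_e_3 : allFrom (fun i => Nat.ble 22880 i || Nat.beq (tq_f (tq_e (tq_f (tq_e i)))) i) 18750 6250 = true := by decide +kernel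
theorem cxr_f_e : ∀ i, i < 22880 → (Nat.beq (tq_f (tq_e (tq_f (tq_e i)))) i) = true :=
  blocks_lt (fun i => Nat.beq (tq_f (tq_e (tq_f (tq_e i)))) i) 22880 6250 4 (by norm_num) ⟨cxr_f_e_0, cxr_f_e_1, cxr_f_e_2, cxr_f_e_3, trivial⟩

theorem cx_f_e : ∀ i, i < 22880 → evalT tab [Gen.f, Gen.e, Gen.f, Gen.e] i = i := by
  intro i hi
  have h := Nat.eq_of_beq_eq_true (cxr_f_e i hi)
  simp only [evalT_cons', evalT_nil', tab_a, tab_b, tab_c, tab_d, tab_e, tab_f, tab_g]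
  exact h

theorem cxr_f_f_0 : allFrom (fun i => Nat.ble 22880 i || Nat.beq (tq_f (tq_f i)) i) 0 12500 = true := by decide +kernel
theorem cxr_f_f_1 : allFrom (fun i => Nat.ble 22880 i || Nat.beq (tq_f (tq_f i)) i) 12500 12500 = true := by decide +kernel
theorem cxr_f_f : ∀ i, i < 22880 → (Nat.beq (tq_f (tq_f i)) i) = true :=
  blocks_lt (fun i => Nat.beq (tq_f (tq_f i)) i) 22880 12500 2 (by norm_num) ⟨cxr_f_f_0, cxr_f_f_1, trivial⟩

theorem cx_f_f : ∀ i, i < 22880 → evalT tab [Gen.f, Gen.f] i = i := by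
  intro i hi
  have h := Nat.eq_of_beq_eq_true (cxr_f_f i hi)
  simp only [evalT_cons', evalT_nil', tab_a, tab_b, tab_c, tab_d, tab_e, tab_f, tab_g]
  exact h

theorem cxr_f_g_0 : allFrom (fun i => Nat.ble 22880 i || Nat.beq (tq_f (tq_g (tq_f (tq_g (tq_f (tq_g (tq_f (tq_g i)))))))) i) 0 3125 = true := by decide +kernel
theorem cxr_f_g_1 : allFrom (fun i => Nat.ble 22880 i || Nat.beq (tq_f (tq_g (tq_f (tq_g (tq_f (tq_g (tq_f (tq_g i)))))))) i) 3125 3125 = true := by decide +kernel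
theorem cxr_f_g_2 : allFrom (fun i => Nat.ble 22880 i || Nat.beq (tq_f (tq_g (tq_f (tq_g (tq_f (tq_g (tq_f (tq_g i)))))))) i) 6250 3125 = true := by decide +kernel
theorem cxr_f_g_3 : allFrom (fun i => Nat.ble 22880 i || Nat.beq (tq_f (tq_g (tq_f (tq_g (tq_f (tq_g (tq_f (tq_g i)))))))) i) 9375 3125 = true := by decide +kernel
theorem cxr_f_g_4 : allFrom (fun i => Nat.ble 22880 i || Nat.beq (tq_f (tq_g (tq_f (tq_g (tq_f (tq_g (tq_f (tq_g i)))))))) i) 12500 3125 = true := by decide +kernel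
theorem cxr_f_g_5 : allFrom (fun i => Nat.ble 22880 i || Nat.beq (tq_f (tq_g (tq_f (tq_g (tq_f (tq_g (tq_f (tq_g i)))))))) i) 15625 3125 = true := by decide +kernel
theorem cxr_f_g_6 : allFrom (fun i => Nat.ble 22880 i || Nat.beq (tq_f (tq_g (tq_f (tq_g (tq_f (tq_g (tq_f (tq_g i)))))))) i) 18750 3125 = true := by decide +kernel
theorem cxr_f_g_7 : allFrom (fun i => Nat.ble 22880 i || Nat.beq (tq_f (tq_g (tq_f (tq_g (tq_f (tq_g (tq_f (tq_g i)))))))) i) 21875 3125 = true := by decide +kernel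
theorem cxr_f_g : ∀ i, i < 22880 → (Nat.beq (tq_f (tq_g (tq_f (tq_g (tq_f (tq_g (tq_f (tq_g i)))))))) i) = true :=
  blocks_lt (fun i => Nat.beq (tq_f (tq_g (tq_f (tq_g (tq_f (tq_g (tq_f (tq_g i)))))))) i) 22880 3125 8 (by norm_num) ⟨cxr_f_g_0, cxr_f_g_1, cxr_f_g_2, cxr_f_g_3, cxr_f_g_4, cxr_f_g_5, cxr_f_g_6, cxr_f_g_7, trivial⟩

theorem cx_f_g : ∀ i, i < 22880 → evalT tab [Gen.f, Gen.g, Gen.f, Gen.g, Gen.f, Gen.g, Gen.f, Gen.g] i = i := by
  intro i hi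
  have h := Nat.eq_of_beq_eq_true (cxr_f_g i hi)
  simp only [evalT_cons', evalT_nil', tab_a, tab_b, tab_c, tab_d, tab_e, tab_f, tab_g]
  exact h

theorem cxr_g_a_0 : allFrom (fun i => Nat.ble 22880 i || Nat.beq (tq_g (tq_a (tq_g (tq_a i)))) i) 0 6250 = true := by decide +kernel
theorem cxr_g_a_1 : allFrom (fun i => Nat.ble 22880 i || Nat.beq (tq_g (tq_a (tq_g (tq_a i)))) i) 6250 6250 = true := by decide +kernel
theorem cxr_g_a_2 : allFrom (fun i => Nat.ble 22880 i || Nat.beq (tq_g (tq_a (tq_g (tq_a i)))) i) 12500 6250 = true := by decide +kernel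
theorem cxr_g_a_3 : allFrom (fun i => Nat.ble 22880 i || Nat.beq (tq_g (tq_a (tq_g (tq_a i)))) i) 18750 6250 = true := by decide +kernel
theorem cxr_g_a : ∀ i, i < 22880 → (Nat.beq (tq_g (tq_a (tq_g (tq_a i)))) i) = true :=
  blocks_lt (fun i => Nat.beq (tq_g (tq_a (tq_g (tq_a i)))) i) 22880 6250 4 (by norm_num) ⟨cxr_g_a_0, cxr_g_a_1, cxr_g_a_2, cxr_g_a_3, trivial⟩

theorem cx_g_a : ∀ i, i < 22880 → evalT tab [Gen.g, Gen.a, Gen.g, Gen.a] i = i := by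
  intro i hi
  have h := Nat.eq_of_beq_eq_true (cxr_g_a i hi)
  simp only [evalT_cons', evalT_nil', tab_a, tab_b, tab_c, tab_d, tab_e, tab_f, tab_g]
  exact h

theorem cxr_g_b_0 : allFrom (fun i => Nat.ble 22880 i || Nat.beq (tq_g (tq_b (tq_g (tq_b (tq_g (tq_b i)))))) i) 0 4166 = true := by decide +kernel
theorem cxr_g_b_1 : allFrom (fun i => Nat.ble 22880 i || Nat.beq (tq_g (tq_b (tq_g (tq_b (tq_g (tq_b i)))))) i) 4166 4166 = true := by decide +kernel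
theorem cxr_g_b_2 : allFrom (fun i => Nat.ble 22880 i || Nat.beq (tq_g (tq_b (tq_g (tq_b (tq_g (tq_b i)))))) i) 8332 4166 = true := by decide +kernel
theorem cxr_g_b_3 : allFrom (fun i => Nat.ble 22880 i || Nat.beq (tq_g (tq_b (tq_g (tq_b (tq_g (tq_b i)))))) i) 12498 4166 = true := by decide +kernel
theorem cxr_g_b_4 : allFrom (fun i => Nat.ble 22880 i || Nat.beq (tq_g (tq_b (tq_g (tq_b (tq_g (tq_b i)))))) i) 16664 4166 = true := by decide +kernel
theorem cxr_g_b_5 : allFrom (fun i => Nat.ble 22880 i || Nat.beq (tq_g (tq_b (tq_g (tq_b (tq_g (tq_b i)))))) i) 20830 4166 = true := by decide +kernel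
theorem cxr_g_b : ∀ i, i < 22880 → (Nat.beq (tq_g (tq_b (tq_g (tq_b (tq_g (tq_b i)))))) i) = true :=
  blocks_lt (fun i => Nat.beq (tq_g (tq_b (tq_g (tq_b (tq_g (tq_b i)))))) i) 22880 4166 6 (by norm_num) ⟨cxr_g_b_0, cxr_g_b_1, cxr_g_b_2, cxr_g_b_3, cxr_g_b_4, cxr_g_b_5, trivial⟩

theorem cx_g_b : ∀ i, i < 22880 → evalT tab [Gen.g, Gen.b, Gen.g, Gen.b, Gen.g, Gen.b] i = i := by
  intro i hi
  have h := Nat.eq_of_beq_eq_true (cxr_g_b i hi)
  simp only [evalT_cons', evalT_nil', tab_a, tab_b, tab_c, tab_d, tab_e, tab_f, tab_g]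
  exact h

end Cfsg.Agent.Helper28.SzbA
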