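import Cfsg.Agent.Helper28.SzbEa
import Cfsg.Agent.Helper28.SzbEb
import Cfsg.Agent.Helper28.SzbEc
import Cfsg.Agent.Helper28.SzbEd
import Cfsg.Agent.Helper28.SzbEe
import Cfsg.Agent.Helper28.SzbEf
import Cfsg.Agent.Helper28.SzbEg
import Cfsg.Agent.Helper28.SzbR0
import Cfsg.Agent.Helper28.SzbR1
import Cfsg.Agent.Helper28.SzbR2
import Cfsg.Agent.Helper28.SzbR3
import Cfsg.Agent.Helper28.SzbR4

/-!
# The Suzuki group presentation, cosets of the subgroup generated by a, b, c, d, f, g: the index (helper28; generated)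
-/

set_option autoImplicit false
set_option maxRecDepth 100000
set_option linter.unusedSimpArgs false
set_option linter.constructorNameAsVariable false

noncomputable section

namespace Cfsg.Agent.Helper28.SzbA

open Cfsg.Spor Cfsg.Spor.Suz Cfsg.Agent.Helper28.CosetTable

theorem hcl : ∀ gg i, i < 22880 → gen gg • Qf i = Qf (tab gg i) := by
  intro gg i hi
  cases gg
  · exact (sm_def _ _).symm.trans (cl_a i hi)
  · exact (sm_def _ _).symm.trans (cl_b i hi)
  · exact (sm_def _ _).symm.trans (cl_c i hi)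
  · exact (sm_def _ _).symm.trans (cl_d i hi)
  · exact (sm_def _ _).symm.trans (cl_e i hi)
  · exact (sm_def _ _).symm.trans (cl_f i hi)
  · exact (sm_def _ _).symm.trans (cl_g i hi)

theorem coxP (x y : Gen) : (permOf ht x * permOf ht y) ^ coxLabel edges x y = 1 := by
  rw [pow_eq_prod]
  cases x <;> cases y
  · exact prod_eq_one' ht _ cx_a_a
  · exact prod_eq_one' ht _ cx_a_b
  · exact prod_eq_one' ht _ cx_a_c
  · exact prod_eq_one' ht _ cx_a_d
  · exact prod_eq_one' ht _ cx_a_e
  · exact prod_eq_one' ht _ cx_a_f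
  · exact prod_eq_one' ht _ cx_a_g
  · exact prod_eq_one' ht _ cx_b_a
  · exact prod_eq_one' ht _ cx_b_b
  · exact prod_eq_one' ht _ cx_b_c
  · exact prod_eq_one' ht _ cx_b_d
  · exact prod_eq_one' ht _ cx_b_e
  · exact prod_eq_one' ht _ cx_b_f
  · exact prod_eq_one' ht _ cx_b_g
  · exact prod_eq_one' ht _ cx_c_a
  · exact prod_eq_one' ht _ cx_c_b
  · exact prod_eq_one' ht _ cx_c_c
  · exact prod_eq_one' ht _ cx_c_d
  · exact prod_eq_one' ht _ cx_c_e
  · exact prod_eq_one' ht _ cx_c_f
  · exact prod_eq_one' ht _ cx_c_g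
  · exact prod_eq_one' ht _ cx_d_a
  · exact prod_eq_one' ht _ cx_d_b
  · exact prod_eq_one' ht _ cx_d_c
  · exact prod_eq_one' ht _ cx_d_d
  · exact prod_eq_one' ht _ cx_d_e
  · exact prod_eq_one' ht _ cx_d_f
  · exact prod_eq_one' ht _ cx_d_g
  · exact prod_eq_one' ht _ cx_e_a
  · exact prod_eq_one' ht _ cx_e_b
  · exact prod_eq_one' ht _ cx_e_c
  · exact prod_eq_one' ht _ cx_e_d
  · exact prod_eq_one' ht _ cx_e_e
  · exact prod_eq_one' ht _ cx_e_f
  · exact prod_eq_one' ht _ cx_e_g
  · exact prod_eq_one' ht _ cx_f_a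
  · exact prod_eq_one' ht _ cx_f_b
  · exact prod_eq_one' ht _ cx_f_c
  · exact prod_eq_one' ht _ cx_f_d
  · exact prod_eq_one' ht _ cx_f_e
  · exact prod_eq_one' ht _ cx_f_f
  · exact prod_eq_one' ht _ cx_f_g
  · exact prod_eq_one' ht _ cx_g_a
  · exact prod_eq_one' ht _ cx_g_b
  · exact prod_eq_one' ht _ cx_g_c
  · exact prod_eq_one' ht _ cx_g_d
  · exact prod_eq_one' ht _ cx_g_e
  · exact prod_eq_one' ht _ cx_g_f
  · exact prod_eq_one' ht _ cx_g_g

theorem relsP : ∀ r ∈ rels, FreeGroup.lift (permOf ht) r = 1 := by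
  intro r hr
  rcases hr with ⟨x, -, y, -, rfl⟩ | hr
  · rw [map_pow, map_mul, FreeGroup.lift_apply_of, FreeGroup.lift_apply_of]
    exact coxP x y
  · have hr' : r ∈ extra := hr
    simp only [extra, List.mem_cons, List.not_mem_nil, or_false] at hr'
    rcases hr' with rfl | rfl | rfl | rfl | rfl
    · simp only [map_mul, map_pow, map_inv, FreeGroup.lift_apply_of, pow_succ, pow_zero, one_mul, mul_inv_rev,
        permOf_inv, mul_assoc]
      have h := prod_eq_one' ht [Gen.a, Gen.d, Gen.c, Gen.d, Gen.c, Gen.d, Gen.c, Gen.d, Gen.c] ex_0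
      simpa only [List.map_cons, List.map_nil, List.prod_cons, List.prod_nil, mul_one] using h
    · simp only [map_mul, map_pow, map_inv, FreeGroup.lift_apply_of, pow_succ, pow_zero, one_mul, mul_inv_rev,
        permOf_inv, mul_assoc]
      have h := prod_eq_one' ht [Gen.a, Gen.g, Gen.f, Gen.g, Gen.f] ex_1
      simpa only [List.map_cons, List.map_nil, List.prod_cons, List.prod_nil, mul_one] using h
    · simp only [map_mul, map_pow, map_inv, FreeGroup.lift_apply_of, pow_succ, pow_zero, one_mul, mul_inv_rev,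
        permOf_inv, mul_assoc]
      have h := prod_eq_one' ht [Gen.a, Gen.b, Gen.c, Gen.f, Gen.a, Gen.b, Gen.c, Gen.f, Gen.a, Gen.b, Gen.c, Gen.f, Gen.a, Gen.b, Gen.c, Gen.f, Gen.a, Gen.b, Gen.c, Gen.f] ex_2
      simpa only [List.map_cons, List.map_nil, List.prod_cons, List.prod_nil, mul_one] using h
    · simp only [map_mul, map_pow, map_inv, FreeGroup.lift_apply_of, pow_succ, pow_zero, one_mul, mul_inv_rev,
        permOf_inv, mul_assoc]
      have h := prod_eq_one' ht [Gen.b, Gen.f, Gen.g, Gen.b, Gen.f, Gen.g, Gen.b, Gen.f, Gen.g, Gen.b, Gen.f, Gen.g, Gen.b, Gen.f, Gen.g] ex_3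
      simpa only [List.map_cons, List.map_nil, List.prod_cons, List.prod_nil, mul_one] using h
    · simp only [map_mul, map_pow, map_inv, FreeGroup.lift_apply_of, pow_succ, pow_zero, one_mul, mul_inv_rev,
        permOf_inv, mul_assoc]
      have h := prod_eq_one' ht [Gen.b, Gen.c, Gen.d, Gen.c, Gen.d, Gen.b, Gen.c, Gen.d, Gen.c, Gen.d, Gen.b, Gen.c, Gen.d, Gen.c, Gen.d, Gen.b, Gen.c, Gen.d, Gen.c, Gen.d, Gen.b, Gen.c, Gen.d, Gen.c, Gen.d, Gen.e, Gen.b, Gen.c, Gen.d, Gen.c, Gen.d, Gen.b, Gen.c, Gen.d, Gen.c, Gen.d, Gen.b, Gen.c, Gen.d, Gen.c, Gen.d, Gen.b, Gen.c, Gen.d, Gen.c, Gen.d, Gen.b, Gen.c, Gen.d, Gen.c, Gen.d, Gen.e, Gen.b, Gen.c, Gen.d, Gen.c, Gen.d, Gen.b, Gen.c, Gen.d, Gen.c, Gen.d, Gen.b, Gen.c, Gen.d, Gen.c, Gen.d, Gen.b, Gen.c, Gen.d, Gen.c, Gen.d, Gen.b, Gen.c, Gen.d, Gen.c, Gen.d, Gen.e] ex_4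
      simpa only [List.map_cons, List.map_nil, List.prod_cons, List.prod_nil, mul_one] using h

/-- The permutation representation on the cosets. -/
def phi : Grp →* Equiv.Perm (Fin 22880) := PresentedGroup.toGroup relsP

theorem phi_gen (x : Gen) : phi (gen x) = permOf ht x := PresentedGroup.toGroup.of relsP

theorem phi_mk_of (x : Gen) : phi (PresentedGroup.mk rels (FreeGroup.of x)) = permOf ht x := phi_gen x

theorem hH : ∀ h ∈ H, phi h ⟨0, by norm_num⟩ = ⟨0, by norm_num⟩ := by
  have hle : H ≤ (MulAction.stabilizer (Equiv.Perm (Fin 22880)) (⟨0, by norm_num⟩ : Fin 22880)).comap phi := by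
    rw [H, Subgroup.map_le_iff_le_comap, Subgroup.closure_le]
    intro s hs
    simp only [Set.mem_insert_iff, Set.mem_singleton_iff] at hs
    rcases hs with rfl | rfl | rfl | rfl | rfl | rfl
    · show phi (PresentedGroup.mk rels (a)) ⟨0, _⟩ = ⟨0, _⟩
      simp only [map_mul, map_pow, phi_mk_of, pow_succ, pow_zero, one_mul, mul_assoc]
      have h := prod_apply_mk ht [Gen.a] 0 0 (by norm_num) (by norm_num) (by decide +kernel)
      simpa only [List.map_cons, List.map_nil, List.prod_cons, List.prod_nil, mul_one] using h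
    · show phi (PresentedGroup.mk rels (b)) ⟨0, _⟩ = ⟨0, _⟩
      simp only [map_mul, map_pow, phi_mk_of, pow_succ, pow_zero, one_mul, mul_assoc]
      have h := prod_apply_mk ht [Gen.b] 0 0 (by norm_num) (by norm_num) (by decide +kernel)
      simpa only [List.map_cons, List.map_nil, List.prod_cons, List.prod_nil, mul_one] using h
    · show phi (PresentedGroup.mk rels (c)) ⟨0, _⟩ = ⟨0, _⟩
      simp only [map_mul, map_pow, phi_mk_of, pow_succ, pow_zero, one_mul, mul_assoc]
      have h := prod_apply_mk ht [Gen.c] 0 0 (by norm_num) (by norm_num) (by decide +kernel)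
      simpa only [List.map_cons, List.map_nil, List.prod_cons, List.prod_nil, mul_one] using h
    · show phi (PresentedGroup.mk rels (d)) ⟨0, _⟩ = ⟨0, _⟩
      simp only [map_mul, map_pow, phi_mk_of, pow_succ, pow_zero, one_mul, mul_assoc]
      have h := prod_apply_mk ht [Gen.d] 0 0 (by norm_num) (by norm_num) (by decide +kernel)
      simpa only [List.map_cons, List.map_nil, List.prod_cons, List.prod_nil, mul_one] using h
    · show phi (PresentedGroup.mk rels (f)) ⟨0, _⟩ = ⟨0, _⟩
      simp only [map_mul, map_pow, phi_mk_of, pow_succ, pow_zero, one_mul, mul_assoc]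
      have h := prod_apply_mk ht [Gen.f] 0 0 (by norm_num) (by norm_num) (by decide +kernel)
      simpa only [List.map_cons, List.map_nil, List.prod_cons, List.prod_nil, mul_one] using h
    · show phi (PresentedGroup.mk rels (g)) ⟨0, _⟩ = ⟨0, _⟩
      simp only [map_mul, map_pow, phi_mk_of, pow_succ, pow_zero, one_mul, mul_assoc]
      have h := prod_apply_mk ht [Gen.g] 0 0 (by norm_num) (by norm_num) (by decide +kernel)
      simpa only [List.map_cons, List.map_nil, List.prod_cons, List.prod_nil, mul_one] using h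
  intro h hh
  exact hle hh

theorem hgen : Subgroup.closure (Set.range gen) = ⊤ := PresentedGroup.closure_range_of rels

theorem h0 : Qf 0 = ((1 : Grp) : Q) := rfl

theorem hphi : ∀ gg (i : Fin 22880), ((phi (gen gg) i : Fin 22880) : ℕ) = tab gg i := by
  intro gg i
  rw [phi_gen]
  rfl

/-- The index of the subgroup. -/
theorem index_H : H.index = 22880 :=
  (index_eq hgen (by norm_num) h0 ht hcl phi hH hphi hpar).1

theorem psi_bij : Function.Bijective (psi H (by norm_num) phi hH) :=
  (index_eq hgen (by norm_num) h0 ht hcl phi hH hphi hpar).2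

end Cfsg.Agent.Helper28.SzbA
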