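import Mathlib
import Cfsg.Prelude.Def_SporadicCombinatorics
import Cfsg.Agent.Helper12.GolayMore
import Cfsg.Agent.Helper28.Trio
import Cfsg.Agent.Helper28.SxStab
import Cfsg.Agent.Helper28.Orb5
import Cfsg.Agent.Helper28.TrStabData

/-!
The stabilizer of the first trio and its orbits on octads, sextets and trios.
-/

set_option autoImplicit false

namespace Cfsg.Agent.Helper28.TrStab

open Cfsg Cfsg.Agent.Helper12 Cfsg.Agent.Helper28.Sext Cfsg.Agent.Helper28.Trio
open Cfsg.Agent.Helper28.SxStab Cfsg.Agent.Helper28.Orb5 Cfsg.Agent.Helper28.TrStabData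
open scoped Pointwise

theorem tg_sys : sysOK tgG tgQ 2 = true := by decide +kernel
theorem tg_m24 : sysM24 tgG 2 = true := by decide +kernel
theorem tg_fix : allB 2 (fun j => anyB 3 (fun i => Nat.beq (trm 0 i) (sysAct tgG j (trm 0 0))) &&
    anyB 3 (fun i => Nat.beq (trm 0 i) (sysAct tgG j (trm 0 1)))) = true := by decide +kernel

/-- the generators of the stabilizer of the first trio, as elements of the group -/
def tgen (j : ℕ) : ↥M24 := ⟨genOf tgG tgQ 2 tg_sys j, genOf_mem_M24 tgG tgQ 2 tg_sys tg_m24 j⟩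

theorem tgen_mem (j : ℕ) : tgen j ∈ MulAction.stabilizer ↥M24 (tr 0) :=
  tr_fix tgG tgQ 2 tg_sys tg_m24 0 (by norm_num) tg_fix j

theorem o_img : ocImgOK tgG oIM 2 = true := by decide +kernel
theorem o_cert : certI (ocAct oIM) 2 oPA oTA oRT oRK 759 = true := by decide +kernel
def oRoot (c : ℕ) : ℕ := bif Nat.beq c 5764803 then 0 else bif Nat.beq c 2499 then 1 else 18
theorem o_root : allB 759 (fun k => Nat.beq (get24 oRT k)
    (oRoot (inv2c w7 wid 1 (fun _ => get24 OA k) 3 (trm 0)))) = true := by decide +kernel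
theorem o_cnt : cntB 759 (fun k => Nat.beq (get24 oRT k) 0) = 3 ∧
    cntB 759 (fun k => Nat.beq (get24 oRT k) 18) = 84 ∧
    cntB 759 (fun k => Nat.beq (get24 oRT k) 1) = 672 := by decide +kernel
theorem o_all : allB 759 (fun k => Nat.beq (get24 oRT k) 0 || Nat.beq (get24 oRT k) 18 ||
    Nat.beq (get24 oRT k) 1) = true := by decide +kernel

theorem octads_T0 : ∃ X₁ ∈ octads, ∃ X₂ ∈ octads, ∃ X₃ ∈ octads,
    (MulAction.orbit ↥(MulAction.stabilizer ↥M24 (tr 0)) X₁).ncard = 3 ∧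
    (MulAction.orbit ↥(MulAction.stabilizer ↥M24 (tr 0)) X₂).ncard = 84 ∧
    (MulAction.orbit ↥(MulAction.stabilizer ↥M24 (tr 0)) X₃).ncard = 672 ∧
    octads = MulAction.orbit ↥(MulAction.stabilizer ↥M24 (tr 0)) X₁ ∪
      MulAction.orbit ↥(MulAction.stabilizer ↥M24 (tr 0)) X₂ ∪
      MulAction.orbit ↥(MulAction.stabilizer ↥M24 (tr 0)) X₃ := by
  have hcert := orbit_certI (MulAction.stabilizer ↥M24 (tr 0)) oc tgen (ocAct oIM) 2
    (fun j _ => tgen_mem j) 759
    (fun j hj m hm => (oc_smul tgG tgQ 2 tg_sys oIM o_img hj hm).1) oPA oTA oRT oRK o_cert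
  have hsep := sep_of_inv (MulAction.stabilizer ↥M24 (tr 0)) oc 759 octads
    (fun g _ x hx => (smul_mem_octads g.2).2 hx)
    (fun k hk => OA_mem hk) (fun x hx => (mem_octads_iff x).1 hx)
    (fun o => inv2 w7 wid {o} (tr 0))
    (fun g hg x _ => by
      have := inv2_left (B := tr 0) (g := (g : Equiv.Perm GolayPt)) hg w7 wid {x}
      rw [Finset.smul_finset_singleton] at this
      exact this)
    (fun k => inv2c w7 wid 1 (fun _ => get24 OA k) 3 (trm 0))
    (fun k hk => by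
      rw [oc, ← fam_one]; exact inv2_fam w7 wid (injOn_one _) (tr_injOn (by norm_num)))
    (fun k => get24 oRT k) oRoot (fun k hk => Nat.eq_of_beq_eq_true (allB_spec o_root k hk))
  exact three_orbits (MulAction.stabilizer ↥M24 (tr 0)) oc 759 octads (fun k hk => OA_mem hk)
    (fun x hx => (mem_octads_iff x).1 hx) oc_inj (fun k => get24 oRT k) hcert hsep 0 18 1 3 84 672
    (by norm_num) (by norm_num) (by norm_num) (by decide +kernel) (by decide +kernel)
    (by decide +kernel) o_cnt.1 o_cnt.2.1 o_cnt.2.2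
    (fun k hk => by
      have := or3 (allB_spec o_all k hk)
      simpa only [Nat.beq_eq] using this)

theorem s_img : sxImgOK tgG sIM 2 = true := by decide +kernel
theorem s_cert : certI (sxAct sIM) 2 sPA sTA sRT sRK 1771 = true := by decide +kernel
def sRoot (c : ℕ) : ℕ := bif Nat.beq c 23176044 then 0 else bif Nat.beq c 69292908 then 3 else
  bif Nat.beq c 324972 then 4 else 42
theorem s_root : allB 1771 (fun k => Nat.beq (get24 sRT k)
    (sRoot (inv2c w7 wsq 3 (trm 0) 6 (sxm k)))) = true := by decide +kernel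
theorem s_cnt : cntB 1771 (fun k => Nat.beq (get24 sRT k) 3) = 7 ∧
    cntB 1771 (fun k => Nat.beq (get24 sRT k) 0) = 84 ∧
    cntB 1771 (fun k => Nat.beq (get24 sRT k) 42) = 336 ∧
    cntB 1771 (fun k => Nat.beq (get24 sRT k) 4) = 1344 := by decide +kernel
theorem s_all : allB 1771 (fun k => Nat.beq (get24 sRT k) 3 || Nat.beq (get24 sRT k) 0 ||
    Nat.beq (get24 sRT k) 42 || Nat.beq (get24 sRT k) 4) = true := by decide +kernel

theorem sextets_T0 : ∃ X₁ ∈ sextets, ∃ X₂ ∈ sextets, ∃ X₃ ∈ sextets, ∃ X₄ ∈ sextets,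
    (MulAction.orbit ↥(MulAction.stabilizer ↥M24 (tr 0)) X₁).ncard = 7 ∧
    (MulAction.orbit ↥(MulAction.stabilizer ↥M24 (tr 0)) X₂).ncard = 84 ∧
    (MulAction.orbit ↥(MulAction.stabilizer ↥M24 (tr 0)) X₃).ncard = 336 ∧
    (MulAction.orbit ↥(MulAction.stabilizer ↥M24 (tr 0)) X₄).ncard = 1344 ∧
    sextets = MulAction.orbit ↥(MulAction.stabilizer ↥M24 (tr 0)) X₁ ∪
      MulAction.orbit ↥(MulAction.stabilizer ↥M24 (tr 0)) X₂ ∪
      MulAction.orbit ↥(MulAction.stabilizer ↥M24 (tr 0)) X₃ ∪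
      MulAction.orbit ↥(MulAction.stabilizer ↥M24 (tr 0)) X₄ := by
  have hcert := orbit_certI (MulAction.stabilizer ↥M24 (tr 0)) sx tgen (sxAct sIM) 2
    (fun j _ => tgen_mem j) 1771
    (fun j hj m hm => (sx_smul tgG tgQ 2 tg_sys tg_m24 sIM s_img hj hm).1) sPA sTA sRT sRK s_cert
  have hsep := sep_of_inv (MulAction.stabilizer ↥M24 (tr 0)) sx 1771 sextets
    (fun g _ x hx => smul_sextet g.2 hx)
    (fun k hk => sx_mem hk) (fun x hx => sx_complete hx)
    (fun S => inv2 w7 wsq (tr 0) S)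
    (fun g hg x _ => inv2_right (A := tr 0) (g := (g : Equiv.Perm GolayPt)) hg w7 wsq x)
    (fun k => inv2c w7 wsq 3 (trm 0) 6 (sxm k))
    (fun k hk => inv2_fam w7 wsq (tr_injOn (by norm_num)) (sx_injOn hk))
    (fun k => get24 sRT k) sRoot (fun k hk => Nat.eq_of_beq_eq_true (allB_spec s_root k hk))
  exact four_orbits (MulAction.stabilizer ↥M24 (tr 0)) sx 1771 sextets (fun k hk => sx_mem hk)
    (fun x hx => sx_complete hx) sx_inj (fun k => get24 sRT k) hcert hsep 3 0 42 4 7 84 336 1344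
    (by norm_num) (by norm_num) (by norm_num) (by norm_num) (by decide +kernel)
    (by decide +kernel) (by decide +kernel) (by decide +kernel)
    s_cnt.1 s_cnt.2.1 s_cnt.2.2.1 s_cnt.2.2.2
    (fun k hk => by
      have := or4 (allB_spec s_all k hk)
      simpa only [Nat.beq_eq] using this)

theorem t_img : trImgOK tgG tIM 2 = true := by decide +kernel
theorem t_cert : certI (trAct tIM) 2 tPA tTA tRT tRK 3795 = true := by decide +kernel
def tRoot (c : ℕ) : ℕ := bif Nat.beq c 17294409 then 0 else bif Nat.beq c 5774409 then 1 else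
  bif Nat.beq c 7497 then 15 else bif Nat.beq c 9801 then 16 else 138
theorem t_root : allB 3795 (fun k => Nat.beq (get24 tRT k)
    (tRoot (inv2c w7 wid 3 (trm k) 3 (trm 0)))) = true := by decide +kernel
theorem t_cnt : cntB 3795 (fun k => Nat.beq (get24 tRT k) 0) = 1 ∧
    cntB 3795 (fun k => Nat.beq (get24 tRT k) 1) = 42 ∧
    cntB 3795 (fun k => Nat.beq (get24 tRT k) 138) = 56 ∧
    cntB 3795 (fun k => Nat.beq (get24 tRT k) 16) = 1008 ∧
    cntB 3795 (fun k => Nat.beq (get24 tRT k) 15) = 2688 := by decide +kernel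
theorem t_all : allB 3795 (fun k => Nat.beq (get24 tRT k) 0 || Nat.beq (get24 tRT k) 1 ||
    Nat.beq (get24 tRT k) 138 || Nat.beq (get24 tRT k) 16 || Nat.beq (get24 tRT k) 15) = true := by
  decide +kernel

theorem trios_T0 : ∃ X₁ ∈ trios, ∃ X₂ ∈ trios, ∃ X₃ ∈ trios, ∃ X₄ ∈ trios, ∃ X₅ ∈ trios,
    (MulAction.orbit ↥(MulAction.stabilizer ↥M24 (tr 0)) X₁).ncard = 1 ∧
    (MulAction.orbit ↥(MulAction.stabilizer ↥M24 (tr 0)) X₂).ncard = 42 ∧
    (MulAction.orbit ↥(MulAction.stabilizer ↥M24 (tr 0)) X₃).ncard = 56 ∧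
    (MulAction.orbit ↥(MulAction.stabilizer ↥M24 (tr 0)) X₄).ncard = 1008 ∧
    (MulAction.orbit ↥(MulAction.stabilizer ↥M24 (tr 0)) X₅).ncard = 2688 ∧
    trios = MulAction.orbit ↥(MulAction.stabilizer ↥M24 (tr 0)) X₁ ∪
      MulAction.orbit ↥(MulAction.stabilizer ↥M24 (tr 0)) X₂ ∪
      MulAction.orbit ↥(MulAction.stabilizer ↥M24 (tr 0)) X₃ ∪
      MulAction.orbit ↥(MulAction.stabilizer ↥M24 (tr 0)) X₄ ∪
      MulAction.orbit ↥(MulAction.stabilizer ↥M24 (tr 0)) X₅ := by
  have hcert := orbit_certI (MulAction.stabilizer ↥M24 (tr 0)) tr tgen (trAct tIM) 2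
    (fun j _ => tgen_mem j) 3795
    (fun j hj m hm => (tr_smul tgG tgQ 2 tg_sys tg_m24 tIM t_img hj hm).1) tPA tTA tRT tRK t_cert
  have hsep := sep_of_inv (MulAction.stabilizer ↥M24 (tr 0)) tr 3795 trios
    (fun g _ x hx => smul_trio g.2 hx)
    (fun k hk => tr_mem hk) (fun x hx => tr_complete hx)
    (fun T => inv2 w7 wid T (tr 0))
    (fun g hg x _ => inv2_left (B := tr 0) (g := (g : Equiv.Perm GolayPt)) hg w7 wid x)
    (fun k => inv2c w7 wid 3 (trm k) 3 (trm 0))
    (fun k hk => inv2_fam w7 wid (tr_injOn hk) (tr_injOn (by norm_num)))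
    (fun k => get24 tRT k) tRoot (fun k hk => Nat.eq_of_beq_eq_true (allB_spec t_root k hk))
  exact five_orbits (MulAction.stabilizer ↥M24 (tr 0)) tr 3795 trios (fun k hk => tr_mem hk)
    (fun x hx => tr_complete hx) tr_inj (fun k => get24 tRT k) hcert hsep 0 1 138 16 15
    1 42 56 1008 2688
    (by norm_num) (by norm_num) (by norm_num) (by norm_num) (by norm_num) (by decide +kernel)
    (by decide +kernel) (by decide +kernel) (by decide +kernel) (by decide +kernel)
    t_cnt.1 t_cnt.2.1 t_cnt.2.2.1 t_cnt.2.2.2.1 t_cnt.2.2.2.2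
    (fun k hk => by
      have := or5 (allB_spec t_all k hk)
      simpa only [Nat.beq_eq] using this)

end Cfsg.Agent.Helper28.TrStab
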