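import Mathlib

set_option autoImplicit false

namespace Cfsg.Agent.Helper28.Witt

/-- the mask `i` is contained in the mask `m` -/
def cov (i m : ℕ) : Bool := decide (Nat.land i m = i)

/-- number of set bits among the lowest `n` bits -/
def popc : ℕ → ℕ → ℕ
  | 0, _ => 0
  | n + 1, m => popc n m + (bif Nat.testBit m n then 1 else 0)

/-- exact-cover search: always branch on the first uncovered item -/
def solve (pc : ℕ → ℕ → Bool) (cands : List ℕ) : ℕ → List ℕ → List ℕ → List (List ℕ)
  | _, [], sel => [sel]
  | 0, _ :: _, _ => []
  | fuel + 1, i :: rest, sel =>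
      (cands.filter (fun c => cov i c && sel.all (fun d => pc c d))).flatMap
        (fun c => solve pc cands fuel (rest.filter (fun j => !cov j c)) (c :: sel))

theorem solve_nil (pc : ℕ → ℕ → Bool) (cands : List ℕ) (fuel : ℕ) (sel : List ℕ) :
    solve pc cands fuel [] sel = [sel] := by
  cases fuel <;> rfl

theorem solve_cons (pc : ℕ → ℕ → Bool) (cands : List ℕ) (fuel i : ℕ) (rest sel : List ℕ) :
    solve pc cands (fuel + 1) (i :: rest) sel =
      (cands.filter (fun c => cov i c && sel.all (fun d => pc c d))).flatMap
        (fun c => solve pc cands fuel (rest.filter (fun j => !cov j c)) (c :: sel)) := rfl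

theorem solve_base (Q : ℕ → Prop) (items0 : List ℕ)
    (huniq : ∀ i ∈ items0, ∀ m m', Q m → Q m' → cov i m = true → cov i m' = true → m = m')
    (hne : ∀ m, Q m → ∃ i ∈ items0, cov i m = true)
    (sel : List ℕ) (hsel : ∀ c ∈ sel, Q c)
    (hall : ∀ i ∈ items0, (∀ c ∈ sel, cov i c = false) → i ∈ ([] : List ℕ)) :
    ∀ m, Q m ↔ m ∈ sel := by
  intro m
  constructor
  · intro hm
    by_contra hms
    obtain ⟨i, hi, him⟩ := hne m hm
    have h1 : i ∈ ([] : List ℕ) := hall i hi (by
      intro c hc
      by_contra hcc
      have hcov : cov i c = true := by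
        cases h : cov i c
        · exact absurd h hcc
        · rfl
      have hmc := huniq i hi m c hm (hsel c hc) him hcov
      exact hms (by rw [hmc]; exact hc))
    simp at h1
  · exact hsel m

theorem solve_complete (pc : ℕ → ℕ → Bool) (cands : List ℕ) (Q : ℕ → Prop)
    (items0 : List ℕ)
    (hQc : ∀ m, Q m → m ∈ cands)
    (hpc : ∀ m m', Q m → Q m' → m ≠ m' → pc m m' = true)
    (hex : ∀ i ∈ items0, ∃ m, Q m ∧ cov i m = true)
    (huniq : ∀ i ∈ items0, ∀ m m', Q m → Q m' → cov i m = true → cov i m' = true → m = m')
    (hne : ∀ m, Q m → ∃ i ∈ items0, cov i m = true) :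
    ∀ (fuel : ℕ) (items sel : List ℕ), items.length ≤ fuel →
      (∀ c ∈ sel, Q c) →
      (∀ i ∈ items, i ∈ items0 ∧ ∀ c ∈ sel, cov i c = false) →
      (∀ i ∈ items0, (∀ c ∈ sel, cov i c = false) → i ∈ items) →
      ∃ s ∈ solve pc cands fuel items sel, ∀ m, Q m ↔ m ∈ s := by
  intro fuel
  induction fuel with
  | zero =>
    intro items sel hlen hsel hit hall
    cases items with
    | nil =>
      exact ⟨sel, by rw [solve_nil]; exact List.mem_singleton.mpr rfl,
        solve_base Q items0 huniq hne sel hsel hall⟩
    | cons i rest => simp at hlen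
  | succ fuel ih =>
    intro items sel hlen hsel hit hall
    cases items with
    | nil =>
      exact ⟨sel, by rw [solve_nil]; exact List.mem_singleton.mpr rfl,
        solve_base Q items0 huniq hne sel hsel hall⟩
    | cons i rest =>
      have hi := hit i List.mem_cons_self
      obtain ⟨m, hm, him⟩ := hex i hi.1
      have hms : m ∉ sel := fun h => by
        have h2 := hi.2 m h
        rw [him] at h2
        exact Bool.noConfusion h2
      have hfilt : m ∈ cands.filter (fun c => cov i c && sel.all (fun d => pc c d)) := by
        rw [List.mem_filter]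
        refine ⟨hQc m hm, ?_⟩
        rw [Bool.and_eq_true]
        refine ⟨him, ?_⟩
        rw [List.all_eq_true]
        intro d hd
        exact hpc m d hm (hsel d hd) (fun h => hms (h ▸ hd))
      obtain ⟨s, hs, hQs⟩ := ih (rest.filter (fun j => !cov j m)) (m :: sel)
        (by
          have h1 := List.length_filter_le (fun j => !cov j m) rest
          simp only [List.length_cons] at hlen
          omega)
        (by
          intro c hc
          rcases List.mem_cons.mp hc with h | hc
          · rw [h]; exact hm
          · exact hsel c hc)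
        (by
          intro j hj
          rw [List.mem_filter] at hj
          have hj' := hit j (List.mem_cons_of_mem _ hj.1)
          refine ⟨hj'.1, ?_⟩
          intro c hc
          rcases List.mem_cons.mp hc with h | hc
          · rw [h]; simpa using hj.2
          · exact hj'.2 c hc)
        (by
          intro j hj hjc
          have hjm : cov j m = false := hjc m List.mem_cons_self
          have hj2 : j ∈ i :: rest := hall j hj (fun c hc => hjc c (List.mem_cons_of_mem _ hc))
          rw [List.mem_filter]
          refine ⟨?_, by simp [hjm]⟩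
          rcases List.mem_cons.mp hj2 with h | h
          · rw [h, him] at hjm; exact Bool.noConfusion hjm
          · exact h)
      refine ⟨s, ?_, hQs⟩
      rw [solve_cons, List.mem_flatMap]
      exact ⟨m, hfilt, hs⟩

end Cfsg.Agent.Helper28.Witt
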