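import Cfsg.Agent.Helper28.WittA
import Cfsg.Agent.S0351

set_option autoImplicit false

namespace Cfsg.Agent.Helper28.Witt

/-- the subset of `Fin N` with bitmask `m` -/
def um (N : ℕ) (m : ℕ) : Finset (Fin N) := Finset.univ.filter (fun i => m.testBit i.val = true)

/-- the set system whose blocks have the bitmasks in `L` -/
def Sys (N : ℕ) (L : List ℕ) : Set (Finset (Fin N)) := {b | ∃ m ∈ L, b = um N m}

theorem mem_um {N m : ℕ} {x : Fin N} : x ∈ um N m ↔ m.testBit x.val = true := by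
  simp [um]

theorem popc_eq (N m : ℕ) :
    popc N m = ∑ i ∈ Finset.range N, if m.testBit i = true then 1 else 0 := by
  induction N with
  | zero => rfl
  | succ n ih =>
    rw [Finset.sum_range_succ, ← ih]
    show popc n m + (bif Nat.testBit m n then 1 else 0) = _
    cases Nat.testBit m n <;> simp

theorem card_um (N m : ℕ) : (um N m).card = popc N m := by
  rw [popc_eq, um, Finset.card_filter]
  exact Fin.sum_univ_eq_sum_range (fun i => if m.testBit i = true then 1 else 0) N

theorem um_land (N a b : ℕ) : um N (Nat.land a b) = um N a ∩ um N b := by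
  ext x
  rw [Finset.mem_inter, mem_um, mem_um, mem_um]
  show (a &&& b).testBit x.val = true ↔ _
  rw [Nat.testBit_and, Bool.and_eq_true]

theorem um_surj {N : ℕ} (s : Finset (Fin N)) : ∃ M, M < 2 ^ N ∧ um N M = s := by
  refine ⟨Nat.ofBits (fun i => decide (i ∈ s)), Nat.ofBits_lt_two_pow _, ?_⟩
  ext x
  rw [mem_um, Nat.testBit_ofBits_lt _ _ x.2]
  simp

theorem um_inj {N a b : ℕ} (ha : a < 2 ^ N) (hb : b < 2 ^ N) (h : um N a = um N b) : a = b := by
  apply Nat.eq_of_testBit_eq
  intro i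
  by_cases hi : i < N
  · have h1 := Finset.ext_iff.mp h ⟨i, hi⟩
    rw [mem_um, mem_um] at h1
    exact Bool.eq_iff_iff.mpr h1
  · have h2 : (2:ℕ) ^ N ≤ 2 ^ i := Nat.pow_le_pow_right (by norm_num) (by omega)
    rw [Nat.testBit_lt_two_pow (lt_of_lt_of_le ha h2),
      Nat.testBit_lt_two_pow (lt_of_lt_of_le hb h2)]

theorem cov_iff {i m : ℕ} : cov i m = true ↔ Nat.land i m = i := by
  unfold cov
  exact decide_eq_true_iff

theorem cov_sub {N i m : ℕ} (h : cov i m = true) : um N i ⊆ um N m := by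
  rw [cov_iff] at h
  rw [← h, um_land]
  exact Finset.inter_subset_right

theorem sub_cov {N i m : ℕ} (hi : i < 2 ^ N) (h : um N i ⊆ um N m) : cov i m = true := by
  rw [cov_iff]
  have hle : Nat.land i m ≤ i := Nat.and_le_left
  apply um_inj (lt_of_le_of_lt hle hi) hi
  rw [um_land]
  exact Finset.inter_eq_left.mpr h

theorem last_not_mem {n m : ℕ} (hm : m < 2 ^ n) : Fin.last n ∉ um (n + 1) m := by
  rw [mem_um]
  simp [Nat.testBit_lt_two_pow hm]

theorem mem_um_add {n m : ℕ} (hm : m < 2 ^ n) (x : Fin (n + 1)) :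
    x ∈ um (n + 1) (m + 2 ^ n) ↔ x = Fin.last n ∨ x ∈ um (n + 1) m := by
  rw [mem_um, mem_um, Nat.add_comm]
  by_cases hx : x = Fin.last n
  · subst hx
    simp [Nat.testBit_two_pow_add_eq, Nat.testBit_lt_two_pow hm]
  · have hlt : x.val < n := by
      have h1 := x.2
      have h2 : x.val ≠ n := fun h => hx (Fin.ext h)
      omega
    rw [Nat.testBit_two_pow_add_gt hlt]
    simp [hx]

theorem steiner_image {α β : Type*} [DecidableEq α] [DecidableEq β] {t k : ℕ}
    {B : Set (Finset α)} (hB : Cfsg.IsSteinerSystem t k B) (f : α ≃ β) :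
    Cfsg.IsSteinerSystem t k ((fun b => b.image f) '' B) := by
  constructor
  · rintro _ ⟨b, hb, rfl⟩
    rw [Finset.card_image_of_injective _ f.injective]
    exact hB.1 b hb
  · intro s hs
    have hs' : (s.image f.symm).card = t := by
      rw [Finset.card_image_of_injective _ f.symm.injective, hs]
    obtain ⟨b, ⟨hb, hsb⟩, huniq⟩ := hB.2 _ hs'
    refine ⟨b.image f, ⟨⟨b, hb, rfl⟩, ?_⟩, ?_⟩
    · intro y hy
      rw [Finset.mem_image]
      exact ⟨f.symm y, hsb (Finset.mem_image_of_mem _ hy), f.apply_symm_apply y⟩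
    · rintro _ ⟨⟨c, hc, rfl⟩, hsc⟩
      have hcb : c = b := huniq c ⟨hc, by
        intro x hx
        rw [Finset.mem_image] at hx
        obtain ⟨y, hy, rfl⟩ := hx
        have h1 := hsc hy
        rw [Finset.mem_image] at h1
        obtain ⟨z, hz, hzy⟩ := h1
        rw [← hzy, f.symm_apply_apply]
        exact hz⟩
      rw [hcb]

def candsOf (n k : ℕ) (L : List ℕ) : List ℕ :=
  (List.range (2 ^ n)).filter
    (fun m => decide (popc (n + 1) m = k + 1) && L.all (fun b => !cov b m))

def itemsOf (n t : ℕ) (L : List ℕ) : List ℕ :=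
  (List.range (2 ^ n)).filter
    (fun i => decide (popc (n + 1) i = t + 1) && L.all (fun b => !cov i b))

def pcOf (n t : ℕ) (m m' : ℕ) : Bool := decide (popc (n + 1) (Nat.land m m') ≤ t)

def solsOf (n t k : ℕ) (L : List ℕ) : List (List ℕ) :=
  solve (pcOf n t) (candsOf n k L) (itemsOf n t L).length (itemsOf n t L) []

theorem step {n t k : ℕ} (htk : t < k) {L : List ℕ} (hL : ∀ b ∈ L, b < 2 ^ n)
    (hLk : ∀ b ∈ L, popc (n + 1) b = k)
    {B : Set (Finset (Fin (n + 1)))} (hB : Cfsg.IsSteinerSystem (t + 1) (k + 1) B)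
    (hD : ∀ m, m < 2 ^ n → (um (n + 1) (m + 2 ^ n) ∈ B ↔ m ∈ L)) :
    ∃ s ∈ solsOf n t k L, ∀ m, (m < 2 ^ n ∧ um (n + 1) m ∈ B) ↔ m ∈ s := by
  have hpow : (2:ℕ) ^ (n + 1) = 2 ^ n + 2 ^ n := by rw [pow_succ]; ring
  have hlt : ∀ m, m < 2 ^ n → m < 2 ^ (n + 1) := fun m hm => by rw [hpow]; omega
  have blk_eq : ∀ {b c T : Finset (Fin (n + 1))}, b ∈ B → c ∈ B → T ⊆ b → T ⊆ c →
      T.card = t + 1 → b = c := fun hb hc hTb hTc hT =>
    (hB.2 _ hT).unique ⟨hb, hTb⟩ ⟨hc, hTc⟩
  have hbl : ∀ b ∈ L, um (n + 1) (b + 2 ^ n) ∈ B := fun b hb => (hD b (hL b hb)).mpr hb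
  have hsubadd : ∀ m, m < 2 ^ n → um (n + 1) m ⊆ um (n + 1) (m + 2 ^ n) := fun m hm x hx =>
    (mem_um_add hm x).mpr (Or.inr hx)
  have hlastadd : ∀ m, m < 2 ^ n → Fin.last n ∈ um (n + 1) (m + 2 ^ n) := fun m hm =>
    (mem_um_add hm _).mpr (Or.inl rfl)
  -- a block avoiding `last` contains no old block, nor shares t+1 points with one
  have F2 : ∀ b ∈ L, ∀ m, m < 2 ^ n → um (n + 1) m ∈ B → ∀ T : Finset (Fin (n + 1)),
      T.card = t + 1 → T ⊆ um (n + 1) b → T ⊆ um (n + 1) m → False := by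
    intro b hb m hm hmB T hT hTb hTm
    have h1 := blk_eq hmB (hbl b hb) hTm (hTb.trans (hsubadd b (hL b hb))) hT
    have h2 := hlastadd b (hL b hb)
    rw [← h1] at h2
    exact last_not_mem hm h2
  have hcomplete := solve_complete (pcOf n t) (candsOf n k L)
    (fun m => m < 2 ^ n ∧ um (n + 1) m ∈ B) (itemsOf n t L)
    (by
      rintro m ⟨hm, hmB⟩
      unfold candsOf
      rw [List.mem_filter, List.mem_range, Bool.and_eq_true, decide_eq_true_iff,
        List.all_eq_true]
      refine ⟨hm, by rw [← card_um]; exact hB.1 _ hmB, ?_⟩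
      intro b hb
      cases hc : cov b m
      · rfl
      · exfalso
        have hbk : (um (n + 1) b).card = k := by rw [card_um]; exact hLk b hb
        obtain ⟨T, hTb, hT⟩ := Finset.exists_subset_card_eq
          (by rw [hbk]; omega : t + 1 ≤ (um (n + 1) b).card)
        exact F2 b hb m hm hmB T hT hTb (hTb.trans (cov_sub hc)))
    (by
      rintro m m' ⟨hm, hmB⟩ ⟨hm', hmB'⟩ hne
      unfold pcOf
      rw [decide_eq_true_iff]
      by_contra hgt
      have hc : t + 1 ≤ (um (n + 1) m ∩ um (n + 1) m').card := by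
        rw [← um_land, card_um]; omega
      obtain ⟨T, hTs, hT⟩ := Finset.exists_subset_card_eq hc
      have h1 := blk_eq hmB hmB' (hTs.trans Finset.inter_subset_left)
        (hTs.trans Finset.inter_subset_right) hT
      exact hne (um_inj (hlt m hm) (hlt m' hm') h1))
    (by
      intro i hi
      unfold itemsOf at hi
      rw [List.mem_filter, List.mem_range, Bool.and_eq_true, decide_eq_true_iff,
        List.all_eq_true] at hi
      obtain ⟨hin, hi1, hi2⟩ := hi
      have hcard : (um (n + 1) i).card = t + 1 := by rw [card_um]; exact hi1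
      obtain ⟨c, ⟨hc, hic⟩, -⟩ := hB.2 _ hcard
      obtain ⟨M, hM, rfl⟩ := um_surj c
      by_cases hMn : M < 2 ^ n
      · exact ⟨M, ⟨hMn, hc⟩, sub_cov (hlt i hin) hic⟩
      · exfalso
        have hm : M - 2 ^ n < 2 ^ n := by rw [hpow] at hM; omega
        have hMeq : M - 2 ^ n + 2 ^ n = M := by omega
        have hmL : M - 2 ^ n ∈ L := by
          rw [← hD _ hm, hMeq]; exact hc
        have hcov : cov i (M - 2 ^ n) = true := by
          apply sub_cov (hlt i hin)
          intro x hx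
          have h1 := hic hx
          rw [← hMeq, mem_um_add hm] at h1
          rcases h1 with h1 | h1
          · rw [h1] at hx
            exact absurd hx (last_not_mem hin)
          · exact h1
        have h3 := hi2 _ hmL
        rw [hcov] at h3
        exact Bool.noConfusion h3)
    (by
      rintro i hi m m' ⟨hm, hmB⟩ ⟨hm', hmB'⟩ hc hc'
      unfold itemsOf at hi
      rw [List.mem_filter, List.mem_range, Bool.and_eq_true, decide_eq_true_iff,
        List.all_eq_true] at hi
      obtain ⟨hin, hi1, hi2⟩ := hi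
      have hcard : (um (n + 1) i).card = t + 1 := by rw [card_um]; exact hi1
      exact um_inj (hlt m hm) (hlt m' hm') (blk_eq hmB hmB' (cov_sub hc) (cov_sub hc') hcard))
    (by
      rintro m ⟨hm, hmB⟩
      have hmk : (um (n + 1) m).card = k + 1 := hB.1 _ hmB
      obtain ⟨T, hTm, hT⟩ := Finset.exists_subset_card_eq
        (by rw [hmk]; omega : t + 1 ≤ (um (n + 1) m).card)
      obtain ⟨i, hi, rfl⟩ := um_surj T
      have hcov : cov i m = true := sub_cov hi hTm
      have hile : i ≤ m := by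
        have h1 := cov_iff.mp hcov
        have h2 : Nat.land i m ≤ m := Nat.and_le_right
        omega
      refine ⟨i, ?_, hcov⟩
      unfold itemsOf
      rw [List.mem_filter, List.mem_range, Bool.and_eq_true, decide_eq_true_iff,
        List.all_eq_true]
      refine ⟨by omega, by rw [← card_um]; exact hT, ?_⟩
      intro b hb
      cases hc : cov i b
      · rfl
      · exfalso
        exact F2 b hb m hm hmB _ hT (cov_sub hc) hTm)
  exact hcomplete (itemsOf n t L).length (itemsOf n t L) [] le_rfl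
    (fun c hc => absurd hc (List.not_mem_nil))
    (fun i hi => ⟨hi, fun c hc => absurd hc (List.not_mem_nil)⟩)
    (fun i hi _ => hi)

theorem step_sys {n t k : ℕ} (htk : t < k) {L : List ℕ} (hL : ∀ b ∈ L, b < 2 ^ n)
    (hLk : ∀ b ∈ L, popc (n + 1) b = k)
    {B : Set (Finset (Fin (n + 1)))} (hB : Cfsg.IsSteinerSystem (t + 1) (k + 1) B)
    (hD : ∀ m, m < 2 ^ n → (um (n + 1) (m + 2 ^ n) ∈ B ↔ m ∈ L)) :
    ∃ s ∈ solsOf n t k L, B = Sys (n + 1) (s ++ L.map (fun b => b + 2 ^ n)) := by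
  obtain ⟨s, hs, hQ⟩ := step htk hL hLk hB hD
  refine ⟨s, hs, ?_⟩
  have hpow : (2:ℕ) ^ (n + 1) = 2 ^ n + 2 ^ n := by rw [pow_succ]; ring
  ext b
  obtain ⟨M, hM, rfl⟩ := um_surj b
  constructor
  · intro hb
    by_cases hMn : M < 2 ^ n
    · exact ⟨M, List.mem_append_left _ ((hQ M).mp ⟨hMn, hb⟩), rfl⟩
    · have hm : M - 2 ^ n < 2 ^ n := by rw [hpow] at hM; omega
      have hMeq : M - 2 ^ n + 2 ^ n = M := by omega
      have hmL : M - 2 ^ n ∈ L := by
        rw [← hD _ hm, hMeq]; exact hb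
      refine ⟨M, List.mem_append_right _ ?_, rfl⟩
      rw [List.mem_map]
      exact ⟨M - 2 ^ n, hmL, hMeq⟩
  · rintro ⟨m0, hm0, h0⟩
    rw [h0]
    rcases List.mem_append.mp hm0 with h | h
    · exact ((hQ m0).mpr h).2
    · rw [List.mem_map] at h
      obtain ⟨b0, hb0, rfl⟩ := h
      exact (hD b0 (hL b0 hb0)).mpr hb0

theorem transport.{u} {α : Type u} [Fintype α] [DecidableEq α] {n : ℕ}
    (hα : Fintype.card α = n + 1) {B : Set (Finset α)}
    (p : α) {L : List ℕ} (hL : ∀ b ∈ L, b < 2 ^ n)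
    (e : {a : α // a ≠ p} ≃ Fin n)
    (he : (fun b => b.image e) '' {b' : Finset {a : α // a ≠ p} |
      ∃ b ∈ B, p ∈ b ∧ b' = Finset.subtype (fun a => a ≠ p) b} = Sys n L) :
    ∃ f : α ≃ Fin (n + 1), ∀ m, m < 2 ^ n →
      (um (n + 1) (m + 2 ^ n) ∈ (fun b => b.image f) '' B ↔ m ∈ L) := by
  classical
  obtain ⟨f0, hfp, hfe⟩ : ∃ f : α → Fin (n + 1), f p = Fin.last n ∧
      ∀ a (ha : a ≠ p), f a = (e ⟨a, ha⟩).castSucc :=
    ⟨fun a => if h : a = p then Fin.last n else (e ⟨a, h⟩).castSucc, dif_pos rfl,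
      fun a ha => dif_neg ha⟩
  have hlast : ∀ a, f0 a = Fin.last n → a = p := by
    intro a ha
    by_contra hne
    rw [hfe a hne] at ha
    exact (Fin.castSucc_lt_last _).ne ha
  have f_inj : Function.Injective f0 := by
    intro x y hxy
    by_cases hx : x = p
    · rw [hx, hfp] at hxy
      rw [hx]; exact (hlast y hxy.symm).symm
    · by_cases hy : y = p
      · rw [hy, hfp] at hxy
        exact absurd (hlast x hxy) hx
      · rw [hfe x hx, hfe y hy] at hxy
        have h2 := e.injective (Fin.castSucc_injective _ hxy)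
        exact congrArg Subtype.val h2
  have f_bij : Function.Bijective f0 :=
    (Fintype.bijective_iff_injective_and_card f0).mpr ⟨f_inj, by rw [hα, Fintype.card_fin]⟩
  obtain ⟨f, hff⟩ : ∃ f : α ≃ Fin (n + 1), ∀ a, f a = f0 a :=
    ⟨Equiv.ofBijective f0 f_bij, fun a => rfl⟩
  have T1 : ∀ (b : Finset α) (m : ℕ), p ∈ b → m < 2 ^ n →
      um n m = (Finset.subtype (fun a => a ≠ p) b).image e →
      um (n + 1) (m + 2 ^ n) = b.image f := by
    intro b m hpb hm hum
    ext x
    rw [mem_um_add hm, Finset.mem_image]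
    refine Fin.lastCases ?_ (fun y => ?_) x
    · constructor
      · intro _; exact ⟨p, hpb, (hff p).trans hfp⟩
      · intro _; exact Or.inl rfl
    · have hy : y.castSucc ∈ um (n + 1) m ↔ y ∈ um n m := by
        rw [mem_um, mem_um]; rfl
      rw [hy, hum, Finset.mem_image]
      constructor
      · rintro (h | ⟨a, ha, hay⟩)
        · exact absurd h (Fin.castSucc_lt_last y).ne
        · refine ⟨a.1, Finset.mem_subtype.mp ha, ?_⟩
          rw [hff, hfe a.1 a.2, ← hay]
      · rintro ⟨a, ha, hay⟩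
        right
        have hap : a ≠ p := by
          intro h
          rw [hff, h, hfp] at hay
          exact (Fin.castSucc_lt_last y).ne hay.symm
        refine ⟨⟨a, hap⟩, Finset.mem_subtype.mpr ha, ?_⟩
        rw [hff, hfe a hap] at hay
        exact Fin.castSucc_injective _ hay
  have hpow : (2:ℕ) ^ (n + 1) = 2 ^ n + 2 ^ n := by rw [pow_succ]; ring
  refine ⟨f, fun m hm => ⟨?_, ?_⟩⟩
  · rintro ⟨b, hb, hbm⟩
    have hbm' : b.image f = um (n + 1) (m + 2 ^ n) := hbm
    have hpb : p ∈ b := by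
      have h1 : Fin.last n ∈ um (n + 1) (m + 2 ^ n) := (mem_um_add hm _).mpr (Or.inl rfl)
      rw [← hbm', Finset.mem_image] at h1
      obtain ⟨a, ha, hal⟩ := h1
      rw [hff] at hal
      rw [← hlast a hal]; exact ha
    have hmem : (Finset.subtype (fun a => a ≠ p) b).image e ∈ Sys n L := by
      rw [← he]; exact ⟨_, ⟨b, hb, hpb, rfl⟩, rfl⟩
    obtain ⟨m0, hm0, h0⟩ := hmem
    have h1 := T1 b m0 hpb (hL m0 hm0) h0.symm
    have h2 : um (n + 1) (m0 + 2 ^ n) = um (n + 1) (m + 2 ^ n) := h1.trans hbm'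
    have hm0lt := hL m0 hm0
    have h3 := um_inj (by rw [hpow]; omega) (by rw [hpow]; omega) h2
    have h4 : m = m0 := by omega
    rw [h4]; exact hm0
  · intro hmL
    have hmem : um n m ∈ Sys n L := ⟨m, hmL, rfl⟩
    rw [← he] at hmem
    obtain ⟨_, ⟨b, hb, hpb, rfl⟩, hbm⟩ := hmem
    exact ⟨b, hb, (T1 b m hpb hm hbm.symm).symm⟩

end Cfsg.Agent.Helper28.Witt
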