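import Cfsg.Agent.Helper28.WittB

set_option autoImplicit false

namespace Cfsg.Agent.Helper28.Witt

def pf (p : List ℕ) (y : ℕ) : ℕ := p.getD y 0

def chk (N : ℕ) (p : List ℕ) (m m' : ℕ) : Bool :=
  (List.range N).all (fun y => decide (Nat.testBit m' (pf p y) = Nat.testBit m y))

def permOK (N : ℕ) (p : List ℕ) : Bool :=
  (List.range N).all (fun y => decide (pf p y < N) &&
    (List.range N).all (fun z => decide (y = z ∨ pf p y ≠ pf p z)))

def isoOK (N : ℕ) (L1 L2 : List ℕ) (p : List ℕ) : Bool :=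
  permOK N p && L1.all (fun m => L2.any (fun m' => chk N p m m')) &&
    L2.all (fun m' => L1.any (fun m => chk N p m m'))

theorem iso_of_ok {N : ℕ} {L1 L2 p : List ℕ} (h : isoOK N L1 L2 p = true) :
    ∃ g : Fin N ≃ Fin N, (fun b => b.image g) '' Sys N L1 = Sys N L2 := by
  simp only [isoOK, Bool.and_eq_true, List.all_eq_true, List.any_eq_true] at h
  obtain ⟨⟨hp, h12⟩, h21⟩ := h
  simp only [permOK, List.all_eq_true, List.mem_range, Bool.and_eq_true,
    decide_eq_true_iff] at hp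
  have hp1 : ∀ y : Fin N, pf p y.val < N := fun y => (hp y.val y.2).1
  have hp2 : ∀ y z : Fin N, pf p y.val = pf p z.val → y = z := by
    intro y z hyz
    rcases (hp y.val y.2).2 z.val z.2 with h | h
    · exact Fin.ext h
    · exact absurd hyz h
  have hf : Function.Injective (fun y : Fin N => (⟨pf p y.val, hp1 y⟩ : Fin N)) :=
    fun y z h => hp2 y z (congrArg Fin.val h)
  obtain ⟨g, hg⟩ : ∃ g : Fin N ≃ Fin N, ∀ y : Fin N, (g y).val = pf p y.val :=
    ⟨Equiv.ofBijective _ (Finite.injective_iff_bijective.mp hf), fun y => rfl⟩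
  have key : ∀ m m', chk N p m m' = true → (um N m).image g = um N m' := by
    intro m m' hc
    simp only [chk, List.all_eq_true, List.mem_range, decide_eq_true_iff] at hc
    ext x
    rw [Finset.mem_image, mem_um]
    constructor
    · rintro ⟨y, hy, rfl⟩
      rw [mem_um] at hy
      rw [hg, hc y.val y.2]
      exact hy
    · intro hx
      obtain ⟨y, rfl⟩ := g.surjective x
      refine ⟨y, ?_, rfl⟩
      rw [mem_um, ← hc y.val y.2, ← hg]
      exact hx
  refine ⟨g, ?_⟩
  apply Set.Subset.antisymm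
  · rintro _ ⟨_, ⟨m, hm, rfl⟩, rfl⟩
    obtain ⟨m', hm', hc⟩ := h12 m hm
    exact ⟨m', hm', key m m' hc⟩
  · rintro _ ⟨m', hm', rfl⟩
    obtain ⟨m, hm, hc⟩ := h21 m' hm'
    exact ⟨um N m, ⟨m, hm, rfl⟩, key m m' hc⟩

def lvlOK (n t k : ℕ) (L Lnew : List ℕ) (perms : List (List ℕ)) : Bool :=
  L.all (fun b => decide (b < 2 ^ n) && decide (popc (n + 1) b = k)) &&
  (solsOf n t k L).all (fun s => perms.any
    (fun p => isoOK (n + 1) (s ++ L.map (fun b => b + 2 ^ n)) Lnew p))

theorem level_step.{u} {α : Type u} [Fintype α] [DecidableEq α] {n t k : ℕ} (htk : t < k)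
    (hα : Fintype.card α = n + 1) {L Lnew : List ℕ} {perms : List (List ℕ)}
    (hok : lvlOK n t k L Lnew perms = true)
    (IH : ∀ (β : Type u) [Fintype β] [DecidableEq β], Fintype.card β = n →
      ∀ D : Set (Finset β), Cfsg.IsSteinerSystem t k D → Cfsg.SetSystemIso D (Sys n L))
    {B : Set (Finset α)} (hB : Cfsg.IsSteinerSystem (t + 1) (k + 1) B) :
    Cfsg.SetSystemIso B (Sys (n + 1) Lnew) := by
  classical
  simp only [lvlOK, Bool.and_eq_true, List.all_eq_true, List.any_eq_true,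
    decide_eq_true_iff] at hok
  obtain ⟨hL0, hs⟩ := hok
  have hL : ∀ b ∈ L, b < 2 ^ n := fun b hb => (hL0 b hb).1
  have hLk : ∀ b ∈ L, popc (n + 1) b = k := fun b hb => (hL0 b hb).2
  obtain ⟨p⟩ : Nonempty α := Fintype.card_pos_iff.mp (by rw [hα]; omega)
  have hD := Cfsg.Agent.S0351.result hB p
  have hcard : Fintype.card {a : α // a ≠ p} = n := by
    rw [Fintype.card_subtype]
    have h : Finset.univ.filter (fun a => a ≠ p) = Finset.univ.erase p := by
      ext x
      simp
    rw [h, Finset.card_erase_of_mem (Finset.mem_univ p), Finset.card_univ, hα]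
    rfl
  obtain ⟨e, he⟩ := IH _ hcard _ hD
  obtain ⟨f, hf⟩ := transport hα p hL e he
  obtain ⟨s, hs1, hs2⟩ := step_sys htk hL hLk (steiner_image hB f) hf
  obtain ⟨pp, -, hpp⟩ := hs s hs1
  obtain ⟨g, hg⟩ := iso_of_ok hpp
  refine ⟨f.trans g, ?_⟩
  have himg : (fun b : Finset α => b.image (f.trans g)) =
      (fun b => b.image g) ∘ (fun b => b.image f) := by
    funext b
    simp [Finset.image_image]
  rw [himg, Set.image_comp, hs2, hg]

theorem lvl7.{u} {α : Type u} [Fintype α] [DecidableEq α] (hα : Fintype.card α = 7)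
    {B : Set (Finset α)} (hB : Cfsg.IsSteinerSystem 0 1 B) :
    Cfsg.SetSystemIso B (Sys 7 [1]) := by
  obtain ⟨b, ⟨hb, -⟩, huniq⟩ := hB.2 ∅ Finset.card_empty
  obtain ⟨x, rfl⟩ := Finset.card_eq_one.mp (hB.1 b hb)
  have hBeq : B = {{x}} := by
    ext c
    constructor
    · intro hc
      exact huniq c ⟨hc, Finset.empty_subset _⟩
    · intro hc
      rw [Set.mem_singleton_iff] at hc
      rw [hc]; exact hb
  obtain ⟨e0⟩ : Nonempty (α ≃ Fin 7) := ⟨Fintype.equivFinOfCardEq hα⟩
  refine ⟨e0.trans (Equiv.swap (e0 x) 0), ?_⟩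
  rw [hBeq, Set.image_singleton]
  have h1 : ({x} : Finset α).image (e0.trans (Equiv.swap (e0 x) 0)) = um 7 1 := by
    rw [Finset.image_singleton]
    have h2 : (e0.trans (Equiv.swap (e0 x) 0)) x = 0 := by simp
    rw [h2]
    decide
  rw [h1]
  ext c
  simp [Sys]

theorem iso_trans_symm {α β : Type*} [DecidableEq α] [DecidableEq β] {N : ℕ}
    {B : Set (Finset α)} {B' : Set (Finset β)} {C : Set (Finset (Fin N))}
    (h1 : Cfsg.SetSystemIso B C) (h2 : Cfsg.SetSystemIso B' C) : Cfsg.SetSystemIso B B' := by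
  obtain ⟨e1, h1⟩ := h1
  obtain ⟨e2, h2⟩ := h2
  have hcomp : ∀ (b : Finset α) (b' : Finset β), b.image e1 = b'.image e2 →
      b.image (e1.trans e2.symm) = b' := by
    intro b b' h
    have h3 : b.image (e1.trans e2.symm) = (b.image e1).image e2.symm := by
      rw [Finset.image_image]; rfl
    rw [h3, h, Finset.image_image]
    simp
  refine ⟨e1.trans e2.symm, ?_⟩
  apply Set.Subset.antisymm
  · rintro _ ⟨b, hb, rfl⟩
    have hc : b.image e1 ∈ C := by rw [← h1]; exact ⟨b, hb, rfl⟩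
    rw [← h2] at hc
    obtain ⟨b', hb', hbb⟩ := hc
    have hbb' : b'.image e2 = b.image e1 := hbb
    show b.image (e1.trans e2.symm) ∈ B'
    rw [hcomp b b' hbb'.symm]
    exact hb'
  · intro b' hb'
    have hc : b'.image e2 ∈ C := by rw [← h2]; exact ⟨b', hb', rfl⟩
    rw [← h1] at hc
    obtain ⟨b, hb, hbb⟩ := hc
    have hbb' : b.image e1 = b'.image e2 := hbb
    exact ⟨b, hb, hcomp b b' hbb'⟩

end Cfsg.Agent.Helper28.Witt
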