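import Cfsg.Agent.Helper28.WittC

set_option autoImplicit false

namespace Cfsg.Agent.Helper28.Witt

def L7 : List ℕ := [1]

def L8 : List ℕ := [96, 24, 6, 129]

def P8 : List (List ℕ) := [[0, 1, 2, 3, 4, 5, 6, 7], [0, 1, 2, 3, 5, 4, 6, 7], [0, 1, 2, 3, 5, 6, 4, 7], [0, 1, 3, 2, 4, 5, 6, 7], [0, 1, 3, 2, 5, 4, 6, 7], [0, 1, 3, 2, 5, 6, 4, 7], [0, 1, 3, 4, 2, 5, 6, 7], [0, 1, 3, 5, 2, 4, 6, 7], [0, 1, 3, 5, 2, 6, 4, 7], [0, 1, 3, 4, 5, 2, 6, 7], [0, 1, 3, 5, 4, 2, 6, 7], [0, 1, 3, 5, 6, 2, 4, 7], [0, 1, 3, 4, 5, 6, 2, 7], [0, 1, 3, 5, 4, 6, 2, 7], [0, 1, 3, 5, 6, 4, 2, 7]]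

def L9 : List ℕ := [194, 168, 148, 50, 81, 76, 37, 11, 352, 280, 262, 385]

def P9 : List (List ℕ) := [[0, 1, 2, 3, 4, 5, 6, 7, 8], [0, 1, 2, 3, 4, 6, 5, 7, 8], [0, 1, 2, 4, 3, 5, 6, 7, 8], [0, 1, 2, 4, 3, 6, 5, 7, 8], [0, 1, 2, 5, 6, 3, 4, 7, 8], [0, 1, 2, 6, 5, 3, 4, 7, 8], [0, 1, 2, 5, 6, 4, 3, 7, 8], [0, 1, 2, 6, 5, 4, 3, 7, 8]]

def L10 : List ℕ := [456, 420, 402, 240, 340, 197, 323, 305, 298, 105, 102, 163, 60, 90, 153, 142, 269, 23, 706, 680, 660, 562, 593, 588, 549, 523, 864, 792, 774, 897]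

def P10 : List (List ℕ) := [[0, 1, 2, 3, 4, 5, 6, 7, 8, 9], [0, 1, 5, 3, 8, 2, 7, 6, 4, 9], [0, 1, 4, 3, 7, 6, 8, 2, 5, 9]]

def L11 : List ℕ := [964, 944, 906, 850, 841, 812, 803, 789, 482, 737, 728, 465, 425, 678, 412, 659, 653, 391, 376, 628, 236, 618, 357, 214, 334, 203, 583, 186, 569, 310, 181, 115, 542, 93, 283, 47, 1480, 1444, 1426, 1264, 1364, 1221, 1347, 1329, 1322, 1129, 1126, 1187, 1084, 1114, 1177, 1166, 1293, 1047, 1730, 1704, 1684, 1586, 1617, 1612, 1573, 1547, 1888, 1816, 1798, 1921]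

def P11 : List (List ℕ) := [[0, 1, 2, 3, 4, 5, 6, 7, 8, 9, 10], [0, 1, 2, 7, 4, 9, 8, 3, 6, 5, 10]]

def L12 : List ℕ := [2000, 1954, 1932, 1866, 1861, 1844, 1833, 1811, 1764, 1737, 1713, 1690, 1671, 1656, 1635, 1622, 1582, 1565, 1000, 1505, 1478, 963, 1464, 933, 921, 918, 1429, 1419, 1394, 881, 1388, 870, 860, 1369, 826, 1319, 1310, 783, 500, 754, 1258, 1244, 474, 725, 1235, 718, 461, 700, 1206, 435, 430, 1197, 683, 249, 1141, 621, 363, 231, 603, 343, 1103, 126, 317, 1083, 567, 159, 3012, 2992, 2954, 2898, 2889, 2860, 2851, 2837, 2530, 2785, 2776, 2513, 2473, 2726, 2460, 2707, 2701, 2439, 2424, 2676, 2284, 2666, 2405, 2262, 2382, 2251, 2631, 2234, 2617, 2358, 2229, 2163, 2590, 2141, 2331, 2095, 3528, 3492, 3474, 3312, 3412, 3269, 3395, 3377, 3370, 3177, 3174, 3235, 3132, 3162, 3225, 3214, 3341, 3095, 3778, 3752, 3732,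 3634, 3665, 3660, 3621, 3595, 3936, 3864, 3846, 3969]

def P12 : List (List ℕ) := [[0, 1, 2, 3, 4, 5, 6, 7, 8, 9, 10, 11]]

end Cfsg.Agent.Helper28.Witt
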