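import Cfsg.Agent.Helper28.WittData

set_option autoImplicit false

namespace Cfsg.Agent.Helper28.Witt

theorem ok12 : lvlOK 11 4 5 L11 L12 P12 = true := by decide +kernel

end Cfsg.Agent.Helper28.Witt
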