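import Cfsg.Agent.Helper28.WittOk8
import Cfsg.Agent.Helper28.WittOk9
import Cfsg.Agent.Helper28.WittOk10
import Cfsg.Agent.Helper28.WittOk11
import Cfsg.Agent.Helper28.WittOk12

set_option autoImplicit false

namespace Cfsg.Agent.Helper28.Witt

theorem lvl8.{u} {α : Type u} [Fintype α] [DecidableEq α] (hα : Fintype.card α = 8)
    {B : Set (Finset α)} (hB : Cfsg.IsSteinerSystem 1 2 B) :
    Cfsg.SetSystemIso B (Sys 8 L8) :=
  level_step (by norm_num) hα ok8 (fun β _ _ hβ D hD => lvl7 hβ hD) hB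

theorem lvl9.{u} {α : Type u} [Fintype α] [DecidableEq α] (hα : Fintype.card α = 9)
    {B : Set (Finset α)} (hB : Cfsg.IsSteinerSystem 2 3 B) :
    Cfsg.SetSystemIso B (Sys 9 L9) :=
  level_step (by norm_num) hα ok9 (fun β _ _ hβ D hD => lvl8 hβ hD) hB

theorem lvl10.{u} {α : Type u} [Fintype α] [DecidableEq α] (hα : Fintype.card α = 10)
    {B : Set (Finset α)} (hB : Cfsg.IsSteinerSystem 3 4 B) :
    Cfsg.SetSystemIso B (Sys 10 L10) :=
  level_step (by norm_num) hα ok10 (fun β _ _ hβ D hD => lvl9 hβ hD) hB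

theorem lvl11.{u} {α : Type u} [Fintype α] [DecidableEq α] (hα : Fintype.card α = 11)
    {B : Set (Finset α)} (hB : Cfsg.IsSteinerSystem 4 5 B) :
    Cfsg.SetSystemIso B (Sys 11 L11) :=
  level_step (by norm_num) hα ok11 (fun β _ _ hβ D hD => lvl10 hβ hD) hB

theorem lvl12.{u} {α : Type u} [Fintype α] [DecidableEq α] (hα : Fintype.card α = 12)
    {B : Set (Finset α)} (hB : Cfsg.IsSteinerSystem 5 6 B) :
    Cfsg.SetSystemIso B (Sys 12 L12) :=
  level_step (by norm_num) hα ok12 (fun β _ _ hβ D hD => lvl11 hβ hD) hB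

end Cfsg.Agent.Helper28.Witt
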