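import Cfsg.Agent.Helper28.WittC

set_option autoImplicit false

namespace Cfsg.Agent.Helper28.Witt

theorem det_step {N t : ℕ} {L : List ℕ} (hS : Cfsg.IsSteinerSystem t (t + 1) (Sys N L))
    {g : Equiv.Perm (Fin N)} (hg : ∀ b ∈ Sys N L, b.image g ∈ Sys N L)
    {m1 m2 T : ℕ} (hm1 : m1 ∈ L) (hm2 : m2 ∈ L)
    (hT1 : cov T m1 = true) (hT2 : cov T m2 = true) (hTc : popc N T + 1 = t)
    (hfix : ∀ x ∈ um N T, g x = x)
    {q r q' s : Fin N} (hq : q ∈ um N m1) (hr : r ∈ um N m1)
    (hrT : r ∉ um N T) (hqr : q ≠ r)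
    (hq' : q' ∈ um N m2) (hs : s ∈ um N m2) (hq'T : q' ∉ um N T) (hsT : s ∉ um N T)
    (hq's : q' ≠ s) (hgq : g q = q') : g r = s := by
  have hb1 : um N m1 ∈ Sys N L := ⟨m1, hm1, rfl⟩
  have hb2 : um N m2 ∈ Sys N L := ⟨m2, hm2, rfl⟩
  have hU : (insert q' (um N T)).card = t := by
    rw [Finset.card_insert_of_notMem hq'T, card_um, hTc]
  have hU1 : insert q' (um N T) ⊆ (um N m1).image g := by
    intro x hx
    rw [Finset.mem_insert] at hx
    rw [Finset.mem_image]
    rcases hx with rfl | hx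
    · exact ⟨q, hq, hgq⟩
    · exact ⟨x, cov_sub hT1 hx, hfix x hx⟩
  have hU2 : insert q' (um N T) ⊆ um N m2 := by
    intro x hx
    rw [Finset.mem_insert] at hx
    rcases hx with rfl | hx
    · exact hq'
    · exact cov_sub hT2 hx
  have heq : (um N m1).image g = um N m2 :=
    (hS.2 _ hU).unique ⟨hg _ hb1, hU1⟩ ⟨hb2, hU2⟩
  have hs' : s ∉ insert q' (um N T) := by
    rw [Finset.mem_insert]
    rintro (h | h)
    · exact hq's h.symm
    · exact hsT h
  have h2 : insert s (insert q' (um N T)) = um N m2 := by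
    apply Finset.eq_of_subset_of_card_le
    · intro x hx
      rw [Finset.mem_insert] at hx
      rcases hx with rfl | hx
      · exact hs
      · exact hU2 hx
    · rw [Finset.card_insert_of_notMem hs', hU, hS.1 _ hb2]
  have h3 : g r ∈ um N m2 := by
    rw [← heq]
    exact Finset.mem_image_of_mem _ hr
  rw [← h2, Finset.mem_insert, Finset.mem_insert] at h3
  rcases h3 with h3 | h3 | h3
  · exact h3
  · exfalso
    rw [← hgq] at h3
    exact hqr (g.injective h3).symm
  · exfalso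
    have h4 := hfix _ h3
    have h5 := g.injective h4
    rw [h5] at h3
    exact hrT h3

def hstep (N t : ℕ) (L : List ℕ) (F q r q' s T m1 m2 : ℕ) : Bool :=
  decide (m1 ∈ L) && (decide (m2 ∈ L) && (cov T m1 && (cov T m2 && (cov T F &&
  (decide (popc N T + 1 = t) && (decide (q < N) && (decide (r < N) && (decide (q' < N) &&
  (decide (s < N) && (Nat.testBit m1 q && (Nat.testBit m1 r && (!Nat.testBit T r &&
  (decide (q ≠ r) && (Nat.testBit m2 q' && (Nat.testBit m2 s && (!Nat.testBit T q' &&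
  (!Nat.testBit T s && decide (q' ≠ s))))))))))))))))))

def gv {N : ℕ} (g : Equiv.Perm (Fin N)) (x : ℕ) : ℕ :=
  if h : x < N then (g ⟨x, h⟩).val else x

theorem hstep_sound {N t : ℕ} {L : List ℕ} (hS : Cfsg.IsSteinerSystem t (t + 1) (Sys N L))
    {g : Equiv.Perm (Fin N)} (hg : ∀ b ∈ Sys N L, b.image g ∈ Sys N L)
    {F q r q' s T m1 m2 : ℕ} (h : hstep N t L F q r q' s T m1 m2 = true)
    (hF : ∀ x ∈ um N F, g x = x) (hgq : gv g q = q') : gv g r = s := by
  simp only [hstep, Bool.and_eq_true, decide_eq_true_iff, Bool.not_eq_true'] at h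
  obtain ⟨hm1, hm2, hT1, hT2, hTF, hTc, hqN, hrN, hq'N, hsN, h1q, h1r, hTr, hqr, h2q', h2s,
    hTq', hTs, hq's⟩ := h
  unfold gv at hgq ⊢
  rw [dif_pos hqN] at hgq
  rw [dif_pos hrN]
  have hfix : ∀ x ∈ um N T, g x = x := fun x hx => hF x (cov_sub hTF hx)
  have key := det_step hS hg hm1 hm2 hT1 hT2 hTc hfix (q := ⟨q, hqN⟩) (r := ⟨r, hrN⟩)
    (q' := ⟨q', hq'N⟩) (s := ⟨s, hsN⟩) (mem_um.mpr h1q) (mem_um.mpr h1r)
    (by rw [mem_um]; show ¬ (T.testBit r = true); rw [hTr]; exact Bool.false_ne_true)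
    (fun h => hqr (congrArg Fin.val h))
    (mem_um.mpr h2q') (mem_um.mpr h2s)
    (by rw [mem_um]; show ¬ (T.testBit q' = true); rw [hTq']; exact Bool.false_ne_true)
    (by rw [mem_um]; show ¬ (T.testBit s = true); rw [hTs]; exact Bool.false_ne_true)
    (fun h => hq's (congrArg Fin.val h))
    (Fin.ext hgq)
  exact congrArg Fin.val key

def entOK (N t : ℕ) (L : List ℕ) (F q q' : ℕ) (e : List ℕ) : Bool :=
  decide (e.getD 0 0 = q) && (decide (e.getD 1 0 = q') &&
   (hstep N t L F q (e.getD 2 0) q' (e.getD 3 0) (e.getD 5 0) (e.getD 6 0) (e.getD 7 0) &&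
   (hstep N t L F q (e.getD 2 0) q' (e.getD 4 0) (e.getD 8 0) (e.getD 9 0) (e.getD 10 0) &&
    decide (e.getD 3 0 ≠ e.getD 4 0))))

theorem ent_sound {N t : ℕ} {L : List ℕ} (hS : Cfsg.IsSteinerSystem t (t + 1) (Sys N L))
    {g : Equiv.Perm (Fin N)} (hg : ∀ b ∈ Sys N L, b.image g ∈ Sys N L)
    {F q q' : ℕ} {e : List ℕ} (h : entOK N t L F q q' e = true)
    (hF : ∀ x ∈ um N F, g x = x) (hgq : gv g q = q') : False := by
  simp only [entOK, Bool.and_eq_true, decide_eq_true_iff] at h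
  obtain ⟨-, -, h1, h2, hss⟩ := h
  have a := hstep_sound hS hg h1 hF hgq
  have b := hstep_sound hS hg h2 hF hgq
  exact hss (a.symm.trans b)

def rigOK (N t : ℕ) (L : List ℕ) (F0 F c clq clT clm : ℕ) (cert : List (List ℕ)) : Bool :=
  Nat.testBit F0 clq && (hstep N t L F0 clq c clq c clT clm clm &&
  ((List.range N).all (fun x => !Nat.testBit F x || (Nat.testBit F0 x || decide (x = c))) &&
  (List.range N).all (fun q => Nat.testBit F q || (List.range N).all (fun q' =>
    decide (q' = q) || (Nat.testBit F q' || cert.any (fun e => entOK N t L F q q' e))))))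

theorem rigid_gen {N t : ℕ} {L : List ℕ} (hS : Cfsg.IsSteinerSystem t (t + 1) (Sys N L))
    {F0 F c clq clT clm : ℕ} {cert : List (List ℕ)}
    (hok : rigOK N t L F0 F c clq clT clm cert = true)
    {g : Equiv.Perm (Fin N)} (hg : ∀ b ∈ Sys N L, b.image g ∈ Sys N L)
    (hF0 : ∀ x ∈ um N F0, g x = x) : g = 1 := by
  simp only [rigOK, Bool.and_eq_true, List.all_eq_true, List.mem_range, Bool.or_eq_true,
    Bool.not_eq_true', decide_eq_true_iff, List.any_eq_true] at hok
  obtain ⟨hclq, hcl, hFF, hcert⟩ := hok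
  have gv_fix0 : ∀ x, F0.testBit x = true → gv g x = x := by
    intro x hb
    unfold gv
    split_ifs with hx
    · exact congrArg Fin.val (hF0 ⟨x, hx⟩ (mem_um.mpr hb))
    · rfl
  have hc : gv g c = c := hstep_sound hS hg hcl hF0 (gv_fix0 clq hclq)
  have hF : ∀ x ∈ um N F, g x = x := by
    intro x hx
    rw [mem_um] at hx
    rcases hFF x.val x.2 with h | h | h
    · rw [hx] at h; exact Bool.noConfusion h
    · exact hF0 x (mem_um.mpr h)
    · have h1 := hc
      unfold gv at h1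
      rw [← h, dif_pos x.2] at h1
      exact Fin.ext h1
  ext x
  show (g x : ℕ) = x
  by_contra hne
  rcases hcert x.val x.2 with h | h
  · exact hne (congrArg Fin.val (hF x (mem_um.mpr h)))
  · rcases h (g x).val (g x).2 with h1 | h1 | ⟨e, he, heok⟩
    · exact hne h1
    · have h2 := hF (g x) (mem_um.mpr h1)
      exact hne (congrArg Fin.val (g.injective h2))
    · exact ent_sound hS hg heok hF (by unfold gv; rw [dif_pos x.2])

end Cfsg.Agent.Helper28.Witt
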