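import Cfsg.Agent.Helper28.WittG
import Cfsg.Agent.Helper28.WittE
import Cfsg.Agent.Helper28.AutU

set_option autoImplicit false

namespace Cfsg.Agent.Helper28.Witt

theorem iso_gen {α β : Type*} [DecidableEq α] [DecidableEq β] {t k : ℕ} (htk : t ≤ k)
    {B : Set (Finset α)} {B' : Set (Finset β)} (hB : Cfsg.IsSteinerSystem t k B)
    (hB' : Cfsg.IsSteinerSystem t k B') {e : α ≃ β} (h : ∀ b ∈ B, b.image e ∈ B') :
    (fun b => b.image e) '' B = B' := by
  apply Set.Subset.antisymm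
  · rintro _ ⟨b, hb, rfl⟩
    exact h b hb
  · intro c hc
    have hck := hB'.1 c hc
    obtain ⟨T, hT, hTt⟩ := Finset.exists_subset_card_eq (by rw [hck]; exact htk : t ≤ c.card)
    have hT' : (T.image e.symm).card = t := by
      rw [Finset.card_image_of_injective _ e.symm.injective, hTt]
    obtain ⟨b, ⟨hb, hTb⟩, -⟩ := hB.2 _ hT'
    refine ⟨b, hb, ?_⟩
    have hsub : T ⊆ b.image e := by
      intro y hy
      rw [Finset.mem_image]
      exact ⟨e.symm y, hTb (Finset.mem_image_of_mem _ hy), e.apply_symm_apply y⟩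
    exact (hB'.2 T hTt).unique ⟨h b hb, hsub⟩ ⟨hc, hT⟩

theorem sharp_equiv {K T : Type*} [Group K] [Fintype T] [DecidableEq T] {t : ℕ}
    (ht : t ≤ Fintype.card T) (A : Subgroup (Equiv.Perm T)) (f : K →* Equiv.Perm T)
    (hfA : ∀ k, f k ∈ A) (hinj : Function.Injective f)
    (htr : ∀ x y : Fin t ↪ T, ∃ k : K, ∀ i, f k (x i) = y i)
    (hrig : ∀ (x : Fin t ↪ T) (a : Equiv.Perm T), a ∈ A → (∀ i, a (x i) = x i) → a = 1) :
    Nonempty (K ≃* A) ∧ MulAction.IsMultiplyPretransitive A T t ∧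
      ∀ x : Fin t ↪ T, MulAction.stabilizer A x = ⊥ := by
  refine ⟨?_, ?_, ?_⟩
  · have hbij : Function.Bijective (f.codRestrict A hfA) := by
      constructor
      · intro a b hab
        exact hinj (congrArg Subtype.val hab)
      · intro a
        obtain ⟨x0⟩ : Nonempty (Fin t ↪ T) :=
          Function.Embedding.nonempty_of_card_le (by rw [Fintype.card_fin]; exact ht)
        obtain ⟨k, hk⟩ := htr x0 (x0.trans (a : Equiv.Perm T).toEmbedding)
        have h1 : (f k)⁻¹ * (a : Equiv.Perm T) = 1 := by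
          apply hrig x0 _ (A.mul_mem (A.inv_mem (hfA k)) a.2)
          intro i
          rw [Equiv.Perm.mul_apply, Equiv.Perm.inv_eq_iff_eq]
          exact (hk i).symm
        refine ⟨k, Subtype.ext ?_⟩
        show f k = a
        exact inv_mul_eq_one.mp h1
    exact ⟨MulEquiv.ofBijective (f.codRestrict A hfA) hbij⟩
  · rw [MulAction.isMultiplyPretransitive_iff]
    intro x y
    obtain ⟨k, hk⟩ := htr x y
    refine ⟨⟨f k, hfA k⟩, ?_⟩
    ext i
    exact hk i
  · intro x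
    rw [eq_bot_iff]
    intro g hg
    rw [MulAction.mem_stabilizer_iff] at hg
    rw [Subgroup.mem_bot]
    apply Subtype.ext
    apply hrig x _ g.2
    intro i
    exact congrArg (fun z => z i) hg

theorem rig_transfer.{u} {T : Type u} [Fintype T] [DecidableEq T] {N t : ℕ} {L : List ℕ}
    {H : Set (Finset T)} (e : T ≃ Fin N) (he : (fun b => b.image e) '' H = Sys N L)
    (htN : t ≤ N) (F0 : ℕ) (hF0 : ∀ y : Fin N, y ∈ um N F0 → y.val < t)
    (hrig : ∀ g : Equiv.Perm (Fin N), (∀ b ∈ Sys N L, b.image g ∈ Sys N L) →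
      (∀ y ∈ um N F0, g y = y) → g = 1)
    (htr : ∀ x y : Fin t ↪ T, ∃ σ ∈ Cfsg.setSystemAut H, ∀ i, σ (x i) = y i) :
    ∀ (x : Fin t ↪ T) (a : Equiv.Perm T), a ∈ Cfsg.setSystemAut H →
      (∀ i, a (x i) = x i) → a = 1 := by
  intro x a ha hax
  obtain ⟨σ, hσ, hσx⟩ := htr x ((Fin.castLEEmb htN).trans e.symm.toEmbedding)
  have hz : ∀ i : Fin t, σ (x i) = e.symm (Fin.castLEEmb htN i) := hσx
  have ha' : σ * a * σ⁻¹ ∈ Cfsg.setSystemAut H :=
    Subgroup.mul_mem _ (Subgroup.mul_mem _ hσ ha) (Subgroup.inv_mem _ hσ)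
  have hfix' : ∀ i : Fin t, (σ * a * σ⁻¹) (e.symm (Fin.castLEEmb htN i))
      = e.symm (Fin.castLEEmb htN i) := by
    intro i
    have h1 : σ⁻¹ (e.symm (Fin.castLEEmb htN i)) = x i := by
      rw [Equiv.Perm.inv_eq_iff_eq]; exact (hz i).symm
    rw [Equiv.Perm.mul_apply, Equiv.Perm.mul_apply, h1, hax i, hz i]
  have ha'' : e.permCongr (σ * a * σ⁻¹) ∈ Cfsg.setSystemAut (Sys N L) :=
    (Hyp.aut_conj e he _).mp ha'
  have h1 : e.permCongr (σ * a * σ⁻¹) = 1 := by
    apply hrig _ (fun b hb => Hyp.aut_image ha'' hb)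
    intro y hy
    have hyt := hF0 y hy
    have hstd : Fin.castLEEmb htN ⟨y.val, hyt⟩ = y := Fin.ext rfl
    have h2 := hfix' ⟨y.val, hyt⟩
    rw [hstd] at h2
    rw [Equiv.permCongr_apply, h2, Equiv.apply_symm_apply]
  have h2 : σ * a * σ⁻¹ = 1 := by
    apply e.permCongr.injective
    rw [h1]
    ext y
    simp [Equiv.permCongr_apply]
  have h3 : a = σ⁻¹ * (σ * a * σ⁻¹) * σ := by
    simp [mul_assoc]
  rw [h3, h2]
  simp

end Cfsg.Agent.Helper28.Witt
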