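import Cfsg.Agent.Helper28.WittH
import Cfsg.Agent.S0382
import Cfsg.Agent.S0383
import Cfsg.Agent.S0384
import Cfsg.Agent.S0385
import Cfsg.Agent.S0369

set_option autoImplicit false

namespace Cfsg.Agent.Helper28.Witt

open scoped Pointwise
open Cfsg Cfsg.Agent.Helper3

/-- the hexads on a dodecad -/
def Hex (d : Finset GolayPt) : Set (Finset {p : GolayPt // p ∈ d}) :=
  {h | ∃ o ∈ octads, (o ∩ d).card = 6 ∧ h = Finset.subtype (fun p => p ∈ d) o}

theorem perm_mem (d : Finset GolayPt) (σ : Equiv.Perm GolayPt) (hgd : σ • d = d) (x : GolayPt) :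
    σ x ∈ d ↔ x ∈ d := by
  constructor
  · intro h
    rw [← hgd] at h
    have h' : σ • x ∈ σ • d := h
    exact (Finset.smul_mem_smul_finset_iff _).mp h'
  · intro h
    rw [← hgd]
    exact Finset.smul_mem_smul_finset h

theorem stab_mem (d : Finset GolayPt) (g : MulAction.stabilizer M24 d) (x : GolayPt) :
    ((g : M24) : Equiv.Perm GolayPt) x ∈ d ↔ x ∈ d :=
  perm_mem d _ g.2 x

/-- restriction of the dodecad stabiliser to the dodecad -/
def resHom (d : Finset GolayPt) :
    MulAction.stabilizer M24 d →* Equiv.Perm {p : GolayPt // p ∈ d} :=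
  MonoidHom.mk' (fun g => Equiv.Perm.subtypePerm ((g : M24) : Equiv.Perm GolayPt) (stab_mem d g))
    (fun a b => by ext x; rfl)

theorem resHom_apply (d : Finset GolayPt) (g : MulAction.stabilizer M24 d)
    (x : {p : GolayPt // p ∈ d}) :
    ((resHom d g) x : GolayPt) = ((g : M24) : Equiv.Perm GolayPt) x.1 := rfl

theorem res_blocks (d : Finset GolayPt) (g : MulAction.stabilizer M24 d) :
    ∀ h ∈ Hex d, h.image (resHom d g) ∈ Hex d := by
  rintro _ ⟨o, ho, ho6, rfl⟩
  have hgM : ((g : M24) : Equiv.Perm GolayPt) ∈ Cfsg.setSystemAut octads := by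
    rw [← Cfsg.Agent.S0369.result]; exact (g : M24).2
  have hgd : ((g : M24) : Equiv.Perm GolayPt) • d = d := g.2
  have hgd' : d.image ((g : M24) : Equiv.Perm GolayPt) = d := hgd
  refine ⟨o.image ((g : M24) : Equiv.Perm GolayPt), Hyp.aut_image hgM ho, ?_, ?_⟩
  · have h1 : o.image ((g : M24) : Equiv.Perm GolayPt) ∩ d
        = (o ∩ d).image ((g : M24) : Equiv.Perm GolayPt) := by
      rw [Finset.image_inter _ _ (Equiv.injective _), hgd']
    rw [h1, Finset.card_image_of_injective _ (Equiv.injective _), ho6]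
  · ext y
    rw [Finset.mem_image, Finset.mem_subtype, Finset.mem_image]
    constructor
    · rintro ⟨x, hx, rfl⟩
      exact ⟨x.1, Finset.mem_subtype.mp hx, rfl⟩
    · rintro ⟨a, ha, hay⟩
      have had : a ∈ d := (stab_mem d g a).mp (by rw [hay]; exact y.2)
      exact ⟨⟨a, had⟩, Finset.mem_subtype.mpr ha, Subtype.ext hay⟩

theorem hex_steiner {d : Finset GolayPt} (hd : d ∈ dodecads) :
    Cfsg.IsSteinerSystem 5 6 (Hex d) := Cfsg.Agent.S0385.result d hd

theorem card_dod {d : Finset GolayPt} (hd : d ∈ dodecads) :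
    Fintype.card {p : GolayPt // p ∈ d} = 12 := by
  rw [Fintype.card_coe]; exact hd.2

theorem res_mem {d : Finset GolayPt} (hd : d ∈ dodecads) (g : MulAction.stabilizer M24 d) :
    resHom d g ∈ Cfsg.setSystemAut (Hex d) :=
  Hyp.mem_aut_iff.mpr (iso_gen (by norm_num) (hex_steiner hd) (hex_steiner hd) (res_blocks d g))

theorem res_trans {d : Finset GolayPt} (hd : d ∈ dodecads)
    (x y : Fin 5 ↪ {p : GolayPt // p ∈ d}) :
    ∃ k : MulAction.stabilizer M24 d, ∀ i, resHom d k (x i) = y i := by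
  obtain ⟨g, hg, -⟩ := Cfsg.Agent.S0384.result d hd (x.trans (Function.Embedding.subtype _))
    (y.trans (Function.Embedding.subtype _)) (fun i => (x i).2) (fun i => (y i).2)
  exact ⟨g, fun i => Subtype.ext (hg i)⟩

theorem res_inj {d : Finset GolayPt} (hd : d ∈ dodecads) : Function.Injective (resHom d) := by
  intro a b hab
  obtain ⟨x0⟩ : Nonempty (Fin 5 ↪ {p : GolayPt // p ∈ d}) :=
    Function.Embedding.nonempty_of_card_le (by rw [Fintype.card_fin, card_dod hd]; norm_num)
  have hu := Cfsg.Agent.S0384.result d hd (x0.trans (Function.Embedding.subtype _))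
    ((x0.trans (resHom d a).toEmbedding).trans (Function.Embedding.subtype _))
    (fun i => (x0 i).2) (fun i => (resHom d a (x0 i)).2)
  refine hu.unique (fun i => rfl) (fun i => ?_)
  have h1 := congrArg (fun σ : Equiv.Perm {p : GolayPt // p ∈ d} => ((σ (x0 i)) : GolayPt)) hab
  exact h1.symm

theorem rigHex {d : Finset GolayPt} (hd : d ∈ dodecads) :
    ∀ (x : Fin 5 ↪ {p : GolayPt // p ∈ d}) (a : Equiv.Perm {p : GolayPt // p ∈ d}),
      a ∈ Cfsg.setSystemAut (Hex d) → (∀ i, a (x i) = x i) → a = 1 := by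
  obtain ⟨e, he⟩ := lvl12 (card_dod hd) (hex_steiner hd)
  have hS : Cfsg.IsSteinerSystem 5 6 (Sys 12 L12) := he ▸ steiner_image (hex_steiner hd) e
  refine rig_transfer e he (by norm_num) 31 ?_ (fun g hg h => rig12 hS hg h) ?_
  · intro y hy
    rw [mem_um] at hy
    by_contra hlt
    have h1 : (31 : ℕ) < 2 ^ y.val :=
      lt_of_lt_of_le (by norm_num : (31 : ℕ) < 2 ^ 5)
        (Nat.pow_le_pow_right (by norm_num) (by omega))
    rw [Nat.testBit_lt_two_pow h1] at hy
    exact Bool.noConfusion hy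
  · intro x y
    obtain ⟨k, hk⟩ := res_trans hd x y
    exact ⟨resHom d k, res_mem hd k, hk⟩

theorem autHex {d : Finset GolayPt} (hd : d ∈ dodecads) :
    Nonempty (MulAction.stabilizer M24 d ≃* Cfsg.setSystemAut (Hex d)) ∧
      MulAction.IsMultiplyPretransitive (Cfsg.setSystemAut (Hex d)) {p : GolayPt // p ∈ d} 5 ∧
      ∀ x : Fin 5 ↪ {p : GolayPt // p ∈ d},
        MulAction.stabilizer (Cfsg.setSystemAut (Hex d)) x = ⊥ :=
  sharp_equiv (by rw [card_dod hd]; norm_num) _ (resHom d) (res_mem hd) (res_inj hd)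
    (res_trans hd) (rigHex hd)

/-- the automorphism group of an S(5, 6, 12) -/
theorem aut5612 {α : Type*} [Fintype α] [DecidableEq α] (hα : Fintype.card α = 12)
    {B : Set (Finset α)} (hB : Cfsg.IsSteinerSystem 5 6 B) :
    Cfsg.IsM12 (Cfsg.setSystemAut B) ∧
      MulAction.IsMultiplyPretransitive (Cfsg.setSystemAut B) α 5 ∧
      ∀ x : Fin 5 ↪ α, MulAction.stabilizer (Cfsg.setSystemAut B) x = ⊥ := by
  have hd := dStd_mem
  obtain ⟨⟨ψ⟩, htr, hst⟩ := autHex hd
  obtain ⟨e, he⟩ := iso_trans_symm (lvl12 hα hB) (lvl12 (card_dod hd) (hex_steiner hd))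
  obtain ⟨φ, hφ⟩ := Hyp.aut_equiv e he
  refine ⟨⟨?_, ?_⟩, Hyp.aut_trans_of_equiv e he 5 htr, ?_⟩
  · exact (φ.trans ψ.symm).isSimpleGroup_congr.mpr (Cfsg.Agent.S0383.result dStd hd)
  · rw [Nat.card_congr (φ.trans ψ.symm).toEquiv]
    exact Cfsg.Agent.S0382.result dStd hd
  · intro x
    rw [eq_bot_iff]
    intro g hg
    rw [MulAction.mem_stabilizer_iff] at hg
    rw [Subgroup.mem_bot]
    have h1 : φ g ∈ MulAction.stabilizer (Cfsg.setSystemAut (Hex dStd))
        (x.trans e.toEmbedding) := by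
      rw [MulAction.mem_stabilizer_iff]
      refine DFunLike.ext _ _ (fun i => ?_)
      have h2 : (g : Equiv.Perm α) (x i) = x i := congrArg (fun z => z i) hg
      show ((φ g : Equiv.Perm {p : GolayPt // p ∈ dStd})) (e (x i)) = e (x i)
      rw [hφ g (x i), h2]
    rw [hst, Subgroup.mem_bot] at h1
    exact φ.injective (h1.trans (map_one φ).symm)

end Cfsg.Agent.Helper28.Witt
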