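import Cfsg.Agent.Helper28.WittI
import Cfsg.Agent.S0387
import Cfsg.Agent.S0388

set_option autoImplicit false

namespace Cfsg.Agent.Helper28.Witt

open scoped Pointwise
open Cfsg Cfsg.Agent.Helper3

theorem card_ne {α : Type*} [Fintype α] [DecidableEq α] (p : α) {n : ℕ}
    (hα : Fintype.card α = n + 1) : Fintype.card {a : α // a ≠ p} = n := by
  rw [Fintype.card_subtype]
  have h : Finset.univ.filter (fun a => a ≠ p) = Finset.univ.erase p := by
    ext x
    simp
  rw [h, Finset.card_erase_of_mem (Finset.mem_univ p), Finset.card_univ, hα]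
  rfl

section

variable (d : Finset GolayPt) (p : GolayPt) (hp : p ∈ d)

/-- inclusion of the stabiliser of a dodecad and a point into the dodecad stabiliser -/
def incl : ↥(MulAction.stabilizer M24 d ⊓ MulAction.stabilizer M24 p) →*
    MulAction.stabilizer M24 d := Subgroup.inclusion inf_le_left

theorem incl_apply (g : ↥(MulAction.stabilizer M24 d ⊓ MulAction.stabilizer M24 p))
    (x : GolayPt) : (((incl d p g : MulAction.stabilizer M24 d) : M24) : Equiv.Perm GolayPt) x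
      = (((g : M24) : Equiv.Perm GolayPt)) x := rfl

theorem fix_p (g : ↥(MulAction.stabilizer M24 d ⊓ MulAction.stabilizer M24 p)) :
    (((g : M24) : Equiv.Perm GolayPt)) p = p := (Subgroup.mem_inf.mp g.2).2

theorem res_fix (g : ↥(MulAction.stabilizer M24 d ⊓ MulAction.stabilizer M24 p)) :
    resHom d (incl d p g) ⟨p, hp⟩ = ⟨p, hp⟩ := Subtype.ext (fix_p d p g)

theorem res_ne (g : ↥(MulAction.stabilizer M24 d ⊓ MulAction.stabilizer M24 p))
    (a : {q : GolayPt // q ∈ d}) :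
    resHom d (incl d p g) a ≠ ⟨p, hp⟩ ↔ a ≠ ⟨p, hp⟩ := by
  apply not_congr
  constructor
  · intro h
    exact (resHom d (incl d p g)).injective (h.trans (res_fix d p hp g).symm)
  · intro h
    rw [h]; exact res_fix d p hp g

/-- restriction to the dodecad minus the point -/
def resHom' : ↥(MulAction.stabilizer M24 d ⊓ MulAction.stabilizer M24 p) →*
    Equiv.Perm {a : {q : GolayPt // q ∈ d} // a ≠ ⟨p, hp⟩} :=
  MonoidHom.mk' (fun g => Equiv.Perm.subtypePerm (resHom d (incl d p g)) (res_ne d p hp g))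
    (fun a b => by ext x; rfl)

theorem resHom'_apply (g : ↥(MulAction.stabilizer M24 d ⊓ MulAction.stabilizer M24 p))
    (x : {a : {q : GolayPt // q ∈ d} // a ≠ ⟨p, hp⟩}) :
    (((resHom' d p hp g) x : {q : GolayPt // q ∈ d}) : GolayPt)
      = ((g : M24) : Equiv.Perm GolayPt) x.1.1 := rfl

end

section

variable {d : Finset GolayPt} {p : GolayPt}

theorem der_steiner (hd : d ∈ dodecads) (hp : p ∈ d) : Cfsg.IsSteinerSystem 4 5 (Hyp.dLines (Hex d) ⟨p, hp⟩) :=
  Cfsg.Agent.S0351.result (hex_steiner hd) ⟨p, hp⟩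

theorem card_der (hd : d ∈ dodecads) (hp : p ∈ d) : Fintype.card {a : {q : GolayPt // q ∈ d} // a ≠ ⟨p, hp⟩} = 11 :=
  card_ne _ (card_dod hd)

theorem res_mem' (hd : d ∈ dodecads) (hp : p ∈ d) (g : ↥(MulAction.stabilizer M24 d ⊓ MulAction.stabilizer M24 p)) :
    resHom' d p hp g ∈ Cfsg.setSystemAut (Hyp.dLines (Hex d) ⟨p, hp⟩) :=
  Hyp.mem_aut_iff.mpr (iso_gen (by norm_num) (der_steiner hd hp) (der_steiner hd hp)
    (Hyp.restrict_aut (res_blocks d (incl d p g)) (res_fix d p hp g) (resHom' d p hp g)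
      (fun x => rfl)))

theorem res_trans' (hd : d ∈ dodecads) (hp : p ∈ d) (x y : Fin 4 ↪ {a : {q : GolayPt // q ∈ d} // a ≠ ⟨p, hp⟩}) :
    ∃ k : ↥(MulAction.stabilizer M24 d ⊓ MulAction.stabilizer M24 p),
      ∀ i, resHom' d p hp k (x i) = y i := by
  obtain ⟨x5, hx0, hxs⟩ := Hyp.cons_emb_exists (⟨p, hp⟩ : {q : GolayPt // q ∈ d}) x
  obtain ⟨y5, hy0, hys⟩ := Hyp.cons_emb_exists (⟨p, hp⟩ : {q : GolayPt // q ∈ d}) y
  obtain ⟨g, hg, -⟩ := Cfsg.Agent.S0384.result d hd (x5.trans (Function.Embedding.subtype _))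
    (y5.trans (Function.Embedding.subtype _)) (fun i => (x5 i).2) (fun i => (y5 i).2)
  have hg' : ∀ i : Fin 5, ((g : M24) : Equiv.Perm GolayPt) (x5 i).1 = (y5 i).1 := hg
  have hgp : ((g : M24) : Equiv.Perm GolayPt) p = p := by
    have h0 := hg' 0
    rw [hx0, hy0] at h0
    exact h0
  have hmem : (g : M24) ∈ MulAction.stabilizer M24 d ⊓ MulAction.stabilizer M24 p :=
    Subgroup.mem_inf.mpr ⟨g.2, hgp⟩
  refine ⟨⟨(g : M24), hmem⟩, fun i => ?_⟩
  apply Subtype.ext
  apply Subtype.ext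
  have h1 := hg' i.succ
  rw [hxs i, hys i] at h1
  exact h1

theorem res_inj' (hd : d ∈ dodecads) (hp : p ∈ d) : Function.Injective (resHom' d p hp) := by
  intro a b hab
  obtain ⟨x0⟩ : Nonempty (Fin 4 ↪ {a : {q : GolayPt // q ∈ d} // a ≠ ⟨p, hp⟩}) :=
    Function.Embedding.nonempty_of_card_le (by rw [Fintype.card_fin, card_der hd hp]; norm_num)
  obtain ⟨x5, hx0, hxs⟩ := Hyp.cons_emb_exists (⟨p, hp⟩ : {q : GolayPt // q ∈ d}) x0
  have hu := Cfsg.Agent.S0384.result d hd (x5.trans (Function.Embedding.subtype _))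
    ((x5.trans (resHom d (incl d p a)).toEmbedding).trans (Function.Embedding.subtype _))
    (fun i => (x5 i).2) (fun i => (resHom d (incl d p a) (x5 i)).2)
  have h1 : incl d p a = incl d p b := by
    refine hu.unique (fun i => rfl) (fun i => ?_)
    show ((b : M24) : Equiv.Perm GolayPt) (x5 i).1 = ((a : M24) : Equiv.Perm GolayPt) (x5 i).1
    induction i using Fin.cases with
    | zero => rw [hx0]; exact (fix_p d p b).trans (fix_p d p a).symm
    | succ j =>
      rw [hxs j]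
      have h2 := congrArg (fun σ : Equiv.Perm {a : {q : GolayPt // q ∈ d} // a ≠ ⟨p, hp⟩} =>
        (((σ (x0 j)) : {q : GolayPt // q ∈ d}) : GolayPt)) hab
      exact h2.symm
  exact Subgroup.inclusion_injective _ h1

theorem rigDer (hd : d ∈ dodecads) (hp : p ∈ d) :
    ∀ (x : Fin 4 ↪ {a : {q : GolayPt // q ∈ d} // a ≠ ⟨p, hp⟩})
      (a : Equiv.Perm {a : {q : GolayPt // q ∈ d} // a ≠ ⟨p, hp⟩}),
      a ∈ Cfsg.setSystemAut (Hyp.dLines (Hex d) ⟨p, hp⟩) → (∀ i, a (x i) = x i) → a = 1 := by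
  obtain ⟨e, he⟩ := lvl11 (card_der hd hp) (der_steiner hd hp)
  have hS : Cfsg.IsSteinerSystem 4 5 (Sys 11 L11) := he ▸ steiner_image (der_steiner hd hp) e
  refine rig_transfer e he (by norm_num) 15 ?_ (fun g hg h => rig11 hS hg h) ?_
  · intro y hy
    rw [mem_um] at hy
    by_contra hlt
    have h1 : (15 : ℕ) < 2 ^ y.val :=
      lt_of_lt_of_le (by norm_num : (15 : ℕ) < 2 ^ 4)
        (Nat.pow_le_pow_right (by norm_num) (by omega))
    rw [Nat.testBit_lt_two_pow h1] at hy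
    exact Bool.noConfusion hy
  · intro x y
    obtain ⟨k, hk⟩ := res_trans' hd hp x y
    exact ⟨resHom' d p hp k, res_mem' hd hp k, hk⟩

theorem autDer (hd : d ∈ dodecads) (hp : p ∈ d) :
    Nonempty (↥(MulAction.stabilizer M24 d ⊓ MulAction.stabilizer M24 p) ≃*
        Cfsg.setSystemAut (Hyp.dLines (Hex d) ⟨p, hp⟩)) ∧
      MulAction.IsMultiplyPretransitive (Cfsg.setSystemAut (Hyp.dLines (Hex d) ⟨p, hp⟩))
        {a : {q : GolayPt // q ∈ d} // a ≠ ⟨p, hp⟩} 4 ∧
      ∀ x : Fin 4 ↪ {a : {q : GolayPt // q ∈ d} // a ≠ ⟨p, hp⟩},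
        MulAction.stabilizer (Cfsg.setSystemAut (Hyp.dLines (Hex d) ⟨p, hp⟩)) x = ⊥ :=
  sharp_equiv (by rw [card_der hd hp]; norm_num) _ (resHom' d p hp) (res_mem' hd hp)
    (res_inj' hd hp) (res_trans' hd hp) (rigDer hd hp)

end

/-- the automorphism group of an S(4, 5, 11) -/
theorem aut4511 {α : Type*} [Fintype α] [DecidableEq α] (hα : Fintype.card α = 11)
    {B : Set (Finset α)} (hB : Cfsg.IsSteinerSystem 4 5 B) :
    Cfsg.IsM11 (Cfsg.setSystemAut B) ∧
      MulAction.IsMultiplyPretransitive (Cfsg.setSystemAut B) α 4 ∧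
      ∀ x : Fin 4 ↪ α, MulAction.stabilizer (Cfsg.setSystemAut B) x = ⊥ := by
  have hd := dStd_mem
  obtain ⟨p, hp⟩ : ∃ p, p ∈ dStd := Finset.card_pos.mp (by rw [hd.2]; norm_num)
  obtain ⟨⟨ψ⟩, htr, hst⟩ := autDer hd hp
  obtain ⟨e, he⟩ := iso_trans_symm (lvl11 hα hB) (lvl11 (card_der hd hp) (der_steiner hd hp))
  obtain ⟨φ, hφ⟩ := Hyp.aut_equiv e he
  refine ⟨⟨?_, ?_⟩, Hyp.aut_trans_of_equiv e he 4 htr, ?_⟩
  · exact (φ.trans ψ.symm).isSimpleGroup_congr.mpr (Cfsg.Agent.S0388.result dStd hd p hp)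
  · rw [Nat.card_congr (φ.trans ψ.symm).toEquiv]
    exact Cfsg.Agent.S0387.result dStd hd p hp
  · intro x
    rw [eq_bot_iff]
    intro g hg
    rw [MulAction.mem_stabilizer_iff] at hg
    rw [Subgroup.mem_bot]
    have h1 : φ g ∈ MulAction.stabilizer (Cfsg.setSystemAut (Hyp.dLines (Hex dStd) ⟨p, hp⟩))
        (x.trans e.toEmbedding) := by
      rw [MulAction.mem_stabilizer_iff]
      refine DFunLike.ext _ _ (fun i => ?_)
      have h2 : (g : Equiv.Perm α) (x i) = x i := congrArg (fun z => z i) hg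
      show ((φ g : Equiv.Perm {a : {q : GolayPt // q ∈ dStd} // a ≠ ⟨p, hp⟩})) (e (x i))
        = e (x i)
      rw [hφ g (x i), h2]
    rw [hst, Subgroup.mem_bot] at h1
    exact φ.injective (h1.trans (map_one φ).symm)

end Cfsg.Agent.Helper28.Witt
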